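import Cfsg.Statements.S0380
import Cfsg.Agent.Leech.M24c

set_option autoImplicit false
open Cfsg

set_option maxRecDepth 1000000

namespace Cfsg.Agent.S0380

open CF.Comp CF.Comp.Mat CF.Bt CF.Leech CF.Leech.M MulAction

noncomputable def M : MD := ⟨[[4, 1, 4, 4, 1, 4, 1, 3, 2], [1, 1, 3, 3, 3, 3, 3, 2, 4, 2]], [(nat_lit 9544), (nat_lit 33200), (nat_lit 116800), (nat_lit 135760), (nat_lit 147500), (nat_lit 268548), (nat_lit 328328), (nat_lit 594976), (nat_lit 958464), (nat_lit 1077376), (nat_lit 1082884), (nat_lit 1574936), (nat_lit 2107936), (nat_lit 2376720), (nat_lit 2621636), (nat_lit 3342592), (nat_lit 4268052), (nat_lit 4328576), (nat_lit 4735744), (nat_lit 5505120), (nat_lit 6328328)], [(Net.cons (nat_lit 1) (nat_lit 20740) (Net.cons (nat_lit 2) (nat_lit 48) (Net.cons (nat_lit 4) (nat_lit 8) (Net.cons (nat_lit 8) (nat_lit 24) (Net.cons (nat_lit 16) (nat_lit 30) (Net.cons (nat_lit 8) (nat_lit 171) (Net.cons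 (nat_lit 4) (nat_lit 65547) (Net.cons (nat_lit 2) (nat_lit 74259) (Net.cons (nat_lit 1) (nat_lit 267585) Net.nil))))))))), (Net.cons (nat_lit 1) (nat_lit 327696) (Net.cons (nat_lit 2) (nat_lit 131633) (Net.cons (nat_lit 4) (nat_lit 66824) (Net.cons (nat_lit 8) (nat_lit 2) (Net.cons (nat_lit 16) (nat_lit 30) (Net.cons (nat_lit 8) (nat_lit 190) (Net.cons (nat_lit 4) (nat_lit 778) (Net.cons (nat_lit 2) (nat_lit 77856) (Net.cons (nat_lit 1) (nat_lit 263429) Net.nil)))))))))], [⟨0, [[1], [3]], 4⟩, ⟨1, [[1, 4, 2, 3], [1, 4, 4, 4]], 5⟩, ⟨2, [[1, 4, 4, 4], [4, 2, 4, 2, 3, 1, 1], [2, 3, 2, 3, 1, 1, 4, 2]], 3⟩, ⟨3, [[2, 3, 2, 3, 1, 1, 4, 2]], 2⟩]⟩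
noncomputable def MV : List (List Nat) := [[(nat_lit 2031616), (nat_lit 65535), (nat_lit 0), (nat_lit 0)],
  [(nat_lit 294947), (nat_lit 1778196), (nat_lit 18816), (nat_lit 5192)],
  [(nat_lit 1110016), (nat_lit 395345), (nat_lit 66822), (nat_lit 524968)]]
noncomputable def MS : Net := (Net.cons (nat_lit 1) (nat_lit 4112) (Net.cons (nat_lit 2) (nat_lit 66064) (Net.cons (nat_lit 8) (nat_lit 103) (Net.cons (nat_lit 4) (nat_lit 66307) (Net.cons (nat_lit 2) (nat_lit 201507) (Net.cons (nat_lit 1) (nat_lit 329041) Net.nil))))))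
noncomputable def MC : List (List Nat) := [[(nat_lit 0), (nat_lit 1147084), (nat_lit 812080), (nat_lit 137987)],
  [(nat_lit 0), (nat_lit 1503249), (nat_lit 527622), (nat_lit 66280)]]
noncomputable def MA : List (List (List Nat)) := [[[1, 1, 3], [2, 1, 0], [0, 2, 1]],
  [[1, 0, 1], [1, 1, 0], [2, 3, 0]]]
noncomputable def MDs : List (List (List (List Nat))) := [[[[1, 0, 0], [2, 1, 0], [0, 3, 1]],
  [[1, 1, 3], [0, 3, 1], [0, 0, 2]]],
 [[[1, 0, 0], [1, 1, 0], [2, 3, 1]],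
  [[1, 0, 1], [0, 1, 1], [0, 0, 1]]]]

/-- A three-point stabiliser in the group of the length-24 code is isomorphic to PSL(3, F) for the field F with 4 elements. -/
theorem result (p q r : Cfsg.GolayPt) (hpq : p ≠ q) (hpr : p ≠ r) (hqr : q ≠ r) (F : Type) [Field F] [Fintype F] (hF : Fintype.card F = 4) : Nonempty (↥(MulAction.stabilizer Cfsg.M24 p ⊓ MulAction.stabilizer Cfsg.M24 q ⊓ MulAction.stabilizer Cfsg.M24 r) ≃* Matrix.ProjectiveSpecialLinearGroup (Fin 3) F) := by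
  obtain ⟨g, hg, e⟩ := t111 hpq hpr hqr
  obtain ⟨⟨rfl, rfl⟩, rfl⟩ : (g • pt 23 = p ∧ g • pt 0 = q) ∧ g • pt 1 = r := by
    simpa [Prod.ext_iff] using e
  obtain ⟨e⟩ := (((Cj.stab (⟨g, hg⟩ : M24) (pt 23)).inf (Cj.stab _ (pt 0))).inf (Cj.stab _ (pt 1))).equiv
  obtain ⟨el, hT⟩ := exists_ok_four hF
  have h := CF.Classical.card_PSL_fin (F := F) 3 (by decide)
  rw [hF] at h
  obtain ⟨e'⟩ := md_equiv r0 (M := M) (k := 21) (m := 2) (s := 20160) (by decide +kernel) (mem_inf (mem_inf (mem_stab r0 (b := 23) (by decide +kernel)) (mem_stab r0 (b := 0) (by decide +kernel))) (mem_stab r0 (b := 1) (by decide +kernel)))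
    (Exact.card_eq x111 (by decide +kernel)).le ((show LinOK (tabQ 2 1 1) 21 3 2 MV MA M.nets from ⟨⟨MS, by decide +kernel⟩, by decide +kernel, by decide +kernel, rfl, MC, by decide +kernel, rfl, linAll_iff.1 (by decide +kernel)⟩).hasReps_PSL hT (Ds := MDs) (by decide +kernel))
    (by simp [Fin.prod_univ_three] at h; omega)
  exact ⟨e.symm.trans e'⟩

end Cfsg.Agent.S0380
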