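import Cfsg.Statements.S2302
import Cfsg.Agent.Classical.SL2Torus

set_option autoImplicit false
open Cfsg

namespace Cfsg.Agent.S2302

/-- Over a finite field with q elements of characteristic 2, the involutions of SL₂ (the non-identity unipotent elements) form a single conjugacy class, of size q² − 1. -/
theorem result {F : Type*} [Field F] [Fintype F] [CharP F 2] (g h : Matrix.SpecialLinearGroup (Fin 2) F) (hg : orderOf g = 2) (hh : orderOf h = 2) :
    IsConj g h ∧ Nat.card (ConjClasses.mk g).carrier = Fintype.card F ^ 2 - 1 := by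
  open CF.Classical in
  rw [← Nat.card_eq_fintype_card] at *
  have h2 : (2 : F) = 0 := CharTwo.two_eq_zero
  obtain ⟨h3, h4⟩ := (orderOf_eq_char_iff 2).1 hg
  obtain ⟨h5, h6⟩ := (orderOf_eq_char_iff 2).1 hh
  refine ⟨(detSurj_of_even h2 _).isConj_iff.2 ((h3.isConj_iff h4).2 ⟨h6, h5⟩), ?_⟩
  have h7 := (Subgroup.centralizer {g}).card_mul_index
  rw [← nsT1_toGL, HasEig.card_nsT1_jor (a := 1) h3 h4, card_units_sq_of_even h2, one_mul, card_SL2,
    nsT1_toGL] at h7
  rw [CF.Char.card_carrier_eq_index]
  exact mul_left_cancel₀ Nat.card_pos.ne' h7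

end Cfsg.Agent.S2302
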