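import Cfsg.Statements.S0735
import Cfsg.Agent.Perm.Multi

set_option autoImplicit false
open Cfsg
open scoped Pointwise

namespace Cfsg.Agent.S0735

/-- A 2-homogeneous permutation group (transitive on 2-subsets) of even order is doubly transitive; a non-trivial 2-homogeneous group is primitive. -/
theorem result {α : Type*} [Fintype α] [DecidableEq α] (G : Subgroup (Equiv.Perm α)) (h2 : MulAction.IsPretransitive G (Set.powersetCard α 2)) (hα : 3 ≤ Fintype.card α) : (Even (Nat.card G) → MulAction.IsMultiplyPretransitive G α 2) ∧ (G ≠ ⊥ → MulAction.IsPreprimitive G α) := by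
  have key : ∀ a b c d : α, a ≠ b → c ≠ d →
      ∃ g : G, (g • a = c ∧ g • b = d) ∨ (g • a = d ∧ g • b = c) := by
    intro a b c d hab hcd
    obtain ⟨g, hg⟩ := h2.exists_smul_eq ⟨{a, b}, Finset.card_pair hab⟩ ⟨{c, d}, Finset.card_pair hcd⟩
    have h1 : g • ({a, b} : Finset α) = {c, d} := congrArg Subtype.val hg
    have h3 : g • a ∈ ({c, d} : Finset α) := h1 ▸ Finset.smul_mem_smul_finset (by simp)
    have h4 : g • b ∈ ({c, d} : Finset α) := h1 ▸ Finset.smul_mem_smul_finset (by simp)
    have h5 : g • a ≠ g • b := fun h => hab (MulAction.injective g h)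
    simp only [Finset.mem_insert, Finset.mem_singleton] at h3 h4
    refine ⟨g, ?_⟩
    rcases h3 with h3 | h3 <;> rcases h4 with h4 | h4 <;> simp_all
  refine ⟨fun he => ?_, fun _ => ?_⟩
  · obtain ⟨t, ht⟩ := exists_prime_orderOf_dvd_card' (G := G) 2 he.two_dvd
    obtain ⟨x, hx⟩ : ∃ x : α, t • x ≠ x := by
      by_contra! h
      rw [show t = 1 from Subtype.ext (Equiv.ext h), orderOf_one] at ht
      omega
    have htt : t • t • x = x := by rw [smul_smul, ← sq, ← ht, pow_orderOf_eq_one, one_smul]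
    have h3 : ∀ a b : α, a ≠ b → ∃ g : G, g • a = x ∧ g • b = t • x := by
      intro a b hab
      obtain ⟨g, h | h⟩ := key a b x (t • x) hab hx.symm
      · exact ⟨g, h⟩
      · exact ⟨t * g, by rw [mul_smul, h.1, htt], by rw [mul_smul, h.2]⟩
    rw [CF.Perm.twoTrans_iff]
    intro a b c d hab hcd
    obtain ⟨g, h4, h5⟩ := h3 a b hab
    obtain ⟨k, h6, h7⟩ := h3 c d hcd
    exact ⟨k⁻¹ * g, by rw [mul_smul, h4, inv_smul_eq_iff, h6], by
      rw [mul_smul, h5, inv_smul_eq_iff, h7]⟩
  · have : MulAction.IsPretransitive G α := ⟨fun a b => by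
      obtain ⟨c, hc⟩ : ∃ c, c ∉ ({a, b} : Finset α) := by
        by_contra! h
        have := Finset.card_le_two (a := a) (b := b)
        rw [Finset.eq_univ_of_forall h, Finset.card_univ] at this
        omega
      simp only [Finset.mem_insert, Finset.mem_singleton, not_or] at hc
      obtain ⟨g, h | h⟩ := key a c b c (Ne.symm hc.1) (Ne.symm hc.2)
      · exact ⟨g, h.1⟩
      · exact ⟨g * g, by rw [mul_smul, h.1, h.2]⟩⟩
    refine ⟨fun {B} hB => B.subsingleton_or_nontrivial.imp id fun ⟨a, ha, b, hb, hab⟩ => ?_⟩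
    refine Set.eq_univ_of_forall fun c => ?_
    rcases eq_or_ne a c with rfl | hac
    · exact ha
    obtain ⟨g, h | h⟩ := key a b a c hab hac
    · rw [← hB.smul_eq_of_mem (g := g) ha (by rwa [h.1]), ← h.2]; exact Set.smul_mem_smul_set hb
    · rw [← hB.smul_eq_of_mem (g := g) hb (by rwa [h.2]), ← h.1]; exact Set.smul_mem_smul_set ha

end Cfsg.Agent.S0735
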