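import Cfsg.Statements.S0011
import Cfsg.Agent.Solv.FrattiniP

set_option autoImplicit false
open Cfsg

namespace Cfsg.Agent.S0011

/-- If the Frattini quotient of a finite group is nilpotent then the group is nilpotent. -/
theorem result {G : Type*} [Group G] [Finite G]
    (h : Group.IsNilpotent (G ⧸ frattini G)) : Group.IsNilpotent G := by
  exact CF.Solv.isNilpotent_of_quotient_of_le_frattini (frattini G) le_rfl

end Cfsg.Agent.S0011
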