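import Cfsg.Statements.S0018
import Cfsg.Agent.Solv.PiSep

set_option autoImplicit false
open Cfsg

namespace Cfsg.Agent.S0018

/-- A finite solvable group whose Sylow p-subgroups are abelian has p-length one: a Sylow p-subgroup together with the largest normal subgroup of order prime to p generates a normal subgroup. -/
theorem result {G : Type*} [Group G] [Finite G] [Group.IsSolvable G]
    (p : ℕ) [Fact p.Prime] (P : Sylow p G) (hP : IsMulCommutative P) :
    ((P : Subgroup G) ⊔ Cfsg.pPrimeCore p G).Normal := by
  have hs := QuotientGroup.mk'_surjective (Cfsg.pPrimeCore p G)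
  have h1 := CF.Solv.centralizer_pCore_le (p := p) (G := G ⧸ Cfsg.pPrimeCore p G)
    CF.Solv.pPrimeCore_quotient_pPrimeCore
  have h2 := CF.Solv.pCore_le_sylow (P.mapSurjective hs)
  have h3 : IsMulCommutative (P.mapSurjective hs) := by
    rw [Sylow.coe_mapSurjective]; infer_instance
  have h4 := le_antisymm h2
    (((Subgroup.le_centralizer _).trans (Subgroup.centralizer_le h2)).trans h1)
  rw [← CF.Solv.comap_map_mk', ← Sylow.coe_mapSurjective hs, ← h4]
  infer_instance

end Cfsg.Agent.S0018
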