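import Cfsg.Statements.S0024
import Cfsg.Agent.Coprime.Basic

set_option autoImplicit false
open Pointwise
open Cfsg

namespace Cfsg.Agent.S0024

/-- Under coprime action (A normalising K, coprime orders, A or K solvable), any two A-invariant Sylow p-subgroups of K are conjugate by an element of the centraliser of A in K. -/
theorem result {G : Type*} [Group G] [Finite G] (A K : Subgroup G) (hAK : A ≤ Subgroup.normalizer (K : Set G))
    (hcop : (Nat.card A).Coprime (Nat.card K)) (hsolv : Group.IsSolvable A ∨ Group.IsSolvable K)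
    (p : ℕ) [Fact p.Prime] (P Q : Sylow p K)
    (hP : A ≤ Subgroup.normalizer ((P : Subgroup K).map K.subtype : Set G))
    (hQ : A ≤ Subgroup.normalizer ((Q : Subgroup K).map K.subtype : Set G)) :
    ∃ c : K, (c : G) ∈ Subgroup.centralizer (A : Set G) ∧ MulAut.conj c • P = Q := by
  obtain ⟨c, hc, h⟩ := CF.Coprime.invariant_isSylowOf_conj A K hAK hcop hsolv p
    (CF.Coprime.isSylowOf_map_subtype P) (CF.Coprime.isSylowOf_map_subtype Q) hP hQ
  refine ⟨⟨c, hc.1⟩, hc.2, Sylow.ext ?_⟩
  apply Subgroup.map_injective K.subtype_injective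
  rw [← h]
  exact CF.Solv.map_conj_smul K.subtype (P : Subgroup K) ⟨c, hc.1⟩

end Cfsg.Agent.S0024
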