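import Cfsg.Statements.S0031
import Cfsg.Agent.Coprime.SemiReg

set_option autoImplicit false
open Cfsg

namespace Cfsg.Agent.S0031

/-- A fixed-point-free automorphism of a finite group maps some Sylow p-subgroup to itself. -/
theorem result {G : Type*} [Group G] [Finite G] (φ : G ≃* G)
    (hφ : MonoidHom.FixedPointFree (φ : G →* G)) (p : ℕ) [Fact p.Prime] :
    ∃ P : Sylow p G, (P : Subgroup G).map (φ : G →* G) = P := by
  let ψ := MonoidHom.id (MulAut G)
  have hf := (CF.Coprime.fpf_sd_iff ψ (H := ⊤) (a := φ)).mpr (fun x _ h => hφ x h)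
  obtain ⟨P, hP, hr⟩ := CF.Coprime.fpf_exists_isSylowOf
    (Subgroup.le_normalizer_of_normal (Subgroup.mem_top _)) hf p
  obtain ⟨Q, -, rfl⟩ := CF.Coprime.exists_sdL_eq _ hP.le
  obtain ⟨S, rfl⟩ := ((CF.Coprime.isSylowOf_sdL_iff _).mp hP).exists_sylow_top
  exact ⟨S, (CF.Coprime.inr_mem_normalizer_sdL_iff ψ).mp hr⟩

end Cfsg.Agent.S0031
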