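import Cfsg.Statements.S0032
import Cfsg.Agent.Coprime.SemiReg

set_option autoImplicit false
open Cfsg

namespace Cfsg.Agent.S0032

/-- If an automorphism of a finite group fixes only the identity and maps a normal subgroup N into itself, then the only cosets of N it fixes are those in N: a fixed coset xN forces x ∈ N. -/
theorem result {G : Type*} [Group G] [Finite G] (φ : G ≃* G)
    (hφ : MonoidHom.FixedPointFree (φ : G →* G)) (N : Subgroup G) [N.Normal] (hN : ∀ n ∈ N, φ n ∈ N)
    (x : G) (hx : (φ x)⁻¹ * x ∈ N) : x ∈ N := by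
  let ψ := MonoidHom.id (MulAut G)
  have hf := (CF.Coprime.fpf_sd_iff ψ (H := ⊤) (a := φ)).mpr (fun x _ h => hφ x h)
  have h := CF.Coprime.fpf_mem_of_comm_mem hf ((CF.Coprime.sdL_le_iff ψ).mpr (le_top : N ≤ ⊤))
    (CF.Coprime.inr_mem_normalizer_sdL ψ hN) (x := SemidirectProduct.inl x)
    ((CF.Coprime.mem_sdL ψ).mpr (Subgroup.mem_top x)) (by
      rw [CF.Coprime.inr_mul_inl_mul_inv, ← map_inv, ← map_mul, CF.Coprime.mem_sdL]
      simpa [ψ] using N.inv_mem hx)
  exact (CF.Coprime.mem_sdL ψ).mp h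

end Cfsg.Agent.S0032
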