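import Cfsg.Statements.S0033
import Cfsg.Agent.Coprime.Thompson

set_option autoImplicit false
open Cfsg

namespace Cfsg.Agent.S0033

/-- Thompson's Theorem on fixed-point-free automorphisms: a finite group with an automorphism of prime order fixing only the identity is nilpotent. -/
theorem result {G : Type*} [Group G] [Finite G] (φ : G ≃* G)
    (hφ : MonoidHom.FixedPointFree (φ : G →* G)) (p : ℕ) (hp : p.Prime) (hord : orderOf φ = p) :
    Group.IsNilpotent G := by
  exact CF.Coprime.isNilpotent_of_fpf_aut (φ : MulAut G) hp (hord ▸ pow_orderOf_eq_one φ) hφ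

end Cfsg.Agent.S0033
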