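import Cfsg.Statements.S0034
import Cfsg.Agent.Coprime.Frobenius

set_option autoImplicit false
open Cfsg

namespace Cfsg.Agent.S0034

/-- For a Frobenius complement H, the set of elements lying in no conjugate of H, together with 1, has exactly as many elements as the index of H, and that index is congruent to 1 modulo the order of H. -/
theorem result {G : Type*} [Group G] [Finite G] (H : Subgroup G) (hH : Cfsg.IsFrobeniusComplement H) :
    Nat.card (Cfsg.frobeniusKernel H) = H.index ∧ H.index % Nat.card H = 1 % Nat.card H := by
  obtain ⟨K, hK, hn, hc, -, hs⟩ := CF.Coprime.frob_exists_kernel hH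
  have h1 : Nat.card K = H.index := hc.index_eq_card.symm
  refine ⟨?_, ?_⟩
  · rw [← hK, ← h1]; rfl
  · rw [← h1]
    exact hs.card_modEq Subgroup.le_normalizer_of_normal

end Cfsg.Agent.S0034
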