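import Cfsg.Statements.S0063
import Cfsg.Agent.Solv.FrattiniP

set_option autoImplicit false
open Cfsg

namespace Cfsg.Agent.S0063

/-- A finite group of prime-power order p ^ m with m > 1 is nilpotent of class at most m - 1. -/
theorem result {G : Type*} [Group G] [Finite G] (p m : ℕ) [Fact p.Prime]
    (hG : Nat.card G = p ^ m) (hm : 1 < m) : Group.nilpotencyClass G ≤ m - 1 := by
  induction m generalizing G with
  | zero => omega
  | succ m ih =>
    have hp : IsPGroup p G := IsPGroup.of_card hG
    have := hp.isNilpotent
    by_cases h2 : m = 1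
    · subst h2
      let _ := IsPGroup.commGroupOfCardEqPrimeSq hG
      exact CommGroup.nilpotencyClass_le_one
    have : Nontrivial G := Finite.one_lt_card_iff_nontrivial.mp
      (hG ▸ Nat.one_lt_pow (by omega) (Fact.out : p.Prime).one_lt)
    obtain ⟨z, hz⟩ := exists_prime_orderOf_dvd_card' p (G := Subgroup.center G) (by
      obtain ⟨k, hk0, hk⟩ := (hp.to_subgroup (Subgroup.center G)).nontrivial_iff_card.mp
        hp.center_nontrivial
      rw [hk]; exact dvd_pow_self _ hk0.ne')
    have hZ : Subgroup.zpowers (z : G) ≤ Subgroup.center G := Subgroup.zpowers_le.mpr z.2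
    have : (Subgroup.zpowers (z : G)).Normal := ⟨fun x hx g => by
      rwa [Subgroup.mem_center_iff.mp (hZ hx) g, mul_inv_cancel_right]⟩
    have h3 : Nat.card (G ⧸ Subgroup.zpowers (z : G)) = p ^ m := by
      have h4 := (Subgroup.zpowers (z : G)).card_mul_index
      rw [Nat.card_zpowers, Subgroup.orderOf_coe, hz, hG, pow_succ'] at h4
      exact Nat.eq_of_mul_eq_mul_left (Fact.out : p.Prime).pos h4
    have h5 := ih h3 (by omega)
    have h6 := Group.nilpotencyClass_le_of_ker_le_center
      (QuotientGroup.mk' (Subgroup.zpowers (z : G))) (by rwa [QuotientGroup.ker_mk'])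
    omega

end Cfsg.Agent.S0063
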