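import Cfsg.Statements.S0068
import Cfsg.Agent.Coprime.SemiReg

set_option autoImplicit false
open Cfsg

namespace Cfsg.Agent.S0068

/-- Frobenius complements of even order: if H complements a nontrivial normal subgroup K, each nonidentity element of H has trivial centraliser in K, and H has even order, then H contains a unique involution s, K is abelian, and s inverts every element of K. -/
theorem result {G : Type*} [Group G] [Finite G] (K H : Subgroup G) [K.Normal]
    (hc : Subgroup.IsComplement' K H) (hK : K ≠ ⊥) (hfpf : ∀ h ∈ H, h ≠ 1 → K ⊓ Subgroup.centralizer {h} = ⊥)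
    (heven : 2 ∣ Nat.card H) :
    (∃ s ∈ H, orderOf s = 2 ∧ (∀ t ∈ H, orderOf t = 2 → t = s) ∧ ∀ k ∈ K, s * k * s⁻¹ = k⁻¹) ∧ IsMulCommutative K := by
  obtain ⟨s, hs⟩ := exists_prime_orderOf_dvd_card' (G := H) 2 heven
  have hs' : orderOf (s : G) = 2 := by rw [Subgroup.orderOf_coe, hs]
  have h1 : ∀ t : G, orderOf t = 2 → t ≠ 1 ∧ t ^ 2 = 1 := fun t ht =>
    ⟨by rintro rfl; simp at ht, ht ▸ pow_orderOf_eq_one t⟩
  have hn : H ≤ Subgroup.normalizer (K : Set G) := Subgroup.le_normalizer_of_normal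
  have h2 : (s : G) ^ 2 ∈ Subgroup.centralizer (K : Set G) := (h1 _ hs').2 ▸ one_mem _
  exact ⟨⟨s, s.2, hs', fun t ht h => CF.Coprime.SemiReg.eq_of_sq_eq_one hfpf hn hK ht s.2
    (h1 t h).1 (h1 _ hs').1 (h1 t h).2 (h1 _ hs').2,
    fun k hk => CF.Coprime.fpf_conj_eq_inv (hn s.2) (hfpf s s.2 (h1 _ hs').1) h2 hk⟩,
    CF.Coprime.fpf_isMulCommutative (hn s.2) (hfpf s s.2 (h1 _ hs').1) h2⟩

end Cfsg.Agent.S0068
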