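import Cfsg.Statements.S0069
import Cfsg.Agent.Coprime.Thompson

set_option autoImplicit false
open Cfsg

namespace Cfsg.Agent.S0069

/-- A Frobenius complement has nontrivial centre: if H ≠ 1 complements a nontrivial normal subgroup K and every nonidentity element of H has trivial centraliser in K, then the centre of H is nontrivial. -/
theorem result {G : Type*} [Group G] [Finite G] (K H : Subgroup G) [K.Normal]
    (hc : Subgroup.IsComplement' K H) (hK : K ≠ ⊥) (hH : H ≠ ⊥) (hfpf : ∀ h ∈ H, h ≠ 1 → K ⊓ Subgroup.centralizer {h} = ⊥) :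
    Subgroup.center H ≠ ⊥ := by
  have h := CF.Coprime.SemiReg.inf_centralizer_self_ne_bot hfpf Subgroup.le_normalizer_of_normal
    hK hH
  rw [← CF.Solv.center_map_subtype] at h
  intro h1
  rw [h1, Subgroup.map_bot] at h
  exact h rfl

end Cfsg.Agent.S0069
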