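import Cfsg.Statements.S0073
import Cfsg.Agent.Transfer.Tate

set_option autoImplicit false
open Cfsg

namespace Cfsg.Agent.S0073

/-- For a finite non-abelian simple group, either the cube of the least prime divisor of the order divides the order, or 12 does. -/
theorem result {G : Type*} [Group G] [Finite G] [IsSimpleGroup G] (hG : ∃ x y : G, x * y ≠ y * x) : (Nat.card G).minFac ^ 3 ∣ Nat.card G ∨ 12 ∣ Nat.card G := by
  classical
  by_contra hne
  rw [not_or] at hne
  obtain ⟨h3, h12⟩ := hne
  have hG1 : Nat.card G ≠ 1 := Finite.one_lt_card.ne'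
  have hp := Nat.minFac_prime hG1
  set p := (Nat.card G).minFac with hpdef
  have := Fact.mk hp
  let P : Sylow p G := default
  obtain ⟨n, hn⟩ := P.isPGroup'.exists_card_eq
  have hPG : p ^ n ∣ Nat.card G := hn ▸ Subgroup.card_subgroup_dvd_card _
  have hn2 : n ≤ 2 := by
    by_contra h
    exact h3 ((pow_dvd_pow p (by omega)).trans hPG)
  have hnpc : HasNormalPComplement p G := by
    refine CF.Transfer.hasNPC_of_not_dvd_pow_sub_one P hn.dvd fun q hq hqG i h1 h2 hd => ?_
    have hpq : p ≤ q := Nat.minFac_le_of_dvd hq.two_le hqG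
    have hp2 := hp.two_le
    have hq1 : ¬ q ∣ p - 1 := fun h => by
      have := Nat.le_of_dvd (by omega) h
      omega
    obtain rfl | rfl : i = 1 ∨ i = 2 := by omega
    · exact hq1 (by simpa using hd)
    · have h4 : p ^ 2 - 1 = (p + 1) * (p - 1) := by
        simpa using Nat.sq_sub_sq p 1
      rw [h4, hq.dvd_mul] at hd
      have h5 := hd.resolve_right hq1
      have h6 := Nat.le_of_dvd (by omega) h5
      have h7 : q = p + 1 := by
        rcases hpq.eq_or_lt with h | h
        · rw [← h] at h5
          exact absurd ((Nat.dvd_add_right dvd_rfl).1 h5) hp.not_dvd_one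
        · omega
      have h8 : p = 2 := by
        by_contra h
        have h9 := hp.eq_two_or_odd.resolve_left h
        have h10 := hq.eq_two_or_odd
        omega
      have h9 : n = 2 := by omega
      rw [h8, h9] at hPG
      rw [h7, h8] at hqG
      exact h12 (Nat.Coprime.mul_dvd_of_dvd_of_dvd (by norm_num : Nat.Coprime 4 3) hPG hqG)
  rcases (inferInstance : (pResidual p G).Normal).eq_bot_or_eq_top with h | h
  · have hPG := CF.Transfer.pResidual_eq_bot_iff.1 h
    have := hPG.isNilpotent
    obtain ⟨x, y, hxy⟩ := hG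
    rcases (inferInstance : (Subgroup.center G).Normal).eq_bot_or_eq_top with h' | h'
    · exact Group.IsNilpotent.center_ne_bot G h'
    · exact hxy (Subgroup.mem_center_iff.1 (h' ▸ Subgroup.mem_top y) x)
  · refine CF.Transfer.hasNPC_iff_not_dvd.1 hnpc ?_
    rw [h, Subgroup.card_top]
    exact Nat.minFac_dvd _

end Cfsg.Agent.S0073
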