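import Cfsg.Statements.S0076
import Cfsg.Agent.Transfer.Tate

set_option autoImplicit false
open Cfsg

namespace Cfsg.Agent.S0076

/-- Two P-invariant subsets of a Sylow p-subgroup P that are conjugate in G are conjugate under the normalizer of P. -/
theorem result {G : Type*} [Group G] [Finite G] {p : ℕ} [Fact p.Prime] (P : Sylow p G) (X Y : Set G) (hXP : X ⊆ P) (hYP : Y ⊆ P) (hX : ∀ x ∈ P, (fun y => x * y * x⁻¹) '' X = X) (hY : ∀ x ∈ P, (fun y => x * y * x⁻¹) '' Y = Y) (g : G) (hg : (fun y => g * y * g⁻¹) '' X = Y) : ∃ n ∈ Subgroup.normalizer (P : Set G), (fun y => n * y * n⁻¹) '' X = Y := by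
  open CF.Transfer in
  have hN : ∀ (Z : Set G) (x : G), x ∈ Subgroup.normalizer Z ↔ (fun y => x * y * x⁻¹) '' Z = Z :=
    fun Z x => Subgroup.mem_normalizer_iff_conj_image_eq
  have hmul : ∀ (Z : Set G) (a b : G), (fun y => a * b * y * (a * b)⁻¹) '' Z =
      (fun y => a * y * a⁻¹) '' ((fun y => b * y * b⁻¹) '' Z) := fun Z a b => by
    rw [Set.image_image]
    exact Set.image_congr fun y _ => by group
  have h1 := isSylowIn_of_le P (H := Subgroup.normalizer Y) fun x hx => (hN Y x).2 (hY x hx)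
  have h2 := isSylowIn_of_le (g • P) (H := Subgroup.normalizer Y) fun x hx => by
    obtain ⟨y, hy, rfl⟩ := mem_cj'.1 (show x ∈ cj g P from hx)
    rw [hN, ← hg, ← hmul, inv_mul_cancel_right, hmul, hX y hy]
  obtain ⟨c, hc, hc'⟩ := h2.exists_cj_eq h1
  refine ⟨c * g, mem_normalizer_iff_cj.2 (by rw [cj_mul]; exact hc'), ?_⟩
  rw [hmul, hg, (hN Y c).1 hc]

end Cfsg.Agent.S0076
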