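import Cfsg.Statements.S0078
import Cfsg.Agent.Transfer.Tate

set_option autoImplicit false
open Cfsg

namespace Cfsg.Agent.S0078

/-- In a p-normal group, a Sylow p-subgroup P meets O^p(G) exactly where it meets O^p(V), for any subgroup V containing the normalizer of the centre of P. -/
theorem result {G : Type*} [Group G] [Finite G] {p : ℕ} [Fact p.Prime] (P : Sylow p G) (hn : ∀ Q : Sylow p G, (P : Subgroup G) ⊓ Subgroup.centralizer (P : Set G) ≤ (Q : Subgroup G) → (Q : Subgroup G) ⊓ Subgroup.centralizer (Q : Set G) = (P : Subgroup G) ⊓ Subgroup.centralizer (P : Set G)) (V : Subgroup G) (hV : Subgroup.normalizer (((P : Subgroup G) ⊓ Subgroup.centralizer (P : Set G) : Subgroup G) : Set G) ≤ V) : (P : Subgroup G) ⊓ Cfsg.pResidual p G = (P : Subgroup G) ⊓ (Cfsg.pResidual p V).map V.subtype := by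
  open CF.Transfer in
  rw [map_pResidual_subtype]
  have hW : IsWeaklyClosed ((P : Subgroup G) ⊓ Subgroup.centralizer (P : Set G)) P := by
    refine isWeaklyClosed_iff.2 ⟨inf_le_left, fun g hg => ?_⟩
    have h1 := hn (g⁻¹ • P) (cj_le_iff.1 hg)
    rw [cj_eq_iff, cj_inf, ← h1]
    exact congrArg _ (centralizer_cj g⁻¹ (P : Subgroup G))
  have hP : (P : Subgroup G) ≤ V := by
    refine le_trans ?_ ((Subgroup.centralizer_le_normalizer _).trans hV)
    exact Subgroup.le_centralizer_iff.1 inf_le_right
  exact tate_inf_of_commutator P hP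
    ((gruen_weaklyClosed P inf_le_right hW).trans (Subgroup.commutator_mono hV hV))

end Cfsg.Agent.S0078
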