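import Cfsg.Statements.S0079
import Cfsg.Agent.Transfer.Tate
import Cfsg.Agent.Solv.Nilpotent

set_option autoImplicit false
open Cfsg

namespace Cfsg.Agent.S0079

/-- A nilpotent Hall subgroup has a normal complement exactly when elements of it that are conjugate in the whole group are already conjugate inside it. -/
theorem result {G : Type*} [Group G] [Finite G] (H : Subgroup G) (hH : Group.IsNilpotent H) (hHall : Nat.Coprime (Nat.card H) H.index) : (∃ N : Subgroup G, N.Normal ∧ N.IsComplement' H) ↔ ∀ x ∈ H, ∀ y ∈ H, (∃ g : G, g * x * g⁻¹ = y) → ∃ h ∈ H, h * x * h⁻¹ = y := by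
  open CF.Transfer in
  constructor
  · rintro ⟨N, hN, h⟩ x hx y hy ⟨g, rfl⟩
    obtain ⟨s, hs, hs'⟩ := exists_conj_eq_of_isComplement' h g
    exact ⟨s, hs, hs' x hx hy⟩
  · intro h
    refine exists_normal_complement_of_hall hHall fun p hp hd => ?_
    have := Fact.mk hp
    obtain ⟨S, hS⟩ := exists_isSylowIn p H
    refine hasNPC_top_iff.1 ((hS.top_of_hall hHall hd).hasNPC_of_controls_fusion ?_)
    intro x hx g _ hx'
    obtain ⟨k, hk, hk'⟩ := h x (hS.le hx) _ (hS.le hx') ⟨g, rfl⟩
    obtain ⟨s, hs, y, hy, rfl⟩ := hS.exists_mul_pRes hk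
    refine ⟨s, hs, ?_⟩
    have h1 : pRes p H ≤ Subgroup.centralizer {x} := pRes_le_iff.2 fun z hz hz' => by
      obtain ⟨j, hj⟩ := orderOf_eq_pow_of_mem hS.isPGroup hx
      exact Subgroup.mem_centralizer_singleton_iff.2 (CF.Solv.commute_of_coprime_orderOf hz
        (hS.le hx) (hj ▸ Nat.Coprime.pow_right j hz'))
    rw [← hk', mul_assoc s y x, Subgroup.mem_centralizer_singleton_iff.1 (h1 hy)]
    group

end Cfsg.Agent.S0079
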