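import Cfsg.Statements.S0082
import Cfsg.Agent.Transfer.Tate
import Mathlib.GroupTheory.SpecificGroups.ZGroup

set_option autoImplicit false
open Cfsg

namespace Cfsg.Agent.S0082

/-- With a cyclic Sylow p-subgroup, either there is a normal p-complement or the elements of order prime to p generate the whole group. -/
theorem result {G : Type*} [Group G] [Finite G] {p : ℕ} [Fact p.Prime] (P : Sylow p G) (hP : IsCyclic P) : Cfsg.HasNormalPComplement p G ∨ Cfsg.pResidual p G = ⊤ := by
  open CF.Transfer in
  refine (P.normalizer_le_centralizer_or_le_commutator).imp (burnside_hasNPC P) fun h => ?_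
  rw [eq_top_iff, ← pRes_top]
  refine le_pRes_of_le_commutator_sup le_rfl ?_
  rw [pRes_top]
  exact (sylow_sup_pResidual P).ge.trans (sup_le_sup_right h _)

end Cfsg.Agent.S0082
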