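import Cfsg.Statements.S0083
import Cfsg.Agent.Transfer.Tate

set_option autoImplicit false
open Cfsg

namespace Cfsg.Agent.S0083

/-- For an abelian Sylow p-subgroup P, a normal p-complement exists exactly when the normalizer of P is an internal direct product of P with some subgroup. -/
theorem result {G : Type*} [Group G] [Finite G] {p : ℕ} [Fact p.Prime] (P : Sylow p G) (hP : IsMulCommutative P) : Cfsg.HasNormalPComplement p G ↔ ∃ Q : Subgroup G, Q ≤ Subgroup.centralizer (P : Set G) ∧ Q ⊓ (P : Subgroup G) = ⊥ ∧ Q ⊔ (P : Subgroup G) = Subgroup.normalizer (P : Set G) := by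
  open CF.Transfer in
  have hS := isSylowIn_of_le P (H := Subgroup.normalizer (P : Set G)) Subgroup.le_normalizer
  constructor
  · intro h
    have h' := HasNPC.subgroup h (Subgroup.normalizer (P : Set G))
    exact ⟨pRes p (Subgroup.normalizer (P : Set G)),
      HasNPC.pRes_le_centralizer h' P.isPGroup' Subgroup.le_normalizer le_rfl,
      by rw [inf_comm]; exact hS.hasNPC_iff.1 h', by rw [sup_comm]; exact hS.sup_pRes⟩
  · rintro ⟨Q, h1, -, h3⟩
    exact burnside_hasNPC P (h3.ge.trans
      (sup_le h1 (Subgroup.le_centralizer_iff_isMulCommutative.2 hP)))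

end Cfsg.Agent.S0083
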