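import Cfsg.Statements.S0084
import Cfsg.Agent.Transfer.Tate

set_option autoImplicit false
open Cfsg

namespace Cfsg.Agent.S0084

/-- A group whose Sylow 2-subgroups are Klein four-groups and whose order is prime to 3 has a normal 2-complement. -/
theorem result {G : Type*} [Group G] [Finite G] (T : Sylow 2 G) (hT : IsKleinFour T) (h3 : ¬ 3 ∣ Nat.card G) : Cfsg.HasNormalPComplement 2 G := by
  refine CF.Transfer.hasNPC_of_not_dvd_pow_sub_one T (n := 2) (dvd_of_eq hT.card_four) ?_
  intro q hq hqG i h1 h2 hd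
  obtain rfl | rfl : i = 1 ∨ i = 2 := by omega
  · exact hq.not_dvd_one hd
  · exact h3 ((Nat.prime_dvd_prime_iff_eq hq Nat.prime_three).1 hd ▸ hqG)

end Cfsg.Agent.S0084
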