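import Cfsg.Statements.S0087
import Cfsg.Agent.Transfer.Ctrl
import Cfsg.Agent.SolvStr.Schmidt

set_option autoImplicit false
open Cfsg

namespace Cfsg.Agent.S0087

/-- A Hall subgroup that is central in its normalizer has a normal complement. -/
theorem result {G : Type*} [Group G] [Finite G] (H : Subgroup G) (hHall : Nat.Coprime (Nat.card H) H.index) (h : Subgroup.normalizer (H : Set G) ≤ Subgroup.centralizer (H : Set G)) : ∃ N : Subgroup G, N.Normal ∧ N.IsComplement' H := by
  open CF.Transfer Subgroup in
  refine exists_normal_complement_of_hall hHall fun p hp hd => ?_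
  have := Fact.mk hp
  obtain ⟨S, hS⟩ := exists_isSylowIn p H
  have hc : H ≤ centralizer (S : Set G) :=
    (le_normalizer.trans h).trans (CF.PLocal.centralizer_anti hS.le)
  refine burnside_hasNPC (hS.top_of_hall hHall hd).toSylowTop fun n hn => ?_
  change n ∈ centralizer (S : Set G)
  have h1 := (CF.Solv.isPiHallOf_iff_subgroupOf.1
    (CF.Solv.isPiHallOf_of_isPiHall (CF.Solv.isPiHall_of_coprime hHall) hc)).2
  have h2 : cj n H ≤ centralizer (S : Set G) := (cj_mono n hc).trans
    (cj_eq_of_mem_normalizer (normalizer_le_normalizer_centralizer S hn)).le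
  have : IsMulCommutative H := le_centralizer_iff_isMulCommutative.1 (le_normalizer.trans h)
  have := CF.Solv.isNilpotent_of_isMulCommutative (H.subgroupOf (centralizer (S : Set G)))
  obtain ⟨x, hx⟩ := CF.SolvStr.wielandt_hall (K := (cj n H).subgroupOf _) h1
    (CF.Solv.piNum_card_subgroupOf (by rw [card_cj]; exact CF.Solv.piNum_setOf_dvd _) _)
  rw [conj_smul_eq_cj, cj_subgroupOf] at hx
  have h3 : cj (x * n) H ≤ H := fun y hy => by
    rw [cj_mul] at hy
    exact hx (show (⟨y, cj_le_of_le_of_mem h2 x.2 hy⟩ : centralizer (S : Set G)) ∈ _ from hy)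
  exact ((centralizer (S : Set G)).mul_mem_cancel_left x.2).1
    (CF.PLocal.centralizer_anti hS.le (h (mem_normalizer_of_cj_le h3)))

end Cfsg.Agent.S0087
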