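import Cfsg.Statements.S0089
import Cfsg.Agent.Transfer.Tate

set_option autoImplicit false
open Cfsg

namespace Cfsg.Agent.S0089

/-- When all Sylow subgroups are abelian, the derived subgroup meets the centre trivially. -/
theorem result {G : Type*} [Group G] [Finite G] (h : ∀ p : ℕ, p.Prime → ∀ P : Sylow p G, IsMulCommutative P) : commutator G ⊓ Subgroup.center G = ⊥ := by
  by_contra hne
  have hc : Nat.card (commutator G ⊓ Subgroup.center G : Subgroup G) ≠ 1 :=
    fun h' => hne (Subgroup.card_eq_one.1 h')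
  have := Fact.mk (Nat.minFac_prime hc)
  obtain ⟨x, hx⟩ := exists_prime_orderOf_dvd_card' _ (Nat.minFac_dvd
    (Nat.card (commutator G ⊓ Subgroup.center G : Subgroup G)))
  rw [← Subgroup.orderOf_coe, ← pow_one (Nat.minFac _)] at hx
  obtain ⟨P, hP⟩ := (CF.Transfer.isPGroup_zpowers hx).exists_le_sylow
  have h1 := (CF.Transfer.abelian_hall_inf_commutator_inf_center (h _ Fact.out P)
    P.card_coprime_index).le ⟨⟨hP (Subgroup.mem_zpowers _), x.2.1⟩, x.2.2⟩
  rw [Subgroup.mem_bot.1 h1, orderOf_one, pow_one] at hx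
  exact (Nat.minFac_prime hc).ne_one hx.symm

end Cfsg.Agent.S0089
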