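import Cfsg.Statements.S0090
import Cfsg.Agent.Transfer.Frat
import Cfsg.Agent.Coprime.Abelian

set_option autoImplicit false
open Cfsg

namespace Cfsg.Agent.S0090

/-- An abelian normal Hall subgroup A splits as the internal direct product of G' ∩ A and Z(G) ∩ A, and [A, G] = G' ∩ A. -/
theorem result {G : Type*} [Group G] [Finite G] (A : Subgroup G) [A.Normal] (hc : IsMulCommutative A) (hHall : Nat.Coprime (Nat.card A) A.index) : ⁅A, (⊤ : Subgroup G)⁆ = commutator G ⊓ A ∧ (commutator G ⊓ A) ⊓ (Subgroup.center G ⊓ A) = ⊥ ∧ (commutator G ⊓ A) ⊔ (Subgroup.center G ⊓ A) = A := by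
  open CF.Transfer Subgroup in
  obtain ⟨K, hK⟩ := exists_right_complement'_of_coprime hHall
  have hKA : K ≤ normalizer (A : Set G) := by rw [normalizer_eq_top_iff.2 ‹_›]; exact le_top
  have hcop : (Nat.card K).Coprime (Nat.card A) := by
    rw [← hK.symm.index_eq_card]; exact hHall.symm
  have h1 := CF.Coprime.commutator_sup_centralizer K A hKA hcop
    (Or.inr (CF.Solv.isSolvable_of_isMulCommutative A))
  have h2 : A ⊓ centralizer (K : Set G) ≤ center G ⊓ A := by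
    intro x hx
    refine mem_inf.2 ⟨mem_center_iff.2 fun g => ?_, hx.1⟩
    obtain ⟨⟨a, k⟩, rfl⟩ := hK.2 g
    have e1 := CF.Fgs1.comm_of_mem hc a.2 hx.1
    have e2 := hx.2 k k.2
    simp only
    rw [mul_assoc, e2, ← mul_assoc, e1, mul_assoc]
  have h3 : ⁅A, (⊤ : Subgroup G)⁆ ≤ commutator G ⊓ A :=
    le_inf (commutator_mono le_top le_rfl) (commutator_le_left _ _)
  have h4 : (commutator G ⊓ A) ⊓ (center G ⊓ A) = ⊥ := by
    rw [eq_bot_iff, ← abelian_hall_inf_commutator_inf_center hc hHall]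
    exact fun x hx => ⟨⟨hx.1.2, hx.1.1⟩, hx.2.1⟩
  have h5 : A ≤ ⁅A, (⊤ : Subgroup G)⁆ ⊔ (center G ⊓ A) :=
    h1.ge.trans (sup_le_sup (commutator_mono le_rfl le_top) h2)
  refine ⟨le_antisymm h3 fun x hx => ?_, h4,
    le_antisymm (sup_le inf_le_right inf_le_right) (h5.trans (sup_le_sup_right h3 _))⟩
  obtain ⟨y, hy, z, hz, rfl⟩ := mem_sup_of_normal_left.1 (h5 hx.2)
  have : z ∈ (commutator G ⊓ A) ⊓ (center G ⊓ A) :=
    ⟨((commutator G ⊓ A).mul_mem_cancel_left (h3 hy)).1 hx, hz⟩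
  rw [h4, mem_bot] at this
  rwa [this, mul_one]

end Cfsg.Agent.S0090
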