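import Cfsg.Statements.S0092
import Cfsg.Agent.Transfer.Ctrl

set_option autoImplicit false
open Cfsg

namespace Cfsg.Agent.S0092

/-- If the Sylow p-subgroups of O^p(G) are abelian then G splits over O^p(G). -/
theorem result {G : Type*} [Group G] [Finite G] {p : ℕ} [Fact p.Prime] (h : ∀ Q : Sylow p (Cfsg.pResidual p G), IsMulCommutative Q) : ∃ K : Subgroup G, K.IsComplement' (Cfsg.pResidual p G) := by
  open CF.Transfer Subgroup in
  set N := Cfsg.pResidual p G with hN
  let Q' : Sylow p N := default
  have hQ := isSylowIn_map_sylow Q'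
  set Q := (Q' : Subgroup N).map N.subtype with hQd
  have hQc : Q ≤ centralizer (Q : Set G) := by
    have := h Q'
    exact le_centralizer_iff_isMulCommutative.2 inferInstance
  have hM : IsSylowIn p Q (N ⊓ normalizer (Q : Set G)) :=
    hQ.of_le (le_inf hQ.le le_normalizer) inf_le_left
  obtain ⟨L, h1, h2, h3, h4⟩ := CF.Solv.exists_complement_of_coprime hM.le inf_le_right
    hM.card_coprime_relIndex
  have hcop : (Nat.card L).Coprime (Nat.card Q) := h4 ▸ hM.card_coprime_relIndex.symm
  have hLQ : L ≤ normalizer (Q : Set G) := h1.trans inf_le_right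
  have h5 : ⁅Q, L⁆ = Q := by
    refine le_antisymm (le_normalizer_iff_commutator_le_left.1 hLQ) ?_
    have h6 := abelian_sylow_inf_pResidual Q' (h Q')
    rw [pResidual_pResidual, inf_top_eq] at h6
    have h7 := congrArg (map N.subtype) h6
    rw [map_commutator] at h7
    refine h7.le.trans ((commutator_mono le_rfl ((le_inf (map_subtype_le _)
      (le_normalizer_map _)).trans h3.ge)).trans ?_)
    exact CF.Loc.commutator_sup_right_le (normalizer_commutator_ge_left _ _)
      (normalizer_commutator_ge_right _ _)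
      ((commutator_eq_bot_iff_le_centralizer.2 hQc).le.trans bot_le) le_rfl
  have h6 := CF.Coprime.inf_centralizer_le_commutator L Q hLQ hcop h5
  rw [commutator_eq_bot_iff_le_centralizer.2 hQc] at h6
  obtain ⟨S, hS⟩ := exists_isSylowIn p (normalizer (Q : Set G) ⊓ normalizer (L : Set G))
  refine ⟨S, isComplement'_of_disjoint_and_mul_eq_univ ?_ ?_⟩
  · rw [disjoint_iff, eq_bot_iff]
    have h7 : S ⊓ N ≤ Q := hQ.le_of_le_normalizer hS.isPGroup.to_inf_left inf_le_right
      ((inf_le_left.trans hS.le).trans inf_le_left)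
    refine le_trans (le_inf h7 (commutator_eq_bot_iff_le_centralizer.1 (eq_bot_iff.2 ?_))) h6
    rw [← h2]
    exact le_inf ((commutator_mono h7 le_rfl).trans h5.le)
      (le_normalizer_iff_commutator_le_right.1 ((inf_le_left.trans hS.le).trans inf_le_right))
  · rw [← mul_normal, coe_eq_univ, eq_top_iff]
    intro g _
    obtain ⟨n, hn, y, hy, rfl⟩ := hQ.frattini (h := g) (le_normalizer_of_normal (mem_top g))
    have := hQ.isPGroup.isNilpotent
    obtain ⟨k, hk, h7⟩ := CF.Coprime.exists_conj_le_of_le_sup L (cj y L) Q hLQ (by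
      rw [h3]
      exact (cj_mono y h1).trans (cj_eq_of_mem_normalizer (CF.PLocal.le_normalizer_inf
        le_normalizer_of_normal (normalizer_le_normalizer_normalizer Q) hy)).le)
      (by rwa [card_cj]) (Or.inr inferInstance)
    rw [conj_smul_eq_cj, cj_cj] at h7
    obtain ⟨s, hs, x, hx, e⟩ := hS.exists_mul_pRes
      (⟨mul_mem (le_normalizer hk) hy, mem_normalizer_of_cj_le h7⟩ : k * y ∈ normalizer (Q : Set G) ⊓ normalizer (L : Set G))
    rw [eq_inv_mul_iff_mul_eq.2 e]
    exact mul_mem (mem_sup_right hn) (mul_mem (mem_sup_right (inv_mem (hQ.le hk)))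
      (mul_mem (mem_sup_left hs) (mem_sup_right (pRes_le_pResidual _ hx))))

end Cfsg.Agent.S0092
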