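import Cfsg.Statements.S0097
import Cfsg.Agent.Transfer.Frat

set_option autoImplicit false
open Cfsg

namespace Cfsg.Agent.S0097

/-- For odd p and E extraspecial, the subgroup generated by the elements of order dividing p has exponent dividing p and index at most p. -/
theorem result {E : Type*} [Group E] [Finite E] {p : ℕ} [Fact p.Prime] (hp : p ≠ 2) (h : Cfsg.IsExtraspecial p E) : (Subgroup.closure {x : E | x ^ p = 1}).index ≤ p ∧ ∀ g ∈ Subgroup.closure {x : E | x ^ p = 1}, g ^ p = 1 := by
  open scoped commutatorElement in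
  open CF.Transfer Subgroup in
  obtain ⟨⟨hP, h1, h2⟩, h3⟩ := h
  have hodd : Odd p := (Fact.out : p.Prime).odd_of_ne_two hp
  have hc : ∀ a b c : E, Commute c ⁅a, b⁆ := fun a b c =>
    mem_center_iff.1 (h2 ▸ commutator_mem_commutator (mem_top a) (mem_top b)) c
  have hz : ∀ a : E, a ^ p ∈ center E := fun a => h1 ▸ CF.Fgs1.pow_mem_frattini hP a
  have hcp : ∀ a b : E, ⁅a, b⁆ ^ p = 1 := fun a b => by
    rw [← commutatorElement_pow_left' (hc a b a)]
    exact commutatorElement_eq_one_iff_mul_comm.2 (mem_center_iff.1 (hz a) b).symm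
  let f : E →* center E := MonoidHom.mk' (fun a => ⟨a ^ p, hz a⟩) fun a b => by
    ext
    simp only [coe_mul]
    rw [mul_pow_of_class_two (hc _ _ _) (hc _ _ _)]
    obtain ⟨k, hk⟩ := hodd
    have : p.choose 2 = p * k := by
      rw [Nat.choose_two_right, hk, Nat.add_sub_cancel, mul_left_comm,
        Nat.mul_div_cancel_left _ two_pos]
    rw [this, pow_mul, hcp, one_pow, mul_one]
  have hk : closure {x : E | x ^ p = 1} = f.ker := by
    apply le_antisymm
    · rw [closure_le]
      intro x hx
      exact Subtype.ext hx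
    · intro x hx
      exact subset_closure (congrArg Subtype.val hx)
  rw [hk]
  refine ⟨?_, fun g hg => congrArg Subtype.val hg⟩
  rw [index_ker, ← h3]
  exact Nat.le_of_dvd Nat.card_pos (card_subgroup_dvd_card _)

end Cfsg.Agent.S0097
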