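import Cfsg.Statements.S0098
import Cfsg.Agent.LX.QM2

set_option autoImplicit false
open Cfsg

namespace Cfsg.Agent.S0098

open CF.Geom Subgroup Multiplicative
open scoped commutatorElement

/-- symplectic coordinates -/
structure SM {E : Type*} [Group E] {p r : ℕ} [Fact p.Prime] (π : E →* Multiplicative (Fin r → ZMod p))
    (ε : Multiplicative (ZMod p) →* E) (B : LinearMap.BilinForm (ZMod p) (Fin r → ZMod p)) : Prop where
  surj : Function.Surjective π
  inj : Function.Injective ε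
  ker : ∀ x, π x = 1 ↔ ∃ a, ε a = x
  cen : ∀ a x, x * ε a = ε a * x
  comm : ∀ x y, ⁅x, y⁆ = ε (ofAdd (B (π x).toAdd (π y).toAdd))
  alt : B.IsAlt
  nd : B.Nondegenerate

theorem exists_sm {E : Type*} [Group E] [Finite E] {p r : ℕ} [hp : Fact p.Prime]
    (h : IsExtraspecial p E) (hc : Nat.card E = p ^ (1 + r)) :
    ∃ π ε B, SM (E := E) (p := p) (r := r) π ε B := by
  have q := CF.Solv.isElementaryAbelian_top_iff.1 ((CF.Solv.isElementaryAbelian_quotient_iff
    (N := center E)).2 ((CF.Solv.frattini_le_iff_of_isPGroup h.1.1).1 h.1.2.1.le))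
  haveI := q.1
  obtain ⟨f⟩ := CF.Fgs2.nonempty_equiv_pi_zmod (V := E ⧸ center E) (r := r) q.2 (by
    have := (center E).card_mul_index
    rw [h.2, hc, pow_add, pow_one] at this
    exact Nat.eq_of_mul_eq_mul_left hp.out.pos this)
  let e : center E ≃* Multiplicative (ZMod p) := mulEquivOfPrimeCardEq h.2 (by simp)
  let π := f.toMonoidHom.comp (QuotientGroup.mk' (center E))
  have hs : Function.Surjective π := f.surjective.comp QuotientGroup.mk_surjective
  have hk : ∀ x, π x = 1 ↔ x ∈ center E := fun x => by simp [π]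
  have cm : ∀ x y : E, ⁅x, y⁆ ∈ center E := fun x y =>
    h.1.2.2.le (commutator_mem_commutator trivial trivial)
  let c : E → E → ZMod p := fun x y => (e ⟨_, cm x y⟩).toAdd
  have c1 : ∀ x x' y, c (x * x') y = c x y + c x' y := fun x x' y => by
    rw [← toAdd_mul, ← map_mul]
    refine congrArg (fun a => (e a).toAdd) (Subtype.ext ?_)
    change ⁅x * x', y⁆ = ⁅x, y⁆ * ⁅x', y⁆
    rw [commutatorElement_mul_left_eq_conj_mul, mem_center_iff.1 (cm x' y), mul_inv_cancel_right,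
      mem_center_iff.1 (cm x y)]
  have c2 : ∀ x y y', c x (y * y') = c x y + c x y' := fun x y y' => by
    rw [← toAdd_mul, ← map_mul]
    refine congrArg (fun a => (e a).toAdd) (Subtype.ext ?_)
    change ⁅x, y * y'⁆ = ⁅x, y⁆ * ⁅x, y'⁆
    rw [commutatorElement_mul_right_eq_mul_conj, mul_assoc _ y, mem_center_iff.1 (cm x y'),
      ← mul_assoc, mul_inv_cancel_right]
  have c0 : ∀ x y, c x y = 0 ↔ x * y = y * x := fun x y => by
    simp [c, Subtype.ext_iff, commutatorElement_eq_one_iff_mul_comm]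
  let s : (Fin r → ZMod p) → E := fun v => Function.surjInv hs (ofAdd v)
  have hs' : ∀ x, ∃ w ∈ center E, s (π x).toAdd = x * w := fun x =>
    ⟨x⁻¹ * s (π x).toAdd, (hk _).1 (by simp [s, Function.surjInv_eq hs]), by simp⟩
  have cs : ∀ x y, c (s (π x).toAdd) (s (π y).toAdd) = c x y := fun x y => by
    obtain ⟨w, hw, a⟩ := hs' x
    obtain ⟨u, hu, b⟩ := hs' y
    rw [a, b, c1, c2, (c0 w _).2 (mem_center_iff.1 hw _).symm, (c0 _ u).2 (mem_center_iff.1 hu _),
      add_zero, add_zero]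
  have sj : Function.Surjective fun x => (π x).toAdd := toAdd.surjective.comp hs
  let B : LinearMap.BilinForm (ZMod p) (Fin r → ZMod p) := (AddMonoidHom.mk' (fun v =>
    (AddMonoidHom.mk' (fun w => c (s v) (s w)) (by
      obtain ⟨x, rfl⟩ := sj v
      exact sj.forall₂.2 fun y y' => by
        rw [← toAdd_mul, ← map_mul, cs, cs, cs, c2])).toZModLinearMap p)
      (sj.forall₂.2 fun x x' => LinearMap.ext (sj.forall.2 fun y => by
        change c (s (_ + _)) (s _) = c (s _) (s _) + c (s _) (s _)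
        rw [← toAdd_mul, ← map_mul, cs, cs, cs, c1]))).toZModLinearMap p
  have hB : ∀ x y, B (π x).toAdd (π y).toAdd = c x y := cs
  refine ⟨π, (center E).subtype.comp e.symm.toMonoidHom, B, hs,
    (subtype_injective _).comp e.symm.injective, fun x => (hk x).trans ⟨fun k => ⟨e ⟨x, k⟩, by simp⟩,
      by rintro ⟨a, rfl⟩; exact (e.symm a).2⟩, fun a x => mem_center_iff.1 (e.symm a).2 x,
    fun x y => by simp [hB, c], sj.forall.2 fun x => (hB x x).trans ((c0 x x).2 rfl),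
    sj.forall.2 fun x hx => ?_, sj.forall.2 fun x hx => ?_⟩
  · exact congrArg toAdd ((hk x).2 (mem_center_iff.2 fun y =>
      ((c0 x y).1 ((hB x y).symm.trans (hx _))).symm))
  · exact congrArg toAdd ((hk x).2 (mem_center_iff.2 fun y =>
      (c0 y x).1 ((hB y x).symm.trans (hx _))))


/-- For odd p, extraspecial p-groups of exponent p are determined up to isomorphism by their order. -/
theorem result {E₁ : Type*} {E₂ : Type*} [Group E₁] [Group E₂] [Finite E₁] [Finite E₂] {p : ℕ} [Fact p.Prime] (hp : p ≠ 2) (h₁ : Cfsg.IsExtraspecial p E₁) (h₂ : Cfsg.IsExtraspecial p E₂) (he₁ : Monoid.exponent E₁ = p) (he₂ : Monoid.exponent E₂ = p) (hc : Nat.card E₁ = Nat.card E₂) : Nonempty (E₁ ≃* E₂) := by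
  obtain ⟨n, -, c⟩ := CF.Fgs1.card_of_extraspecial h₁
  obtain ⟨π, ε, B, h⟩ := exists_sm h₁ c
  obtain ⟨π', ε', B', h'⟩ := exists_sm h₂ (hc.symm.trans c)
  obtain ⟨g, hg⟩ := exists_equiv_alt h.nd h.alt h'.nd h'.alt rfl
  let γ := AddEquiv.toMultiplicative g.toAddEquiv
  let P : Subgroup (E₁ × E₂) := (γ.toMonoidHom.comp (π.comp (MonoidHom.fst _ _))).eqLocus
    (π'.comp (MonoidHom.snd _ _))
  have mP : ∀ x : E₁ × E₂, x ∈ P ↔ γ (π x.1) = π' x.2 := fun _ => Iff.rfl
  have e1 : ∀ a, π (ε a) = 1 := fun a => (h.ker _).2 ⟨a, rfl⟩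
  have e2 : ∀ a, π' (ε' a) = 1 := fun a => (h'.ker _).2 ⟨a, rfl⟩
  let D := (ε.prod ε').range
  haveI : D.Normal := CF.Fgs1.normal_of_le_center (by
    rintro _ ⟨a, rfl⟩
    exact mem_center_iff.2 fun x => Prod.ext (h.cen _ _) (h'.cen _ _))
  have DP : D ≤ P := by rintro _ ⟨a, rfl⟩; exact (mP _).2 (by simp [e1, e2])
  let Z := ((MonoidHom.inl E₁ E₂).comp ε).range
  have ZP : Z ≤ P := by rintro _ ⟨a, rfl⟩; exact (mP _).2 (by simp [e1])
  obtain ⟨K, k1, k2, k3⟩ := CF.Solv.exists_complement_of_isElementaryAbelian (p := p)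
    (V := P.map (QuotientGroup.mk' D)) ⟨⟨⟨by
      rintro ⟨_, x, hx, rfl⟩ ⟨_, y, hy, rfl⟩
      refine Subtype.ext (commutatorElement_eq_one_iff_mul_comm.1 ?_)
      change ⁅QuotientGroup.mk' D x, QuotientGroup.mk' D y⁆ = 1
      rw [← map_commutatorElement]
      refine (QuotientGroup.eq_one_iff _).2 ⟨_, Prod.ext (h.comm x.1 y.1).symm
        (Eq.trans ?_ (h'.comm x.2 y.2).symm)⟩
      rw [← (mP x).1 hx, ← (mP y).1 hy, ← hg]; rfl⟩⟩, by
      rintro _ ⟨x, -, rfl⟩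
      rw [← map_pow, show x ^ p = 1 from Prod.ext (he₁ ▸ Monoid.pow_exponent_eq_one x.1)
        (he₂ ▸ Monoid.pow_exponent_eq_one x.2), map_one]⟩ (map_mono ZP)
  let H := K.comap (QuotientGroup.mk' D)
  have HP : H ≤ P := (comap_mono k1).trans (by
    rw [comap_map_eq, QuotientGroup.ker_mk']; exact sup_le le_rfl DP)
  have DH : ∀ a, (ε a, ε' a) ∈ H := fun a => by
    change QuotientGroup.mk' D _ ∈ K
    rw [show QuotientGroup.mk' D (ε a, ε' a) = 1 from (QuotientGroup.eq_one_iff _).2 ⟨a, rfl⟩]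
    exact one_mem _
  have HZ : ∀ a, (ε a, 1) ∈ H → a = 1 := fun a k => by
    obtain ⟨b, hb⟩ := (QuotientGroup.eq_one_iff _).1 (mem_bot.1 (k2.le ⟨⟨_, ⟨a, rfl⟩, rfl⟩, k⟩))
    rw [← h.inj (congrArg Prod.fst hb)]
    exact h'.inj ((congrArg Prod.snd hb).trans (map_one _).symm)
  have sj : ∀ x ∈ P, ∃ a, ((ε a, 1) : E₁ × E₂) * x ∈ H := fun x hx => by
    haveI : (Z.map (QuotientGroup.mk' D)).Normal := (CF.Fgs1.normal_of_le_center (by
      rintro _ ⟨a, rfl⟩
      exact mem_center_iff.2 fun x => Prod.ext (h.cen _ _) (by simp))).map _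
        (QuotientGroup.mk'_surjective D)
    obtain ⟨_, ⟨_, ⟨a, rfl⟩, rfl⟩, k, hk, e⟩ := mem_sup_of_normal_left.1
      (k3.ge (mem_map_of_mem (QuotientGroup.mk' D) hx))
    refine ⟨a⁻¹, ?_⟩
    change QuotientGroup.mk' D _ ∈ K
    rwa [map_mul, ← e, ← mul_assoc, ← map_mul, show ((ε a⁻¹, 1) : E₁ × E₂) *
      ((MonoidHom.inl E₁ E₂).comp ε) a = 1 by simp, map_one, one_mul]
  refine (exists_mulEquiv_eq_graph (G := H) ⟨(injective_iff_map_eq_one
    ((MonoidHom.fst _ _).comp H.subtype)).2 ?_, fun x => ?_⟩ ⟨(injective_iff_map_eq_one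
    ((MonoidHom.snd _ _).comp H.subtype)).2 ?_, fun y => ?_⟩).nonempty
  · rintro ⟨⟨x, y⟩, hx⟩ (rfl : x = 1)
    obtain ⟨a, rfl⟩ := (h'.ker y).1 (by simpa using ((mP _).1 (HP hx)).symm)
    obtain rfl := HZ a (by simpa using H.mul_mem (DH a) (H.inv_mem hx))
    exact Subtype.ext (by simp)
  · obtain ⟨y, hy⟩ := h'.surj (γ (π x))
    obtain ⟨a, ha⟩ := sj (x, y) ((mP _).2 hy.symm)
    exact ⟨⟨_, H.mul_mem (H.inv_mem (DH a)) ha⟩, by simp⟩
  · rintro ⟨⟨x, y⟩, hx⟩ (rfl : y = 1)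
    obtain ⟨a, rfl⟩ := (h.ker x).1 (by simpa using (mP _).1 (HP hx))
    obtain rfl := HZ a hx
    exact Subtype.ext (by simp)
  · obtain ⟨x, hx⟩ := h.surj (γ.symm (π' y))
    obtain ⟨a, ha⟩ := sj (x, y) ((mP _).2 (by simp [hx]))
    exact ⟨⟨_, ha⟩, by simp⟩

end Cfsg.Agent.S0098
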