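import Cfsg.Statements.S0099
import Cfsg.Agent.LX.QM2

set_option autoImplicit false
open Cfsg

namespace Cfsg.Agent.S0099

open CF.LX

/-- Among three extraspecial 2-groups of equal order, some two are isomorphic. -/
theorem result {E₁ : Type*} {E₂ : Type*} {E₃ : Type*} [Group E₁] [Group E₂] [Group E₃] [Finite E₁] [Finite E₂] [Finite E₃] (h₁ : Cfsg.IsExtraspecial 2 E₁) (h₂ : Cfsg.IsExtraspecial 2 E₂) (h₃ : Cfsg.IsExtraspecial 2 E₃) (h12 : Nat.card E₁ = Nat.card E₂) (h23 : Nat.card E₂ = Nat.card E₃) : Nonempty (E₁ ≃* E₂) ∨ Nonempty (E₂ ≃* E₃) ∨ Nonempty (E₁ ≃* E₃) := by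
  obtain ⟨n, -, c⟩ := CF.Fgs1.card_of_extraspecial h₁
  rw [add_comm] at c
  have c2 := h12.symm.trans c
  have c3 := h23.symm.trans c2
  by_cases a : PlusT E₁ n ↔ PlusT E₂ n
  · exact .inl (equiv_of_plusT_iff h₁ h₂ c c2 a)
  by_cases b : PlusT E₂ n ↔ PlusT E₃ n
  · exact .inr (.inl (equiv_of_plusT_iff h₂ h₃ c2 c3 b))
  · exact .inr (.inr (equiv_of_plusT_iff h₁ h₃ c c3 (by tauto)))

end Cfsg.Agent.S0099
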