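import Cfsg.Statements.S0104
import Cfsg.Agent.Transfer.Tate

set_option autoImplicit false
open Cfsg

namespace Cfsg.Agent.S0104

/-- A subgroup Z of a Sylow p-subgroup P that is normalized by N_G(P) is weakly closed in P exactly when it is normal in every Sylow p-subgroup containing it. -/
theorem result {G : Type*} [Group G] [Finite G] {p : ℕ} [Fact p.Prime] (P : Sylow p G) (Z : Subgroup G) (hZP : Z ≤ (P : Subgroup G)) (hZN : Subgroup.normalizer (P : Set G) ≤ Subgroup.normalizer (Z : Set G)) : Cfsg.IsWeaklyClosed Z P ↔ ∀ R : Sylow p G, Z ≤ (R : Subgroup G) → (R : Subgroup G) ≤ Subgroup.normalizer (Z : Set G) := by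
  open CF.Transfer in
  constructor
  · intro h R hR r hr
    have := IsWeaklyClosed.eq_of_le_pGroup h R.isPGroup' (a := r) (b := 1)
      (cj_le_of_le_of_mem hR hr) (by rwa [cj_one])
    rwa [cj_one, ← mem_normalizer_iff_cj] at this
  · intro h
    refine isWeaklyClosed_iff.2 ⟨hZP, fun g hg => ?_⟩
    have h1 := isSylowIn_of_le (g⁻¹ • P) (h (g⁻¹ • P) (cj_le_iff.1 hg))
    have h2 := isSylowIn_of_le P (h P hZP)
    obtain ⟨c, hc, hc'⟩ := h1.exists_cj_eq h2
    have h3 : c * g⁻¹ ∈ Subgroup.normalizer (Z : Set G) :=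
      hZN (mem_normalizer_iff_cj.2 (by rw [cj_mul]; exact hc'))
    exact mem_normalizer_iff_cj.1 (inv_mem_iff.1 ((Subgroup.mul_mem_cancel_left _ hc).1 h3))

end Cfsg.Agent.S0104
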