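import Cfsg.Statements.S0105
import Cfsg.Agent.Transfer.Frat
import Cfsg.Agent.Coprime.Abelian

set_option autoImplicit false
open Cfsg

namespace Cfsg.Agent.S0105

/-- With an abelian Sylow p-subgroup P, some quotient of G is isomorphic to the part of P central in N_G(P). -/
theorem result {G : Type*} [Group G] [Finite G] {p : ℕ} [Fact p.Prime] (P : Sylow p G) (hP : IsMulCommutative P) : ∃ (N : Subgroup G) (hN : N.Normal), Nonempty (G ⧸ N ≃* ((P : Subgroup G) ⊓ Subgroup.centralizer (Subgroup.normalizer (P : Set G) : Set G) : Subgroup G)) := by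
  open CF.Transfer Subgroup in
  obtain ⟨N, hN, -, h1, h2⟩ := exists_normal_inf_sylow_eq P
  refine ⟨N, hN, ?_⟩
  have e : normalizer (P : Set G) = normalizer ((P : Subgroup G) : Set G) := rfl
  rw [e]
  set M := normalizer ((P : Subgroup G) : Set G) with hM
  rw [inf_comm (commutator G), abelian_sylow_inf_commutator P hP, ← hM] at h1
  have hS : IsSylowIn p (P : Subgroup G) M := isSylowIn_of_le P le_normalizer
  have : ((P : Subgroup G).subgroupOf M).Normal := normal_in_normalizer
  obtain ⟨K', hK⟩ := exists_right_complement'_of_coprime (N := (P : Subgroup G).subgroupOf M)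
    (by rw [CF.Solv.card_subgroupOf_of_le hS.le]; exact hS.card_coprime_relIndex)
  set K := K'.map M.subtype
  have hKM : K ≤ M := map_subtype_le _
  have hcop : (Nat.card K).Coprime (Nat.card (P : Subgroup G)) := by
    rw [card_map_of_injective M.subtype_injective, ← hK.symm.index_eq_card]
    exact hS.card_coprime_relIndex.symm
  have hdec : ∀ g ∈ M, ∃ a ∈ (P : Subgroup G), ∃ k ∈ K, g = a * k := by
    intro g hg
    obtain ⟨⟨a, k⟩, h⟩ := hK.2 ⟨g, hg⟩
    exact ⟨a, a.2, k, mem_map_of_mem _ k.2, (congrArg Subtype.val h).symm⟩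
  have hC : (P : Subgroup G) ⊓ centralizer (K : Set G) = (P : Subgroup G) ⊓ centralizer (M : Set G) := by
    refine le_antisymm (fun x hx => ⟨hx.1, fun g hg => ?_⟩) (inf_le_inf_left _ (centralizer_le hKM))
    obtain ⟨a, ha, k, hk, rfl⟩ := hdec g hg
    rw [mul_assoc, hx.2 k hk, ← mul_assoc, CF.Fgs1.comm_of_mem hP ha hx.1, mul_assoc]
  have hD : ⁅(P : Subgroup G), K⁆ = ⁅(P : Subgroup G), M⁆ := by
    refine le_antisymm (commutator_mono le_rfl hKM) (commutator_le.2 fun x hx g hg => ?_)
    obtain ⟨a, ha, k, hk, rfl⟩ := hdec g hg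
    rw [commutatorElement_mul_right', commutatorElement_eq_one_iff_mul_comm.2
      (CF.Fgs1.comm_of_mem hP hx ha), one_mul, CF.Fgs1.comm_of_mem hP ha
      (CF.Coprime.commutator_le_of_le_normalizer hKM (commutator_mem_commutator hx hk)),
      mul_inv_cancel_right]
    exact commutator_mem_commutator hx hk
  have h3 := CF.Coprime.commutator_sup_centralizer K P hKM hcop
    (Or.inr (CF.Solv.isSolvable_of_isMulCommutative _))
  have h4 := CF.Coprime.inf_centralizer_inf_commutator_eq_bot K P hKM hcop
  rw [hC, hD, ← h1] at h3 h4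
  have h5 : IsComplement' N ((P : Subgroup G) ⊓ centralizer (M : Set G)) := by
    apply CF.Solv.isComplement'_of_inf_eq_bot_of_sup_eq_top
    · rw [eq_bot_iff, ← h4]
      exact fun x hx => ⟨hx.2, hx.1, hx.2.1⟩
    · rw [eq_top_iff, ← h2]
      refine sup_le le_sup_left (h3.ge.trans (sup_le_sup_right inf_le_left _))
  exact ⟨h5.symm.QuotientMulEquiv⟩

end Cfsg.Agent.S0105
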