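import Cfsg.Statements.S0107
import Cfsg.Agent.Transfer.Ctrl
import Cfsg.Agent.Invol.DihSylow

set_option autoImplicit false
open Cfsg

namespace Cfsg.Agent.S0107

/-- A finite group with no nontrivial 2-group quotient and dihedral Sylow 2-subgroups of order at least 8 has a single class of involutions. -/
theorem result {G : Type*} [Group G] [Finite G] (T : Sylow 2 G) (n : ℕ) (hn : 2 ≤ n) (hT : Nonempty ((T : Subgroup G) ≃* DihedralGroup (2 ^ n))) (hO : Cfsg.pResidual 2 G = ⊤) (x y : G) (hx : orderOf x = 2) (hy : orderOf y = 2) : ∃ g : G, g * x * g⁻¹ = y := by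
  open CF.Transfer Subgroup in
  obtain ⟨k, a, b, -, h⟩ := CF.Invol.exists_dh T.isPGroup'
    (le_trans (by norm_num) (Nat.pow_le_pow_right two_pos hn)) hT.some
  refine isConj_iff.1 (h.isConj_of_no_index_two (isSylowIn_top T) (fun H hH => ?_) hx hy)
  have := normal_of_index_eq_two hH
  have h1 := pResidual_le_of_index (N := H) (p := 2) (k := 1) hH
  rw [hO, top_le_iff] at h1
  rw [h1, index_top] at hH
  exact absurd hH (by decide)

end Cfsg.Agent.S0107
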