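import Cfsg.Statements.S0109
import Cfsg.Agent.Sig.OffG

set_option autoImplicit false
open Cfsg

namespace Cfsg.Agent.S0109

open CF.BG CF.Sig Subgroup in

/-- The Thompson factorization Theorem for solvable groups states that, with p odd (and abelian Sylow 2-subgroups when p = 3) and no nontrivial normal subgroup of order prime to p, every element of G is a product of an element normalizing J(P) and an element centralizing the elements of order dividing p in the centre of P. -/
theorem result {G : Type*} [Group G] [Finite G] {p : ℕ} [Fact p.Prime] (hp : p ≠ 2) (hs : Group.IsSolvable G) (h3 : p = 3 → ∀ T : Sylow 2 G, IsMulCommutative T) (hF : ∀ N : Subgroup G, N.Normal → Nat.Coprime (Nat.card N) p → N = ⊥) (P : Sylow p G) (g : G) : ∃ a ∈ Subgroup.normalizer (Cfsg.thompsonSubgroupOf p (P : Subgroup G) : Set G), ∃ c ∈ Subgroup.centralizer {x : G | x ∈ (P : Subgroup G) ∧ (∀ y ∈ (P : Subgroup G), x * y = y * x) ∧ x ^ p = 1}, g = a * c := by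
  have hp' : p.Prime := Fact.out
  have hsep := CF.Solv.isPSolvable_of_isSolvable (G := G) p
  have hO : Cfsg.pPrimeCore p G = ⊥ := by
    rw [pPrimeCore_eq hp']
    exact hF _ (normalIn_top.mp (O_normal _ _))
      ((piNat_compl_single_iff_coprime hp').mp (O_pi _ _))
  have := CF.PLocal.zG_normal (p := p) (G := G)
  have a := Abelem.of_isEA hp' (CF.PLocal.isEA_zG
    (CF.Solv.centralizer_pCore_le_of_isPSolvable hsep hO))
  have r := red_of_pCore hp' (CF.PLocal.pCore_quotient_centralizer_zG (p := p) (G := G))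
  have h := os_hol hp' a (CF.Solv.isPSolvable_subgroup hsep ⊤) r
  have f : Cfsg.IsThompsonFactorizable p G := by
    rw [CF.PLocal.isThompsonFactorizable_iff hO, ← CF.PLocal.thompsonSubgroupOf_top]
    by_contra e
    obtain ⟨T, -, t⟩ := exists_tv_of_not_le h a le_top le_rfl e
    obtain ⟨e3, c, na⟩ := (h.Bk_npc t).resolve_left fun e => hp e.1
    obtain ⟨S⟩ : Nonempty (Sylow 2 G) := inferInstance
    obtain ⟨x, -, l⟩ := ((syl_sylow_top S).map (hρ (CF.PLocal.zG p G))).syl_cj_le
      ((h.D_le t).trans (O_le _ _)) (piGrp_of_card (k := 3) Nat.prime_two c)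
    exact na (abel_cj.mp (((Abel.of_comm (h3 e3 S)).map _).mono l))
  obtain ⟨x, hx, c, hc, n, hn, e⟩ := f P g⁻¹
  rw [hO, mem_bot] at hx
  refine ⟨n⁻¹, inv_mem hn, c⁻¹, inv_mem (centralizer_le (fun y hy => ?_) hc), ?_⟩
  · exact mem_Om ⟨hy.1, mem_cent.mpr fun z hz => (hy.2.1 z hz).symm⟩ hy.2.2
  · rw [← inv_inv g, e, hx]; group

end Cfsg.Agent.S0109
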