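import Cfsg.Statements.S0110
import Cfsg.Agent.Transfer.Frat

set_option autoImplicit false
open Cfsg

namespace Cfsg.Agent.S0110

/-- In a p-group G, an extraspecial subgroup E with [G, E] ≤ Z(E) satisfies G = E C_G(E). -/
theorem result {G : Type*} [Group G] [Finite G] {p : ℕ} [Fact p.Prime] (hG : IsPGroup p G) (E : Subgroup G) (hE : Cfsg.IsExtraspecial p E) (h : ⁅(⊤ : Subgroup G), E⁆ ≤ E ⊓ Subgroup.centralizer (E : Set G)) : E ⊔ Subgroup.centralizer (E : Set G) = ⊤ := by
  open CF.Transfer Subgroup in
  have hZ : Nat.card (E ⊓ centralizer (E : Set G) : Subgroup G) = p := by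
    rw [← CF.Solv.center_map_subtype, card_map_of_injective E.subtype_injective, hE.2]
  have : E.Normal := by
    rw [← normalizer_eq_top_iff, eq_top_iff, le_normalizer_iff_commutator_le_right]
    exact h.trans inf_le_left
  have : (E ⊓ centralizer (E : Set G)).Normal := inferInstance
  have h1 := CF.Fgs1.le_center_of_card_prime hG hZ
  have h2 := CF.Fgs1.relIndex_centralizer_eq (A := ⊤) (B := E) hZ
    (by rw [coe_top, centralizer_univ]; exact h1) inf_le_right h
  rw [coe_top, centralizer_univ, relIndex_top_right] at h2
  have h3 : (center G).relIndex E = (centralizer (E : Set G)).relIndex E := by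
    rw [← inf_relIndex_right, ← inf_relIndex_right (centralizer (E : Set G))]
    congr 1
    exact le_antisymm (inf_le_inf_right _ (center_le_centralizer _))
      (le_inf ((inf_comm _ E).le.trans h1) inf_le_right)
  have h4 := relIndex_mul_index (le_sup_right : centralizer (E : Set G) ≤ E ⊔ centralizer (E : Set G))
  rw [relIndex_sup_right, ← h3, ← h2] at h4
  rw [← index_eq_one]
  exact Nat.eq_of_mul_eq_mul_left (Nat.pos_of_ne_zero index_ne_zero_of_finite) (h4.trans (mul_one _).symm)

end Cfsg.Agent.S0110
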