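import Cfsg.Statements.S0114
import Cfsg.Agent.Fgs2.MaxClass
import Cfsg.Agent.Fgs2.DQS

set_option autoImplicit false
open Cfsg

namespace Cfsg.Agent.S0114

/-- The central quotient of a 2-group of maximal class is dihedral. -/
theorem result {X : Type*} [Group X] [Finite X] (n : ℕ) (hn : 3 ≤ n) (hX : Nat.card X = 2 ^ n) (hc : Group.nilpotencyClass X = n - 1) : Nonempty (X ⧸ Subgroup.center X ≃* DihedralGroup (2 ^ (n - 2))) := by
  open Subgroup in
  have hp := IsPGroup.of_card hX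
  have h0 := (CF.Fgs2.nilpotencyClass_eq_iff hX (by omega)).1 hc
  have h1 : (_root_.commutator X).index = 4 :=
    CF.Fgs2.index_lcs_of_maxClass hX hn h0 (r := 1) le_rfl (by omega)
  obtain ⟨m, a, c, h2, h3, h4, h5, h6, h7⟩ := CF.Fgs2.taussky hp h1 fun h8 => by
    rw [(commutator_eq_bot_iff X).2 h8, index_bot, hX] at h1
    have : 2 ^ 3 ≤ 2 ^ n := Nat.pow_le_pow_right two_pos hn
    omega
  obtain rfl : n = m + 1 := Nat.pow_right_injective le_rfl (hX.symm.trans h3)
  obtain ⟨m, rfl⟩ : ∃ k, m = k + 2 := ⟨m - 2, by omega⟩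
  have htop := CF.Solv.closure_pair_eq_top_of_index_prime Nat.prime_two h5 h6
  have hZa : center X ≤ zpowers a := fun z hz => by
    by_contra h8
    obtain ⟨k, e, -, h9⟩ := CF.Fgs2.DQS_conj h7 h5 h6 h8
    have h10 := (CF.Solv.commute_iff_dvd_of_conj_eq' h4 e).1 (mem_center_iff.1 hz a).symm
    have h11 : (4 : ℤ) ∣ k - 1 := dvd_trans ⟨2 ^ m, by push_cast; ring⟩ h10
    omega
  have hZ : center X = zpowers (a ^ 2 ^ (m + 1)) := by
    refine Eq.trans (le_antisymm (le_inf hZa (center_le_centralizer _)) fun z hz => ?_)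
      (CF.Fgs2.DQS_inf_centralizer h7 (by omega) h4 h5 h6 h6)
    rw [← centralizer_univ, ← coe_top, ← htop, centralizer_closure]
    rintro _ (rfl | rfl)
    · exact hz.2 _ rfl
    · obtain ⟨i, rfl⟩ := hz.1
      exact (Commute.self_zpow _ i).eq
  have key : ∀ x : X, (x : X ⧸ center X) = 1 ↔ x ∈ zpowers (a ^ 2 ^ (m + 1)) := fun x => by
    rw [QuotientGroup.eq_one_iff, hZ]
  have h8 : orderOf (a : X ⧸ center X) = 2 ^ (m + 1) := by
    refine orderOf_eq_prime_pow (fun h => ?_) ((key _).2 (mem_zpowers _))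
    have h9 := orderOf_dvd_of_mem_zpowers ((key (a ^ 2 ^ m)).1 h)
    rw [show orderOf (a ^ 2 ^ (m + 1)) = 2 from
      CF.Fgs2.orderOf_pow_pred Nat.prime_two (by omega) h4, orderOf_dvd_iff_pow_eq_one, ← pow_mul,
      ← orderOf_dvd_iff_pow_eq_one, h4, ← pow_succ,
      Nat.pow_dvd_pow_iff_le_right one_lt_two] at h9
    omega
  obtain ⟨k, e, ⟨j, hj⟩, -⟩ := h7.exists_conj_eq
  obtain ⟨f⟩ := CF.Invol.nonempty_closure_equiv_dihedral h8 (t := (c : X ⧸ center X))
    (by rw [← sq]; exact (key _).2 (CF.Fgs2.DQS_sq_mem h7 h5 h6 h6))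
    (by
      rw [← mul_eq_one_iff_eq_inv]
      refine (key (c * a * c⁻¹ * a)).2 ⟨j, ?_⟩
      rw [e, ← zpow_add_one, hj, zpow_mul]
      norm_cast)
    (by
      rintro ⟨i, hi⟩
      have := hZa (QuotientGroup.eq.1 (hi : ((a ^ i : X) : X ⧸ center X) = c))
      exact h6 (((zpowers a).mul_mem_cancel_left (inv_mem ⟨i, rfl⟩)).1 this))
  have h9 : Subgroup.closure {(c : X ⧸ center X), (a : X ⧸ center X)} = ⊤ := by
    have := congrArg (map (QuotientGroup.mk' (center X))) htop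
    rw [MonoidHom.map_closure, map_top_of_surjective _ (QuotientGroup.mk'_surjective _),
      Set.image_pair] at this
    exact this
  exact ⟨(topEquiv.symm.trans (MulEquiv.subgroupCongr h9.symm)).trans f⟩

end Cfsg.Agent.S0114
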