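import Cfsg.Statements.S0115
import Cfsg.Agent.Fgs2.MaxClass
import Cfsg.Agent.Fgs2.DQS

set_option autoImplicit false
open Cfsg

namespace Cfsg.Agent.S0115

/-- A 2-group of order 2^n, n ≥ 3, is of maximal class exactly when its commutator quotient is a Klein four-group. -/
theorem result {X : Type*} [Group X] [Finite X] (n : ℕ) (hn : 3 ≤ n) (hX : Nat.card X = 2 ^ n) : Group.nilpotencyClass X = n - 1 ↔ IsKleinFour (X ⧸ commutator X) := by
  open Subgroup in
  have hp := IsPGroup.of_card hX
  constructor
  · intro hc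
    have h0 := (CF.Fgs2.nilpotencyClass_eq_iff hX (by omega)).1 hc
    have h1 : (_root_.commutator X).index = 4 :=
      CF.Fgs2.index_lcs_of_maxClass hX hn h0 (r := 1) le_rfl (by omega)
    refine ⟨h1, ?_⟩
    have h2 : ¬ IsCyclic (X ⧸ _root_.commutator X) := fun h => by
      have h3 : ¬ IsCyclic X := CF.Fgs2.not_isCyclic_of_lcs_ne_bot (r := n - 3)
        (by rwa [show n - 3 + 1 = n - 2 by omega])
      exact h3 (CF.Solv.isCyclic_of_isCyclic_quotient_frattini (isCyclic_of_surjective
        (QuotientGroup.map _ _ (MonoidHom.id X) (CF.Solv.commutator_le_frattini_of_isPGroup hp))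
        (QuotientGroup.map_surjective_of_surjective _ _ _ QuotientGroup.mk_surjective _)))
    exact (not_isCyclic_iff_exponent_eq_prime Nat.prime_two h1).1 h2
  · intro h
    have h1 : (_root_.commutator X).index = 4 := h.card_four
    obtain ⟨m, a, c, h2, h3, h4, h5, h6, h7⟩ := CF.Fgs2.taussky hp h1 fun h8 => by
      rw [(commutator_eq_bot_iff X).2 h8, index_bot, hX] at h1
      have : 2 ^ 3 ≤ 2 ^ n := Nat.pow_le_pow_right two_pos hn
      omega
    rw [CF.Fgs2.DQS_nilpotencyClass h7 (by omega) h4 h5 h6]
    have := Nat.pow_right_injective le_rfl (hX.symm.trans h3)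
    omega

end Cfsg.Agent.S0115
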