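import Cfsg.Statements.S0125
import Cfsg.Agent.BG2.P4a

set_option autoImplicit false
open Cfsg

namespace Cfsg.Agent.S0125

/-- The centralizer of a self-centralizing normal subgroup A of a Sylow p-subgroup is the direct product of A with a normal p'-subgroup. -/
theorem result {G : Type*} [Group G] [Finite G] {p : ℕ} [Fact p.Prime] (R : Sylow p G) (A : Subgroup G) (hAR : A ≤ (R : Subgroup G)) (hAn : (R : Subgroup G) ≤ Subgroup.normalizer (A : Set G)) (hC : (R : Subgroup G) ⊓ Subgroup.centralizer (A : Set G) = A) : ∃ H : Subgroup G, H ≤ Subgroup.centralizer (A : Set G) ∧ Nat.Coprime (Nat.card H) p ∧ Subgroup.centralizer (A : Set G) ≤ Subgroup.normalizer (H : Set G) ∧ H ⊓ A = ⊥ ∧ H ⊔ A = Subgroup.centralizer (A : Set G) := by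
  have h1 : CF.BG.SCN A (R : Subgroup G) := CF.BG.SCN.mk' ⟨hAR, hAn⟩
    (le_trans hC.ge inf_le_right) hC.le
  have h2 := h1.dprod_cent (CF.BG.syl_sylow_top R)
  rw [top_inf_eq] at h2
  refine ⟨_, h2.right_le, ?_, h2.normal_right.norm, h2.symm.inf, h2.symm.sup⟩
  exact (CF.BG.piNat_compl_single_iff_coprime Fact.out).1 (CF.BG.O_pi _ _)

end Cfsg.Agent.S0125
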