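import Cfsg.Statements.S0129
import Cfsg.Agent.Pgp.A

set_option autoImplicit false
open Cfsg

namespace Cfsg.Agent.S0129


/-- The order of a p-group is bounded by p^(a(a+1)/2) when it has a maximal normal abelian subgroup of order p^a. -/
theorem result {G : Type*} [Group G] [Finite G] {p : ℕ} [Fact p.Prime] (hG : IsPGroup p G) (A : Subgroup G) [A.Normal] (hA : IsMulCommutative A) (hmax : ∀ B : Subgroup G, B.Normal → IsMulCommutative B → A ≤ B → B = A) (a : ℕ) (ha : Nat.card A = p ^ a) : Nat.card G ≤ p ^ (a * (a + 1) / 2) := by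
  open CF.BG CF.BG2 CF.Pgp in
  have hp : p.Prime := Fact.out
  have k := piGrp_top hp hG
  have s := k.nil.scn_of_max (normalIn_top.2 ‹_›) (Abel.of_comm hA)
    fun B b1 b2 b3 => hmax B (normalIn_top.1 b1) b2.comm b3
  have h := relIndex_cent_le_normal hp k a A s.normal (by rw [ha, logn_pow hp])
  have e : a * (a + 1) / 2 = a + a * (a - 1) / 2 := by
    have := Nat.choose_succ_succ' a 1
    rw [Nat.choose_two_right, Nat.choose_two_right] at this
    simpa [mul_comm] using this
  rw [← card_top', ← card_inf_mul_relIndex (Subgroup.centralizer (A : Set G)) ⊤, inf_comm, s.cent, ha,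
    e, pow_add]
  exact Nat.mul_le_mul_left _ h

end Cfsg.Agent.S0129
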