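import Cfsg.Statements.S0131
import Cfsg.Agent.Transfer.Tate

set_option autoImplicit false
open Cfsg

namespace Cfsg.Agent.S0131

/-- P/P' has a normal complement in G exactly when the focal subgroup G' ∩ P is as small as possible, namely P'. -/
theorem result {G : Type*} [Group G] [Finite G] {p : ℕ} [Fact p.Prime] (P : Sylow p G) : (∃ N : Subgroup G, N.Normal ∧ N ⊓ (P : Subgroup G) = ⁅(P : Subgroup G), (P : Subgroup G)⁆ ∧ N ⊔ (P : Subgroup G) = ⊤) ↔ commutator G ⊓ (P : Subgroup G) = ⁅(P : Subgroup G), (P : Subgroup G)⁆ := by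
  constructor
  · rintro ⟨N, hN, h1, h2⟩
    refine le_antisymm (h1 ▸ inf_le_inf_right _ ?_)
      (le_inf (Subgroup.commutator_mono le_top le_top) (Subgroup.commutator_le_self _))
    have h3 : ⁅(P : Subgroup G), (P : Subgroup G)⁆ ≤ N := h1 ▸ inf_le_left
    have h4 : (P : Subgroup G).map (QuotientGroup.mk' N) = ⊤ := by
      rw [← Subgroup.map_top_of_surjective _ (QuotientGroup.mk'_surjective N), ← h2,
        Subgroup.map_sup, QuotientGroup.map_mk'_self, bot_sup_eq]
    rw [← QuotientGroup.ker_mk' N, ← Subgroup.map_eq_bot_iff] at h3 ⊢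
    rw [commutator_def, Subgroup.map_commutator,
      Subgroup.map_top_of_surjective _ (QuotientGroup.mk'_surjective N), ← h4,
      ← Subgroup.map_commutator, h3]
  · intro h
    obtain ⟨N, hN, -, h1, h2⟩ := CF.Transfer.exists_normal_inf_sylow_eq P
    exact ⟨N, hN, h1.trans h, h2⟩

end Cfsg.Agent.S0131
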