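import Cfsg.Statements.S0132
import Cfsg.Agent.Transfer.Ctrl
import Cfsg.Agent.SolvStr.Kegel

set_option autoImplicit false
open Cfsg

namespace Cfsg.Agent.S0132

/-- A minimal non-p-nilpotent finite group is a minimal non-nilpotent group with a normal Sylow p-subgroup. -/
theorem result {G : Type*} [Group G] [Finite G] {p : ℕ} [Fact p.Prime] (h1 : ¬ Cfsg.HasNormalPComplement p G) (h2 : ∀ H : Subgroup G, H ≠ ⊤ → Cfsg.HasNormalPComplement p H) : (∀ H : Subgroup G, H ≠ ⊤ → Group.IsNilpotent H) ∧ ¬ Group.IsNilpotent G ∧ ∀ P : Sylow p G, (P : Subgroup G).Normal := by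
  open CF.Transfer Subgroup in
  have key : ∀ P : Sylow p G, (P : Subgroup G).Normal ∧ ∃ q : ℕ, q.Prime ∧ ∃ k : ℕ,
      ∀ x : G, x ^ q ^ k ∈ (P : Subgroup G) := by
    intro P
    obtain ⟨Q, hQ, q, g, hq, hqp, ⟨k, hk⟩, h3, h4⟩ := exists_qElt_not_centralize h1 P
    have hc : (orderOf g).Coprime p :=
      hk ▸ ((Nat.coprime_primes hq Fact.out).2 hqp).pow_left k
    have h5 : zpowers g ⊔ Q = ⊤ := by
      by_contra h5
      exact h4 (HasNPC.mem_centralizer (h2 _ h5) (P.isPGroup'.to_le hQ) le_sup_right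
        (mem_sup_left (mem_zpowers g)) h3 hc)
    have hn : Q.Normal := by
      rw [← normalizer_eq_top_iff, eq_top_iff, ← h5]
      exact sup_le (zpowers_le.2 h3) le_normalizer
    have h6 : Q.index ∣ orderOf g := by
      rw [← relIndex_top_right, ← h5, relIndex_sup_right, ← Nat.card_zpowers]
      exact relIndex_dvd_card _ _
    have h7 : IsSylowIn p Q ⊤ := isSylowIn_iff.2 ⟨le_top, P.isPGroup'.to_le hQ, by
      rw [relIndex_top_right]
      exact fun e => ((Nat.Prime.coprime_iff_not_dvd Fact.out).1 hc.symm) (e.trans h6)⟩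
    rw [h7.eq_of_le P.isPGroup' hQ le_top]
    refine ⟨hn, q, hq, k, fun x => ?_⟩
    obtain ⟨m, hm⟩ := h6
    rw [← hk, hm, pow_mul]
    exact pow_mem (Q.pow_index_mem x) m
  refine ⟨fun H hH => ?_, fun h => h1 (CF.SolvStr.hasNPC_of_isNilpotent p), fun P => (key P).1⟩
  let P : Sylow p G := default
  obtain ⟨hn, q, hq, k, h3⟩ := key P
  have := Fact.mk hq
  obtain ⟨S, hS⟩ := exists_isSylowIn p H
  have h4 : S ≤ P := (isSylowIn_top P).le_of_le_normalizer hS.isPGroup le_top le_normalizer_of_normal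
  have h5 := hasNPC_subgroup_iff_coprime.1 (h2 H hH)
  have h6 : IsPGroup q (pRes p H) := fun x => ⟨k, Subtype.ext
    (eq_one_of_mem_pGroup_of_coprime P.isPGroup' (h3 x) (coprime_orderOf_of_mem h5 (pow_mem x.2 _)))⟩
  rw [← hS.sup_pRes]
  exact CF.SolvStr.isNilpotent_sup_of_isPGroup hS.isPGroup h6 (le_centralizer_iff.1
    ((commutator_eq_bot_iff_le_centralizer.1 (eq_bot_iff.2 fun x hx =>
      eq_one_of_mem_pGroup_of_coprime P.isPGroup'
        (((commutator_mono le_rfl h4).trans (commutator_le_right _ _)) hx)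
        (coprime_orderOf_of_mem h5 (le_normalizer_iff_commutator_le_left.1
          (hS.le.trans (le_normalizer_pRes H)) hx))))))

end Cfsg.Agent.S0132
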