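import Cfsg.Statements.S0142
import Cfsg.Agent.Char.Integral

set_option autoImplicit false
open Cfsg

namespace Cfsg.Agent.S0142

/-- If the degree of an irreducible complex representation of a finite group is coprime to the size of the conjugacy class of g, then the character at g is zero or has absolute value equal to the degree. -/
theorem result {G : Type*} [Group G] [Finite G] {V : Type*} [AddCommGroup V] [Module ℂ V] [FiniteDimensional ℂ V] (ρ : Representation ℂ G V) [ρ.IsIrreducible] (g : G) (hcop : Nat.Coprime (Module.finrank ℂ V) (Subgroup.centralizer ({g} : Set G)).index) : ρ.character g = 0 ∨ ‖ρ.character g‖ = (Module.finrank ℂ V : ℝ) := by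
  have := CF.Char.irr_eq_zero_or_norm_eq (CF.Char.isIrrCharacter_character ρ) ρ.char_one g hcop
  rwa [ρ.char_one, Complex.norm_natCast] at this

end Cfsg.Agent.S0142
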