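import Cfsg.Statements.S0149
import Cfsg.Agent.PF.Dade

set_option autoImplicit false
open Cfsg

namespace Cfsg.Agent.S0149

open CF.PF
open scoped ComplexConjugate

theorem nti {G : Type*} [Group G] [Finite G] (T : Set G)
    (hTI : ∀ g : G, g ∉ Subgroup.normalizer T → ∀ t ∈ T, g * t * g⁻¹ ∈ T → t = 1)
    (hTN : T ⊆ Subgroup.normalizer T) : NTI (T \ {1}) ⊤ (Subgroup.normalizer T) := by
  refine ⟨fun x hx => hTN hx.1, le_top, fun x hx a ha => ⟨(hx a).1 ha.1, fun e => ha.2 ?_⟩,
    fun a ha g _ hg => ?_⟩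
  · simpa using e
  · by_contra h; exact ha.2 (hTI g h a ha.1 hg.1)

/-- Let T be a subset of G meeting each of its conjugates by elements outside its normalizer N only in the identity, and let ψ be a class function of N vanishing on N away from T. Then the function induced from ψ agrees with ψ at every non-identity element of T. -/
theorem result {G : Type*} [Group G] [Fintype G] (T : Set G) (hTI : ∀ g : G, g ∉ Subgroup.normalizer T → ∀ t ∈ T, g * t * g⁻¹ ∈ T → t = 1) (hTN : T ⊆ Subgroup.normalizer T) (ψ : Subgroup.normalizer T → ℂ) (hψ : Cfsg.IsClassFunction (Subgroup.normalizer T) ψ) (hψT : ∀ x : Subgroup.normalizer T, (x : G) ∉ T → ψ x = 0) (t : Subgroup.normalizer T) (htT : (t : G) ∈ T) (ht1 : t ≠ 1) : Cfsg.indFun (Subgroup.normalizer T) ψ t = ψ t := by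
  rw [indFun_eq_ind, (nti T hTI hTN).ind_eq (extendByZero_mem_CFn hψ) (a := t)
    ⟨htT, fun e => ht1 (Subtype.ext e)⟩, extendByZero_coe]
  intro g _ hg
  by_cases h : g * t * g⁻¹ ∈ Subgroup.normalizer T
  · rw [extendByZero_of_mem _ _ h]
    refine hψT _ fun h' => hg ⟨h', fun e => ht1 (Subtype.ext ?_)⟩
    simpa using e
  · exact extendByZero_of_notMem _ _ h

end Cfsg.Agent.S0149
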