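import Cfsg.Statements.S0150
import Cfsg.Agent.S0149

set_option autoImplicit false
open Cfsg

namespace Cfsg.Agent.S0150

open CF.PF
open scoped ComplexConjugate

/-- Let T be a subset of G meeting each of its conjugates by elements outside its normalizer N only in the identity. If ψ and θ are class functions of N vanishing on N away from T and ψ 1 = 0, then the inner product of the induced functions over G equals the inner product of ψ and θ over N. -/
theorem result {G : Type*} [Group G] [Fintype G] (T : Set G) (hTI : ∀ g : G, g ∉ Subgroup.normalizer T → ∀ t ∈ T, g * t * g⁻¹ ∈ T → t = 1) (hTN : T ⊆ Subgroup.normalizer T) [Fintype (Subgroup.normalizer T)] (ψ θ : Subgroup.normalizer T → ℂ) (hψ : Cfsg.IsClassFunction (Subgroup.normalizer T) ψ) (hθ : Cfsg.IsClassFunction (Subgroup.normalizer T) θ) (hψT : ∀ x : Subgroup.normalizer T, (x : G) ∉ T → ψ x = 0) (hθT : ∀ x : Subgroup.normalizer T, (x : G) ∉ T → θ x = 0) (hψ1 : ψ 1 = 0) : Cfsg.classInner (Cfsg.indFun (Subgroup.normalizer T) ψ) (Cfsg.indFun (Subgroup.normalizer T)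 θ) = Cfsg.classInner ψ θ := by
  have hN := S0149.nti T hTI hTN
  have h1 : extendByZero _ ψ ∈ Supp (T \ {1}) := fun x hx => by
    by_cases h : x ∈ Subgroup.normalizer T
    · rw [extendByZero_of_mem _ _ h]
      by_cases e : x = 1
      · subst e; exact hψ1
      · exact hψT _ fun h' => hx ⟨h', e⟩
    · exact extendByZero_of_notMem _ _ h
  rw [indFun_eq_ind, indFun_eq_ind, ← ip_top, ← ip_extendByZero,
    ip_ind_left' le_top _ (ind_mem_CFn le_top _)]
  refine ip_congr_of_supp _ h1 fun x hx _ => hN.ind_eq (extendByZero_mem_CFn hθ) hx fun g _ hg => ?_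
  by_cases h : g * x * g⁻¹ ∈ Subgroup.normalizer T
  · rw [extendByZero_of_mem _ _ h]
    refine hθT _ fun h' => hg ⟨h', fun e => hx.2 ?_⟩
    simpa using e
  · exact extendByZero_of_notMem _ _ h

end Cfsg.Agent.S0150
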