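import Mathlib
import Cfsg.Agent.Fgs2.Split
import Cfsg.Statements.S0166

set_option autoImplicit false
open Cfsg

namespace Cfsg.Agent.S0166

/-- Brauer's splitting field Theorem: a complex representation of a finite group of exponent m is equivalent to a representation by matrices with entries in ℚ adjoined exp(2πi/m). -/
theorem result {G : Type*} [Group G] [Finite G] (n : ℕ) (ρ : Representation ℂ G (Fin n → ℂ)) : ∃ σ : Representation ℂ G (Fin n → ℂ), Nonempty (ρ.Equiv σ) ∧ ∀ g : G, ∀ i j : Fin n, LinearMap.toMatrix' (σ g) i j ∈ Algebra.adjoin ℚ ({Complex.exp (2 * Real.pi * Complex.I / (Monoid.exponent G : ℂ))} : Set ℂ) := by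
  have hm : Monoid.exponent G ≠ 0 := Monoid.exponent_ne_zero_of_finite
  have : NeZero (Monoid.exponent G) := ⟨hm⟩
  have hζ := Complex.isPrimitiveRoot_exp _ hm
  set ζ := Complex.exp (2 * Real.pi * Complex.I / (Monoid.exponent G : ℂ)) with hζd
  have halg : IsAlgebraic ℚ ζ := ((hζ.isIntegral (Nat.pos_of_ne_zero hm)).tower_top).isAlgebraic
  let K := IntermediateField.adjoin ℚ ({ζ} : Set ℂ)
  have h1 : CF.Fgs2.KC (algebraMap K ℂ) ρ.character :=
    CF.Fgs2.kc_of_char (fun z hz => by
      obtain ⟨i, -, rfl⟩ := hζ.eq_pow_of_pow_eq_one hz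
      exact ⟨⟨_, pow_mem (IntermediateField.mem_adjoin_simple_self ℚ ζ) i⟩, rfl⟩) ⟨n, ρ, rfl⟩
  obtain ⟨n', σ, h2, h3⟩ := h1.exists_rep
  have h4 : n' = n := by
    have h5 := congrFun h2 1
    simpa [Representation.char_one] using h5
  subst h4
  refine ⟨σ, CF.Char.nonempty_equiv_of_character_eq ρ σ h2.symm, fun g i j => ?_⟩
  obtain ⟨x, hx⟩ := h3 g i j
  rw [← hx, ← IntermediateField.adjoin_simple_toSubalgebra_of_isAlgebraic halg]
  exact x.2

end Cfsg.Agent.S0166
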