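import Cfsg.Statements.S0170
import Cfsg.Agent.S0149
import Cfsg.Agent.PF.Virt

set_option autoImplicit false
open Cfsg

namespace Cfsg.Agent.S0170

open CF.PF
open scoped ComplexConjugate

/-- Exceptional characters. Let S be a subset of a finite group contained in its normalizer N and meeting its conjugates by elements outside N only in the identity. Given n ≥ 2 distinct irreducible characters of N of equal degree that vanish on N away from S, there exist a sign ε and n distinct irreducible characters θ_i of G such that inducing χ_i − χ_j to G gives ε (θ_i − θ_j) for all i, j. -/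
theorem result {G : Type*} [Group G] [Fintype G] (S : Set G) (hSN : S ⊆ Subgroup.normalizer S) (hTI : ∀ g : G, g ∉ Subgroup.normalizer S → ∀ s ∈ S, g * s * g⁻¹ ∈ S → s = 1) (n : ℕ) (hn : 2 ≤ n) (χ : Fin n → (Subgroup.normalizer S → ℂ)) (hirr : ∀ i, Cfsg.IsIrrCharacter (Subgroup.normalizer S) (χ i)) (hinj : Function.Injective χ) (hvan : ∀ i, ∀ x : Subgroup.normalizer S, (x : G) ∉ S → χ i x = 0) (hdeg : ∀ i j, χ i 1 = χ j 1) : ∃ ε : ℂ, (ε = 1 ∨ ε = -1) ∧ ∃ θ : Fin n → (G → ℂ), (∀ i, Cfsg.IsIrrCharacter G (θ i)) ∧ Function.Injective θ ∧ ∀ i j, Cfsg.indFun (Subgroup.normalizer S) (χ i) - Cfsg.indFun (Subgroup.normalizer S) (χ j) = ε • (θ i - θ j) := by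
  classical
  have hN := S0149.nti S hTI hSN
  clear hSN hTI
  generalize Subgroup.normalizer S = N at *
  let i₀ : Fin n := ⟨0, by omega⟩
  let c : Fin n → G → ℂ := fun i => extendByZero N (χ i)
  have hc : ∀ i, c i ∈ irr N := fun i => extendByZero_mem_irr.2 (hirr i)
  have hcinj : Function.Injective c := (extendByZero_injective N).comp hinj
  have h1 : ∀ i j, c i 1 = c j 1 := fun i j => by
    simpa only [c, ← extendByZero_coe N, OneMemClass.coe_one] using hdeg i j
  have hs : ∀ i, c i - c i₀ ∈ Supp (S \ {1}) := fun i x hx => by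
    by_cases e : x = 1
    · subst e; simp [h1 i i₀]
    · have hx' : x ∉ S := fun h => hx ⟨h, e⟩
      by_cases h : x ∈ N
      · simp [c, extendByZero_of_mem _ _ h, hvan _ ⟨x, h⟩ hx']
      · simp [c, extendByZero_of_notMem _ _ h]
  have hz : ∀ i, c i - c i₀ ∈ ZIrr N := fun i => sub_mem (zirr_of_irr (hc i)) (zirr_of_irr (hc i₀))
  have hip : ∀ i j, rip ⊤ (ind N ⊤ (c i - c i₀)) (ind N ⊤ (c j - c i₀)) =
      rip N (c i - c i₀) (c j - c i₀) := fun i j =>
    congrArg Complex.re (hN.ip_ind (hs i) (cfn_of_zirr (hz j)) (hs j))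
  obtain ⟨ε, hε, μ, hμ, hμi, e⟩ := exists_sign_irr (H := ⊤) Finset.univ i₀
    (fun i => ind N ⊤ (c i - c i₀)) (by simp) (fun i _ => ZIrr.ind le_top (hz i))
    (fun i _ => by rw [ind_one le_top]; simp [h1 i i₀])
    (fun i _ hi => by
      rw [hip]; simp [rip_irr (hc _) (hc _), hcinj.eq_iff, hi, hi.symm]; norm_num)
    (fun i _ j _ hi hj hij => by
      rw [hip]; simp [rip_irr (hc _) (hc _), hcinj.eq_iff, hi, hj.symm, hij])
  refine ⟨ε, by rcases hε with h | h <;> simp [h], μ, fun i => mem_irr_top.1 (hμ i (by simp)),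
    fun i j h => hμi (by simp) (by simp) h, fun i j => ?_⟩
  have : indFun N (χ i) - indFun N (χ j) = ind N ⊤ (c i - c i₀) - ind N ⊤ (c j - c i₀) := by
    rw [indFun_eq_ind, indFun_eq_ind, map_sub, map_sub]; abel
  rw [this, e i (by simp), e j (by simp), ← smul_sub, Complex.coe_smul]; congr 1; abel

end Cfsg.Agent.S0170
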