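import Cfsg.Statements.S0172
import Mathlib


set_option autoImplicit false
open Cfsg

namespace Cfsg.Agent.S0172

/-- Class number of a Frobenius group: if G = K H with K normal, K ⊓ H trivial and no non-identity element of H commuting with a non-identity element of K, then |H| * k(G) + 1 = |H| * k(H) + k(K), where k denotes the number of conjugacy classes. -/
theorem result {G : Type*} [Group G] [Finite G] (K H : Subgroup G) [K.Normal] (hKH : K ⊓ H = ⊥) (hKH' : K ⊔ H = ⊤) (hfpf : ∀ h ∈ H, h ≠ 1 → ∀ k ∈ K, h * k = k * h → k = 1) : Nat.card H * Nat.card (ConjClasses G) + 1 = Nat.card H * Nat.card (ConjClasses H) + Nat.card (ConjClasses K) := by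
  classical
  have := Fintype.ofFinite G
  have key : ∀ (L : Type _) [Group L] [Fintype L],
      ∑ g : L, Nat.card (Subgroup.centralizer ({g} : Set L)) =
        Nat.card (ConjClasses L) * Nat.card L := fun L _ _ => by
    rw [← card_comm_eq_card_conjClasses_mul_card, ← Nat.card_sigma]
    exact Nat.card_congr ⟨fun x => ⟨(x.1, x.2), (Subgroup.mem_centralizer_singleton_iff.1 x.2.2).symm⟩,
      fun x => ⟨x.1.1, x.1.2, Subgroup.mem_centralizer_singleton_iff.2 x.2.symm⟩,
      fun _ => rfl, fun _ => rfl⟩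
  have sub : ∀ (L : Subgroup G) (g : L), Subgroup.centralizer ({(g : G)} : Set G) ≤ L →
      Nat.card (Subgroup.centralizer ({(g : G)} : Set G)) =
        Nat.card (Subgroup.centralizer ({g} : Set L)) := fun L g h => by
    rw [← Nat.card_congr (Subgroup.subgroupOfEquivOfLe h).toEquiv]
    congr 2
    ext x
    simp [Subgroup.mem_subgroupOf, Subgroup.mem_centralizer_singleton_iff, Subtype.ext_iff]
  have hc : K.IsComplement' H := Subgroup.isComplement'_of_disjoint_and_mul_eq_univ
    (disjoint_iff.2 hKH) (by rw [← Subgroup.normal_mul, hKH']; rfl)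
  have hcard : Nat.card K * Nat.card H = Nat.card G := hc.card_mul
  have h1 : ∀ h ∈ H, h ∈ K → h = 1 := fun h a b => by
    rw [← Subgroup.mem_bot, ← hKH]; exact ⟨b, a⟩
  have h2 : ∀ k ∈ K, ∀ k' ∈ K, ∀ h ∈ H, ∀ h' ∈ H, k * h * k' = h' → h = h' := by
    intro k hk k' hk' h hh h' hh' e
    refine mul_inv_eq_one.1 (h1 _ (H.mul_mem hh (H.inv_mem hh')) ?_)
    have := K.mul_mem (Subgroup.Normal.conj_mem ‹_› _ (K.inv_mem hk') h) (K.inv_mem hk)
    rw [← e]
    convert this using 1
    group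
  let f : K × {h : H // h ≠ 1} → {g : G // g ∉ K} := fun x =>
    ⟨x.1 * x.2.1 * (x.1 : G)⁻¹, fun e => x.2.2 (Subtype.ext (h1 _ x.2.1.2 (by
      rwa [K.mul_mem_cancel_right (K.inv_mem x.1.2), K.mul_mem_cancel_left x.1.2] at e)))⟩
  have hf : Function.Bijective f := by
    refine (Nat.bijective_iff_injective_and_card f).2 ⟨?_, ?_⟩
    · rintro ⟨⟨k, hk⟩, ⟨h, hh⟩, h0⟩ ⟨⟨k', hk'⟩, ⟨h', hh'⟩, h0'⟩ e
      have e1 : k * h * k⁻¹ = k' * h' * k'⁻¹ := congrArg Subtype.val e
      have e2 : k'⁻¹ * k * h * (k⁻¹ * k') = h' := by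
        calc _ = k'⁻¹ * (k * h * k⁻¹) * k' := by group
          _ = h' := by rw [e1]; group
      obtain rfl := h2 _ (K.mul_mem (K.inv_mem hk') hk) _ (K.mul_mem (K.inv_mem hk) hk') h hh h' hh' e2
      obtain rfl : k' = k := inv_mul_eq_one.1 (hfpf h hh (fun e => h0 (Subtype.ext e)) _
        (K.mul_mem (K.inv_mem hk') hk) (by nth_rewrite 1 [← e2]; group))
      rfl
    · have a1 := Fintype.card_subtype_compl (fun h : H => h = 1)
      have a2 := Fintype.card_subtype_compl (fun g : G => g ∈ K)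
      simp only [← Nat.card_eq_fintype_card] at a1 a2
      rw [Nat.card_prod, a2, show Nat.card {h : H // h ≠ 1} = _ from a1, ← hcard, Nat.mul_sub]
      simp
  have c1 : ∀ h ∈ H, h ≠ 1 → Subgroup.centralizer ({h} : Set G) ≤ H := fun h hh h0 g hg => by
    obtain ⟨⟨⟨k, hk⟩, ⟨x, hx⟩⟩, rfl⟩ := (hc.existsUnique g).exists
    have e : k * x * h = h * (k * x) := Subgroup.mem_centralizer_singleton_iff.1 hg
    have e1 : x * h * x⁻¹ = h := h2 k hk k⁻¹ (K.inv_mem hk) _
      (H.mul_mem (H.mul_mem hx hh) (H.inv_mem hx)) h hh (by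
        calc _ = k * x * h * (x⁻¹ * k⁻¹) := by group
          _ = _ := by rw [e]; group)
    obtain rfl : k = 1 := hfpf h hh h0 k hk (by
      calc h * k = k * x * h * x⁻¹ := by rw [e]; group
        _ = k * h := by rw [mul_assoc k, mul_assoc k, e1])
    simpa using hx
  have c2 : ∀ k ∈ K, k ≠ 1 → Subgroup.centralizer ({k} : Set G) ≤ K := fun k hk h0 g hg => by
    by_contra hn
    obtain ⟨⟨⟨x, hx⟩, ⟨h, hh⟩, h3⟩, e⟩ := hf.2 ⟨g, hn⟩
    have e1 : x * h * x⁻¹ = g := congrArg Subtype.val e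
    have e2 : g * k = k * g := Subgroup.mem_centralizer_singleton_iff.1 hg
    have := hfpf h hh (fun e => h3 (Subtype.ext e)) (x⁻¹ * k * x)
      (Subgroup.Normal.conj_mem' ‹_› _ hk x) (by
        calc _ = x⁻¹ * (x * h * x⁻¹ * k) * x := by group
          _ = _ := by rw [e1, e2, ← e1]; group)
    exact h0 (by simpa [mul_assoc] using congrArg (fun y => x * y * x⁻¹) this)
  have top : ∀ (L : Type _) [Group L], Nat.card (Subgroup.centralizer ({1} : Set L)) = Nat.card L :=
    fun L _ => by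
      rw [(Subgroup.centralizer_eq_top_iff_subset).2 (by simp), Subgroup.card_top]
  have s0 := key G
  have s1 := key K
  have s2 := key H
  rw [← Fintype.sum_subtype_add_sum_subtype (· ∈ K), ← hf.sum_comp, Fintype.sum_prod_type] at s0
  rw [Fintype.sum_eq_add_sum_subtype_ne _ 1] at s0
  rw [Fintype.sum_eq_add_sum_subtype_ne _ 1, top] at s1 s2
  have t1 : ∀ (x : K) (y : {h : H // h ≠ 1}),
      Nat.card (Subgroup.centralizer ({(f (x, y) : G)} : Set G)) =
        Nat.card (Subgroup.centralizer ({y.1} : Set H)) := fun x y => by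
    rw [← sub H y.1 (c1 _ y.1.2 fun e => y.2 (Subtype.ext e))]
    refine Nat.card_congr ((MulAut.conj (x : G)).toEquiv.subtypeEquiv fun z => ?_).symm
    simp [f, Subgroup.mem_centralizer_singleton_iff, ← mul_assoc]
    simp [mul_assoc]
  simp only [t1, Finset.sum_const, Finset.card_univ, ← Nat.card_eq_fintype_card, smul_eq_mul,
    OneMemClass.coe_one, top] at s0
  rw [Finset.sum_congr rfl fun x _ => sub K x.1 (c2 _ x.1.2 fun e => x.2 (Subtype.ext e))] at s0
  refine Nat.eq_of_mul_eq_mul_left (Nat.card_pos (α := K)) ?_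
  rw [← hcard] at s0
  nlinarith

end Cfsg.Agent.S0172
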