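import Cfsg.Statements.S0184
import Cfsg.Agent.Char.More
import Cfsg.Agent.Solv.Nilpotent

set_option autoImplicit false
open Cfsg

namespace Cfsg.Agent.S0184

/-- A finite p-group admits a faithful irreducible complex representation if and only if its centre is cyclic. -/
theorem result {G : Type*} [Group G] [Finite G] (p : ℕ) [Fact p.Prime] (hG : IsPGroup p G) : (∃ (n : ℕ) (ρ : Representation ℂ G (Fin n → ℂ)), ρ.IsIrreducible ∧ Function.Injective ρ) ↔ IsCyclic (Subgroup.center G) := by
  constructor
  · rintro ⟨n, ρ, hρ, hinj⟩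
    refine CF.Char.isCyclic_center_of_faithful (CF.Char.isIrrCharacter_character ρ) ?_
    rw [CF.Char.charKer_character, (MonoidHom.ker_eq_bot_iff ρ).mpr hinj]
  · intro hc
    obtain ⟨lam, hlam⟩ := CF.Char.exists_linear_injective_of_isCyclic (G := Subgroup.center G)
    obtain ⟨χ, hχ, h⟩ := CF.Char.exists_irr_over_central (Subgroup.center G) le_rfl lam
    have hN := CF.Char.charKer_normal (CF.Char.irr_isClassFunction hχ)
    have hnil := hG.isNilpotent
    have hk : CF.Char.charKer χ = ⊥ := by
      by_contra h0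
      apply CF.Solv.normal_inf_center_ne_bot _ h0
      rw [eq_bot_iff]
      rintro z ⟨hz1, hz2⟩
      have h1 := h ⟨z, hz2⟩ 1
      rw [hz1 1, eq_comm, mul_eq_right₀ (CF.Char.irr_one_ne_zero hχ), Units.val_eq_one,
        map_eq_one_iff lam hlam] at h1
      exact congrArg Subtype.val h1
    obtain ⟨n, ρ, hρ, rfl⟩ := hχ
    rw [CF.Char.charKer_character, MonoidHom.ker_eq_bot_iff] at hk
    exact ⟨n, ρ, hρ, hk⟩

end Cfsg.Agent.S0184
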