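import Cfsg.Statements.S0185
import Cfsg.Agent.Char.More

set_option autoImplicit false
open Cfsg

namespace Cfsg.Agent.S0185

/-- If a finite group has a faithful complex representation of degree less than the smallest prime dividing its order, the group is abelian. -/
theorem result {G : Type*} [Group G] [Finite G] {V : Type*} [AddCommGroup V] [Module ℂ V] [FiniteDimensional ℂ V] (ρ : Representation ℂ G V) (hfaithful : Function.Injective ρ) (hdeg : ∀ p : ℕ, p.Prime → p ∣ Nat.card G → Module.finrank ℂ V < p) (a b : G) : a * b = b * a := by
  have h := CF.Char.commutator_le_charKer_of_lt (CF.Char.isCharacter_character ρ) ρ.char_one hdeg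
  rw [CF.Char.charKer_character, (MonoidHom.ker_eq_bot_iff ρ).mpr hfaithful, le_bot_iff] at h
  exact CF.Char.comm_of_commutator_eq_bot h a b

end Cfsg.Agent.S0185
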