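import Cfsg.Statements.S0186
import Cfsg.Agent.Char.More

set_option autoImplicit false
open Cfsg

namespace Cfsg.Agent.S0186

/-- Let G be a finite simple group of order n and p a prime dividing n. If G has more than n / p^2 conjugacy classes, then every Sylow p-subgroup of G is abelian. -/
theorem result {G : Type*} [Group G] [Finite G] [IsSimpleGroup G] (p : ℕ) [Fact p.Prime] (hp : p ∣ Nat.card G) (hmany : Nat.card G < p ^ 2 * Nat.card (ConjClasses G)) (P : Sylow p G) (a b : G) (ha : a ∈ P) (hb : b ∈ P) : a * b = b * a := by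
  classical
  have hpp : p.Prime := Fact.out
  by_contra hab
  have hP2 : p ^ 2 ∣ Nat.card G := by
    obtain ⟨k, hk⟩ := IsPGroup.iff_card.mp P.isPGroup'
    refine dvd_trans ?_ (P : Subgroup G).card_subgroup_dvd_card
    rw [hk]
    refine pow_dvd_pow p ?_
    by_contra hlt
    have hc : IsCyclic (P : Subgroup G) :=
      isCyclic_of_card_dvd_prime (p := p) (by
        rw [hk]; exact (pow_dvd_pow p (by omega)).trans (pow_one p).dvd)
    exact hab (congrArg Subtype.val (hc.isMulCommutative.is_comm.comm (⟨a, ha⟩ : (P : Subgroup G)) ⟨b, hb⟩))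
  choose d hd0 hd using fun χ : Cfsg.IrrCharacter G => CF.Char.irr_one_eq_nat χ.2
  have h1 : ∑ χ, d χ ^ 2 = Nat.card G := by
    have := CF.Char.sum_irr_one_sq (G := G)
    simp only [hd] at this
    exact_mod_cast this
  obtain ⟨χ, hχ1, hχ⟩ : ∃ χ, χ ≠ CF.Char.oneIrr G ∧ d χ < p := by
    by_contra H
    push Not at H
    rw [← Finset.add_sum_erase _ _ (Finset.mem_univ (CF.Char.oneIrr G))] at h1
    have h2 : (Finset.univ.erase (CF.Char.oneIrr G)).card • p ^ 2 ≤
        ∑ χ ∈ Finset.univ.erase (CF.Char.oneIrr G), d χ ^ 2 :=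
      Finset.card_nsmul_le_sum _ _ _ fun χ hχ =>
        Nat.pow_le_pow_left (H χ (Finset.mem_erase.mp hχ).1) 2
    rw [Finset.card_erase_of_mem (Finset.mem_univ _), Finset.card_univ, ← Nat.card_eq_fintype_card,
      CF.Char.card_irr, smul_eq_mul] at h2
    obtain ⟨m, hm⟩ := hP2
    have h3 : m < Nat.card (ConjClasses G) := by
      rw [hm] at hmany; exact Nat.lt_of_mul_lt_mul_left hmany
    have h4 : m * p ^ 2 ≤ (Nat.card (ConjClasses G) - 1) * p ^ 2 :=
      Nat.mul_le_mul_right _ (by omega)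
    have h5 := pow_pos (hd0 (CF.Char.oneIrr G)) 2
    rw [mul_comm] at hm
    omega
  have hk := CF.Char.charKer_eq_bot_of_simple χ.2 fun h => hχ1 (Subtype.ext h)
  have h2 := CF.Char.commutator_le_charKer_of_lt
    (CF.Char.char_restrict (CF.Char.irr_isCharacter χ.2) (P : Subgroup G)) (hd χ) fun q hq hqP => by
      obtain ⟨k, hk⟩ := IsPGroup.iff_card.mp P.isPGroup'
      rw [hk] at hqP
      rwa [(Nat.prime_dvd_prime_iff_eq hq hpp).mp (hq.dvd_of_dvd_pow hqP)]
  rw [CF.Char.charKer_restrict (CF.Char.irr_isCharacter χ.2), hk, Subgroup.bot_subgroupOf,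
    le_bot_iff] at h2
  exact hab (congrArg Subtype.val (CF.Char.comm_of_commutator_eq_bot h2 ⟨a, ha⟩ ⟨b, hb⟩))

end Cfsg.Agent.S0186
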