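import Cfsg.Statements.S0187
import Cfsg.Agent.Char.Orth

set_option autoImplicit false
open Cfsg

namespace Cfsg.Agent.S0187

/-- A finite group is commutative if and only if every irreducible complex character has degree 1. -/
theorem result {G : Type*} [Group G] [Finite G] : (∀ a b : G, a * b = b * a) ↔ ∀ χ : Cfsg.IrrCharacter G, (χ : G → ℂ) 1 = 1 := by
  refine ⟨fun h χ => CF.Char.irr_one_eq_one_of_comm h χ.2, fun h a b => ?_⟩
  have h1 : IsConj (a * b * a⁻¹ * b⁻¹) 1 := by
    rw [CF.Char.isConj_iff_irr_eq]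
    intro χ
    obtain ⟨lam, hlam⟩ := CF.Char.exists_linear_of_one (CF.Char.irr_isCharacter χ.2) (h χ)
    rw [hlam]
    simp [mul_comm (lam a), mul_assoc]
  have h2 := isConj_one_left.mp h1
  rwa [mul_inv_eq_one, mul_inv_eq_iff_eq_mul] at h2

end Cfsg.Agent.S0187
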