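import Cfsg.Statements.S0189
import Cfsg.Agent.Char.Induce

set_option autoImplicit false
open Cfsg

namespace Cfsg.Agent.S0189

/-- If a complex character of a finite group vanishes at every non-identity element of a Sylow p-subgroup P, then |P| divides its degree. -/
theorem result {G : Type*} [Group G] [Finite G] (p : ℕ) [Fact p.Prime] (P : Sylow p G) (χ : G → ℂ) (hχ : Cfsg.IsCharacter G χ) (hvan : ∀ g : G, g ∈ P → g ≠ 1 → χ g = 0) : ∃ k : ℕ, χ 1 = (Nat.card P : ℂ) * k := by
  have := Fintype.ofFinite (P : Subgroup G)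
  obtain ⟨k, hk⟩ := CF.Char.inner_char_eq_nat (CF.Char.char_restrict hχ (P : Subgroup G))
    CF.Char.char_const_one
  refine ⟨k, ?_⟩
  have h := CF.Char.card_mul_inner (fun x : (P : Subgroup G) => χ x) (fun _ => 1)
  rw [hk, Finset.sum_eq_single 1 (fun b _ hb => by
    rw [hvan b b.2 (by simpa using hb), zero_mul]) (by simp)] at h
  simpa using h.symm

end Cfsg.Agent.S0189
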