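import Cfsg.Statements.S0192
import Cfsg.Agent.Char.More

set_option autoImplicit false
open Cfsg

namespace Cfsg.Agent.S0192

/-- Brauer's generation criterion. Let G be a finite simple group, H₁ and H₂ subgroups, and χ a non-principal irreducible character. If the multiplicity of the principal character in χ restricted to H₁ ⊓ H₂ is less than the sum of the corresponding multiplicities for H₁ and H₂, then H₁ and H₂ do not generate G. -/
theorem result {G : Type*} [Group G] [Fintype G] [IsSimpleGroup G] (H₁ H₂ : Subgroup G) [Fintype H₁] [Fintype H₂] [Fintype ↥(H₁ ⊓ H₂)] (χ : G → ℂ) (hχ : Cfsg.IsIrrCharacter G χ) (hχ1 : χ ≠ fun _ => 1) (hlt : (Cfsg.classInner (fun x : ↥(H₁ ⊓ H₂) => χ x) (fun _ => 1)).re < (Cfsg.classInner (fun x : H₁ => χ x) (fun _ => 1)).re + (Cfsg.classInner (fun x : H₂ => χ x) (fun _ => 1)).re) : H₁ ⊔ H₂ ≠ ⊤ := by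
  intro htop
  obtain ⟨n, ρ, hρ, rfl⟩ := hχ
  have key : ∀ (H : Subgroup G) [Fintype H], Cfsg.classInner (fun x : H => ρ.character x)
      (fun _ => 1) = Module.finrank ℂ (Representation.invariants (ρ.comp H.subtype)) :=
    fun H _ => CF.Char.inner_character_one_eq_finrank (ρ.comp H.subtype)
  rw [key, key, key] at hlt
  simp only [Complex.natCast_re] at hlt
  have h1 := Submodule.finrank_sup_add_finrank_inf_eq
    (Representation.invariants (ρ.comp H₁.subtype)) (Representation.invariants (ρ.comp H₂.subtype))
  have h2 : Representation.invariants (ρ.comp H₁.subtype) ⊔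
      Representation.invariants (ρ.comp H₂.subtype) ≤
      Representation.invariants (ρ.comp (H₁ ⊓ H₂).subtype) :=
    sup_le (fun v hv g => hv ⟨g, g.2.1⟩) (fun v hv g => hv ⟨g, g.2.2⟩)
  have h3 := Submodule.finrank_mono h2
  have h4 : Representation.invariants (ρ.comp H₁.subtype) ⊓
      Representation.invariants (ρ.comp H₂.subtype) ≤ ρ.invariants := by
    rintro v ⟨hv1, hv2⟩ g
    let K : Subgroup G :=
      { carrier := {g | ρ g v = v}
        one_mem' := by simp
        mul_mem' := fun {a b} ha hb => by
          simp only [Set.mem_ofPred_eq, map_mul, Module.End.mul_apply] at ha hb ⊢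
          rw [hb, ha]
        inv_mem' := fun {a} ha => by
          simp only [Set.mem_ofPred_eq] at ha ⊢
          nth_rewrite 1 [← ha]
          rw [← Module.End.mul_apply, ← map_mul, inv_mul_cancel, map_one, Module.End.one_apply] }
    have : H₁ ⊔ H₂ ≤ K := sup_le (fun g hg => hv1 ⟨g, hg⟩) (fun g hg => hv2 ⟨g, hg⟩)
    exact this (htop ▸ Subgroup.mem_top g)
  have h5 := Submodule.finrank_mono h4
  have h6 := CF.Char.inner_irr_ne (CF.Char.isIrrCharacter_character ρ) CF.Char.irr_one hχ1
  rw [CF.Char.inner_character_one_eq_finrank, Nat.cast_eq_zero] at h6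
  have hlt' : Module.finrank ℂ (Representation.invariants (ρ.comp (H₁ ⊓ H₂).subtype)) <
      Module.finrank ℂ (Representation.invariants (ρ.comp H₁.subtype)) +
      Module.finrank ℂ (Representation.invariants (ρ.comp H₂.subtype)) := by exact_mod_cast hlt
  omega

end Cfsg.Agent.S0192
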