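import Cfsg.Statements.S0194
import Cfsg.Agent.Clifford.Frob

set_option autoImplicit false
open scoped ComplexConjugate
open Cfsg

namespace Cfsg.Agent.S0194

/-- Let G have odd order, H be a normal subgroup and θ a non-principal irreducible character of H. Then the function induced from θ is orthogonal to its complex conjugate. -/
theorem result {G : Type*} [Group G] [Fintype G] (hodd : Odd (Nat.card G)) (H : Subgroup G) [H.Normal] (θ : H → ℂ) (hθ : Cfsg.IsIrrCharacter H θ) (hθ1 : θ ≠ fun _ => 1) : Cfsg.classInner (fun g => conj (Cfsg.indFun H θ g)) (Cfsg.indFun H θ) = 0 := by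
  classical
  let E := CF.Clifford.NormalEmb.sub H
  rw [← CF.Char.indFun_conj, ← CF.Clifford.ind_subtype, ← CF.Clifford.ind_subtype]
  refine (E.inner_ind_ind (CF.Char.irr_conj hθ) hθ).trans (if_neg ?_)
  rintro ⟨g, hg⟩
  exact E.cj_conj_ne_of_odd hodd hθ hθ1 g hg

end Cfsg.Agent.S0194
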