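import Cfsg.Statements.S0195
import Cfsg.Agent.PF.Dade

set_option autoImplicit false
open Cfsg

namespace Cfsg.Agent.S0195

open CF.PF
open scoped ComplexConjugate

/-- Let A be a subgroup of G that equals the centralizer of each of its non-identity elements. If g lies outside the normalizer of A, then the only element of A conjugated by g into A is the identity (A is a trivial-intersection set). -/
theorem result {G : Type*} [Group G] [Finite G] (A : Subgroup G) (hA : ∀ x ∈ A, x ≠ 1 → Subgroup.centralizer ({x} : Set G) = A) (g : G) (hg : g ∉ Subgroup.normalizer (A : Set G)) (x : G) (hx : x ∈ A) (hgx : g * x * g⁻¹ ∈ A) : x = 1 := by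
  by_contra h1
  have h2 : g * x * g⁻¹ ≠ 1 := by simpa using h1
  refine hg (Subgroup.mem_normalizer_fintype fun a ha => ?_)
  have ha' : a ∈ Subgroup.centralizer ({x} : Set G) := by rwa [hA x hx h1]
  rw [SetLike.mem_coe, ← hA _ hgx h2, mem_centralizer_singleton']
  rw [mem_centralizer_singleton'] at ha'
  calc _ = g * (a * x) * g⁻¹ := by group
    _ = _ := by rw [ha']; group

end Cfsg.Agent.S0195
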