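import Cfsg.Statements.S0196
import Cfsg.Agent.PF.Dade

set_option autoImplicit false
open Cfsg

namespace Cfsg.Agent.S0196

open CF.PF
open scoped ComplexConjugate

/-- Let A be a subgroup of a finite group G that equals the centralizer of each of its non-identity elements, and let N be its normalizer. Then the index of A in N divides |A| − 1 (N/A permutes the non-identity elements of A in orbits of full length). -/
theorem result {G : Type*} [Group G] [Finite G] (A : Subgroup G) (hA : ∀ x ∈ A, x ≠ 1 → Subgroup.centralizer ({x} : Set G) = A) : (A.subgroupOf (Subgroup.normalizer (A : Set G))).index ∣ Nat.card A - 1 := by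
  classical
  set N := Subgroup.normalizer (A : Set G)
  have hAN : A ≤ N := Subgroup.le_normalizer
  -- `N` acts on the nonidentity elements of `A` with stabilizer `A`
  let X := {x : G // x ∈ A ∧ x ≠ 1}
  letI : MulAction N X :=
    { smul := fun g x => ⟨g * x * (g : G)⁻¹, (conj_mem_iff_of_mem_normalizer g.2 x).2 x.2.1,
        by simpa using x.2.2⟩
      one_smul := fun x => Subtype.ext (by change (1 : G) * x * 1⁻¹ = x; simp)
      mul_smul := fun g h x => Subtype.ext (by
        change (g * h : G) * x * (g * h : G)⁻¹ = g * (h * x * (h : G)⁻¹) * (g : G)⁻¹; group) }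
  have hst : ∀ x : X, MulAction.stabilizer N x = A.subgroupOf N := fun x => by
    ext g
    rw [MulAction.mem_stabilizer_iff, Subgroup.mem_subgroupOf, ← hA x x.2.1 x.2.2,
      mem_centralizer_singleton', Subtype.ext_iff]
    exact mul_inv_eq_iff_eq_mul
  have hX : Nat.card X = Nat.card A - 1 := by
    have : Nat.card A = Nat.card X + 1 := by
      rw [← Finite.card_option]
      exact Nat.card_congr ((Equiv.optionSubtypeNe (1 : A)).symm.trans (Equiv.optionCongr
        ⟨fun a => ⟨a.1, a.1.2, fun e => a.2 (Subtype.ext e)⟩,
          fun x => ⟨⟨x.1, x.2.1⟩, fun e => x.2.2 (congrArg Subtype.val e)⟩, fun _ => rfl, fun _ => rfl⟩))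
    omega
  let _ : Fintype (MulAction.orbitRel.Quotient N X) := Fintype.ofFinite _
  rw [← hX, Nat.card_congr (MulAction.selfEquivSigmaOrbits N X), Nat.card_sigma]
  refine Finset.dvd_sum fun q _ => ?_
  rw [← hst q.out, MulAction.index_stabilizer]; rfl

end Cfsg.Agent.S0196
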