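import Cfsg.Statements.S0202
import Cfsg.Agent.Invol.Four

set_option autoImplicit false
open Cfsg

namespace Cfsg.Agent.S0202

theorem cases {G : Type*} [Group G] [Finite G] (P : Sylow 2 G) (hP : IsKleinFour (P : Subgroup G)) :
    (Nat.card {C : ConjClasses G // ∃ t : G, orderOf t = 2 ∧ ConjClasses.mk t = C} = 1 ∧
      ¬ HasNormalPComplement 2 G) ∨
    (Nat.card {C : ConjClasses G // ∃ t : G, orderOf t = 2 ∧ ConjClasses.mk t = C} = 3 ∧
      HasNormalPComplement 2 G) := by
  open CF.Transfer CF.Invol in
  haveI : Fact (Nat.Prime 2) := ⟨Nat.prime_two⟩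
  obtain ⟨a, ha, b, hb, ha1, hb1, hne⟩ := klein_exists hP
  have hin : ∀ t : G, orderOf t = 2 → ∃ s ∈ (P : Subgroup G), s ≠ 1 ∧ IsConj t s := by
    intro t ht
    obtain ⟨g, hg⟩ := exists_conj_mem_sylow P (isPGroup_zpowers_invol ht)
    exact ⟨_, hg, ne_one_of_orderOf (by rw [orderOf_conj, ht]), isConj_conj g t⟩
  by_cases h : HasNormalPComplement 2 G
  · refine Or.inr ⟨?_, h⟩
    have key : ∀ x ∈ (P : Subgroup G), ∀ y ∈ (P : Subgroup G), IsConj x y → x = y := by
      intro x hx y hy hxy
      obtain ⟨g, rfl⟩ := isConj_iff.1 hxy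
      obtain ⟨s, hs, h1⟩ := (hasNPC_iff_controls_fusion P).1 h x hx g hy
      rw [← h1, (klein_commute hP hs hx).eq, mul_inv_cancel_right]
    refine card_classes_three (klein_orderOf hP ha ha1) (klein_orderOf hP hb hb1)
      (klein_orderOf hP (mul_mem ha hb) (klein_mul_ne_one hP ha hne))
      (fun h0 => hne (key _ ha _ hb h0))
      (fun h0 => hb1 (by simpa using key _ ha _ (mul_mem ha hb) h0))
      (fun h0 => ha1 (by simpa using key _ hb _ (mul_mem ha hb) h0)) fun t ht => ?_
    obtain ⟨s, hs, hs1, hts⟩ := hin t ht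
    rcases (klein_mem_iff hP ha hb ha1 hb1 hne).1 hs with rfl | rfl | rfl | rfl
    · exact absurd rfl hs1
    all_goals simp only [hts, true_or, or_true]
  · refine Or.inl ⟨card_classes_one (klein_orderOf hP ha ha1) fun t ht => ?_, h⟩
    have h3 : 3 ∣ (Subgroup.centralizer ((P : Subgroup G) : Set G)).relIndex
        (Subgroup.normalizer ((P : Subgroup G) : Set G)) := by
      by_contra h3
      refine h (burnside_hasNPC P ?_)
      have h6 := klein_relIndex_dvd_six hP
      have h2 : ¬ 2 ∣ (Subgroup.centralizer ((P : Subgroup G) : Set G)).relIndex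
          (Subgroup.normalizer ((P : Subgroup G) : Set G)) := fun h2 =>
        (isSylowIn_of_le P Subgroup.le_normalizer).not_dvd
          (h2.trans (Subgroup.relIndex_dvd_of_le_left _ (klein_le_centralizer hP)))
      rw [← Subgroup.relIndex_eq_one]
      have := Nat.le_of_dvd (by norm_num) h6
      generalize (Subgroup.centralizer ((P : Subgroup G) : Set G)).relIndex
          (Subgroup.normalizer ((P : Subgroup G) : Set G)) = m at *
      interval_cases m <;> omega
    obtain ⟨s, hs, hs1, hts⟩ := hin t ht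
    obtain ⟨g, -, hg⟩ := (klein_three_dvd_iff hP).1 h3 s hs a ha hs1 ha1
    exact hts.trans (isConj_of_eq hg)

/-- If a Sylow 2-subgroup of a finite group is a Klein four-group, the group has one or three conjugacy classes of involutions. -/
theorem result {G : Type*} [Group G] [Finite G] (P : Sylow 2 G) (hP : IsKleinFour (P : Subgroup G)) : Nat.card {C : ConjClasses G // ∃ t : G, orderOf t = 2 ∧ ConjClasses.mk t = C} = 1 ∨ Nat.card {C : ConjClasses G // ∃ t : G, orderOf t = 2 ∧ ConjClasses.mk t = C} = 3 := by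
  exact (cases P hP).imp And.left And.left

end Cfsg.Agent.S0202
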