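import Cfsg.Statements.S0207
import Cfsg.Agent.Invol.Dihedral

set_option autoImplicit false
open Cfsg

namespace Cfsg.Agent.S0207

/-- If x, y are distinct involutions, every element of the subgroup they generate that lies outside the cyclic subgroup generated by xy is an involution. -/
theorem result {G : Type*} [Group G] [Finite G] (x y : G) (hx : orderOf x = 2) (hy : orderOf y = 2) (hxy : x ≠ y) (d : G) (hd : d ∈ Subgroup.closure ({x, y} : Set G)) (hd' : d ∉ Subgroup.zpowers (x * y)) : orderOf d = 2 := by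
  have hx2 := CF.Invol.mul_self_of_orderOf hx
  have hy2 := CF.Invol.mul_self_of_orderOf hy
  rcases (CF.Invol.mem_closure_pair_iff hx2 hy2).mp hd with ⟨k, rfl⟩ | ⟨k, rfl⟩
  · exact absurd (Subgroup.zpow_mem_zpowers _ k) hd'
  · rw [CF.Invol.orderOf_eq_two_iff]
    refine ⟨CF.Invol.mul_mul_self_of_inverts hx2 (CF.Invol.inverts_of_mem_zpowers
      (CF.Invol.left_inverts_mul hx2 hy2) (Subgroup.zpow_mem_zpowers _ k)), ?_⟩
    intro h
    exact hd' (h ▸ one_mem _)

end Cfsg.Agent.S0207
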