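import Cfsg.Statements.S0210
import Cfsg.Agent.Invol.Dihedral

set_option autoImplicit false
open Cfsg

namespace Cfsg.Agent.S0210

/-- If x, y are involutions whose product has even order, no element of the subgroup generated by x and y conjugates x to y. -/
theorem result {G : Type*} [Group G] [Finite G] (x y : G) (hx : orderOf x = 2) (hy : orderOf y = 2) (heven : Even (orderOf (x * y))) (d : G) (hd : d ∈ Subgroup.closure ({x, y} : Set G)) : d * x * d⁻¹ ≠ y := by
  have hx2 := CF.Invol.mul_self_of_orderOf hx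
  have hy2 := CF.Invol.mul_self_of_orderOf hy
  have hi := CF.Invol.left_inverts_mul hx2 hy2
  have key : ∀ k : ℤ, x * (x * y) ^ (2 * k) ≠ y := by
    intro k h
    have h1 : (x * y) ^ (2 * k) = (x * y) ^ (1 : ℤ) := by
      rw [zpow_one]
      conv_rhs => rw [← h, ← mul_assoc, hx2, one_mul]
    rw [zpow_eq_zpow_iff_modEq] at h1
    obtain ⟨m, hm⟩ := heven
    have := h1.dvd
    rw [hm] at this
    obtain ⟨c, hc⟩ := this
    push_cast at hc
    have : (1 : ℤ) = 2 * (k + m * c) := by linarith
    omega
  rcases (CF.Invol.mem_closure_pair_iff hx2 hy2).mp hd with ⟨k, rfl⟩ | ⟨k, rfl⟩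
  · rw [CF.Invol.zpow_conj_of_inverts hi, ← mul_neg]
    exact key _
  · rw [CF.Invol.mul_zpow_conj_of_inverts hi]
    exact key _

end Cfsg.Agent.S0210
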