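import Cfsg.Statements.S0212
import Cfsg.Agent.Invol.Count

set_option autoImplicit false
open Cfsg

namespace Cfsg.Agent.S0212

/-- The Brauer–Fowler bound: if G is a finite simple group and t an involution of G whose centralizer has order n, then |G| ≤ (2n^2)!. -/
theorem result {G : Type*} [Group G] [Finite G] [IsSimpleGroup G] (t : G) (ht : orderOf t = 2) : Nat.card G ≤ Nat.factorial (2 * (Nat.card (Subgroup.centralizer ({t} : Set G))) ^ 2) := by
  set n := Nat.card (Subgroup.centralizer ({t} : Set G)) with hn
  have heven : Even (Nat.card G) := even_iff_two_dvd.mpr (ht ▸ orderOf_dvd_natCard t)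
  have hn0 : 0 < n := Nat.card_pos
  by_cases hZ : Odd (Nat.card (Subgroup.center G))
  · obtain ⟨H, hH, h⟩ := CF.Invol.brauer_fowler_index heven hZ
    have h1 := Nat.le_of_dvd (Nat.factorial_pos _) (CF.Invol.card_dvd_factorial_of_simple hH)
    refine h1.trans (Nat.factorial_le ?_)
    rcases h with h | h
    · rw [h]; nlinarith
    · set k := Nat.card {t : G // orderOf t = 2}
      have h2 : Nat.card {b : G // IsConj t b} ≤ k :=
        Nat.card_le_card_of_injective (fun b => ⟨b.1, by
          rw [← CF.Invol.orderOf_eq_of_isConj b.2, ht]⟩)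
          (fun a b h => Subtype.ext (by simpa using h))
      have h3 := CF.Invol.card_isConj_mul_card_centralizer t
      have h4 : Nat.card G ≤ k * n := h3 ▸ Nat.mul_le_mul_right _ h2
      have h5 : Nat.card G * (Nat.card G + k) ≤ (k * n) * (k * n + k) :=
        Nat.mul_le_mul h4 (by omega)
      by_contra hlt
      have h6 : 2 * (2 * n ^ 2) * k ^ 2 ≤ 2 * H.index * k ^ 2 :=
        Nat.mul_le_mul_right _ (by omega)
      have h7 : (k * n) * (k * n + k) ≤ (k * n) * (k * n + k * n) :=
        Nat.mul_le_mul_left _ (by nlinarith)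
      nlinarith
  · have h1 : Subgroup.center G = ⊤ := by
      rcases IsSimpleGroup.eq_bot_or_eq_top_of_normal (Subgroup.center G) inferInstance with h | h
      · simp [h] at hZ
      · exact h
    have h2 : Subgroup.centralizer ({t} : Set G) = ⊤ :=
      top_le_iff.mp (h1 ▸ Subgroup.center_le_centralizer _)
    rw [h2, Subgroup.card_top] at hn
    rw [← hn]
    exact le_trans (by nlinarith) (Nat.self_le_factorial _)

end Cfsg.Agent.S0212
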