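import Cfsg.Statements.S0213
import Cfsg.Agent.Invol.Count

set_option autoImplicit false
open Cfsg

namespace Cfsg.Agent.S0213

theorem invol_unique {G : Type*} [Group G] [Finite G] {c a b : G} (ha : a ∈ Subgroup.zpowers c)
    (hb : b ∈ Subgroup.zpowers c) (ha2 : orderOf a = 2) (hb2 : orderOf b = 2) : a = b := by
  classical
  have := Fintype.ofFinite (Subgroup.zpowers c)
  have h := IsCyclic.card_orderOf_eq_totient (α := Subgroup.zpowers c) (d := 2) (by
    rw [← Nat.card_eq_fintype_card, ← ha2]; exact Subgroup.orderOf_dvd_natCard _ ha)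
  rw [Nat.totient_two, Finset.card_eq_one] at h
  obtain ⟨u, hu⟩ := h
  have h1 : (⟨a, ha⟩ : Subgroup.zpowers c) ∈ ({u} : Finset _) := by
    rw [← hu]; simpa using ha2
  have h2 : (⟨b, hb⟩ : Subgroup.zpowers c) ∈ ({u} : Finset _) := by
    rw [← hu]; simpa using hb2
  rw [Finset.mem_singleton] at h1 h2
  exact congrArg Subtype.val (h1.trans h2.symm)

theorem count_conj {G : Type*} [Group G] (x₁ x₂ : G) {z w : G} (h : IsConj z w) :
    Nat.card {p : G × G // IsConj x₁ p.1 ∧ IsConj x₂ p.2 ∧ z ∈ Subgroup.zpowers (p.1 * p.2)} =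
    Nat.card {p : G × G // IsConj x₁ p.1 ∧ IsConj x₂ p.2 ∧ w ∈ Subgroup.zpowers (p.1 * p.2)} := by
  obtain ⟨c, rfl⟩ := isConj_iff.mp h
  refine Nat.card_congr (Equiv.subtypeEquiv
    (Equiv.prodCongr (MulAut.conj c).toEquiv (MulAut.conj c).toEquiv) fun p => ?_)
  have h1 : ∀ x y : G, IsConj x y ↔ IsConj x (c * y * c⁻¹) := fun x y =>
    ⟨fun h => h.trans (isConj_iff.mpr ⟨c, rfl⟩), fun h => h.trans (isConj_iff.mpr ⟨c, rfl⟩).symm⟩
  refine and_congr (h1 _ _) (and_congr (h1 _ _) ?_)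
  simp only [Equiv.prodCongr_apply, Prod.map_fst, Prod.map_snd, MulEquiv.toEquiv_eq_coe,
    EquivLike.coe_coe, MulAut.conj_apply, conj_mul, Subgroup.mem_zpowers_iff, conj_zpow]
  refine exists_congr fun k => ?_
  simp

/-- Thompson Order Formula, two-class case: if every involution of the finite group G is conjugate to exactly one of the non-conjugate involutions x₁, x₂, and nᵢ is the number of pairs (u, v) with u conjugate to x₁, v conjugate to x₂ and xᵢ in the cyclic group generated by uv, then |G| = |C(x₂)| n₁ + |C(x₁)| n₂. -/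
theorem result {G : Type*} [Group G] [Finite G] (x₁ x₂ : G) (h₁ : orderOf x₁ = 2) (h₂ : orderOf x₂ = 2) (hnc : ¬ IsConj x₁ x₂) (hall : ∀ t : G, orderOf t = 2 → IsConj x₁ t ∨ IsConj x₂ t) : Nat.card G = Nat.card (Subgroup.centralizer ({x₂} : Set G)) * Nat.card {p : G × G // IsConj x₁ p.1 ∧ IsConj x₂ p.2 ∧ x₁ ∈ Subgroup.zpowers (p.1 * p.2)} + Nat.card (Subgroup.centralizer ({x₁} : Set G)) * Nat.card {p : G × G // IsConj x₁ p.1 ∧ IsConj x₂ p.2 ∧ x₂ ∈ Subgroup.zpowers (p.1 * p.2)} := by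
  classical
  have := Fintype.ofFinite G
  set n₁ := Nat.card {p : G × G // IsConj x₁ p.1 ∧ IsConj x₂ p.2 ∧ x₁ ∈ Subgroup.zpowers (p.1 * p.2)}
  set n₂ := Nat.card {p : G × G // IsConj x₁ p.1 ∧ IsConj x₂ p.2 ∧ x₂ ∈ Subgroup.zpowers (p.1 * p.2)}
  have hex : ∀ p : {u : G // IsConj x₁ u} × {u : G // IsConj x₂ u},
      ∃ z ∈ Subgroup.zpowers (p.1.1 * p.2.1), orderOf z = 2 := by
    rintro ⟨⟨u, hu⟩, ⟨v, hv⟩⟩
    have hu2 : orderOf u = 2 := by rw [← CF.Invol.orderOf_eq_of_isConj hu, h₁]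
    have hv2 : orderOf v = 2 := by rw [← CF.Invol.orderOf_eq_of_isConj hv, h₂]
    have he : Even (orderOf (u * v)) := by
      rw [← Nat.not_odd_iff_even]
      intro hodd
      exact hnc ((hu.trans (CF.Invol.isConj_of_odd (CF.Invol.mul_self_of_orderOf hu2)
        (CF.Invol.mul_self_of_orderOf hv2) hodd)).trans hv.symm)
    exact ⟨_, pow_mem (Subgroup.mem_zpowers _) _, CF.Invol.orderOf_pow_half he⟩
  choose f hf using hex
  have h1 := CF.Invol.card_eq_sum_fiber f
  have h2 : ∀ z : G, Nat.card {a // f a = z} =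
      (if IsConj x₁ z then n₁ else 0) + (if IsConj x₂ z then n₂ else 0) := by
    intro z
    by_cases hz : orderOf z = 2
    · have h3 : Nat.card {a // f a = z} = Nat.card {p : G × G // IsConj x₁ p.1 ∧ IsConj x₂ p.2 ∧
          z ∈ Subgroup.zpowers (p.1 * p.2)} :=
        Nat.card_congr ⟨fun a => ⟨(a.1.1.1, a.1.2.1), a.1.1.2, a.1.2.2, by
            obtain ⟨a, rfl⟩ := a; exact (hf a).1⟩,
          fun p => ⟨(⟨p.1.1, p.2.1⟩, ⟨p.1.2, p.2.2.1⟩),
            invol_unique (hf _).1 p.2.2.2 (hf _).2 hz⟩, fun _ => rfl, fun _ => rfl⟩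
      rw [h3]
      rcases hall z hz with h | h
      · rw [if_pos h, if_neg (fun h' => hnc (h.trans h'.symm)), add_zero]
        exact (count_conj x₁ x₂ h).symm
      · rw [if_pos h, if_neg (fun h' => hnc (h'.trans h.symm)), zero_add]
        exact (count_conj x₁ x₂ h).symm
    · rw [if_neg (fun h => hz (by rw [← CF.Invol.orderOf_eq_of_isConj h, h₁])),
        if_neg (fun h => hz (by rw [← CF.Invol.orderOf_eq_of_isConj h, h₂]))]
      have : IsEmpty {a // f a = z} := ⟨fun a => hz (a.2 ▸ (hf a.1).2)⟩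
      simp
  have h4 : ∀ x : G, (Finset.univ.filter fun z => IsConj x z).card =
      Nat.card {u : G // IsConj x u} := fun x => by
    rw [Nat.card_eq_fintype_card, Fintype.card_subtype]
  simp only [h2, Finset.sum_add_distrib, ← Finset.sum_filter, Finset.sum_const, h4,
    smul_eq_mul, Nat.card_prod] at h1
  have h5 := CF.Invol.card_isConj_mul_card_centralizer x₁
  have h6 := CF.Invol.card_isConj_mul_card_centralizer x₂
  have h7 : 0 < Nat.card G := Nat.card_pos
  apply Nat.eq_of_mul_eq_mul_left h7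
  set a := Nat.card {u : G // IsConj x₁ u}
  set b := Nat.card {u : G // IsConj x₂ u}
  set c := Nat.card (Subgroup.centralizer ({x₁} : Set G))
  set d := Nat.card (Subgroup.centralizer ({x₂} : Set G))
  calc Nat.card G * Nat.card G = (a * c) * (b * d) := by rw [h5, h6]
    _ = (a * b) * (c * d) := by ring
    _ = (a * c) * (d * n₁) + (b * d) * (c * n₂) := by rw [h1]; ring
    _ = _ := by rw [h5, h6]; ring

end Cfsg.Agent.S0213
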