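import Cfsg.Statements.S0218
import Cfsg.Agent.Invol.Four

set_option autoImplicit false
open Cfsg

namespace Cfsg.Agent.S0218

/-- The generalized quaternion group of order 2^(n+3) contains exactly one element of order 2. -/
theorem result (n : ℕ) : Nat.card {x : QuaternionGroup (2 ^ (n + 1)) // orderOf x = 2} = 1 := by
  have hn : 0 < 2 ^ (n + 1) := by positivity
  generalize 2 ^ (n + 1) = m at hn
  haveI : NeZero m := ⟨hn.ne'⟩
  haveI : NeZero (2 * m) := ⟨by omega⟩
  have hm : ((m : ℕ) : ZMod (2 * m)) ≠ 0 := by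
    rw [Ne, ZMod.natCast_eq_zero_iff]
    intro h
    have := Nat.le_of_dvd hn h
    omega
  rw [Nat.card_eq_one_iff_exists]
  refine ⟨⟨QuaternionGroup.a (m : ℕ), CF.Invol.orderOf_eq_two_iff.2 ⟨?_, ?_⟩⟩, ?_⟩
  · rw [QuaternionGroup.a_mul_a, QuaternionGroup.one_def, ← Nat.cast_add, ← two_mul,
      ZMod.natCast_self]
  · rw [QuaternionGroup.one_def]
    exact fun h => hm (QuaternionGroup.a.inj h)
  · rintro ⟨x, hx⟩
    apply Subtype.ext
    cases x with
    | a i =>
      obtain ⟨h1, h2⟩ := CF.Invol.orderOf_eq_two_iff.1 hx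
      rw [QuaternionGroup.a_mul_a, QuaternionGroup.one_def] at h1
      have h3 : -i = i := neg_eq_of_add_eq_zero_left (QuaternionGroup.a.inj h1)
      rcases (ZMod.neg_eq_self_iff i).1 h3 with h4 | h4
      · exact absurd (by rw [h4, QuaternionGroup.one_def]) h2
      · have h5 : i.val = m := by omega
        show QuaternionGroup.a i = QuaternionGroup.a _
        rw [← ZMod.natCast_zmod_val i, h5]
    | xa i =>
      rw [QuaternionGroup.orderOf_xa] at hx
      omega

end Cfsg.Agent.S0218
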