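import Cfsg.Statements.S0220
import Cfsg.Agent.Invol.Four

set_option autoImplicit false
open Cfsg

namespace Cfsg.Agent.S0220

/-- If x is an involution of a finite group G and a Sylow 2-subgroup of the centralizer of x is cyclic, then G has a subgroup of index 2; in particular G is not simple unless it has order 2. -/
theorem result {G : Type*} [Group G] [Finite G] (x : G) (hx : orderOf x = 2) (S : Sylow 2 ↥(Subgroup.centralizer ({x} : Set G))) (hS : IsCyclic (S : Subgroup ↥(Subgroup.centralizer ({x} : Set G)))) : ∃ H : Subgroup G, H.index = 2 := by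
  open CF.Transfer in
  haveI : Fact (Nat.Prime 2) := ⟨Nat.prime_two⟩
  have hR := isSylowIn_map_sylow S
  set R := (S : Subgroup ↥(Subgroup.centralizer ({x} : Set G))).map
    (Subgroup.centralizer ({x} : Set G)).subtype
  have hRc : IsCyclic R := isCyclic_of_surjective _
    (Subgroup.equivMapOfInjective _ _ (Subgroup.subtype_injective _)).surjective
  have hxC : x ∈ Subgroup.centralizer ({x} : Set G) :=
    CF.Invol.mem_centralizer_singleton_iff_commute.2 (Commute.refl x)
  have hxR : x ∈ R := by
    refine hR.le_of_le_normalizer (CF.Invol.isPGroup_zpowers_invol hx)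
      (Subgroup.zpowers_le_of_mem hxC) (Subgroup.zpowers_le_of_mem ?_) (Subgroup.mem_zpowers x)
    apply Subgroup.centralizer_le_normalizer
    exact Subgroup.mem_centralizer_iff.2 fun y hy =>
      (CF.Invol.mem_centralizer_singleton_iff_commute.1 (hR.le hy)).eq
  have hN : Subgroup.normalizer (R : Set G) ≤ Subgroup.centralizer ({x} : Set G) := fun g hg =>
    CF.Invol.mem_centralizer_singleton_iff_conj.2 (CF.Invol.eq_of_invol_of_isCyclic hRc
      (conj_mem_of_mem_normalizer hg hxR) hxR (by rw [CF.Invol.orderOf_conj, hx]) hx)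
  have htop : IsSylowIn 2 R ⊤ := by
    refine isSylowIn_of_maximal hR.isPGroup le_top fun Q hQ hYQ _ => ?_
    by_contra hne
    have hlt := lt_inf_normalizer_of_lt hQ (lt_of_le_of_ne hYQ fun h => hne h.ge)
    exact hlt.ne' (hR.eq_of_le (hQ.to_le inf_le_left) hlt.le (inf_le_right.trans hN))
  refine CF.Invol.exists_index_two_of_isCyclic ?_ htop.toSylowTop hRc
  rw [even_iff_two_dvd, ← hx]
  exact orderOf_dvd_natCard x

end Cfsg.Agent.S0220
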