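import Cfsg.Statements.S0221
import Cfsg.Agent.Invol.Four

set_option autoImplicit false
open Cfsg

namespace Cfsg.Agent.S0221

/-- Let G be a finite group with no subgroup of index 2 whose 2-rank is at least 3 (it contains an elementary abelian subgroup of order 8). Then the centralizer of every involution of G also contains an elementary abelian subgroup of order 8. -/
theorem result {G : Type*} [Group G] [Finite G] (hno : ∀ H : Subgroup G, H.index ≠ 2) (hrank : ∃ E : Subgroup G, Nat.card E = 8 ∧ ∀ e ∈ E, e ^ 2 = 1) (x : G) (hx : orderOf x = 2) : ∃ E : Subgroup G, E ≤ Subgroup.centralizer ({x} : Set G) ∧ Nat.card E = 8 ∧ ∀ e ∈ E, e ^ 2 = 1 := by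
  open CF.Transfer CF.Invol in
  haveI : Fact (Nat.Prime 2) := ⟨Nat.prime_two⟩
  obtain ⟨E, hE8, hE⟩ := hrank
  have hE' : ∀ e ∈ E, e * e = 1 := fun e he => by rw [← sq]; exact hE e he
  obtain ⟨S, hES⟩ := (IsPGroup.of_card (p := 2) (n := 3) hE8).exists_le_sylow
  -- a normal four-subgroup of `S`
  obtain ⟨U, hUS, hUn, hU⟩ : ∃ U : Subgroup G, U ≤ S ∧ (S : Subgroup G) ≤ Subgroup.normalizer (U : Set G) ∧
      IsKleinFour U := by
    by_contra hcon
    have h1 : ∀ A : Subgroup (S : Subgroup G), A.Normal → IsMulCommutative A → IsCyclic A := by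
      intro A hA hA'
      by_contra hc
      obtain ⟨T, -, hTn, hT⟩ := exists_normal_klein S.isPGroup' A hc
      refine hcon ⟨T.map (S : Subgroup G).subtype, Subgroup.map_subtype_le _, ?_,
        (klein_map_iff (Subgroup.subtype_injective _)).2 hT⟩
      intro s hs
      apply mem_normalizer_of_cj_le
      rw [cj_le_iff_forall]
      rintro _ ⟨y, hy, rfl⟩
      exact ⟨_, hTn.conj_mem y hy ⟨s, hs⟩, rfl⟩
    obtain ⟨C, hC, hCi⟩ : ∃ C : Subgroup (S : Subgroup G), IsCyclic C ∧ C.index ∣ 2 := by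
      rcases CF.Solv.normalRankOne_cases S.isPGroup' h1 with h | ⟨-, n, a, c, -, -, h, -⟩
      · exact ⟨⊤, inferInstance, by simp⟩
      · exact ⟨_, inferInstance, h.dvd⟩
    have h2 : Nat.card ↥(C ⊓ E.subgroupOf S) ≤ 2 := by
      haveI : IsCyclic ↥(C ⊓ E.subgroupOf (S : Subgroup G)) := Subgroup.isCyclic_of_le inf_le_left
      rw [← IsCyclic.exponent_eq_card]
      refine Nat.le_of_dvd two_pos (Monoid.exponent_dvd_of_forall_pow_eq_one fun g => ?_)
      exact Subtype.ext (Subtype.ext (hE _ g.2.2))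
    have h3 := card_mul_relIndex (inf_le_right : C ⊓ E.subgroupOf S ≤ _)
    rw [Subgroup.inf_relIndex_right, Nat.card_congr (Subgroup.subgroupOfEquivOfLe hES).toEquiv,
      hE8] at h3
    have h4 : C.relIndex (E.subgroupOf S) ≤ 2 :=
      (Subgroup.relIndex_le_of_le_right le_top (by simpa using Subgroup.index_ne_zero_of_finite)).trans
        (by simpa using Nat.le_of_dvd two_pos hCi)
    nlinarith
  have hidx : (Subgroup.centralizer (U : Set G)).relIndex S ∣ 2 := by
    have h1 := (relIndex_dvd_of_le_normalizer hUn (normalizer_le_normalizer_centralizer U)).trans (klein_relIndex_dvd_six hU)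
    obtain ⟨k, hk⟩ := isPGroup_relIndex S.isPGroup' (Subgroup.centralizer (U : Set G))
    rw [hk] at h1 ⊢
    exact (Nat.Coprime.pow_left k (by norm_num)).dvd_of_dvd_mul_right (n := 3) (m := 2) h1
  -- an elementary abelian subgroup of order 8 containing `U`
  have hgen : ∀ y, y * y = 1 → y ∉ U → y ∈ Subgroup.centralizer (U : Set G) →
      ∃ A : Subgroup G, U ≤ A ∧ y ∈ A ∧ Nat.card A = 8 ∧ ∀ e ∈ A, e * e = 1 := by
    intro y hy hyU hyC
    have hn := Subgroup.centralizer_le_normalizer _ hyC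
    refine ⟨U ⊔ Subgroup.zpowers y, le_sup_left, Subgroup.mem_sup_right (Subgroup.mem_zpowers y),
      by rw [card_sup_zpowers hn (hy ▸ one_mem _) hyU, hU.card_four], fun e he => ?_⟩
    rcases (mem_sup_zpowers_iff hn (hy ▸ one_mem _)).1 he with h | h
    · exact klein_mul_self hU h
    · have hab : Commute (e * y⁻¹) y := Subgroup.mem_centralizer_iff.1 hyC _ h
      rw [← inv_mul_cancel_right e y, hab.symm.mul_mul_mul_comm, klein_mul_self hU h, hy, one_mul]
  obtain ⟨A, hUA, hA8, hA⟩ : ∃ A : Subgroup G, U ≤ A ∧ Nat.card A = 8 ∧ ∀ e ∈ A, e * e = 1 := by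
    by_cases h : E ⊓ Subgroup.centralizer (U : Set G) ≤ U
    · have h3 := card_mul_relIndex (inf_le_left : E ⊓ Subgroup.centralizer (U : Set G) ≤ _)
      rw [Subgroup.inf_relIndex_left, hE8] at h3
      have h4 := (Subgroup.relIndex_le_of_le_right hES (relIndex_ne_zero' _ _)).trans
        (Nat.le_of_dvd two_pos hidx)
      have h5 := Subgroup.eq_of_le_of_card_ge h (by rw [hU.card_four]; nlinarith)
      exact ⟨E, h5 ▸ inf_le_left, hE8, hE'⟩
    · obtain ⟨y, hy, hyU⟩ := SetLike.not_le_iff_exists.1 h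
      obtain ⟨A, h1, -, h2, h3⟩ := hgen y (hE' y hy.1) hyU hy.2
      exact ⟨A, h1, h2, h3⟩
  obtain ⟨g, hg⟩ : ∃ g : G, g * x * g⁻¹ ∈ Subgroup.centralizer (U : Set G) := by
    obtain ⟨a, ha⟩ := exists_conj_mem_sylow S (isPGroup_zpowers_invol hx)
    rcases (Nat.dvd_prime Nat.prime_two).1 hidx with h | h
    · exact ⟨a, Subgroup.relIndex_eq_one.1 h ha⟩
    · by_contra hc
      push Not at hc
      obtain ⟨K, -, hK, -⟩ := thompson_transfer S.not_dvd_index h ha (by rw [orderOf_conj, hx])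
        (fun b => by have := hc (b * a); convert this using 2; group)
      exact hno K hK
  obtain ⟨B, hyB, hB8, hB⟩ : ∃ B : Subgroup G, g * x * g⁻¹ ∈ B ∧ Nat.card B = 8 ∧
      ∀ e ∈ B, e * e = 1 := by
    by_cases h : g * x * g⁻¹ ∈ U
    · exact ⟨A, hUA h, hA8, hA⟩
    · obtain ⟨B, -, h1, h2, h3⟩ := hgen _ (mul_self_of_orderOf (by rw [orderOf_conj, hx])) h hg
      exact ⟨B, h1, h2, h3⟩
  have hB' : ∀ e ∈ cj g⁻¹ B, e * e = 1 := by
    intro e he
    have := hB _ (mem_cj_inv.1 he)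
    calc e * e = g⁻¹ * (g * e * g⁻¹ * (g * e * g⁻¹)) * g := by group
      _ = 1 := by rw [this]; group
  exact ⟨cj g⁻¹ B, fun e he => mem_centralizer_singleton_iff_commute.2
    (commute_of_forall_mul_self hB' he (mem_cj_inv.2 hyB)), by rw [card_cj, hB8],
    fun e he => by rw [sq]; exact hB' e he⟩

end Cfsg.Agent.S0221
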