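import Cfsg.Statements.S0229
import Cfsg.Agent.Invol.Isolated

set_option autoImplicit false
open Cfsg

namespace Cfsg.Agent.S0229

/-- Let t be an involution of a Sylow 2-subgroup S of a finite group G, conjugate in G to no other element of S, and let s be an involution of G not conjugate to t. Then the order of st is twice an odd number. -/
theorem result {G : Type*} [Group G] [Finite G] (S : Sylow 2 G) (t : G) (ht : orderOf t = 2) (htS : t ∈ S) (hiso : ∀ g : G, g * t * g⁻¹ ∈ S → g * t * g⁻¹ = t) (s : G) (hs : orderOf s = 2) (hns : ¬ IsConj s t) : orderOf (s * t) % 4 = 2 := by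
  have hz := (CF.Invol.isolated_iff_sylow S ht htS).mpr hiso
  have h4 := CF.Invol.isolated_not_four_dvd hz (CF.Invol.mul_self_of_orderOf hs)
  have h1 : orderOf (s * t) = orderOf (t * s) := by
    rw [← CF.Invol.orderOf_conj t (s * t)]; simp [mul_assoc]
  have h2 : ¬ Odd (orderOf (s * t)) := fun h => hns (CF.Invol.isConj_of_odd
    (CF.Invol.mul_self_of_orderOf hs) (CF.Invol.mul_self_of_orderOf ht) h)
  rw [← h1] at h4
  rw [Nat.odd_iff] at h2
  omega

end Cfsg.Agent.S0229
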