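import Cfsg.Statements.S0230
import Cfsg.Agent.Invol.Count

set_option autoImplicit false
open Cfsg

namespace Cfsg.Agent.S0230

/-- Let G be a finite group with two non-conjugate involutions, and let t be an involution whose centralizer has maximal order among centralizers of involutions. Then |G| < |C_G(t)|^3. -/
theorem result {G : Type*} [Group G] [Finite G] (s t : G) (hs : orderOf s = 2) (ht : orderOf t = 2) (hnc : ¬ IsConj s t) (hmax : ∀ u : G, orderOf u = 2 → Nat.card (Subgroup.centralizer ({u} : Set G)) ≤ Nat.card (Subgroup.centralizer ({t} : Set G))) : Nat.card G < Nat.card (Subgroup.centralizer ({t} : Set G)) ^ 3 := by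
  classical
  set m := Nat.card (Subgroup.centralizer ({t} : Set G)) with hm
  have hex : ∀ u : {u : G // IsConj s u}, ∃ z : G, orderOf z = 2 ∧ Commute z u ∧ Commute z t := by
    rintro ⟨u, hu⟩
    have hu2 : orderOf u = 2 := by rw [← CF.Invol.orderOf_eq_of_isConj hu, hs]
    have he : Even (orderOf (u * t)) := by
      rw [← Nat.not_odd_iff_even]
      intro hodd
      exact hnc (hu.trans (CF.Invol.isConj_of_odd (CF.Invol.mul_self_of_orderOf hu2)
        (CF.Invol.mul_self_of_orderOf ht) hodd))
    obtain ⟨z, -, hz⟩ := CF.Invol.exists_central_invol (CF.Invol.mul_self_of_orderOf hu2)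
        (CF.Invol.mul_self_of_orderOf ht) he
    exact ⟨z, hz⟩
  choose f hf using hex
  let β := {z : G // z ∈ Subgroup.centralizer ({t} : Set G) ∧ z ≠ 1}
  have := Fintype.ofFinite β
  let F : {u : G // IsConj s u} → β := fun u =>
    ⟨f u, CF.Invol.mem_centralizer_singleton_iff_commute.mpr (hf u).2.2,
      CF.Invol.ne_one_of_orderOf (hf u).1⟩
  have hβ : Nat.card β + 1 = m := CF.Invol.card_subtype_ne_add_one (one_mem _)
  have h1 := CF.Invol.card_eq_sum_fiber F
  have h2 : ∀ b : β, Nat.card {a // F a = b} ≤ m := by
    intro b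
    by_cases hb : ∃ a, F a = b
    · obtain ⟨a, rfl⟩ := hb
      refine le_trans ?_ (hmax (f a) (hf a).1)
      refine Nat.card_le_card_of_injective (fun c => ⟨c.1.1, ?_⟩) ?_
      · have : f c.1 = f a := congrArg Subtype.val c.2
        rw [← this]
        exact CF.Invol.mem_centralizer_singleton_iff_commute.mpr (hf c.1).2.1.symm
      · intro c d h
        exact Subtype.ext (Subtype.ext (by simpa using h))
    · have : IsEmpty {a // F a = b} := ⟨fun a => hb ⟨a.1, a.2⟩⟩
      simp
  have h3 : Nat.card {u : G // IsConj s u} ≤ Nat.card β * m := by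
    rw [h1, Nat.card_eq_fintype_card (α := β), ← Finset.card_univ, ← smul_eq_mul,
      ← Finset.sum_const]
    exact Finset.sum_le_sum fun b _ => h2 b
  rw [← CF.Invol.card_isConj_mul_card_centralizer s]
  have h4 := hmax s hs
  have h5 : 0 < m := by omega
  calc _ ≤ Nat.card β * m * m := Nat.mul_le_mul h3 h4
    _ < m * m * m := by
      apply Nat.mul_lt_mul_of_pos_right _ h5
      apply Nat.mul_lt_mul_of_pos_right _ h5
      omega
    _ = m ^ 3 := by ring

end Cfsg.Agent.S0230
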