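import Cfsg.Statements.S0231
import Cfsg.Agent.Invol.Count

set_option autoImplicit false
open scoped Pointwise
open Cfsg

namespace Cfsg.Agent.S0231

/-- Let T be a Sylow 2-subgroup of the finite group G which is not normal and which intersects every other Sylow 2-subgroup trivially. Then G has a single conjugacy class of involutions. -/
theorem result {G : Type*} [Group G] [Finite G] (T : Sylow 2 G) (hnn : ¬ (T : Subgroup G).Normal) (hTI : ∀ g : G, MulAut.conj g • (T : Subgroup G) ≠ T → MulAut.conj g • (T : Subgroup G) ⊓ T = ⊥) (s t : G) (hs : orderOf s = 2) (ht : orderOf t = 2) : IsConj s t := by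
  have : Fact (Nat.Prime 2) := ⟨Nat.prime_two⟩
  -- every Sylow subgroup meeting `T` nontrivially is `T`
  have huniq : ∀ (R : Sylow 2 G) (x : G), x ≠ 1 → x ∈ R → x ∈ T → R = T := by
    intro R x hx hxR hxT
    obtain ⟨g, rfl⟩ := MulAction.exists_smul_eq G T R
    by_contra hne
    have := hTI g (fun h => hne (Sylow.ext h))
    exact hx (Subgroup.mem_bot.mp (this ▸ (⟨hxR, hxT⟩ : x ∈ MulAut.conj g • (T : Subgroup G) ⊓ T)))
  have hpair : ∀ a b : G, orderOf a = 2 → orderOf b = 2 → Commute a b → a ∈ T → b ∈ T := by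
    intro a b ha hb hab haT
    have hp : IsPGroup 2 (Subgroup.closure ({a, b} : Set G)) := by
      have h2 : orderOf (a * b) ∣ 2 ^ 1 := by
        rw [orderOf_dvd_iff_pow_eq_one, hab.mul_pow, pow_one, sq, sq,
          CF.Invol.mul_self_of_orderOf ha, CF.Invol.mul_self_of_orderOf hb, one_mul]
      obtain ⟨k, -, hk⟩ := (Nat.dvd_prime_pow Nat.prime_two).mp h2
      apply IsPGroup.of_card (n := k + 1)
      rw [CF.Invol.card_closure_pair ha hb, hk]; ring
    obtain ⟨R, hR⟩ := hp.exists_le_sylow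
    have := huniq R a (CF.Invol.ne_one_of_orderOf ha) (hR (Subgroup.subset_closure (by simp))) haT
    subst this
    exact hR (Subgroup.subset_closure (by simp))
  have hconjT : ∀ a : G, orderOf a = 2 → ∃ a', IsConj a a' ∧ a' ∈ T := by
    intro a ha
    have hp : IsPGroup 2 (Subgroup.zpowers a) :=
      IsPGroup.of_card (n := 1) (by rw [Nat.card_zpowers, ha, pow_one])
    obtain ⟨R, hR⟩ := hp.exists_le_sylow
    obtain ⟨g, hg⟩ := MulAction.exists_smul_eq G R T
    refine ⟨g * a * g⁻¹, isConj_iff.mpr ⟨g, rfl⟩, ?_⟩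
    rw [← hg]
    exact CF.Solv.conj_mem_conj_smul (hR (Subgroup.mem_zpowers a)) g
  obtain ⟨s', hss', hs'T⟩ := hconjT s hs
  obtain ⟨t', htt', ht'T⟩ := hconjT t ht
  have hs' : orderOf s' = 2 := by rw [← CF.Invol.orderOf_eq_of_isConj hss', hs]
  have ht' : orderOf t' = 2 := by rw [← CF.Invol.orderOf_eq_of_isConj htt', ht]
  obtain ⟨g, hg⟩ : ∃ g : G, g • T ≠ T := by
    by_contra h
    push Not at h
    apply hnn
    rw [← Subgroup.normalizer_eq_top_iff, eq_top_iff]
    intro g _
    exact Sylow.smul_eq_iff_mem_normalizer.mp (h g)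
  have hu : orderOf (g * t' * g⁻¹) = 2 := by rw [CF.Invol.orderOf_conj, ht']
  have huT : g * t' * g⁻¹ ∉ T := fun h => hg (huniq _ _ (CF.Invol.ne_one_of_orderOf hu)
    (CF.Solv.conj_mem_conj_smul ht'T g) h)
  have hodd : Odd (orderOf (s' * (g * t' * g⁻¹))) := by
    rw [← Nat.not_even_iff_odd]
    intro he
    obtain ⟨z, -, hz, hz1, hz2⟩ := CF.Invol.exists_central_invol (CF.Invol.mul_self_of_orderOf hs')
      (CF.Invol.mul_self_of_orderOf hu) he
    exact huT (hpair z _ hz hu hz2 (hpair s' z hs' hz hz1.symm hs'T))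
  have h1 := CF.Invol.isConj_of_odd (CF.Invol.mul_self_of_orderOf hs')
      (CF.Invol.mul_self_of_orderOf hu) hodd
  exact (hss'.trans h1).trans ((isConj_iff.mpr ⟨g, rfl⟩ : IsConj t' _).symm.trans htt'.symm)

end Cfsg.Agent.S0231
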