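import Cfsg.Statements.S0232
import Cfsg.Agent.Invol.Count

set_option autoImplicit false
open Cfsg

namespace Cfsg.Agent.S0232

theorem aux (n : ℕ) : ∀ (G : Type*) [Group G] [Finite G], Nat.card G = n → Even (Nat.card G) →
    2 < Nat.card G → ∃ H : Subgroup G, H ≠ ⊤ ∧ Nat.card G < (Nat.card H) ^ 3 := by
  induction n using Nat.strong_induction_on with
  | _ n ih =>
  intro G _ _ hn heven hgt
  by_cases h2 : ∃ H : Subgroup G, H.index = 2
  · obtain ⟨H, hH⟩ := h2
    refine ⟨H, fun h => by simp [h] at hH, ?_⟩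
    have h1 := H.card_mul_index
    rw [hH] at h1
    have h3 : 2 ≤ Nat.card H := by omega
    have h4 : 4 ≤ Nat.card H * Nat.card H := Nat.mul_le_mul h3 h3
    rw [← h1, pow_succ', sq]
    exact Nat.mul_lt_mul_of_pos_left (by omega) (by omega)
  by_cases hZ : Odd (Nat.card (Subgroup.center G))
  · obtain ⟨H, hH, h⟩ := CF.Invol.brauer_fowler_index heven hZ
    have h := h.resolve_left (fun h => h2 ⟨H, h⟩)
    obtain ⟨t, ht⟩ := CF.Invol.exists_invol_of_even heven
    have hC : Subgroup.centralizer ({t} : Set G) ≠ ⊤ := by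
      intro h
      refine CF.Invol.odd_card_iff_no_invol.mp hZ t ?_ ht
      rw [Subgroup.mem_center_iff]
      intro g
      exact Subgroup.mem_centralizer_singleton_iff.mp (h ▸ Subgroup.mem_top g)
    set k := Nat.card {t : G // orderOf t = 2}
    set m := Nat.card (Subgroup.centralizer ({t} : Set G)) with hm
    have hm0 : 0 < m := Nat.card_pos
    have h2 : Nat.card {b : G // IsConj t b} ≤ k :=
      Nat.card_le_card_of_injective (fun b => ⟨b.1, by
        rw [← CF.Invol.orderOf_eq_of_isConj b.2, ht]⟩)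
        (fun a b h => Subtype.ext (by simpa using h))
    have h3 := CF.Invol.card_isConj_mul_card_centralizer t
    have h4 : Nat.card G ≤ k * m := h3 ▸ Nat.mul_le_mul_right _ h2
    have h5 : Nat.card G * (Nat.card G + k) ≤ (k * m) * (k * m + k) :=
      Nat.mul_le_mul h4 (by omega)
    have h7 : (k * m) * (k * m + k) ≤ (k * m) * (k * m + k * m) :=
      Nat.mul_le_mul_left _ (by nlinarith)
    have h8 : H.index < m * m := by
      by_contra hle
      have : 2 * (m * m) * k ^ 2 ≤ 2 * H.index * k ^ 2 := Nat.mul_le_mul_right _ (by omega)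
      nlinarith
    have h9 := H.card_mul_index
    have h10 : 0 < Nat.card H := Nat.card_pos
    by_cases hle : m ≤ Nat.card H
    · refine ⟨H, hH, ?_⟩
      rw [← h9, pow_succ', sq]
      exact Nat.mul_lt_mul_of_pos_left (h8.trans_le (Nat.mul_le_mul hle hle)) h10
    · refine ⟨_, hC, ?_⟩
      rw [← h9, pow_succ', sq, ← hm]
      exact Nat.mul_lt_mul'' (by omega) h8
  · rw [Nat.not_odd_iff_even] at hZ
    obtain ⟨z, hzZ, hz⟩ := CF.Invol.exists_invol_mem_of_even hZ
    have hN : (Subgroup.zpowers z).Normal := ⟨fun n hn g => by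
      rw [Subgroup.mem_center_iff.mp (Subgroup.zpowers_le.mpr hzZ hn) g]
      simpa using hn⟩
    have h4 : 4 ∣ Nat.card G := by
      by_contra h4
      exact h2 (CF.Invol.exists_index_two_of_not_four_dvd heven h4)
    have h5 := (Subgroup.zpowers z).card_mul_index
    rw [Nat.card_zpowers, hz, Subgroup.index_eq_card] at h5
    obtain ⟨c, hc⟩ := h4
    have h6 : Nat.card (G ⧸ Subgroup.zpowers z) ≠ 2 := fun h => h2 ⟨_, h⟩
    obtain ⟨H, hH, h⟩ := ih (Nat.card (G ⧸ Subgroup.zpowers z)) (by omega) _ rfl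
      ⟨c, by omega⟩ (by omega)
    refine ⟨H.comap (QuotientGroup.mk' _), fun h' => hH ?_, ?_⟩
    · rw [← Subgroup.index_eq_one, ← CF.Solv.index_comap_mk', h', Subgroup.index_top]
    · rw [CF.Solv.card_comap_mk', Nat.card_zpowers, hz, mul_pow]
      omega

/-- A finite group G of even order greater than 2 has a proper subgroup H with |G| < |H|^3. -/
theorem result {G : Type*} [Group G] [Finite G] (heven : Even (Nat.card G)) (hgt : 2 < Nat.card G) : ∃ H : Subgroup G, H ≠ ⊤ ∧ Nat.card G < (Nat.card H) ^ 3 := by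
  exact aux _ G rfl heven hgt

end Cfsg.Agent.S0232
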