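import Cfsg.Statements.S0234
import Cfsg.Agent.Invol.Count

set_option autoImplicit false
open Cfsg

namespace Cfsg.Agent.S0234

/-- In a finite simple group G of even order greater than 2, the number n of involutions satisfies 3n < |G|. -/
theorem result {G : Type*} [Group G] [Finite G] [IsSimpleGroup G] (heven : Even (Nat.card G)) (hgt : 2 < Nat.card G) : 3 * Nat.card {t : G // orderOf t = 2} < Nat.card G := by
  have hno2 : ∀ H : Subgroup G, H.index ≠ 2 := by
    intro H h
    have h1 := CF.Invol.card_dvd_factorial_of_simple (H := H) (fun h' => by simp [h'] at h)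
    rw [h] at h1
    have := Nat.le_of_dvd (by decide) h1
    simp [Nat.factorial] at this
    omega
  have h4 : 4 ∣ Nat.card G := by
    by_contra h4
    obtain ⟨H, hH⟩ := CF.Invol.exists_index_two_of_not_four_dvd heven h4
    exact hno2 H hH
  have hZ : Odd (Nat.card (Subgroup.center G)) := by
    rcases IsSimpleGroup.eq_bot_or_eq_top_of_normal (Subgroup.center G) inferInstance with h | h
    · simp [h]
    · exfalso
      obtain ⟨t, ht⟩ := CF.Invol.exists_invol_of_even heven
      have hn : (Subgroup.zpowers t).Normal := ⟨fun n hn g => by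
        rw [Subgroup.mem_center_iff.mp (h ▸ Subgroup.mem_top n : n ∈ Subgroup.center G) g]
        simpa using hn⟩
      rcases IsSimpleGroup.eq_bot_or_eq_top_of_normal _ hn with h | h
      · exact CF.Invol.ne_one_of_orderOf ht (Subgroup.zpowers_eq_bot.mp h)
      · have := Nat.card_zpowers t
        rw [h, Subgroup.card_top] at this
        omega
  obtain ⟨H, hH, h | h⟩ := CF.Invol.brauer_fowler_index heven hZ
  · exact absurd h (hno2 H)
  by_contra hcon
  set k := Nat.card {t : G // orderOf t = 2} with hk
  have hj : H.index ≤ 5 := by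
    by_contra hj
    have h5 : Nat.card G * (Nat.card G + k) ≤ (3 * k) * (3 * k + k) :=
      Nat.mul_le_mul (by omega) (by omega)
    have h6 : 2 * 6 * k ^ 2 ≤ 2 * H.index * k ^ 2 := Nat.mul_le_mul_right _ (by omega)
    nlinarith
  -- embed `G` in the symmetric group on five points
  classical
  have hemb : ∃ f : G →* Equiv.Perm (Fin 5), Function.Injective f := by
    have hker : (MulAction.toPermHom G (G ⧸ H)).ker = ⊥ := by
      rw [← Subgroup.normalCore_eq_ker]
      rcases IsSimpleGroup.eq_bot_or_eq_top_of_normal H.normalCore inferInstance with h | h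
      · exact h
      · exact absurd (top_le_iff.mp (h ▸ H.normalCore_le)) hH
    have := Fintype.ofFinite (G ⧸ H)
    obtain ⟨e⟩ : Nonempty (G ⧸ H ↪ Fin 5) := Function.Embedding.nonempty_of_card_le (by
      rw [← Nat.card_eq_fintype_card, ← Subgroup.index_eq_card]; simpa using hj)
    exact ⟨(Equiv.Perm.viaEmbeddingHom e).comp (MulAction.toPermHom G (G ⧸ H)),
      (Equiv.Perm.viaEmbeddingHom_injective e).comp ((MonoidHom.ker_eq_bot_iff _).mp hker)⟩
  obtain ⟨f, hf⟩ := hemb
  have hsign : ∀ g, Equiv.Perm.sign (f g) = 1 := by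
    have h1 : ((alternatingGroup (Fin 5)).comap f).index ∣ 2 := by
      rw [Subgroup.index_comap, ← alternatingGroup.index_eq_two (α := Fin 5)]
      exact Subgroup.relIndex_dvd_index_of_normal _ _
    rcases (Nat.dvd_prime Nat.prime_two).mp h1 with h1 | h1
    · rw [Subgroup.index_eq_one] at h1
      intro g
      exact (h1 ▸ Subgroup.mem_top g : g ∈ (alternatingGroup (Fin 5)).comap f)
    · exact absurd h1 (hno2 _)
  have hk15 : k ≤ 15 := by
    have h1 : k ≤ Nat.card {σ : Equiv.Perm (Fin 5) //
        σ * σ = 1 ∧ σ ≠ 1 ∧ Equiv.Perm.sign σ = 1} := by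
      refine Nat.card_le_card_of_injective (fun t => ⟨f t.1, ?_, ?_, hsign _⟩) ?_
      · rw [← map_mul, CF.Invol.mul_self_of_orderOf t.2, map_one]
      · intro h
        exact CF.Invol.ne_one_of_orderOf t.2 (hf (h.trans (map_one f).symm))
      · intro a b h
        exact Subtype.ext (hf (by simpa using h))
    refine h1.trans (le_of_eq ?_)
    rw [Nat.card_eq_fintype_card]
    decide +kernel
  have h60 : Nat.card G ∣ 60 := by
    have h1 : f.range ≤ alternatingGroup (Fin 5) := by
      rintro _ ⟨g, rfl⟩
      exact hsign g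
    have h2 := Subgroup.card_dvd_of_le h1
    rw [← Nat.card_congr (MonoidHom.ofInjective hf).toEquiv, nat_card_alternatingGroup] at h2
    simpa [Nat.factorial] using h2
  have : Fact (Nat.Prime 2) := ⟨Nat.prime_two⟩
  have : Fact (Nat.Prime 5) := ⟨Nat.prime_five⟩
  have key : ∀ p n j : ℕ, [Fact p.Prime] → 1 < j → Nat.card G = p ^ n * j →
      Nat.card G ∣ j.factorial := by
    intro p n j _ hj hG
    obtain ⟨K, hK⟩ := Sylow.exists_subgroup_card_pow_prime p (n := n) (G := G) ⟨j, hG⟩
    have h1 := K.card_mul_index
    rw [hK, hG] at h1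
    have h2 : K.index = j := Nat.eq_of_mul_eq_mul_left (pow_pos (Fact.out : p.Prime).pos n) h1
    rw [← h2]
    exact CF.Invol.card_dvd_factorial_of_simple (fun h => by simp [h] at h2; omega)
  have hle : Nat.card G ≤ 45 := by omega
  obtain ⟨c, hc⟩ := h4
  have hc1 : c ≤ 11 := by omega
  rw [hc] at h60
  interval_cases c
  all_goals first
    | omega
    | (exfalso; revert h60; decide)
    | skip
  · have := key 2 1 2 (by norm_num) (by omega)
    rw [hc] at this; revert this; decide
  · have := key 2 2 3 (by norm_num) (by omega)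
    rw [hc] at this; revert this; decide
  · have := key 5 1 4 (by norm_num) (by omega)
    rw [hc] at this; revert this; decide

end Cfsg.Agent.S0234
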