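import Cfsg.Statements.S0239
import Cfsg.Agent.Invol.Count

set_option autoImplicit false
open Cfsg

namespace Cfsg.Agent.S0239

/-- If some nontrivial element x of a finite group G is conjugate to x⁻¹, then |G| is even. -/
theorem result {G : Type*} [Group G] [Finite G] (x : G) (hx : x ≠ 1) (hreal : IsConj x x⁻¹) : Even (Nat.card G) := by
  by_cases h : x = x⁻¹
  · have : orderOf x = 2 := CF.Invol.orderOf_eq_two_iff.mpr
      ⟨by nth_rewrite 1 [h]; rw [inv_mul_cancel], hx⟩
    exact even_iff_two_dvd.mpr (this ▸ orderOf_dvd_natCard x)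
  · have h1 := CF.Invol.relIndex_extCentralizer hreal h
    exact even_iff_two_dvd.mpr (h1 ▸ (Subgroup.relIndex_dvd_card _ _).trans
      (Subgroup.card_subgroup_dvd_card _))

end Cfsg.Agent.S0239
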