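import Cfsg.Statements.S0240
import Cfsg.Agent.Invol.Count

set_option autoImplicit false
open Cfsg

namespace Cfsg.Agent.S0240

/-- Let G be a finite group with n involutions and H a subgroup with |H|·(n+1) > |G|. Then some nontrivial h ∈ H is strongly real in G: an involution t of G satisfies t h t⁻¹ = h⁻¹. -/
theorem result {G : Type*} [Group G] [Finite G] (H : Subgroup G) (hH : Nat.card G < Nat.card H * (Nat.card {t : G // orderOf t = 2} + 1)) : ∃ h : G, h ∈ H ∧ h ≠ 1 ∧ ∃ t : G, orderOf t = 2 ∧ t * h * t⁻¹ = h⁻¹ := by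
  by_cases h : ∃ t ∈ H, orderOf t = 2
  · obtain ⟨t, htH, ht⟩ := h
    exact ⟨t, htH, CF.Invol.ne_one_of_orderOf ht, t, ht, by simp [CF.Invol.inv_eq_of_orderOf ht, CF.Invol.mul_self_of_orderOf ht]⟩
  push Not at h
  have hlt : H.index < Nat.card {t : G // orderOf t = 2} + 1 := by
    rw [← H.card_mul_index] at hH
    exact Nat.lt_of_mul_lt_mul_left hH
  let f : {t : G // orderOf t = 2} → {q : G ⧸ H // True ∧ q ≠ ((1 : G) : G ⧸ H)} := fun t =>
    ⟨(t.1 : G ⧸ H), trivial, fun ht => h t.1 (by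
      simpa using (QuotientGroup.eq.mp ht.symm)) t.2⟩
  have h1 := CF.Invol.card_subtype_ne_add_one (p := fun _ : G ⧸ H => True) (a := ((1 : G) : G ⧸ H))
    trivial
  rw [Nat.card_congr (Equiv.subtypeUnivEquiv (fun _ => trivial)), ← Subgroup.index_eq_card] at h1
  have hni : ¬ Function.Injective f := fun hi => by
    have := Nat.card_le_card_of_injective f hi
    omega
  obtain ⟨s, t, hst, hne⟩ := Function.not_injective_iff.mp hni
  have hst' : (s.1 : G ⧸ H) = t.1 := congrArg Subtype.val hst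
  rw [QuotientGroup.eq, CF.Invol.inv_eq_of_orderOf s.2] at hst'
  refine ⟨_, hst', fun h1 => hne (Subtype.ext ?_), s.1, s.2, CF.Invol.left_inverts_mul
    (CF.Invol.mul_self_of_orderOf s.2) (CF.Invol.mul_self_of_orderOf t.2)⟩
  rw [← CF.Invol.inv_eq_of_orderOf s.2, inv_eq_of_mul_eq_one_right h1]

end Cfsg.Agent.S0240
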