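import Cfsg.Statements.S0257
import Cfsg.Agent.Classical.Subfields

set_option autoImplicit false
open Cfsg

namespace Cfsg.Agent.S0257

/-- SL_2(3) has a normal subgroup of index 3 isomorphic to the quaternion group of order 8, and its centre has order 2. -/
theorem result {F : Type*} [Field F] [Fintype F] (hF : Fintype.card F = 3) : (∃ Q : Subgroup (Matrix.SpecialLinearGroup (Fin 2) F), Q.Normal ∧ Q.index = 3 ∧ Nonempty (Q ≃* QuaternionGroup 2)) ∧ Nat.card (Subgroup.center (Matrix.SpecialLinearGroup (Fin 2) F)) = 2 := by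
  open CF.Classical MatrixGroups in
  rw [← Nat.card_eq_fintype_card] at hF
  have h2 : (2 : F) ≠ 0 := two_ne_zero_of_odd_card (by rw [hF]; decide)
  have h3 : Nat.card (Subgroup.center SL(2, F)) = 2 := by rw [card_center_SL, hF]; rfl
  refine ⟨?_, h3⟩
  obtain ⟨e⟩ := PSL2_three_equiv hF
  let f := e.toMonoidHom.comp (slToPSL F)
  have hf : Function.Surjective f := e.surjective.comp slToPSL_surjective
  have h4 := alternatingGroup.normal_kleinFour (α := Fin 4) (by simp)
  have h5 := (alternatingGroup.kleinFour (Fin 4)).index_mul_card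
  rw [alternatingGroup.kleinFour_card_of_card_eq_four (by simp), card_A4] at h5
  have h6 : ((alternatingGroup.kleinFour (Fin 4)).comap f).index = 3 := by
    rw [Subgroup.index_comap_of_surjective _ hf]; omega
  have h7 := ((alternatingGroup.kleinFour (Fin 4)).comap f).index_mul_card
  rw [h6, card_SL_two', hF] at h7
  have h8 : Nat.card ((alternatingGroup.kleinFour (Fin 4)).comap f) = 2 ^ 3 := by omega
  refine ⟨_, inferInstance, h6, ?_⟩
  obtain ⟨m, hm, ⟨e'⟩⟩ := sylow_two_SL2 h2 ((IsPGroup.of_card h8).toSylow (by rw [h6]; norm_num))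
  have h9 := Nat.card_congr e'.toEquiv
  rw [Nat.card_eq_fintype_card (α := QuaternionGroup _), QuaternionGroup.card] at h9
  have h10 : 2 ^ m = 2 := by
    have : 2 ^ 3 = 4 * 2 ^ m := h8.symm.trans h9
    omega
  exact ⟨by rw [h10] at e'; exact e'⟩

end Cfsg.Agent.S0257
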