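import Cfsg.Statements.S0258
import Cfsg.Agent.Classical.SL2b

set_option autoImplicit false
open Cfsg

namespace Cfsg.Agent.S0258

/-- GL_2(q), q a power of the prime p, has exactly q + 1 Sylow p-subgroups. -/
theorem result {F : Type*} [Field F] [Fintype F] {q : ℕ} (hF : Fintype.card F = q) (p : ℕ) [Fact p.Prime] [CharP F p] : Nat.card (Sylow p (Matrix.GeneralLinearGroup (Fin 2) F)) = q + 1 := by
  open CF.Classical in
  rw [← hF, ← Nat.card_eq_fintype_card]
  exact (isL2_PGL F (AlgebraicClosure F)).card_sylow_cover (isCentralCoprime_pglMk p)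
    Matrix.ProjGenLinGroup.mk_surjective

end Cfsg.Agent.S0258
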