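import Cfsg.Statements.S0259
import Cfsg.Agent.Classical.SL2b

set_option autoImplicit false
open Cfsg

namespace Cfsg.Agent.S0259

/-- Distinct Sylow p-subgroups of GL_2(q), p the characteristic, intersect trivially. -/
theorem result {F : Type*} [Field F] [Fintype F] (p : ℕ) [Fact p.Prime] [CharP F p] (P Q : Sylow p (Matrix.GeneralLinearGroup (Fin 2) F)) (h : P ≠ Q) : (P : Subgroup (Matrix.GeneralLinearGroup (Fin 2) F)) ⊓ (Q : Subgroup (Matrix.GeneralLinearGroup (Fin 2) F)) = ⊥ := by
  open CF.Classical in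
  exact (isL2_PGL F (AlgebraicClosure F)).sylow_inf_eq_bot (isCentralCoprime_pglMk p)
    Matrix.ProjGenLinGroup.mk_surjective h

end Cfsg.Agent.S0259
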