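import Cfsg.Statements.S0260
import Cfsg.Agent.Classical.SL2b

set_option autoImplicit false
open Cfsg

namespace Cfsg.Agent.S0260

/-- Any two distinct Sylow p-subgroups of SL_2(q), p the characteristic, generate SL_2(q). -/
theorem result {F : Type*} [Field F] [Fintype F] (p : ℕ) [Fact p.Prime] [CharP F p] (P Q : Sylow p (Matrix.SpecialLinearGroup (Fin 2) F)) (h : P ≠ Q) : (P : Subgroup (Matrix.SpecialLinearGroup (Fin 2) F)) ⊔ (Q : Subgroup (Matrix.SpecialLinearGroup (Fin 2) F)) = ⊤ := by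
  open CF.Classical in
  have L := isL2_PSL F (AlgebraicClosure F)
  have C := isCentralCoprime_slToPSL (ι := Fin 2) (F := F) p
  obtain ⟨x, hx⟩ := L.sylow_map_eq_unip slToPSL_surjective P
  obtain ⟨y, hy⟩ := L.sylow_map_eq_unip slToPSL_surjective Q
  have hxy : x ≠ y := fun e => h (Sylow.ext
    (C.eq_of_map_eq P.isPGroup' Q.isPGroup' (by rw [hx, hy, e])))
  have h1 := L.psl_le_map_unip_sup hxy
  rw [← hx, ← hy, ← Subgroup.map_sup] at h1
  rw [eq_top_iff]
  intro g _
  have h2 := slConj_map_mem (S := (P : Subgroup _) ⊔ Q) (K := ⊤) (c := 1) (by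
    refine le_trans ?_ h1
    rintro _ ⟨_, ⟨s, rfl⟩, rfl⟩
    exact ⟨_, toPGL_slConj_map ⊤ 1 s⟩) (Matrix.SpecialLinearGroup.map
      (Subfield.topEquiv.symm : F ≃+* (⊤ : Subfield F)).toRingHom g)
  convert h2
  apply Matrix.SpecialLinearGroup.toGL_injective
  rw [toGL_slConj, one_mul, inv_one, mul_one]
  rfl

end Cfsg.Agent.S0260
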