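import Cfsg.Statements.S0263
import Cfsg.Agent.Classical.SmallRecog

set_option autoImplicit false
open Cfsg

namespace Cfsg.Agent.S0263

/-- A Sylow p-subgroup of GL_n(q), p the characteristic, has order q^(n(n-1)/2). -/
theorem result {F : Type*} [Field F] [Fintype F] {q : ℕ} (hF : Fintype.card F = q) (p : ℕ) [Fact p.Prime] [CharP F p] (n : ℕ) (P : Sylow p (Matrix.GeneralLinearGroup (Fin n) F)) : Nat.card P = q ^ (n * (n - 1) / 2) := by
  obtain ⟨f, hp, hf⟩ := FiniteField.card F p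
  rw [hF] at hf
  have h1 : ∀ i : Fin n, q ^ n - q ^ (i : ℕ) = q ^ (i : ℕ) * (q ^ (n - i) - 1) := fun i => by
    rw [Nat.mul_sub_one, ← pow_add, Nat.add_sub_cancel' i.2.le]
  rw [CF.Classical.card_sylow_eq P (k := f * (n * (n - 1) / 2)) (m := ∏ i : Fin n, (q ^ (n - i) - 1)) ?_ ?_,
    pow_mul, ← hf]
  · rw [Matrix.card_GL_field, hF, pow_mul, ← hf, ← Finset.sum_range_id, ← Finset.prod_pow_eq_pow_sum,
      ← Fin.prod_univ_eq_prod_range, ← Finset.prod_mul_distrib]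
    exact Finset.prod_congr rfl fun i _ => h1 i
  · rw [Prime.dvd_finsetProd_iff hp.prime]
    rintro ⟨i, -, h⟩
    have h2 : p ∣ q ^ (n - i) := dvd_pow (hf ▸ dvd_pow_self p f.ne_zero) (by omega)
    exact hp.not_dvd_one ((Nat.dvd_sub_iff_right (Nat.one_le_pow _ _ (hf ▸ pow_pos hp.pos _)) h2).1 h)

end Cfsg.Agent.S0263
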