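import Cfsg.Statements.S0266
import Cfsg.Agent.Classical.PGL2
import Cfsg.Agent.Perm.Basic

set_option autoImplicit false
open scoped MatrixGroups
open Cfsg

namespace Cfsg.Agent.S0266

open scoped Classical in
theorem equiv_smul {F : Type*} [Field F] (g : PGL(2, F)) (x : OnePoint F) :
    OnePoint.equivProjectivization F (g • x) = g • OnePoint.equivProjectivization F x := by
  obtain ⟨g, rfl⟩ := Matrix.ProjGenLinGroup.mk_surjective g
  exact OnePoint.equivProjectivization_smul x


/-- PGL_2(F) is sharply 3-transitive on the projective line: it is 3-transitive and the stabiliser of three distinct points is trivial. -/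
theorem result {F : Type*} [Field F] : MulAction.IsMultiplyPretransitive (Matrix.ProjGenLinGroup (Fin 2) F) (Projectivization F (Fin 2 → F)) 3 ∧ ∀ (g : Matrix.ProjGenLinGroup (Fin 2) F) (a b c : Projectivization F (Fin 2 → F)), a ≠ b → a ≠ c → b ≠ c → g • a = a → g • b = b → g • c = c → g = 1 := by
  open CF.Classical in
  classical
  let e := OnePoint.equivProjectivization F
  refine ⟨CF.Perm.threeTrans_iff.2 (e.forall_congr_right.1 fun a => e.forall_congr_right.1 fun b =>
    e.forall_congr_right.1 fun c => e.forall_congr_right.1 fun a' => e.forall_congr_right.1 fun b' =>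
    e.forall_congr_right.1 fun c' h1 h2 h3 h4 h5 h6 => ?_), fun g => e.forall_congr_right.1 fun a =>
    e.forall_congr_right.1 fun b => e.forall_congr_right.1 fun c => ?_⟩
  · rw [e.injective.ne_iff] at h1 h2 h3 h4 h5 h6
    obtain ⟨g, rfl, rfl, rfl⟩ := exists_smul_three a b c h1 h2 h3
    obtain ⟨g', rfl, rfl, rfl⟩ := exists_smul_three a' b' c' h4 h5 h6
    exact ⟨g' * g⁻¹, by simp only [e, ← equiv_smul, mul_smul, inv_smul_smul, and_self]⟩
  · simp only [e, ← equiv_smul, (OnePoint.equivProjectivization F).injective.ne_iff,
      EmbeddingLike.apply_eq_iff_eq]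
    exact pgl_eq_one_of_three g a b c

end Cfsg.Agent.S0266
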