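import Cfsg.Statements.S0267
import Cfsg.Agent.S0266
import Cfsg.Agent.Classical.SmallIso

set_option autoImplicit false
open Cfsg

namespace Cfsg.Agent.S0267

/-- SL_2(q) is 3-transitive on the q+1 points of the projective line if and only if q is even. -/
theorem result {F : Type*} [Field F] [Fintype F] : MulAction.IsMultiplyPretransitive (Matrix.SpecialLinearGroup (Fin 2) F) (Projectivization F (Fin 2 → F)) 3 ↔ ringChar F = 2 := by
  open CF.Classical Matrix MatrixGroups in
  have h0 : ∀ (g : SL(2, F)) (x : Projectivization F (Fin 2 → F)),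
      SpecialLinearGroup.toPGL g • x = g • x := fun g x => by
    induction x using Projectivization.ind
    rfl
  constructor
  · intro h
    by_contra h2
    have h3 : (2 : F) ≠ 0 := Ring.two_ne_zero h2
    have h4 : psl F = ⊤ := (Subgroup.eq_top_iff' _).2 fun g => by
      have h5 : ∀ a b : Fin 2 → F, ∀ ha hb, a 0 * b 1 ≠ a 1 * b 0 →
          Projectivization.mk F a ha ≠ Projectivization.mk F b hb := fun a b ha hb h e => by
        obtain ⟨c, rfl⟩ := (Projectivization.mk_eq_mk_iff' _ _ _ _ _).1 e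
        exact h (by simp only [Pi.smul_apply, smul_eq_mul]; ring)
      have h6 := h5 ![1, 0] ![0, 1] (by simp) (by simp) (by simp)
      have h7 := h5 ![1, 0] ![1, 1] (by simp) (by simp) (by simp)
      have h8 := h5 ![0, 1] ![1, 1] (by simp) (by simp) (by simp)
      obtain ⟨s, e1, e2, e3⟩ := CF.Perm.threeTrans_iff.1 h _ _ _ _ _ _ h6 h7 h8
        ((MulAction.injective g).ne h6) ((MulAction.injective g).ne h7) ((MulAction.injective g).ne h8)
      rw [← h0, ← inv_smul_eq_iff, ← mul_smul] at e1 e2 e3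
      rw [inv_mul_eq_one.1 (S0266.result.2 _ _ _ _ h6 h7 h8 e1 e2 e3)]
      exact ⟨s, rfl⟩
    have h5 := index_psl (F := F)
    rw [h4, Subgroup.index_top, gcd_two_of_odd (Nat.not_even_iff_odd.1 fun e => h3 (two_eq_zero_of_even_card e))] at h5
    omega
  · intro h
    refine CF.Perm.threeTrans_iff.2 fun a b c d e f h1 h2 h3 h4 h5 h6 => ?_
    obtain ⟨g, hg⟩ := CF.Perm.threeTrans_iff.1 S0266.result.1 a b c d e f h1 h2 h3 h4 h5 h6
    obtain ⟨g, rfl⟩ : g ∈ psl F := psl_eq_top (ringChar.spec F 2 |>.2 h.dvd) ▸ Subgroup.mem_top g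
    exact ⟨g, by simpa only [← h0] using hg⟩

end Cfsg.Agent.S0267
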