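import Cfsg.Statements.S0272
import Cfsg.Agent.Classical.SL2b

set_option autoImplicit false
open Cfsg

namespace Cfsg.Agent.S0272

/-- The normaliser in GL_2(q) of a Sylow p-subgroup, p the characteristic, has order q (q-1)^2. -/
theorem result {F : Type*} [Field F] [Fintype F] {q : ℕ} (hF : Fintype.card F = q) (p : ℕ) [Fact p.Prime] [CharP F p] (P : Sylow p (Matrix.GeneralLinearGroup (Fin 2) F)) : Nat.card (Subgroup.normalizer ((P : Subgroup (Matrix.GeneralLinearGroup (Fin 2) F)) : Set (Matrix.GeneralLinearGroup (Fin 2) F))) = q * (q - 1) ^ 2 := by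
  open CF.Classical in
  have L := isL2_PGL F (AlgebraicClosure F)
  have hf := Matrix.ProjGenLinGroup.mk_surjective (n := Fin 2) (R := F)
  obtain ⟨x, hx⟩ := L.sylow_map_eq_unip hf P
  have h1 := L.card_stabilizer_ratPt x
  rw [index_range_id, mul_one] at h1
  rw [L.normalizer_sylow (isCentralCoprime_pglMk p) hf hx, card_comap_of_surjective hf, h1,
    Matrix.ProjGenLinGroup.ker_mk, card_center_GL, Nat.card_units, Nat.card_eq_fintype_card, hF]
  ring

end Cfsg.Agent.S0272
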