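import Cfsg.Statements.S0273
import Cfsg.Agent.Classical.SL2b

set_option autoImplicit false
open Cfsg

namespace Cfsg.Agent.S0273

/-- In GL_2(q) the centraliser of a non-trivial element of a Sylow p-subgroup (p the characteristic) has order q (q-1): the Sylow subgroup times the scalars. -/
theorem result {F : Type*} [Field F] [Fintype F] {q : ℕ} (hF : Fintype.card F = q) (p : ℕ) [Fact p.Prime] [CharP F p] (P : Sylow p (Matrix.GeneralLinearGroup (Fin 2) F)) (a : Matrix.GeneralLinearGroup (Fin 2) F) (ha : a ∈ P) (ha1 : a ≠ 1) : Nat.card (Subgroup.centralizer ({a} : Set (Matrix.GeneralLinearGroup (Fin 2) F))) = q * (q - 1) := by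
  open CF.Classical in
  have L := isL2_PGL F (AlgebraicClosure F)
  have hf := Matrix.ProjGenLinGroup.mk_surjective (n := Fin 2) (R := F)
  have C := isCentralCoprime_pglMk (ι := Fin 2) (F := F) p
  obtain ⟨x, hx⟩ := L.sylow_map_eq_unip hf P
  obtain ⟨m, hm⟩ := P.isPGroup' ⟨a, ha⟩
  have h1 : Matrix.ProjGenLinGroup.mk a ∈ unip _ (ratPt (AlgebraicClosure F) x) :=
    hx ▸ ⟨a, ha, rfl⟩
  have h2 := h1.resolve_left fun h => ha1
    ((Subgroup.eq_bot_iff_forall _).1 (C.inf_ker_eq_bot P.isPGroup') a ⟨ha, h⟩)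
  rw [C.centralizer_eq (congrArg Subtype.val hm), centralizer_eq_unip h2,
    card_comap_of_surjective hf, L.card_unip_ratPt,
    Matrix.ProjGenLinGroup.ker_mk, card_center_GL, Nat.card_units, Nat.card_eq_fintype_card, hF]
  ring

end Cfsg.Agent.S0273
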