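import Cfsg.Statements.S0275
import Cfsg.Agent.Classical.SL2b

set_option autoImplicit false
open Cfsg

namespace Cfsg.Agent.S0275

/-- If p is odd and H is a subgroup of SL_2(q), q a power of p, with more than one Sylow p-subgroup, then the Sylow 2-subgroups of H are generalised quaternion. -/
theorem result {F : Type*} [Field F] [Fintype F] (p : ℕ) [Fact p.Prime] [CharP F p] (hp : p ≠ 2) (H : Subgroup (Matrix.SpecialLinearGroup (Fin 2) F)) (hH : 1 < Nat.card (Sylow p H)) (S : Sylow 2 H) : ∃ k : ℕ, 1 ≤ k ∧ Nonempty ((S : Subgroup H) ≃* QuaternionGroup (2 ^ k)) := by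
  open CF.Classical in
  obtain ⟨f, hf, h⟩ := exists_SL2_prime_le p hp H hH
  have h2 := two_ne_zero_of_char_ne_two F p hp
  have e := (S : Subgroup H).equivMapOfInjective H.subtype H.subtype_injective
  rcases SL2_isCyclic_or_quaternion h2 (S.isPGroup'.map H.subtype) with hc | ⟨m, hm, ⟨e'⟩⟩
  · exfalso
    have hc' : IsCyclic S := isCyclic_of_surjective e.symm e.symm.surjective
    obtain ⟨P⟩ : Nonempty (Sylow 2 (Matrix.SpecialLinearGroup (Fin 2) (ZMod p))) := inferInstance
    refine not_isCyclic_sylow_two_PSL2_aux (two_ne_zero_of_char_ne_two (ZMod p) p hp) P ?_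
    let g := f.codRestrict H fun x => h ⟨x, rfl⟩
    have hg : Function.Injective g := fun a b hab => hf (congrArg Subtype.val hab)
    obtain ⟨Q, hQ⟩ := (P.isPGroup'.map g).exists_le_sylow
    have : IsCyclic Q := isCyclic_of_surjective (S.equiv Q) (S.equiv Q).surjective
    have : IsCyclic ((P : Subgroup _).map g) :=
      isCyclic_of_injective (Subgroup.inclusion hQ) (Subgroup.inclusion_injective hQ)
    exact isCyclic_of_surjective ((P : Subgroup _).equivMapOfInjective g hg).symm
      (MulEquiv.surjective _)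
  · exact ⟨m, hm, ⟨e.trans e'⟩⟩

end Cfsg.Agent.S0275
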