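import Cfsg.Statements.S0289
import Cfsg.Agent.Geom.Orders

set_option autoImplicit false
open Cfsg

namespace Cfsg.Agent.S0289

/-- The hyperbolic quadratic form on F^(2m), m at least 1, has q^(2m-1) + q^m - q^(m-1) zeros (that is, (q^m - 1)(q^(m-1) + 1) non-zero isotropic vectors). -/
theorem result {F : Type*} [Field F] [Fintype F] {q : ℕ} (hF : Fintype.card F = q) (m : ℕ) (hm : 1 ≤ m) : Nat.card {v : Fin m ⊕ Fin m → F // Cfsg.quadFormPlus m F v = 0} = q ^ (2 * m - 1) + q ^ m - q ^ (m - 1) := by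
  subst hF
  obtain ⟨m, rfl⟩ : ∃ k, m = k + 1 := ⟨m - 1, by omega⟩
  refine (CF.Geom.card_singular_plus (CF.Geom.qPlus_nondegenerate _) (CF.Geom.isPlus_qPlus _)
    (m := m) (by simp; omega)).trans ?_
  rw [Nat.card_eq_fintype_card, Nat.add_sub_cancel, show 2 * (m + 1) - 1 = 2 * m + 1 by omega]
  have h : 1 ≤ Fintype.card F := Fintype.card_pos
  have h2 : Fintype.card F ^ m ≤ Fintype.card F ^ (m + 1) := Nat.pow_le_pow_right h (by omega)
  zify [Nat.one_le_pow _ _ h, le_add_left h2]; ring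

end Cfsg.Agent.S0289
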