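import Cfsg.Statements.S0307
import Cfsg.Agent.Classical.Linear

set_option autoImplicit false
open Cfsg

namespace Cfsg.Agent.S0307

/-- PSL_n(q) is normal in PGL_n(q) with cyclic quotient of order gcd(n, q-1): the image of the natural map PSL_n → PGL_n is the kernel of a surjective homomorphism onto the cyclic group of that order. -/
theorem result {F : Type*} [Field F] [Fintype F] {q : ℕ} (hF : Fintype.card F = q) (n : ℕ) (hn : 1 ≤ n) : ∃ g : Matrix.ProjGenLinGroup (Fin n) F →* Multiplicative (ZMod (Nat.gcd n (q - 1))), Function.Surjective g ∧ g.ker = (Matrix.ProjectiveSpecialLinearGroup.toPGL : Matrix.ProjectiveSpecialLinearGroup (Fin n) F →* Matrix.ProjGenLinGroup (Fin n) F).range := by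
  subst hF
  have : Nonempty (Fin n) := ⟨⟨0, hn⟩⟩
  let N : Subgroup Fˣ := (powMonoidHom n : Fˣ →* Fˣ).range
  have hN : Nat.card (Fˣ ⧸ N) = Nat.gcd n (Fintype.card F - 1) := by
    rw [← Subgroup.index_eq_card, IsCyclic.index_powMonoidHom_range, Nat.card_units,
      Nat.card_eq_fintype_card, Nat.gcd_comm]
  have hc : IsCyclic (Fˣ ⧸ N) := isCyclic_of_surjective _ (QuotientGroup.mk'_surjective N)
  let e : (Fˣ ⧸ N) ≃* Multiplicative (ZMod (Nat.gcd n (Fintype.card F - 1))) :=
    hN ▸ (zmodCyclicMulEquiv hc).symm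
  let d : Matrix.ProjGenLinGroup (Fin n) F →* Fˣ ⧸ N :=
    Matrix.ProjGenLinGroup.lift ((QuotientGroup.mk' N).comp Matrix.GeneralLinearGroup.det) (by
      ext u
      simp only [MonoidHom.comp_apply, Matrix.GeneralLinearGroup.det_scalar, Fintype.card_fin,
        QuotientGroup.mk'_apply, MonoidHom.one_apply, QuotientGroup.eq_one_iff]
      exact ⟨u, rfl⟩)
  refine ⟨e.toMonoidHom.comp d, ?_, ?_⟩
  · refine e.surjective.comp ?_
    intro x
    obtain ⟨u, rfl⟩ := QuotientGroup.mk'_surjective N x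
    obtain ⟨g, rfl⟩ := Matrix.GeneralLinearGroup.det_surjective (n := Fin n) u
    exact ⟨Matrix.ProjGenLinGroup.mk g, rfl⟩
  · ext x
    induction x using Matrix.ProjGenLinGroup.induction_on with | mk g =>
    have h1 : Matrix.ProjGenLinGroup.mk g ∈ (e.toMonoidHom.comp d).ker ↔
        Matrix.GeneralLinearGroup.det g ∈ N := by
      rw [MonoidHom.mem_ker, MonoidHom.comp_apply, MulEquiv.coe_toMonoidHom, map_eq_one_iff _ e.injective]
      exact QuotientGroup.eq_one_iff _
    rw [h1]
    constructor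
    · rintro ⟨u, hu⟩
      have h2 : g * Matrix.GeneralLinearGroup.scalar (Fin n) u⁻¹ ∈
          (Matrix.GeneralLinearGroup.det : Matrix.GeneralLinearGroup (Fin n) F →* Fˣ).ker := by
        rw [MonoidHom.mem_ker, map_mul, Matrix.GeneralLinearGroup.det_scalar, ← hu]
        simp
      rw [← CF.Classical.toGL_range_eq_ker_det] at h2
      obtain ⟨s, hs⟩ := h2
      refine ⟨QuotientGroup.mk s, ?_⟩
      rw [Matrix.ProjectiveSpecialLinearGroup.toPGL_mk, hs, map_mul, Matrix.ProjGenLinGroup.mk_scalar, mul_one]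
    · rintro ⟨y, hy⟩
      obtain ⟨s, rfl⟩ := QuotientGroup.mk_surjective y
      rw [Matrix.ProjectiveSpecialLinearGroup.toPGL_mk, Matrix.ProjGenLinGroup.mk_eq_mk_iff] at hy
      obtain ⟨u, rfl⟩ := hy
      exact ⟨u, by simp⟩

end Cfsg.Agent.S0307
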