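import Cfsg.Statements.S0310
import Cfsg.Agent.BN.Parabolic

set_option autoImplicit false
open Cfsg

namespace Cfsg.Agent.S0310

/-- For a set `J` of distinguished generators, the subgroup generated by `B` and `J` is exactly the union of
the double cosets `B n B` with `n` in the subgroup generated by `J` (so `B W_J B` is a subgroup). -/
theorem result {G : Type*} [Group G] (P : Cfsg.BNPair G) {J : Set G}
    (hJ : J ⊆ P.S) (g : G) :
    g ∈ P.parabolic J ↔ ∃ n ∈ Subgroup.closure J, g ∈ DoubleCoset.doubleCoset n (P.B : Set G) P.B := by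
  rw [CF.BN.parabolic_eq_parW hJ]
  constructor
  · intro hg
    obtain ⟨ω, hω, e⟩ := (CF.BN.cox P).exists_word_of_mem_closure hg
    have key : ∀ ω : List P.S, (∀ i ∈ ω, i ∈ (Subtype.val ⁻¹' J : Set P.S)) →
        ∃ n ∈ Subgroup.closure J, n ∈ P.N ∧ CF.BN.wt P n = (CF.BN.cox P).wp ω := by
      intro ω hω
      induction ω with
      | nil => exact ⟨1, one_mem _, one_mem _, CF.BN.wt_one⟩
      | cons i ω ih =>
        obtain ⟨n, hn, hn', e⟩ := ih fun j hj => hω j (by simp [hj])
        refine ⟨i * n, mul_mem (Subgroup.subset_closure (hω i (by simp))) hn,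
          mul_mem (P.subset i.2) hn', ?_⟩
        rw [CF.BN.wt_mul_of_mem_N (P.subset i.2) hn', CF.BN.wt_s, e, CF.BN.InvGen.wp_cons]
    obtain ⟨n, hn, -, e'⟩ := key ω hω
    exact ⟨n, hn, CF.BN.mem_doubleCoset_iff.2 (by rw [e', e])⟩
  · rintro ⟨n, hn, h⟩
    rw [← CF.BN.parabolic_eq_parW hJ]
    exact CF.BN.mem_of_wt_eq le_sup_left (CF.BN.mem_doubleCoset_iff.1 h) (Subgroup.mem_sup_right hn)

end Cfsg.Agent.S0310
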