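import Cfsg.Statements.S0321
import Cfsg.Agent.BN.Parabolic

set_option autoImplicit false
open Cfsg

namespace Cfsg.Agent.S0321

/-- For `n ∈ N` not in `B`, the union `B ∪ B n B` is (the underlying set of) a subgroup exactly when `n` agrees
modulo `B ⊓ N` with one of the distinguished representatives; thus the distinguished involutions are
determined by `B` and `N`. -/
theorem result {G : Type*} [Group G] (P : Cfsg.BNPair G) {n : G}
    (hn : n ∈ P.N) (hnB : n ∉ P.B) :
    (∃ H : Subgroup G, (H : Set G) = (P.B : Set G) ∪ DoubleCoset.doubleCoset n (P.B : Set G) P.B) ↔ ∃ s ∈ P.S, s⁻¹ * n ∈ P.B := by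
  constructor
  · rintro ⟨H, hH⟩
    have hB : P.B ≤ H := fun b hb => by
      rw [← SetLike.mem_coe, hH]; exact Or.inl hb
    have hnH : n ∈ H := by
      rw [← SetLike.mem_coe, hH]; exact Or.inr (DoubleCoset.mem_doubleCoset_self _ _ _)
    obtain ⟨ω, hr, hω⟩ := (CF.BN.cox P).exists_red (CF.BN.wt P n)
    have hl := CF.BN.letters_mem_of_conj_le hB hr hω.symm
      fun b hb => mul_mem (mul_mem hnH (hB hb)) (inv_mem hnH)
    cases ω with
    | nil => exact absurd (CF.BN.wt_eq_one_iff.1 hω.symm) hnB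
    | cons i ω =>
      have hi := hl i (by simp)
      rw [← SetLike.mem_coe, hH] at hi
      rcases hi with hi | hi
      · exact absurd hi (CF.BN.s_not_mem_B P i.2)
      · exact ⟨i, i.2, (CF.BN.wt_eq_wt_iff_of_mem_N (P.subset i.2) hn).1
          (CF.BN.mem_doubleCoset_iff.1 hi)⟩
  · rintro ⟨s, hs, h⟩
    refine ⟨CF.BN.parW P {⟨s, hs⟩}, ?_⟩
    ext g
    rw [SetLike.mem_coe, CF.BN.mem_parW_singleton, Set.mem_union, CF.BN.mem_doubleCoset_iff,
      ← CF.BN.wt_s, (CF.BN.wt_eq_wt_iff_of_mem_N (P.subset hs) hn).2 h]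
    rfl

end Cfsg.Agent.S0321
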