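import Cfsg.Statements.S0323
import Cfsg.Agent.BN.Parabolic

set_option autoImplicit false
open scoped Pointwise
open Cfsg

namespace Cfsg.Agent.S0323

/-- A doubly transitive action on a set with at least three points yields a (B,N)-pair of rank one:
`B` is the stabiliser of a point `x`, `N` the setwise stabiliser of a pair `{x, y}`. -/
theorem result {G Ω : Type*} [Group G] [MulAction G Ω]
    (h2 : MulAction.IsMultiplyPretransitive G Ω 2) {x y z : Ω} (hxy : x ≠ y) (hyz : y ≠ z) (hxz : x ≠ z) :
    ∃ P : Cfsg.BNPair G, P.B = MulAction.stabilizer G x ∧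
      P.N = MulAction.stabilizer G ({x, y} : Set Ω) ∧ P.rank = 1 := by
  rw [MulAction.is_two_pretransitive_iff] at h2
  obtain ⟨s, hsx, hsy⟩ := h2 hxy hxy.symm
  have hN : ∀ n : G, n ∈ MulAction.stabilizer G ({x, y} : Set Ω) ↔
      (n • x = x ∧ n • y = y) ∨ (n • x = y ∧ n • y = x) := by
    intro n
    rw [MulAction.mem_stabilizer_iff, Set.smul_set_insert, Set.smul_set_singleton,
      Set.pair_eq_pair_iff]
  have hcell : ∀ g n : G, (g • x = x ↔ n • x = x) → g ∈ DoubleCoset.doubleCoset n
      (MulAction.stabilizer G x : Set G) (MulAction.stabilizer G x) := by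
    intro g n h
    rw [DoubleCoset.mem_doubleCoset]
    by_cases h1 : n • x = x
    · exact ⟨g * n⁻¹, mul_mem (h.2 h1) (inv_mem (show n ∈ MulAction.stabilizer G x from h1)), 1,
        one_mem _, by simp⟩
    · obtain ⟨b, hb1, hb2⟩ := h2 (Ne.symm h1) (Ne.symm (mt h.1 h1))
      refine ⟨b, hb1, n⁻¹ * b⁻¹ * g, ?_, by group⟩
      change (n⁻¹ * b⁻¹ * g) • x = x
      rw [mul_smul, ← hb2, mul_smul, inv_smul_smul, inv_smul_smul]
  have hsN : s ∈ MulAction.stabilizer G ({x, y} : Set Ω) := (hN s).2 (Or.inr ⟨hsx, hsy⟩)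
  refine ⟨⟨MulAction.stabilizer G x, MulAction.stabilizer G ({x, y} : Set Ω), {s}, ?_, ?_, ?_, ?_,
    ?_, ?_, ?_, ?_⟩, rfl, rfl, ?_⟩
  · rw [eq_top_iff]
    intro g _
    by_cases h : g • x = x
    · exact Subgroup.mem_sup_left h
    · obtain ⟨b, hb, b', hb', rfl⟩ := DoubleCoset.mem_doubleCoset.1
        (hcell g s (iff_of_false h (by rw [hsx]; exact hxy.symm)))
      exact mul_mem (mul_mem (Subgroup.mem_sup_left hb) (Subgroup.mem_sup_right hsN))
        (Subgroup.mem_sup_left hb')
  · rintro n hn t ⟨ht1, ht2⟩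
    have ht1' : t • x = x := ht1
    have ht3 : t • y = y := by
      rcases (hN t).1 ht2 with h | h
      · exact h.2
      · exact absurd (ht1'.symm.trans h.1) hxy
    change (n * t * n⁻¹) • x = x
    rw [mul_smul, mul_smul]
    rcases (hN n⁻¹).1 (inv_mem hn) with h | h
    · rw [h.1, ht1', ← h.1, smul_inv_smul, h.1]
    · rw [h.1, ht3, ← h.1, smul_inv_smul]
  · rintro _ rfl
    exact hsN
  · rintro s' hs'
    rw [show s' = s from hs']
    change (s * s) • x = x
    rw [mul_smul, hsx, hsy]
  · rintro _ rfl _ rfl _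
    rfl
  · apply le_antisymm
    · exact sup_le ((Subgroup.closure_le _).2 (by rintro _ rfl; exact hsN)) inf_le_right
    · intro n hn
      rcases (hN n).1 hn with h | h
      · exact Subgroup.mem_sup_right ⟨h.1, hn⟩
      · rw [← mul_inv_cancel_left s n]
        refine mul_mem (Subgroup.mem_sup_left (Subgroup.subset_closure rfl))
          (Subgroup.mem_sup_right (Subgroup.mem_inf.2 ⟨?_, mul_mem (inv_mem hsN) hn⟩))
        change (s⁻¹ * n) • x = x
        rw [mul_smul, h.1, ← hsx, inv_smul_smul]
  · rintro s' hs' n hn b hb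
    rw [show s' = s from hs']
    have hb' : b • x = x := hb
    rcases (hN n).1 hn with h | h
    · left
      apply hcell
      rw [mul_smul, mul_smul, mul_smul, h.1, hb']
    · by_cases h1 : (s * b * n) • x = x
      · left
        apply hcell
        rw [mul_smul s n, h.1, hsy]
        exact iff_of_true h1 rfl
      · right
        apply hcell
        exact iff_of_false h1 (by rw [h.1]; exact hxy.symm)
  · rintro s' hs' h
    rw [show s' = s from hs'] at h
    obtain ⟨b, hb1, hb2⟩ := h2 hxy hxz
    have : s * b * s ∈ (MulAction.stabilizer G x : Set G) := h ▸ ⟨b, hb1, rfl⟩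
    change (s * b * s) • x = x at this
    rw [mul_smul, mul_smul, hsx, hb2, ← hsy, smul_left_cancel_iff] at this
    exact hyz this.symm
  · simp [Cfsg.BNPair.rank]

end Cfsg.Agent.S0323
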