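import Cfsg.Statements.S0326
import Cfsg.Agent.BN.SzFin

set_option autoImplicit false
open Cfsg

namespace Cfsg.Agent.S0326

/-- The Suzuki–Tits ovoid over a finite field with `q` elements has `q² + 1` points. -/
theorem result {F : Type*} [Field F] [Fintype F] (m : ℕ) :
    Nat.card (Cfsg.suzukiOvoid F m) = Fintype.card F ^ 2 + 1 := by
    rw [← Nat.card_eq_fintype_card, sq, ← Nat.card_prod, ← Finite.card_option]
    let φ : Option (F × F) → Cfsg.suzukiOvoid F m := fun p => p.elim
      ⟨Projectivization.mk F ![1, 0, 0, 0] (by simp), _, _, rfl, Or.inl rfl⟩ fun p =>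
      ⟨Projectivization.mk F ![p.1 * p.2 + p.1 ^ (2 ^ (m + 1) + 2) + p.2 ^ (2 ^ (m + 1)), p.2, p.1, 1]
        (by simp), _, _, rfl, Or.inr ⟨p.1, p.2, rfl⟩⟩
    refine (Nat.card_eq_of_bijective φ ⟨?_, ?_⟩).symm
    · rintro (_ | p) (_ | p') h
      · rfl
      · obtain ⟨a, ha⟩ := (Projectivization.mk_eq_mk_iff F _ _ _ _).1 (congrArg Subtype.val h)
        have := congrFun ha 3
        simp [Units.smul_def] at this
      · obtain ⟨a, ha⟩ := (Projectivization.mk_eq_mk_iff F _ _ _ _).1 (congrArg Subtype.val h)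
        have := congrFun ha 3
        simp [Units.smul_def] at this
      · obtain ⟨a, ha⟩ := (Projectivization.mk_eq_mk_iff F _ _ _ _).1 (congrArg Subtype.val h)
        have h3 := congrFun ha 3
        have h1 := congrFun ha 1
        have h2 := congrFun ha 2
        simp [Units.smul_def] at h1 h2 h3
        rw [h3] at h1 h2
        simp at h1 h2
        exact congrArg some (Prod.ext h2.symm h1.symm)
    · rintro ⟨_, v, hv, rfl, rfl | ⟨x, y, rfl⟩⟩
      exacts [⟨none, rfl⟩, ⟨some (x, y), rfl⟩]

end Cfsg.Agent.S0326
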