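import Cfsg.Statements.S0327
import Cfsg.Agent.BN.SzFin

set_option autoImplicit false
open Cfsg

namespace Cfsg.Agent.S0327

/-- The Suzuki group (`m ≥ 1`) is a Zassenhaus group on the `q² + 1` points of the Suzuki–Tits ovoid. -/
theorem result {F : Type*} [Field F] [Fintype F] {m : ℕ} (hm : 1 ≤ m)
    (hF : Fintype.card F = 2 ^ (2 * m + 1)) :
    Cfsg.IsZassenhausGroup (Cfsg.Sz F m) (Cfsg.suzukiOvoid F m) := by
    obtain ⟨e, he, -, -⟩ := CF.BN.Suz.exists_ovoid_equiv hm hF
    obtain ⟨h1, h2, h3, ⟨g, hg, a, b, hab, ha, hb⟩, h5⟩ :=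
      (CF.BN.Suz.ovD F hm hF).isZassenhaus (CF.BN.Suz.two_lt_card hm hF)
    have he' : ∀ (g : Cfsg.Sz F m) p, e.symm (g • p) = g • e.symm p := fun g p => by
      rw [e.symm_apply_eq, he, e.apply_symm_apply]
    refine ⟨⟨fun h => h1.1 fun p => e.injective (by rw [he, he, h])⟩, ?_, ?_,
      ⟨g, hg, e a, e b, e.injective.ne hab, by rw [← he, ha], by rw [← he, hb]⟩, ?_⟩
    · rw [MulAction.is_two_pretransitive_iff] at h2 ⊢
      intro a b c d hab hcd
      obtain ⟨g, h, h'⟩ := h2 (e.symm.injective.ne hab) (e.symm.injective.ne hcd)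
      rw [← he'] at h h'
      exact ⟨g, e.symm.injective h, e.symm.injective h'⟩
    · intro g a b c hab hbc hac ha hb hc
      exact h3 g _ _ _ (e.symm.injective.ne hab) (e.symm.injective.ne hbc) (e.symm.injective.ne hac)
        (by rw [← he', ha]) (by rw [← he', hb]) (by rw [← he', hc])
    · intro N hN htr
      obtain ⟨a, ha⟩ := h5 N hN ⟨fun x y => by
        obtain ⟨g, hg⟩ := htr.exists_smul_eq (e x) (e y)
        exact ⟨g, e.injective ((he g x).trans hg)⟩⟩
      refine ⟨e a, fun h => ha ?_⟩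
      rw [← h]
      ext g
      exact ⟨fun h => (he g a).symm.trans (congrArg e h), fun h => e.injective ((he g a).trans h)⟩

end Cfsg.Agent.S0327
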