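import Cfsg.Statements.S0328
import Cfsg.Agent.BN.SzFin

set_option autoImplicit false
open Cfsg

namespace Cfsg.Agent.S0328

/-- The stabiliser in the Suzuki group of the two ovoid points spanned by `(1,0,0,0)` and `(0,0,0,1)` is
isomorphic to the multiplicative group of the field (cyclic of order `q - 1`). -/
theorem result {F : Type*} [Field F] [Fintype F] {m : ℕ} (hm : 1 ≤ m)
    (hF : Fintype.card F = 2 ^ (2 * m + 1)) :
    Nonempty (↥(MulAction.stabilizer (Cfsg.Sz F m) (Cfsg.suzukiPointInfinity F) ⊓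
        MulAction.stabilizer (Cfsg.Sz F m) (Cfsg.suzukiPointZero F)) ≃* Fˣ) := by
    have H := CF.BN.Suz.exists_ovoid_equiv hm hF
    generalize CF.BN.Suz.ovD F hm hF = D at H
    obtain ⟨e, he, h1, h2⟩ := H
    have h0 : (e (D.pt 0 0) : Projectivization F (Fin 4 → F)) = Cfsg.suzukiPointZero F := by
      rw [h2]; simp [CF.BN.Suz.Tits.f_def, Cfsg.suzukiPointZero]
    have key : ∀ (g : Cfsg.Sz F m) p, g • (e p : Projectivization F (Fin 4 → F)) = e p ↔ g • p = p :=
      fun g p => by
        rw [← e.injective.eq_iff, he, Subtype.ext_iff]; rfl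
    have : MulAction.stabilizer (Cfsg.Sz F m) (Cfsg.suzukiPointInfinity F) ⊓
        MulAction.stabilizer (Cfsg.Sz F m) (Cfsg.suzukiPointZero F) = D.H := by
      ext g
      rw [D.mem_H_iff, Subgroup.mem_inf, MulAction.mem_stabilizer_iff, MulAction.mem_stabilizer_iff,
        ← h1, ← h0, key, key]
    rw [this]
    exact ⟨D.hEquiv.symm⟩

end Cfsg.Agent.S0328
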