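import Cfsg.Statements.S0329
import Cfsg.Agent.BN.SzFin

set_option autoImplicit false
open Cfsg

namespace Cfsg.Agent.S0329

/-- The stabiliser in the Suzuki group of the ovoid point spanned by `(1,0,0,0)` has order `q² (q - 1)`. -/
theorem result {F : Type*} [Field F] [Fintype F] {m : ℕ} (hm : 1 ≤ m)
    (hF : Fintype.card F = 2 ^ (2 * m + 1)) :
    Nat.card (MulAction.stabilizer (Cfsg.Sz F m) (Cfsg.suzukiPointInfinity F)) =
      (2 ^ (2 * m + 1)) ^ 2 * (2 ^ (2 * m + 1) - 1) := by
    have H := CF.BN.Suz.exists_ovoid_equiv hm hF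
    generalize CF.BN.Suz.ovD F hm hF = D at H
    obtain ⟨e, he, h1, h2⟩ := H
    have key : ∀ (g : Cfsg.Sz F m) p, g • (e p : Projectivization F (Fin 4 → F)) = e p ↔ g • p = p :=
      fun g p => by
        rw [← e.injective.eq_iff, he, Subtype.ext_iff]; rfl
    have : MulAction.stabilizer (Cfsg.Sz F m) (Cfsg.suzukiPointInfinity F) = D.B := by
      ext g
      rw [← D.smul_inf_eq_iff, MulAction.mem_stabilizer_iff, ← h1, key]
    rw [this, D.card_B, Nat.card_eq_fintype_card, hF]

end Cfsg.Agent.S0329
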