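import Cfsg.Statements.S0330
import Cfsg.Agent.BN.SzFin

set_option autoImplicit false
open Cfsg

namespace Cfsg.Agent.S0330

/-- A Sylow 2-subgroup `P` of the Suzuki group (field with `q = 2^(2m+1)` elements, `m ≥ 1`) has order `q²` and
exponent `4`; its centre coincides with its commutator subgroup and has order `q`. -/
theorem result {F : Type*} [Field F] [Fintype F] {m : ℕ} (hm : 1 ≤ m)
    (hF : Fintype.card F = 2 ^ (2 * m + 1)) (P : Sylow 2 (Cfsg.Sz F m)) :
    Nat.card P = (2 ^ (2 * m + 1)) ^ 2 ∧ Monoid.exponent P = 4 ∧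
      Subgroup.center P = commutator P ∧ Nat.card (Subgroup.center P) = 2 ^ (2 * m + 1) := by
    obtain ⟨g, hg⟩ := (CF.BN.Suz.ovD F hm hF).exists_conj_U_eq P
    set D := (CF.BN.Suz.ovD F hm hF).conj g
    have h2 := CF.BN.Suz.exists_ne_zero_ne_one' (CF.BN.Suz.two_lt_card hm hF)
    have key : ∀ Q : Subgroup (Cfsg.Sz F m), D.U = Q → Nat.card Q = (2 ^ (2 * m + 1)) ^ 2 ∧
        Monoid.exponent Q = 4 ∧ Subgroup.center Q = commutator Q ∧
        Nat.card (Subgroup.center Q) = 2 ^ (2 * m + 1) := by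
      rintro _ rfl
      refine ⟨by rw [D.card_U, Nat.card_eq_fintype_card, hF], D.exponent_U,
        by rw [D.center_U h2, D.commutator_U h2], ?_⟩
      rw [D.center_U h2, Nat.card_congr (Subgroup.subgroupOfEquivOfLe D.Z_le_U).toEquiv, D.card_Z,
        Nat.card_eq_fintype_card, hF]
    exact key P hg

end Cfsg.Agent.S0330
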