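import Cfsg.Statements.S0331
import Cfsg.Agent.BN.SzTori

set_option autoImplicit false
open Cfsg

namespace Cfsg.Agent.S0331

/-- For every odd prime `p` the Sylow `p`-subgroups of the Suzuki group are cyclic. -/
theorem result {F : Type*} [Field F] [Fintype F] {m : ℕ} (hm : 1 ≤ m)
    (hF : Fintype.card F = 2 ^ (2 * m + 1)) {p : ℕ} [Fact p.Prime] (hp : p ≠ 2)
    (P : Sylow p (Cfsg.Sz F m)) : IsCyclic P := by
  have D := CF.BN.Suz.ovD F hm hF
  have := D.finite
  rcases subsingleton_or_nontrivial P with h | h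
  · exact isCyclic_of_subsingleton
  obtain ⟨⟨z, hz⟩, hz1⟩ := @exists_ne _ P.isPGroup'.center_nontrivial 1
  have hz1 : (z : Cfsg.Sz F m) ≠ 1 := fun h => hz1 (Subtype.ext (Subtype.ext h))
  obtain ⟨k, hk⟩ := (IsPGroup.iff_orderOf.1 P.isPGroup') z
  have hc := D.isCyclic_centralizer_of_odd hz1 (by
    rw [Subgroup.orderOf_coe, hk]
    exact ((Fact.out : p.Prime).odd_of_ne_two hp).pow)
  exact Subgroup.isCyclic_of_le (H' := Subgroup.centralizer {(z : Cfsg.Sz F m)}) fun y hy =>
    Subgroup.mem_centralizer_singleton_iff.2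
      (congrArg Subtype.val (Subgroup.mem_center_iff.1 hz ⟨y, hy⟩))

end Cfsg.Agent.S0331
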