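import Cfsg.Statements.S0332
import Cfsg.Agent.BN.SzTori

set_option autoImplicit false
open Cfsg

namespace Cfsg.Agent.S0332

/-- The Suzuki group is a CN-group: every non-identity element has nilpotent centraliser. -/
theorem result {F : Type*} [Field F] [Fintype F] {m : ℕ} (hm : 1 ≤ m)
    (hF : Fintype.card F = 2 ^ (2 * m + 1)) : Cfsg.IsCNGroup (Cfsg.Sz F m) := by
  have D := CF.BN.Suz.ovD F hm hF
  intro g hg
  by_cases h : ∃ k, g ∈ (D.conj k).U
  · obtain ⟨k, hk⟩ := h
    have := D.finite
    exact ((D.conj k).isPGroup_U.to_le ((D.conj k).centralizer_le_U hk hg)).isNilpotent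
  · have := D.isCyclic_centralizer (not_exists.1 h)
    let := IsCyclic.commGroup (α := Subgroup.centralizer {g})
    infer_instance

end Cfsg.Agent.S0332
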