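import Cfsg.Statements.S0335
import Cfsg.Agent.BN.SzFin

set_option autoImplicit false
open Cfsg

namespace Cfsg.Agent.S0335

/-- The Suzuki–Tits point set is an ovoid: any three distinct points of it are projectively independent
(no line of projective 3-space meets it in more than two points). -/
theorem result {F : Type*} [Field F] [Fintype F] {m : ℕ} (hm : 1 ≤ m)
    (hF : Fintype.card F = 2 ^ (2 * m + 1)) (p : Fin 3 ↪ Cfsg.suzukiOvoid F m) :
    Projectivization.Independent (fun i => (p i : Projectivization F (Fin 4 → F))) := by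
    have H := CF.BN.Suz.exists_ovoid_equiv hm hF
    generalize CF.BN.Suz.ovD F hm hF = D at H
    obtain ⟨e, he, h1, h2⟩ := H
    have hne : ∀ i j, i ≠ j → e.symm (p i) ≠ e.symm (p j) := fun i j h =>
      e.symm.injective.ne (p.injective.ne h)
    obtain ⟨g, g0, g1⟩ := D.exists_smul_pair (hne 0 1 (by decide))
    obtain ⟨x, y, g2⟩ := D.exists_pt_of_ne (p := g⁻¹ • e.symm (p 2)) (fun h =>
      hne 0 2 (by decide) (by rw [← g0, ← h, smul_inv_smul]))
    have hxy : ¬ (x = 0 ∧ y = 0) := by
      rintro ⟨rfl, rfl⟩
      exact hne 1 2 (by decide) (by rw [← g1, ← g2, smul_inv_smul])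
    rw [inv_smul_eq_iff] at g2
    let v : Fin 3 → Fin 4 → F := ![![1, 0, 0, 0], ![(CF.BN.Suz.titsOfCard F m hF).f 0 0, 0, 0, 1],
      ![(CF.BN.Suz.titsOfCard F m hF).f x y, y, x, 1]]
    have hv : LinearIndependent F v := by
      rw [Fintype.linearIndependent_iff]
      intro c hc
      have a0 := congrFun hc 0
      have a1 := congrFun hc 1
      have a2 := congrFun hc 2
      have a3 := congrFun hc 3
      simp [v, Fin.sum_univ_three, CF.BN.Suz.Tits.f_def] at a0 a1 a2 a3
      have c2 : c 2 = 0 := by tauto
      simp [c2] at a0 a3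
      intro i; fin_cases i <;> simp [a0, a3, c2]
    have hv' := hv.map' (Matrix.SpecialLinearGroup.toLin' (g : Matrix.SpecialLinearGroup (Fin 4) F)).toLinearMap
      (LinearEquiv.ker _)
    have := Projectivization.Independent.mk _ hv'.ne_zero hv'
    convert this using 2 with i
    have key : ∀ q i, g • q = e.symm (p i) → (p i : Projectivization F (Fin 4 → F)) =
        (g : Matrix.SpecialLinearGroup (Fin 4) F) • (e q : Projectivization F (Fin 4 → F)) := by
      intro q i h
      rw [eq_comm, e.symm_apply_eq, he] at h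
      rw [h]; rfl
    fin_cases i
    · exact (key _ _ g0).trans (by rw [h1]; rfl)
    · exact (key _ _ g1).trans (by rw [h2]; rfl)
    · exact (key _ _ g2.symm).trans (by rw [h2]; rfl)

end Cfsg.Agent.S0335
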