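import Cfsg.Statements.S0344
import Cfsg.Agent.Perm.Sharp3

set_option autoImplicit false
open Cfsg

namespace Cfsg.Agent.S0344

/-- A finite simple Zassenhaus group with a two-point stabiliser of even order is isomorphic to `PSL₂(F)` for a finite
field `F` with more than three elements. -/
theorem result {G Ω : Type*} [Group G] [Finite G] [MulAction G Ω] [Finite Ω]
    (hZ : Cfsg.IsZassenhausGroup G Ω) [IsSimpleGroup G]
    {a b : Ω} (hab : a ≠ b) (heven : Even (Nat.card ↥(MulAction.stabilizer G a ⊓ MulAction.stabilizer G b))) :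
    ∃ (F : Type) (_ : Field F) (_ : Fintype F), 3 < Fintype.card F ∧ Nonempty (G ≃* Matrix.ProjectiveSpecialLinearGroup (Fin 2) F) := by
  obtain ⟨P, Z⟩ := CF.Perm.Zass.exists_zsetup hZ a
  obtain ⟨h1, p, f, hp, -, hf, h2, h3⟩ := CF.Perm.ZS.psl_of_even_small Z hab.symm heven
    (CF.Perm.Zass.small_of_simple_even hZ Z hab heven)
  obtain ⟨F, _, _, hF⟩ := CF.Perm.exists_field_card hp hf
  refine ⟨F, inferInstance, inferInstance, ?_, h3 F hF⟩
  have hpos : 0 < Nat.card (CF.Small.stab2 G a b) := Nat.card_pos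
  change Even (Nat.card (CF.Small.stab2 G a b)) at heven
  obtain ⟨k, hk⟩ := heven
  omega

end Cfsg.Agent.S0344
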