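import Cfsg.Statements.S0346
import Cfsg.Agent.Perm.Sharp3
import Cfsg.Agent.S0885

set_option autoImplicit false
open Cfsg

namespace Cfsg.Agent.S0346

/-- The number of points of a finite simple Zassenhaus group is `p^k + 1` for some prime power `p^k` (the regular normal
subgroup of a point stabiliser is a `p`-group). -/
theorem result {G Ω : Type*} [Group G] [Finite G] [MulAction G Ω] [Fintype Ω]
    (hZ : Cfsg.IsZassenhausGroup G Ω) [IsSimpleGroup G] :
    IsPrimePow (Fintype.card Ω - 1) := by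
  have := CF.Perm.Zass.nontrivial hZ
  obtain ⟨a, b, hab⟩ := exists_pair_ne Ω
  obtain ⟨P, Z⟩ := CF.Perm.Zass.exists_zsetup hZ a
  have h1 := Z.card_eq hab.symm
  have hP := CF.Perm.Zass.kernel_ne_bot hZ Z
  rw [Nat.card_eq_fintype_card] at h1
  rw [h1, Nat.add_sub_cancel]
  have key : ∀ p f : ℕ, p.Prime → 1 ≤ f → Nat.card P = p ^ f → IsPrimePow (Nat.card P) :=
    fun p f hp hf h => (isPrimePow_nat_iff _).2 ⟨p, f, hp, hf, h.symm⟩
  rcases Nat.even_or_odd (Nat.card (CF.Small.stab2 G a b)) with he | he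
  · obtain ⟨-, p, f, hp, -, hf, h2, -⟩ := CF.Perm.ZS.psl_of_even_small Z hab.symm he
      (CF.Perm.Zass.small_of_simple_even hZ Z hab he)
    exact key p f hp hf h2
  rcases Cfsg.Agent.S0885.result hZ hab _ _ h1 rfl he P (fun u hu => Z.fix u hu) h1.symm
    (fun u hu hu1 c hc => by_contra fun h => hu1 (Z.free u hu c h hc)) with h2 | ⟨h2, -⟩
  · have h3 : Nat.card P ≤ 2 * Nat.card (CF.Small.stab2 G a b) + 1 := Nat.sub_le_iff_le_add.1 h2
    obtain ⟨p, f, hp, hf, -, h4⟩ := CF.Perm.ZS.elementary_of_comm Z hab.symm h3 hP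
      (CF.Perm.ZS.comm_of_card_le Z hab.symm h3)
    exact key p f hp hf h4
  · obtain ⟨f, hf⟩ := h2.exists_card_eq
    refine key 2 f Nat.prime_two (Nat.pos_of_ne_zero ?_) hf
    rintro rfl
    exact hP (Subgroup.eq_bot_of_card_eq _ (by simpa using hf))

end Cfsg.Agent.S0346
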