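import Cfsg.Statements.S0349
import Cfsg.Agent.S1175
import Cfsg.Agent.Bender.Final
import Cfsg.Agent.BN.Parabolic
import Cfsg.Agent.Solv.Nilpotent

set_option autoImplicit false
open Cfsg

namespace Cfsg.Agent.S0349

/-- Let a finite simple group have a (B,N)-pair of rank one which is strongly split (`B = U (B ⊓ N)` with `U` nilpotent,
normal in `B` and meeting `N` trivially), with `[G : B]` and `|B ⊓ N|` odd. Then the group is isomorphic to `PSL₂(F)` with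
`|F|` a power of `2`, or is simple of Suzuki order, or is isomorphic to `PSU₃` realised over a field with `q²` elements,
`q = 2^n`, `n ≥ 2`. -/
theorem result {G : Type*} [Group G] [Finite G] [IsSimpleGroup G]
    (P : Cfsg.BNPair G) (hrank : P.rank = 1) (U : Subgroup G) (hUB : U ≤ P.B)
    (hUn : (U.subgroupOf P.B).Normal) (hUnil : Group.IsNilpotent U) (hsplit : U ⊔ (P.B ⊓ P.N) = P.B)
    (hdisj : U ⊓ P.N = ⊥) (hind : Odd P.B.index) (hH : Odd (Nat.card ↥(P.B ⊓ P.N))) :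
    (∃ (F : Type) (_ : Field F) (_ : Fintype F), (∃ n : ℕ, Fintype.card F = 2 ^ n) ∧ Nonempty (G ≃* Matrix.ProjectiveSpecialLinearGroup (Fin 2) F)) ∨
      Cfsg.IsSuzuki G ∨
      (∃ (F : Type) (_ : Field F) (_ : Fintype F) (n : ℕ), 2 ≤ n ∧ Fintype.card F = (2 ^ n) ^ 2 ∧
        Nonempty (G ≃* Cfsg.PSU 3 F (2 ^ n))) := by
  classical
  have : Fact (Nat.Prime 2) := ⟨Nat.prime_two⟩
  obtain ⟨hsub, ⟨i⟩⟩ := Nat.card_eq_one_iff_unique.1 hrank
  have hsB : (i : G) ∉ P.B := CF.BN.s_not_mem_B P i.2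
  have hBt : P.B ≠ ⊤ := fun h => hsB (h ▸ Subgroup.mem_top _)
  have hall : ∀ g : G, g ∈ P.B ∨ CF.BN.wt P g = (CF.BN.cox P).s i := by
    intro g
    rw [← CF.BN.mem_parW_singleton]
    have : ({i} : Set P.S) = Set.univ := by
      ext j; simp [Subsingleton.elim j i]
    rw [this, CF.BN.parW_univ]; trivial
  have hnorm : ∀ b ∈ P.B, ∀ u ∈ U, b * u * b⁻¹ ∈ U := fun b hb u hu =>
    Subgroup.mem_subgroupOf.1 (hUn.conj_mem ⟨u, hUB hu⟩ (Subgroup.mem_subgroupOf.2 hu) ⟨b, hb⟩)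
  have hle : P.B ⊓ P.N ≤ Subgroup.normalizer (U : Set G) := fun b hb =>
    Subgroup.mem_normalizer_fintype fun u hu => hnorm b hb.1 u hu
  have hB : ∀ b ∈ P.B, ∃ u ∈ U, ∃ h ∈ P.B ⊓ P.N, u * h = b := by
    intro b hb
    rw [← hsplit, ← SetLike.mem_coe, Subgroup.coe_mul_of_right_le_normalizer_left _ _ hle] at hb
    exact hb
  have hcell : ∀ g : G, g ∉ P.B → ∃ u ∈ U, ∃ b ∈ P.B, g = u * i * b := by
    intro g hg
    obtain ⟨b, hb, b', hb', rfl⟩ := CF.BN.wt_eq_wt_iff.1 (((hall g).resolve_left hg).trans (CF.BN.wt_s i).symm)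
    obtain ⟨u, hu, h, hh, rfl⟩ := hB b hb
    refine ⟨u, hu, (i : G)⁻¹ * h * (i : G)⁻¹⁻¹ * b', mul_mem (P.conj_mem _ (inv_mem (P.subset i.2)) h hh) hb', by group⟩
  -- key: central elements of `U` fix one point
  have key : ∀ z ∈ U, (∀ u ∈ U, Commute u z) → z ≠ 1 → ∀ g : G, g * z * g⁻¹ ∈ P.B → g ∈ P.B := by
    intro z hz hc h1 g hg
    by_contra hn
    have hs : ∀ x : G, x ∉ P.B → (x⁻¹ * z * x ∈ P.B ↔ (i : G)⁻¹ * z * i ∈ P.B) := by
      intro x hx
      obtain ⟨u, hu, b, hb, rfl⟩ := hcell x hx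
      have e : (u * i * b)⁻¹ * z * (u * i * b) = b⁻¹ * ((i : G)⁻¹ * z * i) * b := by
        have := (hc u hu).eq
        calc _ = b⁻¹ * ((i : G)⁻¹ * (u⁻¹ * (z * u)) * i) * b := by group
          _ = _ := by rw [← this]; group
      rw [e, P.B.mul_mem_cancel_right hb, P.B.mul_mem_cancel_left (inv_mem hb)]
    have h2 := (hs g⁻¹ (by simpa using hn)).1 (by simpa using hg)
    have h3 : z ∈ P.B.normalCore := by
      intro x
      by_cases hx : x ∈ P.B
      · exact mul_mem (mul_mem hx (hUB hz)) (inv_mem hx)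
      · simpa using (hs x⁻¹ (by simpa using hx)).2 h2
    rcases P.B.normalCore_normal.eq_bot_or_eq_top with h | h
    · exact h1 (by simpa [h] using h3)
    · exact hBt (top_le_iff.1 (h ▸ P.B.normalCore_le))
  -- `U` has odd index
  have hUi : Odd U.index := by
    rw [← Subgroup.relIndex_mul_index hUB]
    refine Odd.mul ?_ hind
    have h0 : U.subgroupOf P.B ⊔ (P.B ⊓ P.N).subgroupOf P.B = ⊤ := by
      rw [← Subgroup.subgroupOf_sup hUB inf_le_left, hsplit, Subgroup.subgroupOf_self]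
    have h1 := Subgroup.relIndex_sup_left ((P.B ⊓ P.N).subgroupOf P.B) (U.subgroupOf P.B)
    rw [h0, Subgroup.relIndex_top_right] at h1
    rw [Subgroup.relIndex, h1]
    refine Odd.of_dvd_nat ?_ (Subgroup.relIndex_dvd_card _ _)
    rwa [Nat.card_congr (Subgroup.subgroupOfEquivOfLe inf_le_left).toEquiv]
  have hev : 2 ∣ Nat.card G := by
    by_contra h
    have ho : Odd (orderOf (i : G)) :=
      Odd.of_dvd_nat (Nat.odd_iff.2 (Nat.two_dvd_ne_zero.1 h)) (orderOf_dvd_natCard _)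
    obtain ⟨k, hk⟩ := ho
    have : (i : G) = (((i : G) * i) ^ k)⁻¹ := by
      rw [eq_inv_iff_mul_eq_one, ← sq, ← pow_mul, ← pow_succ', ← hk, pow_orderOf_eq_one]
    exact hsB (this ▸ inv_mem (pow_mem (P.sq_mem _ i.2) k))
  have hUe : 2 ∣ Nat.card U := by
    rw [← U.card_mul_index] at hev
    exact (Nat.Coprime.dvd_mul_right (Nat.coprime_two_left.2 hUi)).1 hev
  obtain ⟨T⟩ : Nonempty (Sylow 2 U) := inferInstance
  have hT : (T : Subgroup U) ≠ ⊥ := T.ne_bot_of_dvd_card hUe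
  obtain ⟨⟨y, hyT, hyZ⟩, hy1⟩ := (Subgroup.ne_bot_iff_exists_ne_one).1
    (CF.Solv.normal_inf_center_ne_bot (T : Subgroup U) hT)
  have hy1' : y ≠ 1 := fun h => hy1 (Subtype.ext h)
  obtain ⟨k, hk⟩ := (IsPGroup.iff_orderOf.1 T.isPGroup') ⟨y, hyT⟩
  rw [Subgroup.orderOf_mk] at hk
  have hk0 : k ≠ 0 := by rintro rfl; exact hy1' (orderOf_eq_one_iff.1 (by simpa using hk))
  set z : U := y ^ (orderOf y / 2) with hzdef
  have hz2 : orderOf z = 2 := orderOf_pow_orderOf_div (orderOf_pos y).ne' (hk ▸ dvd_pow_self 2 hk0)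
  have hzc : ∀ u ∈ U, Commute u (z : G) := fun u hu =>
    congrArg Subtype.val (Subgroup.mem_center_iff.1 (pow_mem hyZ (orderOf y / 2)) ⟨u, hu⟩)
  have hz2' : orderOf (z : G) = 2 := by rw [Subgroup.orderOf_coe, hz2]
  have hz1 : (z : G) ≠ 1 := fun h => by simp [h] at hz2'
  have hS : ∃ S : Sylow 2 G, (z : G) ∈ S ∧ ∀ s ∈ S, Commute s (z : G) := by
    refine ⟨(T.isPGroup'.map U.subtype).toSylow ?_, ⟨z, pow_mem hyT _, rfl⟩, ?_⟩
    · rw [Subgroup.index_map_subtype]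
      intro h
      rcases Nat.prime_two.dvd_mul.1 h with h | h
      · exact T.not_dvd_index h
      · exact Nat.two_dvd_ne_zero.2 (Nat.odd_iff.1 hUi) h
    · rintro s ⟨u, -, rfl⟩
      exact hzc _ u.2
  obtain ⟨H, hH⟩ := Cfsg.Agent.S1175.result P.B hBt (z : G) hz2' (hUB z.2) hS (key _ z.2 hzc hz1) (by
    intro g hc hne x hx
    have h1 : g * z * g⁻¹ ∈ P.B := key _ z.2 hzc hz1 _ (by rw [← hc.eq, mul_inv_cancel_right]; exact hUB z.2)
    have hg := key _ z.2 hzc hz1 _ h1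
    have hx' := (Subgroup.mem_centralizer_iff.1 hx) _ rfl
    refine key (z * (g * z * g⁻¹)) (mul_mem z.2 (hnorm g hg _ z.2)) (fun u hu => (hzc u hu).mul_right ?_) ?_ x ?_
    · have := (hzc _ (hnorm g⁻¹ (inv_mem hg) u hu)).eq
      calc u * (g * z * g⁻¹) = g * (g⁻¹ * u * g⁻¹⁻¹ * z) * g⁻¹ := by group
        _ = _ := by rw [this]; group
    · intro h
      apply hne
      have h2 : (z : G) * z = 1 := by rw [← sq, ← hz2', pow_orderOf_eq_one]
      exact mul_left_cancel (h.trans h2.symm)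
    · rw [← hx', mul_inv_cancel_right]
      exact mul_mem (hUB z.2) h1)
  obtain ⟨F, _, _, ⟨n, -, hn⟩, e⟩ | h | h := (CF.Bender.se_simple CF.Bender.part2 hH).1
  · exact Or.inl ⟨F, _, _, ⟨n, hn⟩, e⟩
  · exact Or.inr (Or.inl (CF.Bender.isSuzuki_of_iso h))
  · exact Or.inr (Or.inr h)

end Cfsg.Agent.S0349
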