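import Cfsg.Statements.S0353
import Cfsg.Agent.Leech.Steiner

set_option autoImplicit false
open Cfsg

set_option maxRecDepth 1000000

namespace Cfsg.Agent.S0353

/-- In an S(5, 8, 24), the symmetric difference of two blocks meeting in four points is a block. -/
theorem result {α : Type*} [Fintype α] [DecidableEq α] (hα : Fintype.card α = 24) {B : Set (Finset α)} (hB : Cfsg.IsSteinerSystem 5 8 B) {b c : Finset α} (hb : b ∈ B) (hc : c ∈ B) (h4 : (b ∩ c).card = 4) : symmDiff b c ∈ B := by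
  open Finset in
  classical
  have ev : ∀ {x y : Finset α}, x ∈ B → y ∈ B → x ≠ y →
      (x ∩ y).card = 0 ∨ (x ∩ y).card = 2 ∨ (x ∩ y).card = 4 :=
    fun hx hy h => CF.Leech.inter24 hα hB hx hy h
  have hb8 := hB.1 b hb
  have hc8 := hB.1 c hc
  have hbc : (b \ c).card = 4 := by have := card_sdiff_add_card_inter b c; omega
  have hcb : (c \ b).card = 4 := by
    have := card_sdiff_add_card_inter c b; rw [inter_comm] at this; omega
  -- a block through `b \ c` and a point of `c \ b`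
  have key : ∀ x ∈ c \ b, ∃ d ∈ B, b \ c ⊆ d ∧ x ∈ d ∧ d ∩ b = b \ c ∧ x ∉ b := by
    intro x hx
    have hxb : x ∉ b := (mem_sdiff.1 hx).2
    obtain ⟨d, ⟨hd, hs⟩, -⟩ := hB.2 (insert x (b \ c))
      (by rw [card_insert_of_notMem (fun h => hxb (mem_sdiff.1 h).1), hbc])
    have h1 : b \ c ⊆ d := (subset_insert _ _).trans hs
    have h2 : x ∈ d := hs (mem_insert_self _ _)
    refine ⟨d, hd, h1, h2, (eq_of_subset_of_card_le (subset_inter h1 sdiff_subset) ?_).symm, hxb⟩
    have := ev hd hb (fun e => hxb (e ▸ h2))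
    omega
  by_contra hno
  have key2 : ∀ x ∈ c \ b, ∃ d ∈ B, b \ c ⊆ d ∧ x ∈ d ∧ d ∩ b = b \ c ∧ (d ∩ c).card = 2 := by
    intro x hx
    obtain ⟨d, hd, h1, h2, h3, h5⟩ := key x hx
    refine ⟨d, hd, h1, h2, h3, ?_⟩
    have hdc : d ≠ c := by
      rintro rfl
      have := card_le_card (subset_inter h1 (subset_refl _)) |>.trans (le_of_eq (congrArg card
        (show d ∩ (b \ d) = ∅ from inter_sdiff_self _ _)))
      simp [hbc] at this
    have hsub : d ∩ c ⊆ c \ b := fun y hy => mem_sdiff.2 ⟨(mem_inter.1 hy).2, fun hyb => by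
      have : y ∈ d ∩ b := mem_inter.2 ⟨(mem_inter.1 hy).1, hyb⟩
      rw [h3] at this
      exact (mem_sdiff.1 this).2 (mem_inter.1 hy).2⟩
    have hpos : 0 < (d ∩ c).card := card_pos.2 ⟨x, mem_inter.2 ⟨h2, (mem_sdiff.1 hx).1⟩⟩
    rcases ev hd hc hdc with h | h | h
    · omega
    · exact h
    · exfalso
      apply hno
      have e := eq_of_subset_of_card_le hsub (by omega)
      have : symmDiff b c = d := by
        refine eq_of_subset_of_card_le ?_ ?_
        · rw [symmDiff_def]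
          exact union_subset h1 (e ▸ inter_subset_left)
        · rw [symmDiff_def, sup_eq_union, card_union_of_disjoint disjoint_sdiff_sdiff, hB.1 d hd]
          omega
      exact this ▸ hd
  obtain ⟨x, hx⟩ := card_pos.1 (show 0 < (c \ b).card by omega)
  obtain ⟨d, hd, hd1, hd2, hd3, hd4⟩ := key2 x hx
  obtain ⟨z, hz⟩ := card_pos.1 (show 0 < ((c \ b) \ d).card by
    have := card_sdiff_add_card_inter (c \ b) d
    have := card_le_card (show (c \ b) ∩ d ⊆ d ∩ c from fun y hy =>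
      mem_inter.2 ⟨(mem_inter.1 hy).2, (mem_sdiff.1 (mem_inter.1 hy).1).1⟩)
    omega)
  obtain ⟨hz1, hz2⟩ := mem_sdiff.1 hz
  obtain ⟨d', hd', hd1', hd2', hd3', hd4'⟩ := key2 z hz1
  have hdd : d ≠ d' := fun e => hz2 (e ▸ hd2')
  have hdd' : d ∩ d' = b \ c := by
    refine (eq_of_subset_of_card_le (subset_inter hd1 hd1') ?_).symm
    have := ev hd hd' hdd
    omega
  obtain ⟨s, hs, hs3⟩ := exists_subset_card_eq (show 3 ≤ (b \ c).card by omega)
  have hxs : x ∉ s := fun h => (mem_sdiff.1 hx).2 (mem_sdiff.1 (hs h)).1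
  have hzs : z ∉ s := fun h => (mem_sdiff.1 hz1).2 (mem_sdiff.1 (hs h)).1
  have hxz : x ≠ z := fun e => hz2 (e ▸ hd2)
  obtain ⟨e, ⟨he, hse⟩, -⟩ := hB.2 (insert x (insert z s)) (by
    rw [card_insert_of_notMem (by simp [hxz, hxs]), card_insert_of_notMem hzs, hs3])
  have hxe : x ∈ e := hse (mem_insert_self _ _)
  have hze : z ∈ e := hse (mem_insert_of_mem (mem_insert_self _ _))
  have hs' : s ⊆ e := ((subset_insert _ _).trans (subset_insert _ _)).trans hse
  have hxd' : x ∉ d' := fun h => (mem_sdiff.1 hx).2 (mem_sdiff.1 (hdd' ▸ mem_inter.2 ⟨hd2, h⟩)).1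
  have e1 : e ∩ d = insert x s := by
    refine (eq_of_subset_of_card_le (insert_subset (mem_inter.2 ⟨hxe, hd2⟩)
      (subset_inter hs' (hs.trans hd1))) ?_).symm
    have := ev he hd (fun h => hz2 (h ▸ hze))
    rw [card_insert_of_notMem hxs]; omega
  have e2 : e ∩ d' = insert z s := by
    refine (eq_of_subset_of_card_le (insert_subset (mem_inter.2 ⟨hze, hd2'⟩)
      (subset_inter hs' (hs.trans hd1'))) ?_).symm
    have := ev he hd' (fun h => hxd' (h ▸ hxe))
    rw [card_insert_of_notMem hzs]; omega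
  have e3 : (e ∩ b).card = 4 := by
    have := ev he hb (fun h => (mem_sdiff.1 hx).2 (h ▸ hxe))
    have := card_le_card (subset_inter hs' (hs.trans sdiff_subset))
    omega
  have e4 : e ∩ (b \ c) = s := by
    refine Subset.antisymm (fun y hy => ?_) (subset_inter hs' hs)
    have : y ∈ e ∩ d := mem_inter.2 ⟨(mem_inter.1 hy).1, hd1 (mem_inter.1 hy).2⟩
    rw [e1, mem_insert] at this
    refine this.resolve_left fun h => ?_
    exact (mem_sdiff.1 hx).2 (h ▸ (mem_sdiff.1 (mem_inter.1 hy).2).1)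
  -- `c \ b` is the disjoint union of its traces on `d` and `d'`
  have e5 : c \ b ⊆ d ∪ d' := by
    have hsub : (d ∩ c) ∪ (d' ∩ c) ⊆ c \ b := by
      intro y hy
      rcases mem_union.1 hy with h | h
      · refine mem_sdiff.2 ⟨(mem_inter.1 h).2, fun hyb => ?_⟩
        exact (mem_sdiff.1 (hd3 ▸ mem_inter.2 ⟨(mem_inter.1 h).1, hyb⟩ : y ∈ b \ c)).2
          (mem_inter.1 h).2
      · refine mem_sdiff.2 ⟨(mem_inter.1 h).2, fun hyb => ?_⟩
        exact (mem_sdiff.1 (hd3' ▸ mem_inter.2 ⟨(mem_inter.1 h).1, hyb⟩ : y ∈ b \ c)).2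
          (mem_inter.1 h).2
    have hdis : Disjoint (d ∩ c) (d' ∩ c) := disjoint_left.2 fun y h1 h2 =>
      (mem_sdiff.1 (hdd' ▸ mem_inter.2 ⟨(mem_inter.1 h1).1, (mem_inter.1 h2).1⟩ : y ∈ b \ c)).2
        (mem_inter.1 h1).2
    rw [← eq_of_subset_of_card_le hsub (by rw [card_union_of_disjoint hdis]; omega)]
    exact union_subset_union inter_subset_left inter_subset_left
  have e6 : e ∩ (c \ b) = {x, z} := by
    refine Subset.antisymm (fun y hy => ?_) (insert_subset (mem_inter.2 ⟨hxe, hx⟩)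
      (singleton_subset_iff.2 (mem_inter.2 ⟨hze, hz1⟩)))
    have hyb : y ∉ s := fun h => (mem_sdiff.1 (mem_inter.1 hy).2).2 (mem_sdiff.1 (hs h)).1
    rcases mem_union.1 (e5 (mem_inter.1 hy).2) with h | h
    · have : y ∈ e ∩ d := mem_inter.2 ⟨(mem_inter.1 hy).1, h⟩
      rw [e1, mem_insert] at this
      simp [this.resolve_right hyb]
    · have : y ∈ e ∩ d' := mem_inter.2 ⟨(mem_inter.1 hy).1, h⟩
      rw [e2, mem_insert] at this
      simp [this.resolve_right hyb]
  have f1 := card_sdiff_add_card_inter (e ∩ b) c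
  have f2 := card_sdiff_add_card_inter (e ∩ c) b
  rw [inter_sdiff_assoc, e4] at f1
  rw [inter_sdiff_assoc, e6, card_pair hxz, inter_right_comm] at f2
  have := ev he hc (fun h => by
    obtain ⟨y, hy⟩ := card_pos.1 (show 0 < s.card by omega)
    exact (mem_sdiff.1 (hs hy)).2 (h ▸ hs' hy))
  omega

end Cfsg.Agent.S0353
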