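import Cfsg.Statements.S0358
import Cfsg.Agent.Leech.GolayAut

set_option autoImplicit false
open Cfsg

set_option maxRecDepth 1000000

namespace Cfsg.Agent.S0358

/-- The length-24 code built from the squares modulo 23 has dimension 12 over the field with two elements. -/
theorem result : Module.finrank (ZMod 2) Cfsg.golayCode = 12 := by
  have h1 : Nat.card golayCode = 4096 := by
    rw [← CF.Leech.ncard_CS_all, ← Nat.card_coe_set_eq]
    refine Nat.card_congr ⟨fun w => ⟨support₂ w.1, CF.Leech.mem_golayCode_iff.1 w.2⟩,
      fun s => ⟨CF.Leech.word s.1, CF.Leech.mem_CS_iff_word.1 s.2⟩, fun w => ?_, fun s => ?_⟩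
    · simp
    · simp
  have h2 := Module.natCard_eq_pow_finrank (K := ZMod 2) (V := golayCode)
  rw [h1, Nat.card_zmod, show 4096 = 2 ^ 12 from rfl] at h2
  exact (Nat.pow_right_injective le_rfl h2).symm

end Cfsg.Agent.S0358
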