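import Cfsg.Statements.S0362
import Cfsg.Agent.Leech.GolayAut

set_option autoImplicit false
open Cfsg

set_option maxRecDepth 1000000

namespace Cfsg.Agent.S0362

/-- The length-24 code is self-orthogonal: the dot product over ZMod 2 of any two of its words vanishes (with dimension 12 this makes it self-dual). -/
theorem result (v w : Cfsg.GolayPt → ZMod 2) (hv : v ∈ Cfsg.golayCode) (hw : w ∈ Cfsg.golayCode) : ∑ i, v i * w i = 0 := by
  have h := CF.Leech.even_card_inter (CF.Leech.mem_golayCode_iff.1 hv) (CF.Leech.mem_golayCode_iff.1 hw)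
  have e : ∑ i, v i * w i = ((support₂ v ∩ support₂ w).card : ZMod 2) := by
    rw [Finset.card_eq_sum_ones, Nat.cast_sum, ← Finset.sum_subset (Finset.subset_univ (support₂ v ∩ support₂ w))]
    · refine Finset.sum_congr rfl fun i hi => ?_
      rw [Finset.mem_inter, CF.Leech.mem_support₂, CF.Leech.mem_support₂] at hi
      rw [(CF.Leech.zmod2_cases _).resolve_left hi.1, (CF.Leech.zmod2_cases _).resolve_left hi.2]
      simp
    · intro i _ hi
      rw [Finset.mem_inter, CF.Leech.mem_support₂, CF.Leech.mem_support₂] at hi
      by_cases h1 : v i = 0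
      · simp [h1]
      · have : w i = 0 := by tauto
        simp [this]
  rw [e]
  exact (ZMod.natCast_eq_zero_iff _ _).2 h

end Cfsg.Agent.S0362
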