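import Cfsg.Statements.S0371
import Cfsg.Agent.Leech.GolayAut

set_option autoImplicit false
open Cfsg

set_option maxRecDepth 1000000

namespace Cfsg.Agent.S0371

/-- Multiplication by a nonzero square residue modulo 23, fixing the extra point, lies in the group of the length-24 code. -/
theorem result (u : (ZMod 23)ˣ) (hu : IsSquare u) : Equiv.optionCongr (Units.mulLeft u) ∈ Cfsg.M24 := by
  obtain ⟨r, rfl⟩ := hu

  have h0 : (r : ZMod 23) ≠ 0 := @Units.ne_zero _ _ ⟨⟨0, 1, by decide⟩⟩ r
  have key : ∀ x : ZMod 23, x ≠ 0 →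
      CF.Leech.m24Check (fun i => if i = 23 then 23 else ((x * x).val * i) % 23) = true := by
    decide +kernel
  have key2 : ∀ x : ZMod 23, ∀ i < 24, CF.Leech.idx ((CF.Leech.pt i).map fun y => x * y) =
      if i = 23 then 23 else (x.val * i) % 23 := by decide +kernel
  exact CF.Leech.mem_M24_of_check (f := fun i => if i = 23 then 23 else (((r : ZMod 23) * r).val * i) % 23)
    (fun i hi => key2 _ i hi) (key _ h0)

end Cfsg.Agent.S0371
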