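import Cfsg.Statements.S0372
import Cfsg.Agent.Leech.GolayAut

set_option autoImplicit false
open Cfsg

set_option maxRecDepth 1000000

namespace Cfsg.Agent.S0372

/-- The involution x ↦ -1/x of the projective line over ZMod 23 lies in the group of the length-24 code. -/
theorem result : Cfsg.projInv ∈ Cfsg.M24 := by
  exact CF.Leech.mem_M24_of_check (f := fun i => CF.Leech.idx (projInvFun (CF.Leech.pt i)))
    (fun _ _ => rfl) (by decide +kernel)

end Cfsg.Agent.S0372
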