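import Cfsg.Statements.S0375
import Cfsg.Agent.Leech.Coset

set_option autoImplicit false
open Cfsg
open scoped Pointwise

set_option maxRecDepth 1000000

namespace Cfsg.Agent.S0375

/-- A doubly even self-dual binary code of length 24 with no words of weight 4 is equivalent to the length-24 code built from the squares modulo 23. -/
theorem result (C : Submodule (ZMod 2) (Fin 24 → ZMod 2)) (hdim : Module.finrank (ZMod 2) C = 12) (horth : ∀ v ∈ C, ∀ w ∈ C, ∑ i, v i * w i = 0) (h4 : ∀ w ∈ C, 4 ∣ hammingNorm w) (hno4 : ∀ w ∈ C, hammingNorm w ≠ 4) : ∃ e : Fin 24 ≃ Cfsg.GolayPt, ∀ w : Cfsg.GolayPt → ZMod 2, w ∈ Cfsg.golayCode ↔ (fun i => w (e i)) ∈ C := by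
  open CF.Leech in
  let φ : (GolayPt → ZMod 2) ≃+ (Fin 24 → ZMod 2) :=
    { toFun := fun w i => w (ptEquiv.symm i)
      invFun := fun w p => w (ptEquiv p)
      left_inv := fun w => by funext p; simp
      right_inv := fun w => by funext p; simp
      map_add' := fun _ _ => rfl }
  let C' : AddSubgroup (GolayPt → ZMod 2) := C.toAddSubgroup.comap φ.toAddMonoidHom
  have hc : Nat.card C' = 4096 := by
    have h1 : Nat.card C = 4096 := by
      rw [Module.natCard_eq_pow_finrank (K := ZMod 2), hdim, Nat.card_zmod]; norm_num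
    rw [← h1]
    exact Nat.card_congr (φ.toEquiv.subtypeEquiv fun w => Iff.rfl)
  obtain ⟨σ, hσ⟩ := exists_perm_of_code C' hc (by
    intro s hs h0
    have h1 : hammingNorm (φ (word s)) = s.card := by
      rw [← support₂_word s, ← hammingNorm_eq, support₂_word]
      exact Finset.card_equiv ptEquiv.symm fun i => by simp [φ]
    have h2 := h4 _ hs
    have h3 := hno4 _ hs
    have h5 : s.card ≠ 0 := by rwa [Ne, Finset.card_eq_zero]
    change 4 ∣ hammingNorm (φ (word s)) at h2
    change hammingNorm (φ (word s)) ≠ 4 at h3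
    omega)
  refine ⟨ptEquiv.symm.trans σ, fun w => ?_⟩
  have h1 := hσ (σ⁻¹ • support₂ w)
  rw [smul_inv_smul, ← mem_golayCode_iff] at h1
  rw [h1]
  have : φ (word (σ⁻¹ • support₂ w)) = fun i => w ((ptEquiv.symm.trans σ) i) := by
    funext i
    conv_rhs => rw [← word_support₂ w]
    change word (σ⁻¹ • support₂ w) (ptEquiv.symm i) = _
    simp only [word, mem_smul_finset, inv_inv]
    rfl
  rw [← this]; rfl

end Cfsg.Agent.S0375
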