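import Cfsg.Statements.S0389
import Cfsg.Agent.Comp.MatIso

set_option autoImplicit false
open scoped Pointwise
open Cfsg

namespace Cfsg.Agent.S0389

/-- The stabiliser of a dodecad and a point on it is 3-transitive on the complementary dodecad. -/
theorem result (d : Finset Cfsg.GolayPt) (hd : d ∈ Cfsg.dodecads) (p : Cfsg.GolayPt) (hp : p ∈ d) (x y : Fin 3 ↪ Cfsg.GolayPt) (hx : ∀ i, x i ∉ d) (hy : ∀ i, y i ∉ d) : ∃ g ∈ MulAction.stabilizer Cfsg.M24 d ⊓ MulAction.stabilizer Cfsg.M24 p, ∀ i, (g : Equiv.Perm Cfsg.GolayPt) (x i) = y i := by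
  obtain ⟨k, hk, e, e'⟩ := CF.Comp.Mat.M24_dodecad_point hd hp
  obtain ⟨g, hg, h⟩ := CF.Comp.Mat.M11_three_compl _ _ (k.injective.comp x.injective)
    (k.injective.comp y.injective)
    (fun i hi => hx i (CF.Leech.apply_mem_smul_finset.1 (e.symm ▸ hi)))
    (fun i hi => hy i (CF.Leech.apply_mem_smul_finset.1 (e.symm ▸ hi)))
  have hg2 : g • Cfsg.Spor.squareDodecad = Cfsg.Spor.squareDodecad := hg.1.2
  have hg3 : g (some 0) = some 0 := hg.2
  refine ⟨⟨k⁻¹ * g * k, M24.mul_mem (M24.mul_mem (M24.inv_mem hk) hg.1.1) hk⟩, ⟨?_, ?_⟩, fun i => ?_⟩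
  · show (k⁻¹ * g * k) • d = d
    rw [mul_smul, mul_smul, e, hg2, ← e, inv_smul_smul]
  · show k⁻¹ (g (k p)) = p
    rw [e', hg3, ← e']; simp
  · have h4 : g (k (x i)) = k (y i) := h i
    show k⁻¹ (g (k (x i))) = y i
    rw [h4]; simp

end Cfsg.Agent.S0389
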