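import Cfsg.Statements.S0393
import Cfsg.Agent.Leech.Count

set_option autoImplicit false
open Cfsg

set_option maxRecDepth 1000000

namespace Cfsg.Agent.S0393

/-- The lattice has index 2^36 in ℤ^24 (unimodular at scale 1/8). -/
theorem result : Cfsg.leechLattice.index = 2 ^ 36 := by
  exact CF.Leech.leech_index

end Cfsg.Agent.S0393
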