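import Cfsg.Statements.S0406
import Cfsg.Agent.Leech.Conway

set_option autoImplicit false
open Matrix
open Cfsg

set_option maxRecDepth 1000000

namespace Cfsg.Agent.S0406

/-- A rank-24 even lattice with no roots and the stated numbers of vectors of norms 4, 6, 8 is isomorphic to the Leech lattice. -/
theorem result (B : Matrix (Fin 24) (Fin 24) ℤ) (hsymm : B.IsSymm) (hpos : ∀ x : Fin 24 → ℤ, x ≠ 0 → 0 < x ⬝ᵥ (B *ᵥ x)) (heven : ∀ x : Fin 24 → ℤ, (2 : ℤ) ∣ x ⬝ᵥ (B *ᵥ x)) (h2 : ∀ x : Fin 24 → ℤ, x ⬝ᵥ (B *ᵥ x) ≠ 2) (h4 : {x : Fin 24 → ℤ | x ⬝ᵥ (B *ᵥ x) = 4}.ncard = 196560) (h6 : {x : Fin 24 → ℤ | x ⬝ᵥ (B *ᵥ x) = 6}.ncard = 16773120) (h8 : {x : Fin 24 → ℤ | x ⬝ᵥ (B *ᵥ x) = 8}.ncard = 398034000) : ∃ f : (Fin 24 → ℤ) ≃+ Cfsg.leechLattice, ∀ x : Fin 24 → ℤ, Cfsg.sqNorm ((f x : Cfsg.leechLattice)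 : Cfsg.GolayPt → ℤ) = 8 * (x ⬝ᵥ (B *ᵥ x)) := by
  obtain ⟨x, hx⟩ := Set.nonempty_of_ncard_ne_zero (h8 ▸ by norm_num :
    {x : Fin 24 → ℤ | x ⬝ᵥ (B *ᵥ x) = 8}.ncard ≠ 0)
  obtain ⟨f, hf, -⟩ := (CF.Leech.matE B hsymm hpos heven h2).exists_iso (by simp) h4 h6 h8 (x := x) hx
  exact ⟨f, hf⟩

end Cfsg.Agent.S0406
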