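import Cfsg.Statements.S0422
import Cfsg.Agent.Small.M24

set_option autoImplicit false
open Cfsg

namespace Cfsg.Agent.S0422

/-- Simple groups of order 244823040 are all isomorphic to the concrete largest Mathieu group. -/
theorem result {G : Type*} [Group G] [Finite G] (hG : Cfsg.IsM24 G) : Nonempty (G ≃* Cfsg.M24) := by
  haveI := hG.1
  exact CF.Small.M24_of_card hG.2

end Cfsg.Agent.S0422
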