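import Cfsg.Statements.S0423
import Cfsg.Agent.Comp.Real
import Cfsg.Agent.J23.P2

set_option autoImplicit false
open Cfsg

namespace Cfsg.Agent.S0423

open CF.Comp CF.J23.P2 in

/-- Existence of a simple group of order 604800. -/
theorem result : ∃ G : Subgroup (Equiv.Perm (Fin 100)), Cfsg.IsJ2 G := by
  obtain ⟨H, e, -⟩ := exists_realization exactP.faithful ((Exact.orbit (L := C.head (by simp [C]))
    exactP).trans (congrArg _ (by decide +kernel)))
  have := simpleP
  exact ⟨H, e.symm.isSimpleGroup, (Nat.card_congr e.toEquiv).symm.trans cardP⟩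

end Cfsg.Agent.S0423
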