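import Cfsg.Statements.S0425
import Cfsg.Agent.Small.StAut

set_option autoImplicit false
open Cfsg

namespace Cfsg.Agent.S0425

/-- Aut of an S(5, 6, 12) is simple of order 95040 and sharply 5-transitive on points. -/
theorem result {α : Type*} [Fintype α] [DecidableEq α] (hα : Fintype.card α = 12) {B : Set (Finset α)} (hB : Cfsg.IsSteinerSystem 5 6 B) : Cfsg.IsM12 (Cfsg.setSystemAut B) ∧ MulAction.IsMultiplyPretransitive (Cfsg.setSystemAut B) α 5 ∧ ∀ x : Fin 5 ↪ α, MulAction.stabilizer (Cfsg.setSystemAut B) x = ⊥ := by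
  obtain ⟨⟨e⟩, h⟩ := CF.Small.aut12 hα hB
  haveI := CF.Comp.Mat.isSimpleGroup_M12
  have hc := (Nat.card_congr e.toEquiv).symm.trans CF.Comp.Mat.card_M12
  refine ⟨⟨e.symm.isSimpleGroup, hc⟩, h, fun x => ?_⟩
  have := CF.Perm.card_eq_of_sharp h x
  rw [hc, Nat.card_eq_fintype_card (α := α), hα, show Nat.descFactorial 12 5 = 95040 from rfl] at this
  exact Subgroup.eq_bot_of_card_eq _ (Nat.eq_of_mul_eq_mul_left (by norm_num) (this.symm.trans (mul_one _).symm))

end Cfsg.Agent.S0425
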