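import Cfsg.Statements.S0431
import Cfsg.Agent.Srg.HS

set_option autoImplicit false
open Cfsg

set_option maxRecDepth 1000000

namespace Cfsg.Agent.S0431

/-- Aut of the point-block graph of an S(3, 6, 22) contains a simple subgroup of order 44352000. -/
theorem result {α : Type*} [Fintype α] (hα : Fintype.card α = 22) {B : Set (Finset α)} (hB : Cfsg.IsSteinerSystem 3 6 B) : ∃ H : Subgroup (Cfsg.pointBlockGraph B ≃g Cfsg.pointBlockGraph B), Cfsg.IsHS H := by
  obtain ⟨e⟩ := CF.Srg.HS.iso_row hα hB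
  obtain ⟨a⟩ := (CF.Srg.HS.mdl.of_iso e).aut_equiv
  obtain ⟨φ, h⟩ := CF.Srg.HS.hom
  have b := MonoidHom.ofInjective (f := a.symm.toMonoidHom.comp φ) (a.symm.injective.comp h)
  have := CF.Srg.HS.simple
  exact ⟨_, b.symm.isSimpleGroup, (Nat.card_congr b.toEquiv).symm.trans CF.Srg.HS.cardHS⟩

end Cfsg.Agent.S0431
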