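import Cfsg.Statements.S0439
import Cfsg.Agent.Fisch.TT1

set_option autoImplicit false
open Cfsg

namespace Cfsg.Agent.S0439

/-- In the symmetric group of degree n ≥ 2, the set of transpositions is a conjugacy class of 3-transpositions which generates the group. -/
theorem result (n : ℕ) (hn : 2 ≤ n) : Cfsg.IsThreeTranspositionClass {σ : Equiv.Perm (Fin n) | σ.IsSwap} := by
  refine ⟨CF.Fisch.tt_mk (fun a ⟨x, y, _, h⟩ => by simp [h]) (fun a ha => ha.isCycle.ne_one) ?_,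
    ⟨Equiv.swap ⟨0, by omega⟩ ⟨1, by omega⟩, ⟨_, _, by simp, rfl⟩, ?_⟩, Equiv.Perm.closure_isSwap⟩
  · rintro _ ⟨x, y, hxy, rfl⟩ _ ⟨z, w, hzw, rfl⟩
    by_cases h : (x = z ∨ x = w ∨ y = z ∨ y = w) ∧ ¬ ((x = z ∧ y = w) ∨ (x = w ∧ y = z))
    · right
      ext t
      simp only [Equiv.Perm.mul_apply, Equiv.swap_apply_def]
      grind
    · left
      refine Equiv.ext fun t => ?_
      simp only [Equiv.Perm.mul_apply, Equiv.swap_apply_def]
      grind
  · ext g
    refine ⟨fun ⟨x, y, hxy, h⟩ => h ▸ Equiv.Perm.isConj_swap (by simp) hxy, fun h => ?_⟩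
    obtain ⟨c, rfl⟩ := isConj_iff.1 h
    exact ⟨_, _, by simp, (Equiv.swap_apply_apply _ _ _).symm⟩

end Cfsg.Agent.S0439
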