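import Cfsg.Statements.S0440
import Cfsg.Agent.Geom.SpGen
import Cfsg.Agent.Fisch.TT1

set_option autoImplicit false
open Cfsg

namespace Cfsg.Agent.S0440

open CF.Geom CF.Fisch Matrix

theorem aux (n : ℕ) (g : Matrix.symplecticGroup (Fin n) (ZMod 2)) : (g.1 - 1).rank = 1 ↔
    ∃ v ≠ 0, g = (spEquiv n _).symm (spTrans (sympBilin_isAlt n) v 1) := by
  have hB := sympBilin_nondegenerate (F := ZMod 2) n
  have hA := sympBilin_isAlt (F := ZMod 2) n
  have h2 : ∀ c : ZMod 2, c ≠ 0 → c = 1 := by decide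
  have h0 : ∀ x, (g.1 - 1).mulVecLin x = (spEquiv n _ g).1 x - x := fun x => by simp [sub_mulVec]
  rw [Matrix.rank]
  constructor
  · intro h
    obtain ⟨⟨v, y, hy⟩, hv, h1⟩ := finrank_eq_one_iff'.1 h
    replace hv : v ≠ 0 := fun h => hv (Subtype.ext h)
    have h3 : ∀ x, ∃ c : ZMod 2, (spEquiv n _ g).1 x = x + c • v := fun x => by
      obtain ⟨c, hc⟩ := h1 ⟨_, x, rfl⟩
      exact ⟨c, by rw [← sub_eq_iff_eq_add', ← h0]; exact (congrArg Subtype.val hc).symm⟩
    choose φ hφ using h3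
    have h4 : ∀ x, sympBilin n _ x v = φ x * sympBilin n _ y v := fun x => by
      have := mem_SpG.1 (spEquiv n _ g).2 x y
      rw [hφ x, sub_eq_iff_eq_add'.1 ((h0 y).symm.trans hy)] at this
      simp only [map_add, map_smul, LinearMap.add_apply, LinearMap.smul_apply, smul_eq_mul,
        hA.self_eq_zero, ← hA.neg_eq y v] at this
      linear_combination this
    have h5 : sympBilin n _ y v = 1 := h2 _ fun h => hv (hB.2 v fun x => by rw [h4, h, mul_zero])
    refine ⟨v, hv, (spEquiv n _).eq_symm_apply.2 (Subtype.ext (LinearEquiv.ext fun x => ?_))⟩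
    rw [hφ, spTrans_apply, h4, h5, one_mul, mul_one]
  · rintro ⟨v, hv, h⟩
    rw [← finrank_span_singleton (K := ZMod 2) hv, le_antisymm (a := Submodule.span _ {v})
      (b := (g.1 - 1).mulVecLin.range) ?_ ?_]
    · obtain ⟨x, hx⟩ : ∃ x, sympBilin n _ x v ≠ 0 := by
        by_contra! h; exact hv (hB.2 v h)
      rw [Submodule.span_singleton_le_iff_mem]
      exact ⟨x, by rw [h0, h, MulEquiv.apply_symm_apply, spTrans_apply, h2 _ hx]; simp⟩
    · rintro _ ⟨x, rfl⟩
      rw [h0, h, MulEquiv.apply_symm_apply, spTrans_apply, add_sub_cancel_left]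
      exact Submodule.smul_mem _ _ (Submodule.mem_span_singleton_self _)

/-- In the symplectic group in dimension 2n ≥ 2 over the field with two elements, the elements g for which g - 1 has rank one (the symplectic transvections) form a conjugacy class of 3-transpositions generating the group. -/
theorem result (n : ℕ) (hn : 1 ≤ n) : Cfsg.IsThreeTranspositionClass {g : Matrix.symplecticGroup (Fin n) (ZMod 2) | ((g : Matrix (Fin n ⊕ Fin n) (Fin n ⊕ Fin n) (ZMod 2)) - 1).rank = 1} := by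
  have hA := sympBilin_isAlt (F := ZMod 2) n
  have h2 : ∀ c : ZMod 2, c = 0 ∨ c = 1 := by decide
  have h1 : ∀ v, spTrans hA v 1 * spTrans hA v 1 = 1 := fun v => by
    rw [← spTrans_add]; exact spTrans_zero hA v
  have h3 : ∀ v w, spTrans hA v 1 * spTrans hA w 1 * spTrans hA v 1 =
      spTrans hA (w + sympBilin n _ w v • v) 1 := fun v w => by
    nth_rewrite 2 [← inv_eq_of_mul_eq_one_right (h1 v)]
    rw [conj_spTrans, spTrans_apply, one_mul]
  simp only [aux]
  refine ttc_mk ⟨tt_mk ?_ ?_ ?_, ?_, ?_⟩ ⟨_, Pi.single (.inl ⟨0, hn⟩) 1, by simp, rfl⟩ ?_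
  · rintro _ ⟨v, -, rfl⟩
    rw [← map_mul, h1, map_one]
  · intro a ha h
    simpa [h] using (aux n a).2 ha
  · rintro _ ⟨v, -, rfl⟩ _ ⟨w, -, rfl⟩
    rw [commute_iff_conj (by rw [← map_mul, h1, map_one])]
    simp only [← map_mul, h3, ← hA.neg_eq v w]
    rcases h2 (sympBilin n _ v w) with h | h <;> simp [h, add_comm]
  · rintro g _ ⟨v, hv, rfl⟩
    exact ⟨(spEquiv n _ g).1 v, by simpa only [ne_eq, EmbeddingLike.map_eq_zero_iff],
      by simp [-spEquiv_apply, ← conj_spTrans]⟩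
  · refine closure_eq_top_of_equiv (spEquiv n _) (T := {g | ∃ v ≠ 0, g = spTrans hA v 1})
      (fun g ⟨v, hv, h⟩ => ⟨v, hv, by simp [← h]⟩) ?_
    rw [eq_top_iff, ← closure_spTrans (sympBilin_nondegenerate n) hA, Subgroup.closure_le]
    rintro _ ⟨v, c, rfl⟩
    rcases h2 c with rfl | rfl
    · simp [spTrans_zero]
    rcases eq_or_ne v 0 with rfl | hv
    · rw [← zero_smul (ZMod 2) 0, spTrans_smul]; simp [spTrans_zero]
    · exact Subgroup.subset_closure ⟨v, hv, rfl⟩
  · rintro _ ⟨v, hv, rfl⟩ _ ⟨w, hw, rfl⟩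
    obtain ⟨A, hA'⟩ := exists_sp_frame n (fun _ : Unit => v) (fun _ => w)
      (LinearIndependent.of_subsingleton () hv) (LinearIndependent.of_subsingleton () hw)
      (fun _ _ => by simp [← sympBilin_apply, hA.self_eq_zero])
    exact ⟨A, by simp [← hA' (), ← spEquiv_apply, ← conj_spTrans]⟩

end Cfsg.Agent.S0440
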