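import Cfsg.Statements.S0442
import Cfsg.Agent.Invol.Dihedral

set_option autoImplicit false
open Cfsg

namespace Cfsg.Agent.S0442

/-- A standard trick for producing elements of an involution centraliser: for an involution a and an element g, let b be the conjugate g⁻¹ * a * g. If a * b has odd order 2m + 1 then g * (a * b) ^ m commutes with a; if a * b has even order 2m then (a * b) ^ m and (a * (g * a * g⁻¹)) ^ m commute with a. -/
theorem result {G : Type*} [Group G] (a g : G) (ha : orderOf a = 2) : (∀ m : ℕ, orderOf (a * (g⁻¹ * a * g)) = 2 * m + 1 → Commute (g * (a * (g⁻¹ * a * g)) ^ m) a) ∧ (∀ m : ℕ, orderOf (a * (g⁻¹ * a * g)) = 2 * m → Commute ((a * (g⁻¹ * a * g)) ^ m) a ∧ Commute ((a * (g * a * g⁻¹)) ^ m) a) := by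
  open CF.Invol in
  have ha2 := mul_self_of_orderOf ha
  have key : ∀ (g : G) (m : ℕ), (a * (g⁻¹ * a * g)) ^ (2 * m) = 1 →
      Commute ((a * (g⁻¹ * a * g)) ^ m) a := fun g m h =>
    commute_of_inverts_of_mul_self (conj_pow_of_inverts (left_inverts_mul ha2
      (mul_self_of_orderOf ((orderOf_conj' g a).trans ha))) m) (by rw [← pow_add, ← two_mul, h])
  refine ⟨fun m hm => ?_, fun m hm => ⟨key g m (hm ▸ pow_orderOf_eq_one _), ?_⟩⟩
  · have h1 := conj_pow_of_inverts (left_inverts_mul ha2
      (mul_self_of_orderOf ((orderOf_conj' g a).trans ha))) m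
    have h2 := pow_orderOf_eq_one (a * (g⁻¹ * a * g))
    rw [hm, two_mul, pow_succ', pow_add] at h2
    generalize (a * (g⁻¹ * a * g)) ^ m = c at *
    have h3 : c * a = a * c⁻¹ := by rw [← h1, inv_eq_of_mul_eq_one_right ha2]; simp [← mul_assoc, ha2]
    have h4 : g⁻¹ * a * g * (c * c) = a := by
      rw [mul_assoc a, mul_eq_one_iff_inv_eq, inv_eq_of_mul_eq_one_right ha2] at h2
      exact h2.symm
    calc g * c * a = g * (g⁻¹ * a * g * (c * c)) * c⁻¹ := by rw [mul_assoc, h3, h4, mul_assoc]
      _ = _ := by group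
  · have := key g⁻¹ m
    rw [inv_inv] at this
    refine this ?_
    rw [← hm, ← orderOf_dvd_iff_pow_eq_one, ← orderOf_conj' g, ← orderOf_inv]
    simp [mul_assoc, inv_eq_of_mul_eq_one_right ha2]

end Cfsg.Agent.S0442
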