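import Cfsg.Statements.S0443
import Mathlib

set_option autoImplicit false
open Cfsg

namespace Cfsg.Agent.S0443

/-- Two definitions of a 2-central involution agree: an element t of order 2 of a finite group lies in the centre of some Sylow 2-subgroup if and only if its centraliser contains some Sylow 2-subgroup. -/
theorem result {G : Type*} [Group G] [Finite G] (t : G) (ht : orderOf t = 2) : Cfsg.IsTwoCentralInvolution t ↔ ∃ P : Sylow 2 G, (P : Subgroup G) ≤ Subgroup.centralizer ({t} : Set G) := by
  refine ⟨fun ⟨_, P, _, h⟩ => ⟨P, fun x hx => Subgroup.mem_centralizer_singleton_iff.2 (h x hx)⟩,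
    fun ⟨P, h⟩ => ⟨ht, P, ?_, fun x hx => Subgroup.mem_centralizer_singleton_iff.1 (h hx)⟩⟩
  have h1 : IsPGroup 2 (Subgroup.zpowers t) := IsPGroup.of_card (n := 1) (by simpa)
  have h2 : (P : Subgroup G) ≤ Subgroup.normalizer (Subgroup.zpowers t) :=
    h.trans (by
      rw [← Subgroup.centralizer_closure, ← Subgroup.zpowers_eq_closure]
      exact Subgroup.centralizer_le_normalizer _)
  exact (P.3 (h1.to_sup_of_normal_left' P.2 h2) le_sup_right).le
    (Subgroup.mem_sup_left (Subgroup.mem_zpowers t))

end Cfsg.Agent.S0443
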