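import Cfsg.Statements.S0444
import Cfsg.Agent.Fisch.TT1

set_option autoImplicit false
open Cfsg

namespace Cfsg.Agent.S0444

/-- Two members of a set of 3-transpositions which do not commute generate a subgroup isomorphic to the symmetric group on three letters. -/
theorem result {G : Type*} [Group G] {E : Set G} (hE : Cfsg.IsThreeTranspositionSet E) {d e : G} (hd : d ∈ E) (he : e ∈ E) (h : ¬ Commute d e) : Nonempty (Subgroup.closure ({d, e} : Set G) ≃* Equiv.Perm (Fin 3)) := by
  open CF.Fisch in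
  obtain ⟨φ, hφ⟩ := sym_exists_hom 2 ![d, e] (by simp [Fin.forall_fin_two, tt_sq hE hd, tt_sq hE he])
    (fun i j h => by omega) (by simp [Fin.forall_fin_two, tt_braid hE hd he h])
  have h0 : φ (Equiv.swap 0 1) = d := hφ 0
  have h1 : φ (Equiv.swap 1 2) = e := hφ 1
  have h2 : Function.Injective φ := by
    rw [injective_iff_map_eq_one]
    by_contra! h2
    obtain ⟨g, hg, hg1⟩ := h2
    have : ∀ g : Equiv.Perm (Fin 3), g ≠ 1 → ∃ a b : Equiv.Perm (Fin 3),
      a * g * a⁻¹ * (b * g * b⁻¹) * (Equiv.swap 1 2 * Equiv.swap 0 1) =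
        Equiv.swap 0 1 * Equiv.swap 1 2 := by decide +kernel
    obtain ⟨a, b, h3⟩ := this g hg1
    exact h (show _ = _ by simpa [hg, h0, h1] using (congrArg φ h3).symm)
  have h3 : φ.range = Subgroup.closure {d, e} := by
    have : Subgroup.closure {Equiv.swap (0 : Fin 3) 1, Equiv.swap 1 2} = ⊤ := by
      rw [eq_top_iff, ← Equiv.Perm.closure_isSwap, Subgroup.closure_le]
      have h4 : Equiv.swap (0 : Fin 3) 1 ∈ Subgroup.closure {Equiv.swap (0 : Fin 3) 1,
        Equiv.swap 1 2} := Subgroup.subset_closure (by simp)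
      have h5 : Equiv.swap (1 : Fin 3) 2 ∈ Subgroup.closure {Equiv.swap (0 : Fin 3) 1,
        Equiv.swap 1 2} := Subgroup.subset_closure (by simp)
      have : ∀ x y : Fin 3, x ≠ y → Equiv.swap x y = Equiv.swap 0 1 ∨
        Equiv.swap x y = Equiv.swap 1 2 ∨
        Equiv.swap x y = Equiv.swap 0 1 * Equiv.swap 1 2 * Equiv.swap 0 1 := by decide
      rintro _ ⟨x, y, hxy, rfl⟩
      rcases this x y hxy with h | h | h <;> rw [h]
      exacts [h4, h5, mul_mem (mul_mem h4 h5) h4]
    rw [MonoidHom.range_eq_map, ← this, MonoidHom.map_closure, Set.image_pair, h0, h1]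
  exact ⟨h3 ▸ (MonoidHom.ofInjective h2).symm⟩

end Cfsg.Agent.S0444
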