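import Cfsg.Statements.S0458
import Cfsg.Agent.Comp.J3.Model

set_option autoImplicit false
open Cfsg

namespace Cfsg.Agent.S0458

open CF.Comp CF.Comp.J3 in

/-- Janko's third group exists as a transitive permutation group of degree 6156 with point stabiliser of order 8160: a simple group of order 50232960. -/
theorem result : ∃ H : Subgroup (Equiv.Perm (Fin 6156)), Cfsg.IsJ3 H ∧ MulAction.IsPretransitive H (Fin 6156) ∧ Nat.card (MulAction.stabilizer H (0 : Fin 6156)) = 8160 := by
  obtain ⟨H, e, h3, h4⟩ := exists_realization exactP.faithful ((Exact.orbit (L := C.head (by simp [C]))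
    exactP).trans (congrArg _ (by decide +kernel)))
  have := simpleP
  exact ⟨H, ⟨e.symm.isSimpleGroup, (Nat.card_congr e.toEquiv).symm.trans cardP⟩, h3,
    (Nat.card_congr (equivOfIff e h4).toEquiv).symm.trans
      ((Exact.tail (L := C.head (by simp [C])) exactP).card.trans (by decide +kernel))⟩

end Cfsg.Agent.S0458
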