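import Cfsg.Statements.S0459
import Cfsg.Agent.Comp.Ru.Tits

set_option autoImplicit false
open Cfsg

namespace Cfsg.Agent.S0459

theorem aux {G L : Type*} [Group G] [Group L] {K : Subgroup L} (e : G ≃* K) (T : Subgroup K) (h : Cfsg.IsTits T) :
    ∃ M : Subgroup G, Cfsg.IsTits M :=
  have := h.1
  have e3 := CF.Comp.equivOfIff e (A := T.comap e.toMonoidHom) (B := T) fun _ => Iff.rfl
  ⟨_, e3.isSimpleGroup, (Nat.card_congr e3.toEquiv).trans h.2⟩

open CF.Comp CF.Comp.Ru in

/-- The Rudvalis group exists as a transitive permutation group of degree 4060: simple of order 145926144000, with point stabiliser of order 35942400 containing a simple subgroup of order 17971200 (the order of the Tits group). -/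
theorem result : ∃ H : Subgroup (Equiv.Perm (Fin 4060)), Cfsg.IsRu H ∧ MulAction.IsPretransitive H (Fin 4060) ∧ Nat.card (MulAction.stabilizer H (0 : Fin 4060)) = 35942400 ∧ ∃ T : Subgroup (MulAction.stabilizer H (0 : Fin 4060)), Cfsg.IsTits T := by
  obtain ⟨H, e, h3, h4⟩ := exists_realization faithful orbit0
  obtain ⟨e', -⟩ := exists_equiv
  have e2 := (equivOfIff e h4).symm.trans e'
  exact ⟨H, ⟨e.symm.isSimpleGroup, (Nat.card_congr e.toEquiv).symm.trans card⟩, h3,
    (Nat.card_congr e2.toEquiv).trans CF.Tits.cardU, aux e2 _ ⟨CF.Tits.simple, CF.Tits.card⟩⟩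

end Cfsg.Agent.S0459
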