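import Cfsg.Statements.S0460
import Cfsg.Agent.Comp.ON.Sub
import Cfsg.Agent.Comp.ON.L37

set_option autoImplicit false
open Cfsg

namespace Cfsg.Agent.S0460

open CF.Comp CF.Comp.ON in

/-- The O'Nan group exists as a transitive permutation group of degree 122760: simple of order 460815505920, point stabiliser of order 3753792, and containing simple subgroups of orders 175560 and 7920. -/
theorem result : ∃ H : Subgroup (Equiv.Perm (Fin 122760)), Cfsg.IsON H ∧ MulAction.IsPretransitive H (Fin 122760) ∧ Nat.card (MulAction.stabilizer H (0 : Fin 122760)) = 3753792 ∧ (∃ K : Subgroup H, Cfsg.IsJ1 K) ∧ (∃ K : Subgroup H, Cfsg.IsM11 K) := by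
  obtain ⟨H, e, h3, h4⟩ := exists_realization exact.faithful orbit0
  have := simple
  have := J1.simpleP
  have := M11.simpleP
  obtain ⟨φ, h5⟩ := exists_J1
  obtain ⟨χ, h6⟩ := exists_M11
  exact ⟨H, ⟨e.symm.isSimpleGroup, (Nat.card_congr e.toEquiv).symm.trans card⟩, h3,
    (Nat.card_congr (equivOfIff e (stab ▸ h4)).toEquiv).symm.trans card1,
    (exists_simple_subgroup h5 e).imp fun _ h => ⟨h.1, h.2.trans J1.cardP⟩,
    (exists_simple_subgroup h6 e).imp fun _ h => ⟨h.1, h.2.trans M11.cardP⟩⟩

end Cfsg.Agent.S0460
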