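import Cfsg.Statements.S0461
import Cfsg.Agent.Dce.J4.Main

set_option autoImplicit false
open Cfsg

namespace Cfsg.Agent.S0461

/-- Janko's fourth group exists as a group of 112 × 112 matrices over the field with two elements: GL(112, 2) has a simple subgroup of order 86775571046077562880. -/
theorem result : ∃ H : Subgroup (GL (Fin 112) (ZMod 2)), Cfsg.IsJ4 H := by
  have key : ∀ {G G' : Type} [Group G] [Group G'] (φ : G →* G'), Function.Injective φ → IsJ4 G → IsJ4 φ.range :=
    fun φ h h' => haveI := h'.1
      ⟨(φ.ofInjective h).symm.isSimpleGroup, (Nat.card_congr (φ.ofInjective h).toEquiv).symm.trans h'.2⟩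
  exact ⟨_, key _ CF.Dce.J4.ι_inj CF.Dce.J4.isJ4_L⟩

end Cfsg.Agent.S0461
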