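import Cfsg.Statements.S0462
import Cfsg.Agent.Comp.He.Sp

set_option autoImplicit false
open Cfsg

namespace Cfsg.Agent.S0462

open CF.Comp CF.Comp.He in

/-- The Held group exists as a transitive permutation group of degree 2058: simple of order 4030387200, with point stabiliser containing, with index 2, a copy of the 4-dimensional symplectic group over the field with four elements. -/
theorem result : ∃ H : Subgroup (Equiv.Perm (Fin 2058)), Cfsg.IsHe H ∧ MulAction.IsPretransitive H (Fin 2058) ∧ ∃ (F : Type) (_ : Field F) (_ : Fintype F), Fintype.card F = 4 ∧ ∃ N : Subgroup (MulAction.stabilizer H (0 : Fin 2058)), N.index = 2 ∧ Nonempty (N ≃* Matrix.symplecticGroup (Fin 2) F) := by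
  let _ := Fintype.ofFinite (GaloisField 2 2)
  have h : Fintype.card (GaloisField 2 2) = 4 := by
    rw [← Nat.card_eq_fintype_card, GaloisField.card 2 2 (by decide)]; rfl
  obtain ⟨N, h1, h2⟩ := exists_Sp _ h
  obtain ⟨H, e, h3, h4⟩ := exists_realization exact.faithful orbit0
  have := simple
  exact ⟨H, ⟨e.symm.isSimpleGroup, (Nat.card_congr e.toEquiv).symm.trans card⟩, h3, _, _, _, h,
    exists_index_congr (equivOfIff e (stab ▸ h4)) h1 h2⟩

end Cfsg.Agent.S0462
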