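import Cfsg.Statements.S0463
import Cfsg.Agent.Comp.HN.Main

set_option autoImplicit false
open Cfsg

namespace Cfsg.Agent.S0463

/-- The Harada–Norton group exists as a transitive permutation group of degree 1140000: simple of order 273030912000000 with point stabiliser isomorphic to the alternating group of degree 12. -/
theorem result : ∃ H : Subgroup (Equiv.Perm (Fin 1140000)), Cfsg.IsHN H ∧ MulAction.IsPretransitive H (Fin 1140000) ∧ Nonempty (MulAction.stabilizer H (0 : Fin 1140000) ≃* alternatingGroup (Fin 12)) := by
  open CF.Dce CF.Comp.HN CF.Comp in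
  have := simple_L
  obtain ⟨A, ⟨a⟩⟩ := exists_alt
  have h : A.index = 1140000 := by
    have := A.index_mul_card
    rw [Nat.card_congr a.toEquiv, nat_card_alternatingGroup, card_L, Nat.card_eq_fintype_card,
      Fintype.card_fin] at this
    exact Nat.eq_of_mul_eq_mul_right (by decide) (this.trans (by decide))
  obtain ⟨H, e, h1, h2⟩ := exists_realization_coset (K := A)
    (fun e => absurd ((Subgroup.index_eq_one.2 e).symm.trans h) (by decide)) h
  exact ⟨H, ⟨e.symm.isSimpleGroup, (Nat.card_congr e.toEquiv).symm.trans card_L⟩, h1,
    ⟨(equivOfIff e h2).symm.trans a⟩⟩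

end Cfsg.Agent.S0463
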