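import Cfsg.Statements.S0464
import Cfsg.Agent.Dce.Th.Main

set_option autoImplicit false
open Cfsg

namespace Cfsg.Agent.S0464

/-- The Thompson group exists as a group of 248 × 248 matrices over the field with three elements: a simple subgroup of GL(248, 3) of order 90745943887872000, possessing a subgroup of index 143127000 which contains a simple subgroup of the order of a triality-twisted D4 group. -/
theorem result : ∃ H : Subgroup (GL (Fin 248) (ZMod 3)), Cfsg.IsTh H ∧ ∃ K : Subgroup H, K.index = 143127000 ∧ ∃ L : Subgroup H, L ≤ K ∧ Cfsg.Is3D4 L := by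
  have key : ∀ {G G' : Type} [Group G] [Group G'] (φ : G →* G') (K L : Subgroup G), Function.Injective φ →
      IsTh G → K.index = 143127000 → L ≤ K → Is3D4 L → ∃ H : Subgroup G', IsTh H ∧
        ∃ K : Subgroup H, K.index = 143127000 ∧ ∃ L : Subgroup H, L ≤ K ∧ Is3D4 L := by
    intro G G' _ _ φ K L hφ ⟨_, h⟩ h1 h2 ⟨_, q, hq, h3⟩
    have e := φ.ofInjective hφ
    exact ⟨_, ⟨e.symm.isSimpleGroup, (Nat.card_congr e.toEquiv).symm.trans h⟩, _,
      (Subgroup.index_map_equiv K e).trans h1, _, Subgroup.map_mono h2, (e.subgroupMap L).symm.isSimpleGroup,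
      q, hq, (Nat.card_congr (e.subgroupMap L).toEquiv).symm.trans h3⟩
  exact key _ _ _ CF.Dce.Th.ι_inj CF.Dce.Th.isTh_L CF.Dce.Th.index_K CF.Dce.Th.K0_le_KL CF.Dce.Th.is3D4

end Cfsg.Agent.S0464
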