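import Cfsg.Statements.S0465
import Cfsg.Agent.Mon.W4d
import Cfsg.Agent.Mon.Fong
import Cfsg.Agent.Mon.Covers

set_option autoImplicit false
open Cfsg

namespace Cfsg.Agent.S0465

open CF.Mon CF.Mon.G CF.Mon.T CF.Mon.W4 in
theorem mem_SW (h : Out rhoM tauM) {g : MV} (hg : g ∈ AA rhoM tauM) : g.1 ∈ SW := by
  haveI := h.finite
  let S : Subgroup MV :=
    { toSubmonoid := SW.comap MV.subtype
      inv_mem' := fun {a} ha => by
        have : a⁻¹ = a ^ (orderOf a - 1) := by
          rw [inv_eq_iff_mul_eq_one, ← pow_succ', Nat.sub_add_cancel (orderOf_pos a),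
            pow_orderOf_eq_one]
        rw [this]
        exact Submonoid.pow_mem _ ha _ }
  have : AA rhoM tauM ≤ S := sup_le (by rintro _ ⟨γ, a, rfl⟩; exact rho_mem_SW a)
    (Subgroup.zpowers_le.2 tau_mem_SW)
  exact this hg

/-- The Baby Monster as matrices in characteristic 2: for some finite field F of characteristic 2, GL(4370, F) has a simple subgroup of order 4154781481226426191177580544000000. -/
theorem result : ∃ (F : Type) (_ : Field F) (_ : Fintype F), CharP F 2 ∧ ∃ H : Subgroup (GL (Fin 4370) F), Cfsg.IsB H := by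
  open CF.Mon CF.Mon.G CF.Mon.T CF.Mon.W4 in
  have h := CF.Mon.G.outM
  haveI := h.finite
  haveI := Module.Free.of_divisionRing ℚ WQ
  haveI : FiniteDimensional ℚ WQ := Module.finite_of_finrank_pos (by rw [finrank_WQ]; norm_num)
  let σ : AA rhoM tauM →* Module.End ℚ WQ := actW.comp
    ((MV.subtype.comp (AA rhoM tauM).subtype).codRestrict SW fun g => mem_SW h g.2)
  obtain ⟨φ, h1, h2⟩ := CF.Fong.concl (V := WQ) σ (n := 4370) finrank_WQ (by decide)
  have ht : φ ⟨_, h.t_mem_A⟩ = 1 := h1 _ actW_tA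
  have hτ : φ ⟨_, tau_mem_AA _ _⟩ ≠ 1 := fun e =>
    actW_tau (h2 _ (Subtype.ext h.rels.cube) e)
  refine ⟨ZMod 2, inferInstance, inferInstance, inferInstance, φ.range,
    h.isB_of φ.rangeRestrict_surjective fun a => ?_⟩
  rw [← Subtype.coe_inj]
  change φ a = 1 ↔ _
  haveI := h.isB_quot.1
  have hZ : Subgroup.center (AA rhoM tauM) ≤ φ.ker := by
    rw [h.center_A]
    rintro a ⟨n, e⟩
    rw [show a = (⟨_, h.t_mem_A⟩ : AA rhoM tauM) ^ n from Subtype.ext e.symm]
    exact zpow_mem (MonoidHom.mem_ker.2 ht) n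
  have hk : φ.ker = Subgroup.center (AA rhoM tauM) := by
    have := Subgroup.comap_map_eq_self (f := QuotientGroup.mk' (Subgroup.center (AA rhoM tauM)))
      (H := φ.ker) (by rwa [QuotientGroup.ker_mk'])
    rcases (Subgroup.Normal.map inferInstance (QuotientGroup.mk' (Subgroup.center (AA rhoM tauM)))
      (QuotientGroup.mk'_surjective _) : (φ.ker.map _).Normal).eq_bot_or_eq_top with e | e
    · rw [← this, e, MonoidHom.comap_bot, QuotientGroup.ker_mk']
    · rw [e, Subgroup.comap_top] at this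
      exact absurd (MonoidHom.mem_ker.1 (this ▸ Subgroup.mem_top _)) hτ
  rw [← MonoidHom.mem_ker, hk, h.center_A, Subgroup.mem_subgroupOf,
    CF.Even.mem_zpowers_invol h.orderOf_t]

end Cfsg.Agent.S0465
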