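import Cfsg.Statements.S0466
import Cfsg.Agent.Mon.PrF
import Cfsg.Agent.Mon.Covers

set_option autoImplicit false
open Cfsg

namespace Cfsg.Agent.S0466

/-- The Baby Monster as a 4-transposition group: there is a simple group of its order with a conjugacy class of 13571955000 involutions such that the product of any two of them has order at most 4, the centraliser of each having order 4 · 76532479683774853939200. -/
theorem result : ∃ (G : Type) (_ : Group G) (_ : Finite G), Cfsg.IsB G ∧ ∃ D : Set G, (∃ d ∈ D, D = conjugatesOf d) ∧ Nat.card D = 13571955000 ∧ (∀ d ∈ D, orderOf d = 2) ∧ (∀ d ∈ D, ∀ e ∈ D, orderOf (d * e) ≤ 4) ∧ ∀ d ∈ D, Nat.card (Subgroup.centralizer ({d} : Set G)) = 306129918735099415756800 := by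
  have h := CF.Mon.G.outM
  have := h.finite
  obtain ⟨d, a, b, c, e⟩ := CF.Mon.P.fourT h CF.Mon.G.covers
  refine ⟨_, _, inferInstance, h.isB_quot, _, ⟨d, IsConj.refl _, rfl⟩, a,
    fun x hx => (CF.Mon.P.order_conj hx).trans b, c, fun x hx => ?_⟩
  obtain ⟨f⟩ := CF.Comp.nonempty_centralizer_equiv hx
  rw [← Nat.card_congr f.toEquiv, e]

end Cfsg.Agent.S0466
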