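import Cfsg.Statements.S0470
import Cfsg.Agent.Mon.ThK
import Cfsg.Agent.Mon.Emb
import Cfsg.Agent.Known.Mon.He7
import Cfsg.Agent.Schur.He

set_option autoImplicit false
open Cfsg

namespace Cfsg.Agent.S0470

open CF.Mon CF.Mon.G CF.Mon.Lab CF.Known.Mon CF.Loc CF.LX Subgroup in
theorem he {Γ : Type} [Group Γ] {ρ : Gt →* Γ} {τ : Γ} (h : G.Out ρ τ) :
    ∃ y : Γ, orderOf y = 7 ∧ ∃ K : Subgroup Γ, K ≤ centralizer {y} ∧ IsHe K := by
  have := h.finite
  obtain ⟨M, a, -⟩ := h.exists_MT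
  obtain ⟨u, r⟩ := M.exists_Rp' (CF.Leech.permHom (CF.Comp.ev CF.Leech.M.m C7.w))
  have o := C7.main.1.ord
  have b7 := pow_orderOf_eq_one (CF.Leech.permHom (CF.Comp.ev CF.Leech.M.m C7.w))
  rw [o] at b7
  have r8 := r.pow 8
  rw [pow_succ (CF.Leech.permHom _) 7, b7, one_mul] at r8
  obtain ⟨p, e⟩ := (r.pow 7).mem_Q_iff.2 (.inl b7)
  have o7 : orderOf (u ^ 8) = 7 := by
    have := Fact.mk (by norm_num : Nat.Prime 7)
    refine orderOf_eq_prime ?_ fun k => ?_
    · rw [← pow_mul, mul_comm, pow_mul, ← e, ← map_pow, show 8 = 2 * (2 * 2) from rfl, pow_mul, pow_mul, sq p,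
        mul_self_eq, sq (xp _), ← xp_add, z2_add_self, xp_zero, one_pow, map_one]
    · rcases r8.mem_Q_iff.1 (k ▸ one_mem _) with k | k <;> rw [k] at o
      · simp at o
      · exact absurd (o.symm.trans (CF.Even.orderOf_eq_two' CF.Leech.negCo_mul_self CF.Leech.negCo_ne_one))
          (by decide)
  have := normal_subgroupOf_of_le_normalizer (centralizer_le_normalizer (zpowers (u ^ 8) : Set Γ))
  obtain ⟨e⟩ := MT.he (pauli_mem_QQ ρ Y0) ((a _).trans lam_Y0) r8 o7
  have := CF.Comp.He.simple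
  obtain ⟨s, hs⟩ := CF.Schur.exists_section_of_trivial
    (CF.MonY.perfect_of_card (by rw [CF.Comp.He.card]; norm_num)) CF.Schur.He.schur
    (ξ := e.toMonoidHom.comp (QuotientGroup.mk' _)) ⟨e.surjective.comp (QuotientGroup.mk'_surjective _),
      fun b hb => mem_center_iff.2 fun g => Subtype.ext (g.2 _ (mem_subgroupOf.1 (by simpa using hb))).symm⟩
  exact ⟨_, o7, ((Subgroup.subtype _).comp s).range, by
    rintro _ ⟨x, rfl⟩; exact centralizer_zpowers (u ^ 8) ▸ (s x).2,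
    Tr.sub_of_inj (Subtype.val_injective.comp (Function.LeftInverse.injective (f := s)
      (g := fun x => e (QuotientGroup.mk x)) (DFunLike.congr_fun hs)))
      ⟨this, CF.Comp.He.card⟩⟩

/-- In some simple group of the Monster's order there are elements of orders 3, 5 and 7 whose centralisers contain simple subgroups of the Thompson, Harada–Norton and Held orders respectively; the centraliser of the element of order 3 has order 3 · 90745943887872000. -/
theorem result : ∃ (G : Type) (_ : Group G) (_ : Finite G), Cfsg.IsM G ∧ (∃ x : G, orderOf x = 3 ∧ Nat.card (Subgroup.centralizer ({x} : Set G)) = 272237831663616000 ∧ ∃ K : Subgroup G, K ≤ Subgroup.centralizer ({x} : Set G) ∧ Cfsg.IsTh K) ∧ (∃ x : G, orderOf x = 5 ∧ ∃ K : Subgroup G, K ≤ Subgroup.centralizer ({x} : Set G) ∧ Cfsg.IsHN K) ∧ (∃ x : G, orderOf x = 7 ∧ ∃ K : Subgroup G, K ≤ Subgroup.centralizer ({x} : Set G) ∧ Cfsg.IsHe K) := by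
  open CF.Mon CF.Mon.Tr in
  obtain ⟨ρ, τ, h⟩ := certs.outM
  have e : ρ (ax Tr.thT 4) * ρ (ax Tr.thT 6) = ρ ThI.gE := by
    rw [ax_val h thT_base (t := 8) (by decide +kernel), ax_val h thT_base (t := 9) (by decide +kernel)]
    simp [ThI.gE]
  have c : ∀ s, Commute (ThI.φ h s) (ρ ThI.gE) := fun s => e ▸
    (lift_comm CF.Dce.Th.cox (ThI.hr h)
      (fun i hi => (th_fix i hi).1.comm h thT_base (by decide +kernel)) s).mul_right
    (lift_comm CF.Dce.Th.cox (ThI.hr h)
      (fun i hi => (th_fix i hi).2.comm h thT_base (by decide +kernel)) s)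
  obtain ⟨φ, a, -, b⟩ := hn_emb h
  exact ⟨_, _, h.finite, h.isM, ⟨_, e ▸ th_order h, ThI.card_cent h (e ▸ th_order h) c, _, by
      rintro _ ⟨s, rfl⟩; exact Subgroup.mem_centralizer_singleton_iff.2 (c s),
      sub_of_inj (ThI.φ_inj h) CF.Dce.Th.isTh⟩,
    ⟨_, hn_order h, _, by
      rintro _ ⟨s, rfl⟩; exact Subgroup.mem_centralizer_singleton_iff.2 ((b s).1.mul_right (b s).2),
      sub_of_inj a CF.Comp.HN.isHN⟩, he h⟩

end Cfsg.Agent.S0470
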