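import Cfsg.Statements.S0471
import Cfsg.Agent.Comp.Fi22.Cl

set_option autoImplicit false
open Cfsg

namespace Cfsg.Agent.S0471

open CF.Comp CF.Comp.Fi22 in

/-- The Fischer group of order 64561751654400 exists as a 3-transposition group: a simple group of that order generated by a conjugacy class of 3510 3-transpositions, the centraliser of each being a non-split double cover of PSU(6, 2). -/
theorem result : ∃ (G : Type) (_ : Group G) (_ : Finite G), Cfsg.IsFi22 G ∧ ∃ D : Set G, Cfsg.IsThreeTranspositionClass D ∧ Nat.card D = 3510 ∧ ∀ d ∈ D, ∃ (F : Type) (_ : Field F) (_ : Fintype F), Fintype.card F = 4 ∧ Cfsg.IsNonsplitDoubleCover (Subgroup.centralizer ({d} : Set G)) (Cfsg.PSU 6 F 2) := by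
  let _ := Fintype.ofFinite (GaloisField 2 2)
  have h : Fintype.card (GaloisField 2 2) = 4 := by
    rw [← Nat.card_eq_fintype_card, GaloisField.card 2 2 (by decide)]; rfl
  refine ⟨Cfsg.Spor.Fi22, _, finite, ⟨simple, card⟩, _, threeTransp, card_class, fun d hd => ?_⟩
  obtain ⟨e⟩ := nonempty_centralizer_equiv hd
  exact ⟨_, _, _, h, isNonsplitDoubleCover_congr e (centralizer_a ▸ coverU _ h)⟩

end Cfsg.Agent.S0471
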