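import Cfsg.Statements.S0474
import Cfsg.Agent.Mon.Emb

set_option autoImplicit false
open Cfsg

namespace Cfsg.Agent.S0474

/-- Some simple group of order 4154781481226426191177580544000000 contains simple subgroups of the orders of the Thompson group, the Harada–Norton group and the Fischer group of order 4089470473293004800. -/
theorem result : ∃ (G : Type) (_ : Group G) (_ : Finite G), Cfsg.IsB G ∧ (∃ K : Subgroup G, Cfsg.IsTh K) ∧ (∃ K : Subgroup G, Cfsg.IsHN K) ∧ (∃ K : Subgroup G, Cfsg.IsFi23 K) := by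
  obtain ⟨_, a⟩ := CF.Mon.Tr.th_baby
  obtain ⟨_, b⟩ := CF.Mon.Tr.hn_baby
  obtain ⟨_, c⟩ := CF.Mon.Tr.fi23_baby
  exact ⟨Spor.BabyMonster, inferInstance,
    Nat.finite_of_card_ne_zero (by rw [CF.Mon.Tr.isB.2]; norm_num), CF.Mon.Tr.isB,
    ⟨_, CF.Mon.Tr.sub_of_inj a CF.Dce.Th.isTh⟩, ⟨_, CF.Mon.Tr.sub_of_inj b CF.Comp.HN.isHN⟩,
    ⟨_, CF.Mon.Tr.sub_of_inj c ⟨CF.Comp.Fi23.simple, CF.Comp.Fi23.card⟩⟩⟩

end Cfsg.Agent.S0474
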