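import Cfsg.Statements.S0478
import Cfsg.Agent.Comp.J3.Main

set_option autoImplicit false
open Cfsg

namespace Cfsg.Agent.S0478

open CF.Comp CF.Comp.J3 in

/-- A triple cover of Janko's third group inside a unitary group: for a field F with four elements, the special unitary group of dimension 9 (with respect to the form with q = 2) has a subgroup whose centre has order 3 and whose quotient by its centre is simple of order 50232960. -/
theorem result : ∃ (F : Type) (_ : Field F) (_ : Fintype F), Fintype.card F = 4 ∧ ∃ H : Subgroup (Cfsg.SU 9 F 2), Nat.card (Subgroup.center H) = 3 ∧ Cfsg.IsJ3 (H ⧸ Subgroup.center H) := by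
  let _ := Fintype.ofFinite (GaloisField 2 2)
  have h : Fintype.card (GaloisField 2 2) = 4 := by
    rw [← Nat.card_eq_fintype_card, GaloisField.card 2 2 (by decide)]; rfl
  obtain ⟨el, hT⟩ := exists_ok_four h
  obtain ⟨g, h1, h2⟩ := exists_els (suMat 9 (GaloisField 2 2) 2) (m := 7) fun i hi => hT.exists_su (q := 2) h
    (allFrom_zero.1 (by decide +kernel : allFrom (suAt (tabQ 2 1 1) 9 2 SA SD) 0 7 = true) i hi)
  let H := Subgroup.closure (Set.range g)
  let x : ℕ → H := fun i => ⟨g i, Subgroup.subset_closure ⟨i, rfl⟩⟩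
  have h3 : ∀ i, 7 ≤ i → x i = 1 := fun i hi => Subtype.ext (h2 i hi)
  obtain ⟨h4, -, e, -⟩ := cover (g := x) (ρ := (suMat 9 _ 2).comp H.subtype) (hT.matRep (fun i hi => (h1 i hi).trans
    (congrArg _ ((by decide +kernel : ∀ i < 7, nth [] SA i = nth [] M1 (2 * i + 1)) i hi))) let1)
    (fun _ _ e => Subtype.ext (Subtype.ext (Subtype.ext e))) h3
    (clo_top_of_closure le_rfl h3 fun _ h => h)
  have := simpleP
  exact ⟨_, _, _, h, H, h4, e.isSimpleGroup, (Nat.card_congr e.toEquiv).trans cardP⟩

end Cfsg.Agent.S0478
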