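import Cfsg.Statements.S0480
import Cfsg.Agent.Geom.Fi29
import Cfsg.Agent.Fisch.Std
import Cfsg.Agent.Fisch.F24.X

set_option autoImplicit false
open Cfsg

namespace Cfsg.Agent.S0480

open CF.Geom CF.Geom.Fi CF.Fisch in

/-- The simple 3-transposition groups: if a finite non-abelian simple group G is generated by a conjugacy class of 3-transpositions, then G is isomorphic to a symplectic group Sp(2n, 2), or to a projective special unitary group PSU(n, 2) (defined over the field with four elements), or to the projective commutator subgroup of an orthogonal group in odd dimension over the field with three elements, or G has order 64561751654400, or G has order 4089470473293004800. -/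
theorem result {G : Type*} [Group G] [Finite G] [IsSimpleGroup G] (hna : ∃ x y : G, x * y ≠ y * x) {D : Set G} (hD : Cfsg.IsThreeTranspositionClass D) : (∃ n : ℕ, Nonempty (G ≃* Matrix.symplecticGroup (Fin n) (ZMod 2))) ∨ (∃ (F : Type) (_ : Field F) (_ : Fintype F) (n : ℕ), Fintype.card F = 4 ∧ Nonempty (G ≃* Cfsg.PSU n F 2)) ∨ (∃ m : ℕ, Nonempty (G ≃* Cfsg.POmega (ZMod 3) (Cfsg.quadFormOdd m (ZMod 3)))) ∨ Cfsg.IsFi22 G ∨ Cfsg.IsFi23 G := by
  obtain ⟨x, y, hxy⟩ := hna
  have hc : commutator G = ⊤ := (Subgroup.commutator_normal ⊤ ⊤).eq_bot_or_eq_top.resolve_left fun e => by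
    have := e.le (Subgroup.commutator_mem_commutator (Subgroup.mem_top x) (Subgroup.mem_top y))
    exact hxy (commutatorElement_eq_one_iff_mul_comm.1 this)
  have hZ : Subgroup.center G = ⊥ := (Subgroup.normal_of_characteristic _).eq_bot_or_eq_top.resolve_right fun e =>
    hxy (Subgroup.mem_center_iff.1 (e.ge (Subgroup.mem_top y)) x)
  have i : commutator G ≃* G := (MulEquiv.subgroupCongr hc).trans Subgroup.topEquiv
  have H := primTT_of_simple hD i.isSimpleGroup fun h => hxy (by
    simpa using congrArg i (h.1.1 (i.symm x) (i.symm y)))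
  obtain ⟨X, _, _, τ, r, P⟩ := exists_prim H
  rcases P.list with ⟨n, φ, h5, m⟩ | ⟨e, e'⟩ | ⟨n, B, φ, Q, h6, m⟩ | ⟨n, B, φ, h5, m⟩ | e | e | e | e
  · obtain ⟨e, -⟩ := r.sym_iso hD.2.2 hZ m (by omega)
    exact absurd (perf_congr e hc) (perm_not_perf (by omega))
  · obtain ⟨m, e, -⟩ := r.grp_sp hD.2.2 hZ P e e'
    exact .inl ⟨m, ⟨e⟩⟩
  · rcases r.grp_o2 hD.2.2 hZ m h6 with ⟨k, hk, e, -⟩ | ⟨k, hk, e, -⟩
    · exact absurd (perf_congr e hc) (o2_not_perf (Q := qPlus k _) (qPlus_nondegenerate k) (by simp; omega))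
    · exact absurd (perf_congr e hc)
        (o2_not_perf (Q := qMinus k _ 1 1) (qMinus_nondegenerate_of_disc k (by decide)) (by simp; omega))
  · obtain ⟨e, -⟩ := r.grp_o3 hD.2.2 hZ m
    obtain ⟨k, hk | hk⟩ := Nat.even_or_odd' n
    · exact absurd (perf_congr e hc) (o3_not_perf m.qf_nondeg (by simpa) ⟨k, by simp; omega⟩ one_ne_zero)
    obtain ⟨g, c, h0, hg⟩ := exists_equiv_qOdd m.qf_nondeg (m := k) (by simpa)
    obtain ⟨j⟩ := refl_pomega m.qf_nondeg (by simpa) g h0 one_ne_zero hg
      ((QuotientGroup.quotientMulEquivOfEq hZ).trans (QuotientGroup.quotientBot.trans e))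
      (center_bot_congr i.symm hZ)
    exact .inr (.inr (.inl ⟨k, ⟨i.symm.trans j⟩⟩))
  · obtain ⟨n, B, φ, m⟩ := e.uty.exists_UM
    obtain ⟨e, -⟩ := r.grp_u hD.2.2 hZ m P.wide
    exact .inr (.inl ⟨K4, inferInstance, inferInstance, n, rfl, ⟨e⟩⟩)
  · obtain ⟨_, _, M⟩ := std22 H.grp H.prim (e.m22 r hZ)
    exact .inr (.inr (.inr (.inl ⟨inferInstance, M.card⟩)))
  · obtain ⟨_, _, M⟩ := std23 H.grp H.prim (e.m23 r hZ)
    exact .inr (.inr (.inr (.inr ⟨inferInstance, M.card⟩)))
  · obtain ⟨_, _, M⟩ := F24.std24 H.grp H.prim (e.m24 r hZ)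
    have := M.commutator.1
    rw [hc, Subgroup.index_top] at this
    exact absurd this (by decide)

end Cfsg.Agent.S0480
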