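import Cfsg.Statements.S0481
import Cfsg.Agent.LX.Pair

set_option autoImplicit false
open Cfsg

namespace Cfsg.Agent.S0481

open CF.Loc CF.LX CF.Even Subgroup

/-- Large extraspecial subgroups: let z be an involution of a finite group G whose centraliser C contains a normal 2-subgroup Q with centre of order 2 and all squares central, such that every element of G centralising Q lies in Q. Then C contains a Sylow 2-subgroup of G, and any involution of G whose centraliser contains a Sylow 2-subgroup of G is conjugate to z. -/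
theorem result {G : Type*} [Group G] [Finite G] (z : G) (hz : orderOf z = 2) (Q : Subgroup G) (hQC : Q ≤ Subgroup.centralizer ({z} : Set G)) (hQn : ∀ g ∈ Subgroup.centralizer ({z} : Set G), ∀ q ∈ Q, g * q * g⁻¹ ∈ Q) (hQ2 : IsPGroup 2 Q) (hZ : Nat.card (Subgroup.center Q) = 2) (hsq : ∀ x : Q, x ^ 2 ∈ Subgroup.center Q) (hlarge : Subgroup.centralizer (Q : Set G) ≤ Q) : (∃ P : Sylow 2 G, (P : Subgroup G) ≤ Subgroup.centralizer ({z} : Set G)) ∧ ∀ u : G, orderOf u = 2 → (∃ P : Sylow 2 G, (P : Subgroup G) ≤ Subgroup.centralizer ({u} : Set G)) → IsConj z u := by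
  have z1 := ne_one_of_orderOf_eq hz
  have zc : z ∈ 𝐂(Q) := le_centralizer_singleton_iff.1 hQC
  have hZ' : Nat.card ↥(Q ⊓ 𝐂(Q)) = 2 := by
    rw [← CF.Sig.map_center_subtype, card_map_of_injective Q.subtype_injective, hZ]
  have key : ∀ x ∈ 𝐂(Q), x ≠ 1 → x = z := fun x hx h1 =>
    eq_of_card_two hZ' ⟨hlarge hx, hx⟩ ⟨hlarge zc, zc⟩ h1 z1
  obtain ⟨T, hT, hQT⟩ := exists_isSyl_ge hQ2 hQC
  have zT : z ∈ 𝐂(T) := le_centralizer_singleton_iff.1 hT.le
  have hT' : IsSyl 2 T ⊤ := by
    refine isSyl_of_normalizer (L := ⊤) ?_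
    rw [top_inf_eq]
    exact hT.mono le_normalizer fun g hg => mem_centralizer_singleton_of_conj (key _
      (centralizer_anti hQT (conj_mem_of_mem_normalizer (normalizer_le_normalizer_centralizer T hg)
        zT)) (by simpa using z1))
  obtain ⟨S, rfl⟩ := hT'.exists_sylow_top
  refine ⟨⟨S, hT.le⟩, fun u hu ⟨P, hP⟩ => ?_⟩
  obtain ⟨g, -, e⟩ := (isSyl_top P).conj hT'
  have : g * u * g⁻¹ ∈ 𝐂((S : Subgroup G)) := by
    rw [← e, ← cj_centralizer]; exact conj_mem_cj g (le_centralizer_singleton_iff.1 hP)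
  exact (isConj_iff.2 ⟨g, key _ (centralizer_anti hQT this)
    (by simpa using ne_one_of_orderOf_eq hu)⟩).symm

end Cfsg.Agent.S0481
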