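import Cfsg.Statements.S0499
import Cfsg.Agent.Fgs3.MinNPC
import Cfsg.Agent.BG2.P4c
import Cfsg.Agent.BG.B10

set_option autoImplicit false
open Cfsg

namespace Cfsg.Agent.S0499

open CF.BG Subgroup in

/-- A non-abelian finite simple group of even order has order divisible by 12, 16 or 56. -/
theorem result {G : Type*} [Group G] [Finite G] [IsSimpleGroup G]
    (hG : ¬ IsMulCommutative G) (h2 : Even (Nat.card G)) :
    12 ∣ Nat.card G ∨ 16 ∣ Nat.card G ∨ 56 ∣ Nat.card G := by
  have p2 := Nat.prime_two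
  by_contra hn
  push Not at hn
  obtain ⟨h12, h16, h56⟩ := hn
  have npc : NPC 2 (⊤ : Subgroup G) := by
    refine CF.Fgs3.npc_of_cent p2 fun X _ _ k g _ hg pg => ?_
    refine zpowers_le.1 (le_of_forall_syl' fun q hq hd Q sQ => ?_)
    have q2 : q ≠ 2 := fun e => pg.zpowers.not_dvd' p2 rfl (e ▸ hd)
    by_contra hc
    have nQ : Q ≤ 𝐍 X := sQ.le.trans (zpowers_le.2 hg)
    have m := CF.BG2.card_modEq_card_cent hq sQ.pi nQ
    have lt : X ⊓ 𝐂 Q < X := lt_of_le_of_ne inf_le_left fun e => hc (cent_symm (inf_eq_left.1 e))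
    obtain ⟨a, ha⟩ := k.card_pow
    obtain ⟨b, hb⟩ := (k.le lt.le).card_pow
    have hab : b < a := by
      have := card_lt lt; rw [ha, hb] at this; exact (Nat.pow_lt_pow_iff_right one_lt_two).1 this
    have dX : 2 ^ a ∣ Nat.card G := ha ▸ card_subgroup_dvd_card X
    have dq : q ∣ Nat.card G := hd.trans (card_subgroup_dvd_card _)
    have a3 : a ≤ 3 := by
      by_contra h
      exact h16 ((pow_dvd_pow 2 (show 4 ≤ a by omega)).trans dX)
    rw [ha, hb] at m
    have d := (Nat.modEq_iff_dvd' (Nat.pow_le_pow_right two_pos hab.le)).1 m.symm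
    have c3 : q = 3 → 2 ≤ a → False := fun e h => h12
      (Nat.Coprime.mul_dvd_of_dvd_of_dvd (show Nat.Coprime 3 4 by norm_num) (e ▸ dq)
        ((pow_dvd_pow 2 h).trans dX))
    have c7 : q = 7 → 3 ≤ a → False := fun e h => h56
      (Nat.Coprime.mul_dvd_of_dvd_of_dvd (show Nat.Coprime 7 8 by norm_num) (e ▸ dq)
        ((pow_dvd_pow 2 h).trans dX))
    have le7 : q ≤ 7 := (Nat.le_of_dvd (Nat.sub_pos_of_lt (Nat.pow_lt_pow_right one_lt_two hab)) d).trans (by
      interval_cases a <;> interval_cases b <;> simp)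
    have := hq.two_le
    interval_cases q <;> interval_cases a <;> interval_cases b <;> simp_all (decide := true)
  rcases IsSimpleGroup.eq_bot_or_eq_top_of_normal _ (normalIn_top.1 (O_normal {2}ᶜ (⊤ : Subgroup G))) with e | e
  · have k : PiGrp {2} (⊤ : Subgroup G) := by
      have := npc.idx
      rw [e, relIndex_bot_left] at this
      exact this.of_compl_compl
    haveI : Group.IsNilpotent G := Group.nilpotent_of_surjective (G := (⊤ : Subgroup G)) (h := k.nil)
      (⊤ : Subgroup G).subtype (fun x => ⟨⟨x, trivial⟩, rfl⟩)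
    exact hG (IsSimpleGroup.comm_iff_isSolvable.2 inferInstance |> fun h => ⟨⟨h⟩⟩)
  · have := O_pi {2}ᶜ (⊤ : Subgroup G)
    rw [e] at this
    exact this.not_dvd' p2 rfl (by rw [card_top]; exact h2.two_dvd)

end Cfsg.Agent.S0499
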