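import Cfsg.Statements.S0504
import Cfsg.Agent.Sig.SftE
import Cfsg.Agent.Hyp.FTProof
import Cfsg.Agent.Sig.HSEProof

set_option autoImplicit false
open Cfsg

namespace Cfsg.Agent.S0504

open CF.BG CF.Sig Subgroup in

/-- Let G be a finite group containing an elementary abelian subgroup of order 8, with no nontrivial normal subgroup of
odd order, not of component type, and with a Sylow 2-subgroup whose commuting graph of Klein four-subgroups is
connected. Then every 2-local subgroup H of G satisfies C_H(O₂(H)) ≤ O₂(H). -/
theorem result {G : Type*} [Group G] [Finite G]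
    (h3 : ¬ Cfsg.PRankLE 2 2 G) (hO : Cfsg.oddCore G = ⊥) (hc : ¬ Cfsg.IsComponentType G) (S : Sylow 2 G)
    (hS : Cfsg.IsFourConnected (S : Subgroup G)) : Cfsg.IsCharacteristicTwoType G := by
  have hp := Nat.prime_two
  haveI := Fact.mk hp
  have hS' := syl_sylow_top S
  have r3 : 2 < pRank 2 (S : Subgroup G) := by
    rw [hS'.syl_pRank]; exact not_le.1 fun h => h3 ((pRankLE_top_iff hp).2 h)
  refine charTwoType_of (even_iff_two_dvd.2 ((dvd_of_pRank_pos (by omega)).trans
    (card_subgroup_dvd_card (S : Subgroup G)))) fun t ht => ?_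
  have o := core_kill (oddCore_eq.symm.trans hO) (fun t ht => PLay_of_not_componentType hc ht) hS' r3
    (fourConnected_subgroup_iff.1 hS) ht
  exact charP_iff.2 ⟨(PLay_eq_Lay hp o).symm.trans (PLay_of_not_componentType hc ht), o⟩

end Cfsg.Agent.S0504
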