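import Cfsg.Statements.S0505
import Cfsg.Agent.Sig.SftE

set_option autoImplicit false
open Cfsg

namespace Cfsg.Agent.S0505

open CF.BG CF.Sig Subgroup in

/-- Let G be a finite group of even order in which the centralizer of every involution is solvable and has trivial
core (no nontrivial normal subgroup of odd order). Then G is of characteristic 2 type. -/
theorem result {G : Type*} [Group G] [Finite G]
    (h2 : Even (Nat.card G))
    (hs : ∀ t : G, orderOf t = 2 → Group.IsSolvable (Subgroup.centralizer ({t} : Set G)))
    (hc : ∀ t : G, orderOf t = 2 → Cfsg.oddCore (Subgroup.centralizer ({t} : Set G)) = ⊥) :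
    Cfsg.IsCharacteristicTwoType G := by
  refine charTwoType_of h2 fun t ht => charP_of_sol (hs t ht) ?_
  rw [← map_pPrimeCore Nat.prime_two]
  exact (Subgroup.map_eq_bot_iff_of_injective _ (subtype_injective _)).2 (hc t ht)

end Cfsg.Agent.S0505
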