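import Cfsg.Statements.S0508
import Cfsg.Agent.GW.App

set_option autoImplicit false
open Cfsg

namespace Cfsg.Agent.S0508

open CF.GW CF.Invol CF.Transfer Subgroup

/-- Let G be a finite simple group with a dihedral Sylow 2-subgroup S (of order at least 4), t an involution in the
centre of S, C the centralizer of t and O the core of C (its largest normal subgroup of odd order). Suppose that: if O
is nontrivial then the centralizer of O in S is cyclic of index 2 in S; every element of S not centralizing O inverts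
every element of O; and the normalizer of every nontrivial subgroup of O lies in C. Then G is isomorphic to a projective
special linear group of dimension 2 over a field of odd order. -/
theorem result {G : Type*} [Group G] [Finite G] [IsSimpleGroup G] (S : Sylow 2 G) (n : ℕ)
    (hn : 2 ≤ n) (hS : Nonempty ((S : Subgroup G) ≃* DihedralGroup n)) (t : G) (ht : orderOf t = 2)
    (htS : t ∈ (S : Subgroup G))
    (htZ : ∀ s ∈ (S : Subgroup G), s * t = t * s) (O : Subgroup G)
    (hO : O = (Cfsg.oddCore (Subgroup.centralizer ({t} : Set G))).map (Subgroup.centralizer ({t} : Set G)).subtype)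
    (ha : O ≠ ⊥ → IsCyclic ((S : Subgroup G) ⊓ Subgroup.centralizer (O : Set G) : Subgroup G) ∧
      ((S : Subgroup G) ⊓ Subgroup.centralizer (O : Set G)).relIndex (S : Subgroup G) = 2)
    (hb : ∀ s ∈ (S : Subgroup G), s ∉ Subgroup.centralizer (O : Set G) → ∀ y ∈ O, s * y * s⁻¹ = y⁻¹)
    (hc : ∀ Y : Subgroup G, Y ≤ O → Y ≠ ⊥ → Subgroup.normalizer (Y : Set G) ≤ Subgroup.centralizer ({t} : Set G)) :
    ∃ (F : Type) (_ : Field F) (_ : Fintype F), Odd (Fintype.card F) ∧ Nonempty (G ≃* Matrix.ProjectiveSpecialLinearGroup (Fin 2) F) := by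
  obtain ⟨e⟩ := hS
  obtain ⟨m, a, b, rfl, h⟩ := exists_dh S.isPGroup' hn e
  obtain ⟨a, b, h, rfl⟩ := exists_dh_central h ht htS htZ
  obtain ⟨H, U, K, π, hd⟩ := exists_DS h (isSylowIn_top S)
  rw [← hd.H_eq, ← hd.U_eq_oddCore] at hO
  subst hO
  rw [← hd.H_eq] at hc
  have h4 : 4 ∣ Nat.card G := by
    refine Dvd.dvd.trans ?_ (card_subgroup_dvd_card (S : Subgroup G))
    rw [h.card]
    exact pow_dvd_pow 2 (show 2 ≤ m + 1 from Nat.succ_le_succ h.one_le)
  have hG := no_index_two_of_simple (G := G) (by rintro e; rw [e] at h4; norm_num at h4)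
  have key : (∀ u ∈ O, ∀ i, a i * u = u * a i) ∧ ∀ u ∈ O, b 0 * u * (b 0)⁻¹ = u⁻¹ := by
    by_cases h0 : O = ⊥
    · simp [h0]
    obtain ⟨h1, h2⟩ := ha h0
    have h3 : ∀ i, b i ∉ centralizer (O : Set G) := fun i hi => by
      have := eq_of_invol_of_isCyclic h1 (mem_inf.mpr ⟨h.b_mem i, hi⟩)
        (mem_inf.mpr ⟨htS, fun u hu => hd.mem_H.1 (hd.U_le hu)⟩) (h.orderOf_b i) ht
      exact h.b_ne_a _ _ this
    refine ⟨fun u hu i => ?_, hb _ (h.b_mem 0) (h3 0)⟩
    have h5 : (S : Subgroup G) ⊓ centralizer (O : Set G) = zpowers (a 1) := by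
      refine eq_of_le_of_card_ge (fun x hx => ?_) ?_
      · rcases (h.mem x).1 hx.1 with p | ⟨i, rfl⟩
        exacts [h.mem_zpowers_one.2 p, absurd hx.2 (h3 i)]
      · have := CF.Solv.card_mul_relIndex
          (inf_le_left : (S : Subgroup G) ⊓ centralizer (O : Set G) ≤ S)
        rw [h2, h.card, pow_succ] at this
        rw [h.card_zpowers_one]; omega
    exact ((h5.ge (h.mem_zpowers_one.2 ⟨i, rfl⟩)).2 u hu).symm
  obtain ⟨Q, D, h3, -⟩ := hd.bsw key.1 key.2 (fun y hy h1 g hg => hc _ (zpowers_le_of_mem hy)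
    (zpowers_ne_bot.2 h1) (mem_normalizer_of_cj_le (by
      rw [cj_zpowers, mem_centralizer_singleton_iff_conj.1 hg]))) hG
  obtain ⟨F, _, _, h5, h6⟩ := h3.exists_psl (commutator_eq_top_of_simple fun hp => by
    rcases hp.eq_one_or_self_of_dvd 4 h4 with e | e
    · omega
    · exact absurd (e ▸ hp) (by norm_num))
  exact ⟨F, _, _, by rw [h5, h3.card_Q]; exact odd_two_mul_add_one _, h6⟩

end Cfsg.Agent.S0508
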