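import Cfsg.Statements.S0520
import Cfsg.Agent.Sig.Conn

set_option autoImplicit false
open Cfsg

namespace Cfsg.Agent.S0520

open CF.BG CF.Sig Subgroup in

/-- Let G be a finite group of 2-rank at least 2 and S a Sylow 2-subgroup whose commuting graph of Klein four-subgroups is
connected. Then the commuting graph of Klein four-subgroups of G is disconnected if and only if the 2-generated core — the
subgroup generated by the normalizers N_G(Q) of the subgroups Q of S that contain a Klein four-group — is a proper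
subgroup of G. -/
theorem result {G : Type*} [Group G] [Finite G] (h2 : ¬ Cfsg.PRankLE 2 1 G)
    (S : Sylow 2 G) (hS : Cfsg.IsFourConnected (S : Subgroup G)) :
    ¬ Cfsg.IsFourConnected G ↔
      (⨆ Q : {Q : Subgroup G // Q ≤ (S : Subgroup G) ∧ ¬ Cfsg.PRankLE 2 1 Q},
          Subgroup.normalizer ((Q : Subgroup G) : Set G)) ≠ ⊤ := by
  have hp := Nat.prime_two
  rw [fourConnected_subgroup_iff] at hS
  rw [fourConnected_iff]
  have s := syl_sylow_top S
  rw [pRankLE_top_iff hp, not_le, ← s.syl_pRank] at h2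
  obtain ⟨A, a⟩ := CF.BG.exists_elem (n := 2) h2
  have a' := Elem.vx a le_rfl
  have key : ∀ X, Vx 2 2 ⊤ X → ∃ g, Conn 2 2 ⊤ (cj g A) X := fun X x => by
    obtain ⟨g, -, e⟩ := s.syl_le_cj le_top x.ab.pi
    have := (Vx.cj ⟨x.ab, x.rk, e⟩ g⁻¹)
    rw [cj_inv_cj] at this
    have := ((hS _ _ a' this).mono le_top).cj_of_norm (g := g) (by simp)
    rw [cj_cj_inv] at this
    exact ⟨g, this⟩
  rw [ne_eq, not_iff_not]
  constructor
  · intro hc
    set Γ := ⨆ Q : {Q : Subgroup G // Q ≤ (S : Subgroup G) ∧ ¬ Cfsg.PRankLE 2 1 Q},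
      Subgroup.normalizer ((Q : Subgroup G) : Set G) with hΓ
    have nQ : ∀ Q ≤ (S : Subgroup G), 1 < pRank 2 Q → 𝐍 Q ≤ Γ := fun Q h1 h2 =>
      le_iSup_of_le (f := fun Q : {Q : Subgroup G // Q ≤ (S : Subgroup G) ∧ ¬ Cfsg.PRankLE 2 1 Q} =>
        Subgroup.normalizer ((Q : Subgroup G) : Set G)) ⟨Q, h1, (not_pRankLE_iff hp).2 h2⟩ le_rfl
    have nV : ∀ X, Vx 2 2 S X → 𝐍 X ≤ Γ := fun X x =>
      nQ X x.le (by rw [x.ab.pRank_eq]; exact x.rk)
    have hS' : (S : Subgroup G) ≤ Γ := (le_norm_self _).trans (nQ _ le_rfl h2)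
    have s' := s.of_le hS' le_top
    have nV' : ∀ X, Vx 2 2 Γ X → 𝐍 X ≤ Γ := fun X x => by
      obtain ⟨g, hg, e⟩ := s'.syl_cj_le x.le x.ab.pi
      have := nV _ ⟨x.ab.cj g, (x.cj g).rk, e⟩
      rw [← cj_norm, cj_le_iff, cj_of_mem (inv_mem hg)] at this
      exact this
    refine eq_top_iff.2 fun g _ => ?_
    have h1 : cj g A ≤ Γ := (hc A _ (a'.mono le_top) ((a'.mono le_top).cj_of_norm (by simp))).ind
      (T := fun Y => Y ≤ Γ) (a.le.trans hS') fun X Y x _ c l =>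
        (norm_of_cent' c).trans (nV' X ⟨x.ab, x.rk, l⟩)
    have h3 : cj g S ≤ Γ := by
      refine ((s.pi.cj g).nil.eq_of_inf_norm_le (inf_le_left : cj g S ⊓ Γ ≤ _)
        (le_inf inf_le_left (inf_le_right.trans ?_))).ge.trans inf_le_right
      obtain ⟨h, hh, e⟩ := s'.syl_cj_le (inf_le_right : cj g S ⊓ Γ ≤ _) (s.pi.cj g).inf_left
      have := nQ _ e ((a.cj g).cj h |>.of_le (cj_mono h (le_inf (cj_mono g a.le) h1))).le_pRank
      rwa [← cj_norm, cj_le_iff, cj_of_mem (inv_mem hh)] at this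
    obtain ⟨h, hh, e⟩ := s'.syl_conj ((s.cj_top g).of_le h3 le_top)
    rw [eq_cj_iff, cj_cj, cj_eq_self] at e
    simpa using mul_mem hh (nQ _ le_rfl h2 e)
  · intro hc X Y x y
    have : cStab 2 2 A = ⊤ := by
      rw [eq_top_iff, ← hc]
      refine iSup_le fun Q g hg => ?_
      obtain ⟨B, b⟩ := CF.BG.exists_elem (n := 2) ((not_pRankLE_iff hp).1 Q.2.2)
      have b' := Elem.vx b le_rfl
      exact mem_cStab_of ((hS _ _ a' (b'.mono Q.2.1)).mono le_top)
        ((hS _ _ a' ((b'.cj_of_norm hg).mono Q.2.1)).mono le_top)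
    obtain ⟨g, hg⟩ := key X x
    obtain ⟨h, hh⟩ := key Y y
    exact ((mem_cStab.1 (this ▸ mem_top g)).trans hg).symm.trans
      ((mem_cStab.1 (this ▸ mem_top h)).trans hh)

end Cfsg.Agent.S0520
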