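import Cfsg.Statements.S0521
import Cfsg.Agent.BG.B9
import Cfsg.Agent.PLocal.Stable
import Cfsg.Agent.Sig.Bal

set_option autoImplicit false
open Cfsg

namespace Cfsg.Agent.S0521

open CF.BG CF.Sig Subgroup
open scoped commutatorElement

theorem aux {Y : Type*} [Group Y] [Finite Y] [Group.IsSolvable Y] (hY : Odd (Nat.card Y)) {p : ℕ}
    [hp : Fact p.Prime] (h0 : 𝐎 {p}ᶜ (⊤ : Subgroup Y) = ⊥) {S : Subgroup Y} (hS : Syl p S ⊤)
    (c : Cyc ⁅S, S⁆) : S ≤ 𝐎 {p} ⊤ := by
  by_cases h1 : S = ⊥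
  · rw [h1]; exact bot_le
  have hp2 : p ≠ 2 := by
    rintro rfl
    exact (Nat.not_even_iff_odd.2 hY) (even_iff_two_dvd.2
      ((hS.pi.dvd_card h1).trans (card_subgroup_dvd_card S)))
  set P := 𝐎 {p} (⊤ : Subgroup Y)
  have nP : P ⊴ ⊤ := O_normal _ _
  haveI : P.Normal := normalIn_top.1 nP
  have k : PiGrp {p} P := O_pi _ _
  have hC : 𝐂 P ≤ P := le_trans (le_inf le_top le_rfl)
    (Sol.cent_O_le (H := (⊤ : Subgroup Y)) inferInstance h0)
  intro a ha
  have za : zpowers a ≤ S := zpowers_le.2 ha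
  have nΦ : ∀ X : Subgroup Y, X ≤ 𝐍 (𝚽 P) := fun X => le_top.trans nP.Phi.norm
  have hD : ⁅P, zpowers a⁆ ≤ P := comm_le_left (le_top.trans nP.norm)
  have q : ⁅⁅P, zpowers a⁆, zpowers a⁆ ≤ 𝚽 P := by
    rw [← qt_cent_iff (nΦ _) (nΦ _)]
    have e := k.abelem_qt_Phi.le (qt_mono (𝚽 P) hD)
    have c' := (c.mono (commutator_mono hS.O_le za)).qt (𝚽 P)
    have l := e.cyc_iff.1 c'
    rcases Nat.le_one_iff_eq_zero_or_eq_one.1 l with l | l
    · rw [e.pi.logn_eq_zero.1 l]; exact bot_le
    · refine ((hS.pi.le za).qt _).cent_of_prime hp.out ?_ (qt_norm _ (norm_comm_right _ _))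
      rw [e.pi.card_eq, l, pow_one]
  have m := CF.PLocal.mk_mem_pCore_of_no_pair k.isPGroup (a := a) (fun g h =>
    ((CF.PLocal.NoSL2Pair.of_odd hp2 hY).quotient _) _ (QuotientGroup.mk' _ g) (by
      simpa using h.pair)) q
  have n : (Cfsg.pCore p (Y ⧸ 𝐂 P)).comap (QuotientGroup.mk' _) ⊴ ⊤ := normalIn_top.2 (by
    rw [pCore_eq hp.out]; exact (normalIn_top.1 (O_normal _ _)).comap _)
  refine le_O n (piGrp_of_isPGroup hp.out ?_) m
  refine IsPGroup.comap_of_ker_isPGroup ?_ _ (by rw [QuotientGroup.ker_mk']; exact (k.le hC).isPGroup)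
  rw [pCore_eq hp.out]; exact (O_pi _ _).isPGroup

/-- Let X be a finite solvable group of odd order, p a prime and S a Sylow p-subgroup of X whose commutator subgroup is
cyclic. Then the product of the largest normal subgroup of X of order prime to p with S is a normal subgroup of X. -/
theorem result {X : Type*} [Group X] [Finite X] [Group.IsSolvable X]
    (hX : Odd (Nat.card X)) (p : ℕ) [Fact p.Prime] (S : Sylow p X) (hS : IsCyclic (commutator (S : Subgroup X))) :
    (Cfsg.pPrimeCore p X ⊔ (S : Subgroup X)).Normal := by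
  have hp : p.Prime := Fact.out
  have sS := syl_sylow_top S
  have c : Cyc ⁅(S : Subgroup X), (S : Subgroup X)⁆ := by
    have := Cyc.map (H := commutator (S : Subgroup X)) hS (S : Subgroup X).subtype
    rwa [commutator_def, map_commutator, map_top_subtype] at this
  let f := QuotientGroup.mk' (Cfsg.pPrimeCore p X)
  have hf : Function.Surjective f := QuotientGroup.mk'_surjective _
  have s' : Syl p ((S : Subgroup X).map f) ⊤ := by
    have := sS.map f; rwa [map_top_of_surjective _ hf] at this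
  have := aux (hX.of_dvd_nat (card_quotient_dvd_card _)) (O_top_quot hp) s'
    (by rw [← map_commutator]; exact c.map f)
  have e : (S : Subgroup X).map f = 𝐎 {p} ⊤ := le_antisymm this s'.O_le
  have n : ((S : Subgroup X).map f).Normal := e ▸ normalIn_top.1 (O_normal _ _)
  have := n.comap f
  rwa [comap_map_eq, QuotientGroup.ker_mk', sup_comm] at this

end Cfsg.Agent.S0521
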