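import Cfsg.Statements.S0522
import Cfsg.Agent.SolvStr.Trans

set_option autoImplicit false
open Cfsg

namespace Cfsg.Agent.S0522

/-- Transitivity Theorem (odd-order setting). Let X be a finite group of odd order in which the normalizer of every
nontrivial p-subgroup is solvable, P a Sylow p-subgroup, and B an abelian subgroup of P, normalized by P, with
C_P(B) = B and containing an elementary abelian subgroup of order p^3. Then for every prime q ≠ p, any two q-subgroups
that are maximal among the q-subgroups normalized by B are conjugate by an element of the centralizer of B. -/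
theorem result {X : Type*} [Group X] [Finite X] (hX : Odd (Nat.card X)) (p : ℕ)
    [Fact p.Prime] (hloc : ∀ T : Subgroup X, IsPGroup p T → T ≠ ⊥ → Group.IsSolvable (Subgroup.normalizer (T : Set X)))
    (P : Sylow p X) (B : Subgroup X) (hBP : B ≤ (P : Subgroup X))
    (hBn : ∀ x ∈ (P : Subgroup X), ∀ b ∈ B, x * b * x⁻¹ ∈ B) (hBa : IsMulCommutative B)
    (hBc : (P : Subgroup X) ⊓ Subgroup.centralizer (B : Set X) = B)
    (hB3 : ∃ E : Subgroup X, E ≤ B ∧ (∀ e ∈ E, e ^ p = 1) ∧ p ^ 3 ≤ Nat.card E)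
    (q : ℕ) [Fact q.Prime] (hqp : q ≠ p) (Q₁ Q₂ : Subgroup X)
    (h₁ : IsPGroup q Q₁ ∧ B ≤ Subgroup.normalizer (Q₁ : Set X) ∧
      ∀ R : Subgroup X, IsPGroup q R → B ≤ Subgroup.normalizer (R : Set X) → Q₁ ≤ R → R = Q₁)
    (h₂ : IsPGroup q Q₂ ∧ B ≤ Subgroup.normalizer (Q₂ : Set X) ∧
      ∀ R : Subgroup X, IsPGroup q R → B ≤ Subgroup.normalizer (R : Set X) → Q₂ ≤ R → R = Q₂) :
    ∃ c ∈ Subgroup.centralizer (B : Set X), Q₂ = Q₁.map (MulAut.conj c).toMonoidHom := by
  open CF.BG CF.Sig in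
  have hp : p.Prime := Fact.out
  have hq : q.Prime := Fact.out
  have hP := syl_sylow_top P
  have scn : SCN B P := SCN.mk' ⟨hBP, le_norm_iff.2 hBn⟩ (Abel.of_comm hBa) hBc.le
  obtain ⟨E, EB, Ep, E3⟩ := hB3
  have aE : Abelem p E := Abelem.mk' hp (scn.abel.mono EB) Ep
  have r : 2 < pRank p B := by
    refine lt_of_lt_of_le ?_ (aE.logn_le_pRank EB)
    rw [aE.pi.card_eq] at E3
    exact (Nat.pow_le_pow_iff_right hp.one_lt).1 E3
  obtain ⟨k, hk, e⟩ := CF.SolvStr.transitivity hp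
    (fun u u1 pu => PLay_eq_bot_of_sol (hloc _ pu.zpowers.isPGroup (by simpa using u1)))
    (fun h S hS => by
      subst h
      have : S = ⊥ := hS.eq_bot ((piNat_compl_single hp).2 fun d =>
        (Nat.not_even_iff_odd.2 hX) (even_iff_two_dvd.2 (d.trans S.card_subgroup_dvd_card)))
      subst this
      simp)
    (hP.pi.le hBP) scn.abel r
    (fun x hx px => (scn.syl_cent hP).mem_normal (inf_le_right.trans (cent_le_norm _))
      ⟨trivial, hx⟩ px) hqp Q₁ Q₂
    ⟨piGrp_of_isPGroup hq h₁.1, h₁.2.1, fun R r n l => h₁.2.2 R r.isPGroup n l⟩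
    ⟨piGrp_of_isPGroup hq h₂.1, h₂.2.1, fun R r n l => h₂.2.2 R r.isPGroup n l⟩
  exact ⟨k, O_le _ _ hk, e⟩

end Cfsg.Agent.S0522
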