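import Cfsg.Statements.S0535
import Cfsg.Agent.SolvStr.Schmidt

set_option autoImplicit false
open Cfsg

namespace Cfsg.Agent.S0535

/-- Suppose that for every nontrivial subgroup H of a finite group and every prime p dividing the order of H there is a proper subgroup of H whose index in H is a power of p. Then the group is solvable. -/
theorem result {G : Type*} [Group G] [Finite G] (h : ∀ H : Subgroup G, H ≠ ⊥ → ∀ p : ℕ, p.Prime → p ∣ Nat.card H → ∃ K : Subgroup H, K ≠ ⊤ ∧ ∃ k : ℕ, K.index = p ^ k) : Group.IsSolvable G := by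
  refine CF.Solv.isSolvable_of_forall_isPiHall_compl G fun p hp _ => ?_
  obtain ⟨K, ⟨k, hk⟩, hmin⟩ := WellFounded.has_min (wellFounded_lt (α := Subgroup G))
    {K | ∃ k : ℕ, K.index = p ^ k} ⟨⊤, 0, by simp⟩
  refine ⟨K, (CF.Solv.isPiHall_compl_singleton_iff hp).mpr ⟨?_, k, hk⟩⟩
  rw [Nat.coprime_comm, hp.coprime_iff_not_dvd]
  intro hd
  obtain ⟨L, hL, j, hj⟩ := h K (by
    rintro rfl
    rw [Subgroup.card_bot, Nat.dvd_one] at hd
    exact hp.ne_one hd) p hp hd
  refine hmin (L.map K.subtype) ⟨j + k, ?_⟩ ?_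
  · rw [Subgroup.index_map_subtype, hj, hk, pow_add]
  · refine lt_of_le_of_ne (Subgroup.map_subtype_le _) fun e => hL ?_
    rw [← Subgroup.map_subtype_inj, e, ← MonoidHom.range_eq_map, Subgroup.range_subtype]

end Cfsg.Agent.S0535
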