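import Cfsg.Statements.S0541
import Cfsg.Agent.SolvStr.Subnormal

set_option autoImplicit false
open Pointwise
open Cfsg

namespace Cfsg.Agent.S0541

/-- Let Z and Y be subgroups of a finite group G and p a prime. Suppose that for every g in G the subgroup generated by the conjugates of g Z g⁻¹ under Y is a p-group. Then there is a Sylow p-subgroup P of G such that Y normalizes the subgroup generated by all conjugates of Z contained in P. -/
theorem result {G : Type*} [Group G] [Finite G] (p : ℕ) [Fact p.Prime] (Z Y : Subgroup G) (h : ∀ g : G, IsPGroup p ↥(⨆ y ∈ Y, MulAut.conj (y * g) • Z)) : ∃ P : Sylow p G, Y ≤ Subgroup.normalizer ((⨆ g ∈ {g : G | MulAut.conj g • Z ≤ (P : Subgroup G)}, MulAut.conj g • Z : Subgroup G) : Set G) := by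
  obtain ⟨P, hP⟩ := CF.SolvStr.matsuyama p Z Y h
  refine ⟨P, ?_⟩
  convert hP using 3
  apply le_antisymm
  · exact iSup₂_le fun g hg => le_sSup ⟨⟨g, rfl⟩, hg⟩
  · refine sSup_le ?_
    rintro _ ⟨⟨g, rfl⟩, hg⟩
    exact le_iSup₂ (f := fun g (_ : g ∈ {g : G | MulAut.conj g • Z ≤ (P : Subgroup G)}) =>
      MulAut.conj g • Z) g hg

end Cfsg.Agent.S0541
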