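import Cfsg.Statements.S0552
import Cfsg.Agent.Coprime.Action
import Cfsg.Agent.Solv.Fitting

set_option autoImplicit false
open Cfsg

namespace Cfsg.Agent.S0552

/-- Let σ be an automorphism of a finite solvable group G fixing every element of the Fitting subgroup. If σ is not the identity then the order of σ and the order of G have a common prime factor. -/
theorem result {G : Type*} [Group G] [Finite G] [Group.IsSolvable G] (σ : G ≃* G) (hσ : ∀ x ∈ Cfsg.fittingSubgroup G, σ x = x) (hne : σ ≠ MulEquiv.refl G) : ¬ (orderOf σ).Coprime (Nat.card G) := by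
  intro hcop
  apply hne
  apply CF.Coprime.eq_one_of_top_le_fixSub
  refine CF.Coprime.act_le_fixSub_of_self_centralizing _ (CF.Coprime.inv_top _ _)
    (Cfsg.fittingSubgroup G) Subgroup.le_normalizer_of_normal ?_
    (fun x hx => CF.Coprime.mem_fixSub_zpowers_subtype.mpr (hσ x hx))
    (inf_le_right.trans CF.Solv.centralizer_fitting_le)
  rw [CF.Coprime.card_top_zpowers]
  exact hcop.coprime_dvd_right (Subgroup.card_subgroup_dvd_card _)

end Cfsg.Agent.S0552
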