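import Cfsg.Statements.S0553
import Cfsg.Agent.SolvStr.Prim

set_option autoImplicit false
open Cfsg

namespace Cfsg.Agent.S0553

open Subgroup CF.Solv CF.SolvStr in
theorem aux (G : Type*) [Group G] [Finite G] : ∀ [Group.IsSolvable G] [Nontrivial G],
    (∀ M : Subgroup G, IsCoatom M → (Nat.card M).Coprime M.index) →
    ∃ p : ℕ, p.Prime ∧ p ∣ Nat.card G ∧ ∀ P : Sylow p G, (P : Subgroup G).Normal := by
  refine group_induction (P := fun G _ _ => ∀ [Group.IsSolvable G] [Nontrivial G],
    (∀ M : Subgroup G, IsCoatom M → (Nat.card M).Coprime M.index) →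
    ∃ p : ℕ, p.Prime ∧ p ∣ Nat.card G ∧ ∀ P : Sylow p G, (P : Subgroup G).Normal) ?_ G
  intro G _ _ ih _ _ h
  obtain ⟨N, p, hp, hN, -, hNe, hNp⟩ := exists_isMinNormal_pGroup_le (⊤ : Subgroup G) top_ne_bot
  have := hN.1
  have := hNe.1
  have := Fact.mk hp
  by_cases hΦ : N ≤ frattini G
  · have : Nontrivial (G ⧸ N) := by
      rw [QuotientGroup.nontrivial_iff]
      rintro rfl
      exact frattini_ne_top (top_le_iff.mp hΦ)
    obtain ⟨q, hq, hd, hn⟩ := ih (G ⧸ N) (card_quotient_lt hN.2.1) (fun M hM => by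
      have := h _ (isCoatom_comap_mk' hM)
      rw [card_comap_mk', index_comap_mk'] at this
      exact Nat.Coprime.coprime_mul_right this)
    have := Fact.mk hq
    refine ⟨q, hq, hd.trans (card_quotient_dvd_card N), fun Q => ?_⟩
    have h1 := (hn (Q.mapSurjective (QuotientGroup.mk'_surjective N))).comap (QuotientGroup.mk' N)
    rw [Sylow.coe_mapSurjective, comap_map_mk'] at h1
    have h2 := normalizer_inf_sup_eq_top Q ((Q : Subgroup G) ⊔ N)
    rw [inf_eq_left.mpr le_sup_left, ← sup_assoc, sup_eq_left.mpr le_normalizer] at h2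
    exact normalizer_eq_top_iff.mp (eq_top_of_sup_eq_top_of_le_frattini hΦ h2)
  · rw [le_frattini_iff] at hΦ
    push Not at hΦ
    obtain ⟨M, hM, hNM⟩ := hΦ
    have hc := hN.isComplement'_of_isCoatom hM hNM
    have hd : p ∣ Nat.card N := hNp.card_eq_or_dvd.resolve_left fun e => hN.2.1 (card_eq_one.mp e)
    refine ⟨p, hp, hd.trans (card_subgroup_dvd_card N), fun P => ?_⟩
    have h1 := h M hM
    rw [hc.index_eq_card, ← hc.symm.index_eq_card] at h1
    have h2 : (P : Subgroup G) ≤ N := le_of_coprime_index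
      (coprime_card_of_isPGroup P.isPGroup' (Nat.Coprime.coprime_dvd_right hd h1))
    rw [le_antisymm h2 (hNp.le_sylow_of_normal P)]
    infer_instance


/-- Let G be a nontrivial finite solvable group in which every maximal subgroup has order coprime to its index. Then for some prime p dividing the order of G the Sylow p-subgroups of G are normal. -/
theorem result {G : Type*} [Group G] [Finite G] [Group.IsSolvable G] [Nontrivial G] (h : ∀ M : Subgroup G, IsCoatom M → (Nat.card M).Coprime M.index) : ∃ p : ℕ, p.Prime ∧ p ∣ Nat.card G ∧ ∀ P : Sylow p G, (P : Subgroup G).Normal := by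
  exact aux G h

end Cfsg.Agent.S0553
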