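import Cfsg.Statements.S0554
import Cfsg.Agent.SolvStr.Schmidt

set_option autoImplicit false
open Cfsg

namespace Cfsg.Agent.S0554

theorem list_aux {G : Type*} [Group G] (N : Subgroup G) [hN : N.Normal] :
    ∀ (t : ℕ) (s : Fin t → G) (j : Fin t) (n : G), n ∈ N →
      ∃ n' ∈ N, (List.ofFn (Function.update s j (s j * n'))).prod = (List.ofFn s).prod * n := by
  intro t
  induction t with
  | zero => intro s j; exact j.elim0
  | succ t ih =>
    intro s j n hn
    refine Fin.cases ?_ (fun j => ?_) j
    · refine ⟨_, hN.conj_mem n hn (List.ofFn fun i : Fin t => s i.succ).prod, ?_⟩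
      simp only [List.ofFn_succ, List.prod_cons, Function.update_self,
        Function.update_of_ne (Fin.succ_ne_zero _)]
      group
    · obtain ⟨n', hn', e⟩ := ih (fun i => s i.succ) j n hn
      refine ⟨n', hn', ?_⟩
      rw [List.ofFn_succ, List.ofFn_succ, List.prod_cons, List.prod_cons, mul_assoc, ← e,
        Function.update_of_ne (Fin.succ_ne_zero _).symm]
      congr 3
      ext i
      by_cases h : i = j
      · subst h; simp
      · rw [Function.update_of_ne h, Function.update_of_ne (by simpa using h)]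


/-- Let G be a finite solvable group and let S assign to each of t distinct primes, including every prime divisor of the order of G, a Sylow subgroup of G. Then every element of G is a product s_0 s_1 ⋯ s_(t-1) with s_i in S i, the factors taken in the given order. -/
theorem result {G : Type*} [Group G] [Finite G] [Group.IsSolvable G] (t : ℕ) (p : Fin t → ℕ) (hp : ∀ i, (p i).Prime) (hinj : Function.Injective p) (hall : ∀ q : ℕ, q.Prime → q ∣ Nat.card G → ∃ i, p i = q) (S : (i : Fin t) → Sylow (p i) G) : ∀ g : G, ∃ s : (i : Fin t) → G, (∀ i, s i ∈ (S i : Subgroup G)) ∧ g = (List.ofFn s).prod := by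
  clear hinj
  revert hall S
  refine CF.Solv.group_induction (P := fun G _ _ => ∀ [Group.IsSolvable G],
    (∀ q : ℕ, q.Prime → q ∣ Nat.card G → ∃ i, p i = q) → ∀ S : (i : Fin t) → Sylow (p i) G,
      ∀ g : G, ∃ s : (i : Fin t) → G, (∀ i, s i ∈ (S i : Subgroup G)) ∧ g = (List.ofFn s).prod)
    ?_ G
  intro G _ _ ih _ hall S g
  rcases subsingleton_or_nontrivial G with _ | _
  · exact ⟨fun _ => 1, fun i => Subgroup.one_mem _, Subsingleton.elim _ _⟩
  obtain ⟨N, hN⟩ := CF.Solv.exists_isMinNormal (G := G)
  have := hN.1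
  obtain ⟨q, hq, -, hNq⟩ := hN.exists_isElementaryAbelian
  have := Fact.mk hq
  have : Nontrivial N := (Subgroup.nontrivial_iff_ne_bot N).mpr hN.2.1
  obtain ⟨k, hk, hk'⟩ := hNq.nontrivial_iff_card.mp this
  obtain ⟨j, rfl⟩ := hall q hq ((dvd_pow_self q hk.ne').trans
    (hk' ▸ Subgroup.card_subgroup_dvd_card N))
  have hs := QuotientGroup.mk'_surjective N
  have hp' : ∀ i, Fact (p i).Prime := fun i => ⟨hp i⟩
  obtain ⟨s, hs1, hs2⟩ := ih (G ⧸ N) (CF.Solv.card_quotient_lt hN.2.1)
    (fun q hq hd => hall q hq (hd.trans (Subgroup.card_quotient_dvd_card N)))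
    (fun i => (S i).mapSurjective hs) (QuotientGroup.mk' N g)
  choose u hu1 hu2 using hs1
  have e : QuotientGroup.mk' N (List.ofFn u).prod = QuotientGroup.mk' N g := by
    rw [hs2, map_list_prod, List.map_ofFn]
    congr 2
    ext i
    exact hu2 i
  obtain ⟨n', hn', e'⟩ := list_aux N t u j _ (QuotientGroup.eq.mp e)
  refine ⟨Function.update u j (u j * n'), fun i => ?_, by rw [e', mul_inv_cancel_left]⟩
  by_cases h : i = j
  · subst h
    rw [Function.update_self]
    exact Subgroup.mul_mem _ (hu1 i)
      (((CF.Solv.le_pCore hNq).trans (CF.Solv.pCore_le_sylow (S i))) hn')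
  · rw [Function.update_of_ne h]; exact hu1 i

end Cfsg.Agent.S0554
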