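import Cfsg.Statements.S0555
import Cfsg.Agent.SolvStr.Schmidt

set_option autoImplicit false
open Cfsg

namespace Cfsg.Agent.S0555

theorem exists_gen {G : Type*} [Group G] {A B : Subgroup G} [(B.subgroupOf A).Normal]
    (h : IsCyclic (A ⧸ B.subgroupOf A)) : ∃ a ∈ A, A ≤ B ⊔ Subgroup.zpowers a := by
  obtain ⟨x, hx⟩ := h.exists_generator
  obtain ⟨a, rfl⟩ := QuotientGroup.mk_surjective x
  refine ⟨a, a.2, fun y hy => ?_⟩
  obtain ⟨k, hk⟩ := hx (⟨y, hy⟩ : A)
  have h1 : ((a ^ k)⁻¹ * ⟨y, hy⟩ : A) ∈ B.subgroupOf A := QuotientGroup.eq.mp (by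
    rw [QuotientGroup.mk_zpow]; exact hk)
  have h2 := Subgroup.mul_mem _ (Subgroup.mem_sup_right (Subgroup.zpow_mem_zpowers (a : G) k))
    (Subgroup.mem_sup_left (T := Subgroup.zpowers (a : G)) h1)
  simpa using h2


/-- Let i ≥ 1. If in the derived series of a group the quotient of the i-th term by the (i+1)-st and the quotient of the (i+1)-st by the (i+2)-nd are both cyclic, then the (i+1)-st and (i+2)-nd terms coincide. -/
theorem result {G : Type*} [Group G] (i : ℕ) (hi : 1 ≤ i) (h₁ : IsCyclic (↥(derivedSeries G i) ⧸ (derivedSeries G (i + 1)).subgroupOf (derivedSeries G i))) (h₂ : IsCyclic (↥(derivedSeries G (i + 1)) ⧸ (derivedSeries G (i + 2)).subgroupOf (derivedSeries G (i + 1)))) : derivedSeries G (i + 1) = derivedSeries G (i + 2) := by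
  obtain ⟨a, ha, h1⟩ := exists_gen h₁
  obtain ⟨b, hb, h2⟩ := exists_gen h₂
  refine le_antisymm ?_ (Subgroup.commutator_le_left _ _)
  have hs := QuotientGroup.mk'_surjective (derivedSeries G (i + 2))
  set f := QuotientGroup.mk' (derivedSeries G (i + 2))
  have e : (derivedSeries G (i + 1)).map f = Subgroup.zpowers (f b) := by
    refine le_antisymm ((Subgroup.map_mono h2).trans ?_)
      (Subgroup.zpowers_le.mpr (Subgroup.mem_map_of_mem f hb))
    rw [Subgroup.map_sup, (CF.Solv.map_mk'_eq_bot_iff _ _).mpr le_rfl, bot_sup_eq,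
      MonoidHom.map_zpowers]
  have hn : ((derivedSeries G (i + 1)).map f).Normal := Subgroup.Normal.map inferInstance f hs
  have hc : IsCyclic ((derivedSeries G (i + 1)).map f) := by rw [e]; infer_instance
  have h3 := CF.SolvStr.commutator_le_centralizer_of_isCyclic ((derivedSeries G (i + 1)).map f)
  have h4 : f a ∈ commutator _ := by
    have : a ∈ derivedSeries G 1 := derivedSeries_antitone G hi ha
    have := map_derivedSeries_le_derivedSeries f 1 (Subgroup.mem_map_of_mem f this)
    rwa [derivedSeries_one] at this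
  have : IsMulCommutative ((derivedSeries G (i + 1)).map f) := hc.isMulCommutative
  have := CF.Solv.isMulCommutative_sup (A := Subgroup.zpowers (f a))
    (B := (derivedSeries G (i + 1)).map f) (Subgroup.zpowers_le.mpr (h3 h4))
  have h5 : (derivedSeries G i).map f ≤
      Subgroup.zpowers (f a) ⊔ (derivedSeries G (i + 1)).map f := by
    refine (Subgroup.map_mono h1).trans ?_
    rw [Subgroup.map_sup, MonoidHom.map_zpowers, sup_comm]
  have := CF.Solv.isMulCommutative_of_le h5
  rw [← CF.Solv.map_mk'_eq_bot_iff, derivedSeries_succ G i, Subgroup.map_commutator]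
  exact CF.SolvStr.commutator_self_eq_bot _

end Cfsg.Agent.S0555
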