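import Cfsg.Statements.S0556
import Cfsg.Agent.SolvStr.Schmidt
import Cfsg.Agent.Coprime.Frobenius

set_option autoImplicit false
open Cfsg
open scoped Pointwise

namespace Cfsg.Agent.S0556

open Subgroup CF.Solv CF.SolvStr in
theorem aux {G : Type*} [Group G] [Finite G] (A : Subgroup G) (hA : IsCoatom A)
    [IsMulCommutative A] (hF : IsFrobeniusComplement A) : derivedSeries G 2 = ⊥ := by
  obtain ⟨K, -, hKn, hKA, hKb, hsr⟩ := CF.Coprime.frob_exists_kernel hF
  have hcop := hsr.coprime le_normalizer_of_normal
  have hcore : A.normalCore = ⊥ := by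
    by_contra h
    refine hA.1 (eq_top_iff.mpr ?_)
    exact le_normalizer_of_normal.trans (CF.Coprime.frob_normalizer_le hF (normalCore_le A) h)
  obtain ⟨p, hp, hd⟩ := Nat.exists_prime_and_dvd (n := Nat.card K) (by simpa using hKb)
  have := Fact.mk hp
  have := isSolvable_of_isMulCommutative A
  obtain ⟨P, hP, hAP⟩ := CF.Coprime.exists_invariant_isSylowOf A K le_normalizer_of_normal hcop
    (Or.inl this) (p := p)
  have hPA : ¬ P ≤ A := fun h => hP.ne_bot hd (le_bot_iff.mp
    ((le_inf hP.le h).trans (disjoint_iff.mp hKA.disjoint).le))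
  have h1 := sup_inf_assoc_of_le_normalizer' hP.le hAP
  rw [CF.Solv.sup_eq_top_of_isCoatom hA hPA, top_inf_eq, inf_comm, disjoint_iff.mp hKA.disjoint,
    bot_sup_eq] at h1
  subst h1
  have := hP.isPGroup.isNilpotent
  have := corefree_comm_of_isNilpotent hA hcore K
  have h2 : commutator G ≤ K := commutator_le_of_fac hKA.sup_eq_top (commutator_le_left _ _)
    (by rw [commutator_self_eq_bot]; exact bot_le) (commutator_le_left _ _)
  rw [derivedSeries_succ, derivedSeries_one, eq_bot_iff, ← commutator_self_eq_bot K]
  exact commutator_mono h2 h2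


/-- If a finite group has a maximal subgroup that is abelian, then the third term of its derived series is trivial (so the group is solvable of derived length at most three). -/
theorem result {G : Type*} [Group G] [Finite G] (A : Subgroup G) (hA : IsCoatom A) [IsMulCommutative A] : derivedSeries G 3 = ⊥ := by
  by_cases hn : A.Normal
  · have hp := CF.Solv.index_prime_of_isCoatom_of_normal hA
    have : IsCyclic (G ⧸ A) := CF.SolvStr.isCyclic_of_card_prime hp
    have h1 : commutator G ≤ A :=
      Subgroup.Normal.quotient_commutative_iff_commutator_le.mp this.isMulCommutative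
    rw [derivedSeries_succ, derivedSeries_succ, derivedSeries_one,
      le_bot_iff.mp ((Subgroup.commutator_mono h1 h1).trans
        (CF.SolvStr.commutator_self_eq_bot A).le), Subgroup.commutator_bot_left]
  have hNA : Subgroup.normalizer (A : Set G) = A := by
    by_contra h
    exact hn (Subgroup.normalizer_eq_top_iff.mp
      (hA.2 _ (lt_of_le_of_ne Subgroup.le_normalizer (Ne.symm h))))
  have hZ : Subgroup.center G ≤ A := (Subgroup.center_le_normalizer _).trans hNA.le
  have hs := QuotientGroup.mk'_surjective (Subgroup.center G)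
  have hA' := CF.SolvStr.isCoatom_map_mk' hA hZ
  have hc : (A.map (QuotientGroup.mk' (Subgroup.center G))).comap
      (QuotientGroup.mk' (Subgroup.center G)) = A := by
    rw [CF.Solv.comap_map_mk', sup_eq_left.mpr hZ]
  have h2 := aux _ hA' (CF.Coprime.isFrobeniusComplement_iff.mpr ⟨fun e => hn
    (CF.SolvStr.normal_of_le_center ((CF.Solv.map_mk'_eq_bot_iff _ _).mp e)), hA'.1, by
      intro g x hx hx1 hgx
      obtain ⟨g, rfl⟩ := hs g
      obtain ⟨x, hx', rfl⟩ := hx
      have h3 : g * x * g⁻¹ ∈ A := by
        rw [← hc, Subgroup.mem_comap, map_mul, map_mul, map_inv]; exact hgx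
      refine Subgroup.mem_map_of_mem _ (by_contra fun hg => hx1 ?_)
      rw [QuotientGroup.mk'_apply, QuotientGroup.eq_one_iff]
      have h4 : ¬ MulAut.conj g⁻¹ • A ≤ A := fun h => hg (by
        have := CF.Solv.mem_normalizer_of_conj_smul_le h
        rwa [hNA, Subgroup.inv_mem_iff] at this)
      have h5 : (⊤ : Subgroup G) ≤ Subgroup.centralizer {x} := by
        rw [← CF.Solv.sup_eq_top_of_isCoatom hA h4]
        refine sup_le (fun a ha => ?_) (fun a ha => ?_)
        · rw [Subgroup.mem_centralizer_singleton_iff]
          exact CF.SolvStr.mul_comm_of_mem ha hx'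
        · rw [Subgroup.mem_centralizer_singleton_iff]
          rw [CF.Solv.mem_conj_smul_iff, inv_inv] at ha
          have := CF.SolvStr.mul_comm_of_mem ha h3
          apply (MulAut.conj g).injective
          simpa only [map_mul, MulAut.conj_apply] using this
      rw [Subgroup.mem_center_iff]
      exact fun a => Subgroup.mem_centralizer_singleton_iff.mp (h5 (Subgroup.mem_top a))⟩)
  rw [← map_derivedSeries_eq hs, CF.Solv.map_mk'_eq_bot_iff] at h2
  rw [derivedSeries_succ, Subgroup.commutator_eq_bot_iff_le_centralizer]
  exact h2.trans (Subgroup.center_le_centralizer _)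

end Cfsg.Agent.S0556
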