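import Cfsg.Statements.S0557
import Cfsg.Agent.SolvStr.Schmidt

set_option autoImplicit false
open Cfsg

namespace Cfsg.Agent.S0557

/-- Let H be a subgroup of a finite group G with order coprime to its index. If iterating the focal-subgroup construction starting from H reaches the trivial subgroup after finitely many steps, then H has a normal complement in G. -/
theorem result {G : Type*} [Group G] [Finite G] (H : Subgroup G) (hHall : (Nat.card H).Coprime H.index) (n : ℕ) (hfoc : (fun K : Subgroup G => Subgroup.focalSubgroup K)^[n] H = ⊥) : ∃ N : Subgroup G, N.Normal ∧ Subgroup.IsComplement' N H := by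
  refine CF.Transfer.exists_normal_complement_of_hall hHall fun p hp hd => ?_
  have := Fact.mk hp
  obtain ⟨S, hS⟩ := CF.Transfer.exists_isSylowIn p H
  have hS' := hS.top_of_hall hHall hd
  rw [← CF.Transfer.hasNPC_top_iff, hS'.hasNPC_iff, eq_bot_iff, ← hfoc]
  clear hfoc
  induction n with
  | zero => exact inf_le_left.trans hS.le
  | succ n ih =>
    rw [Function.iterate_succ_apply']
    refine hS'.inf_pRes_le_of_fusion fun x hx g hg h => Subgroup.subset_closure ⟨?_, x⁻¹,
      Subgroup.inv_mem _ (ih hx), g, by rw [commutatorElement_def]; group⟩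
    refine Subgroup.mul_mem _ (Subgroup.inv_mem _ (ih hx)) (ih ⟨h, ?_⟩)
    exact Subgroup.mul_mem _ (Subgroup.mul_mem _ hg hx.2) (Subgroup.inv_mem _ hg)

end Cfsg.Agent.S0557
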