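import Cfsg.Statements.S0558
import Cfsg.Agent.SolvStr.Schmidt

set_option autoImplicit false
open Cfsg

namespace Cfsg.Agent.S0558

/-- Let H be a subgroup of a finite group G that is not a Sylow subgroup of G for any prime, and suppose that for every prime p dividing the order of H and every Sylow p-subgroup P of H the normalizer of P in G is exactly H. Then some normal subgroup of G is a complement to H. -/
theorem result {G : Type*} [Group G] [Finite G] (H : Subgroup G) (hnot : ∀ p : ℕ, p.Prime → ∀ P : Sylow p G, (P : Subgroup G) ≠ H) (hnorm : ∀ p : ℕ, p.Prime → p ∣ Nat.card H → ∀ P : Sylow p H, Subgroup.normalizer (((P : Subgroup H).map H.subtype : Subgroup G) : Set G) = H) : ∃ N : Subgroup G, N.Normal ∧ Subgroup.IsComplement' N H := by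
  have hsyl : ∀ (p : ℕ) [Fact p.Prime], p ∣ Nat.card H → ∀ S, CF.Transfer.IsSylowIn p S H →
      CF.Transfer.IsSylowIn p S ⊤ ∧ Subgroup.normalizer (S : Set G) = H := by
    intro p hp hd S hS
    obtain ⟨P, rfl⟩ := CF.Transfer.isSylowIn_iff_exists_sylow.mp hS
    have h1 := hnorm p hp.out hd P
    refine ⟨?_, h1⟩
    generalize (P : Subgroup H).map H.subtype = S at hS h1
    refine CF.Transfer.isSylowIn_of_maximal hS.isPGroup le_top fun Q hQ hSQ _ => ?_
    by_contra h
    have h2 := CF.Transfer.lt_inf_normalizer_of_lt hQ (lt_of_le_not_ge hSQ h)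
    rw [h1] at h2
    exact h2.ne' (hS.eq_of_le hQ.to_inf_left h2.le inf_le_right)
  have hnil : Group.IsNilpotent H := by
    rw [CF.Solv.isNilpotent_iff_sylow_normal]
    intro p hp P
    by_cases hd : p ∣ Nat.card H
    · exact (CF.Solv.normal_map_subtype_iff _).mpr (hnorm p hp.out hd P).ge
    · rw [CF.SolvStr.sylow_eq_bot_of_not_dvd P hd]; infer_instance
  have hHall : (Nat.card H).Coprime H.index := by
    refine Nat.coprime_of_dvd fun p hp hd hd' => ?_
    have := Fact.mk hp
    obtain ⟨S, hS⟩ := CF.Transfer.exists_isSylowIn p H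
    refine (hsyl p hd S hS).1.not_dvd ?_
    rw [Subgroup.relIndex_top_right]
    exact hd'.trans (Subgroup.index_dvd_of_le hS.le)
  refine CF.Transfer.exists_normal_complement_of_hall hHall fun p hp hd => ?_
  have := Fact.mk hp
  obtain ⟨S, hS⟩ := CF.Transfer.exists_isSylowIn p H
  obtain ⟨hS1, hS2⟩ := hsyl p hd S hS
  have hne : S.relIndex H ≠ 1 := fun e => by
    obtain ⟨P, hP⟩ := CF.Transfer.isSylowIn_top_iff.mp hS1
    exact hnot p hp P (hP.trans (le_antisymm hS.le (Subgroup.relIndex_eq_one.mp e)))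
  obtain ⟨q, hq, hqd⟩ := Nat.exists_prime_and_dvd hne
  have := Fact.mk hq
  have hqp : q ≠ p := fun e => hS.not_dvd (e ▸ hqd)
  obtain ⟨T, hT⟩ := CF.Transfer.exists_isSylowIn q H
  obtain ⟨hT1, hT2⟩ := hsyl q (hqd.trans (Subgroup.relIndex_dvd_card _ _)) T hT
  have hTS : T ≤ Subgroup.centralizer (S : Set G) :=
    CF.Solv.le_centralizer_of_coprime_of_isNilpotent hT.le hS.le
      (CF.SolvStr.coprime_card_of_ne hqp hT.isPGroup hS.isPGroup)
  have hC : ∀ x ∈ S, T ≤ Subgroup.centralizer {x} := fun x hx =>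
    hTS.trans (Subgroup.centralizer_le (by simpa using hx))
  rw [← CF.Transfer.hasNPC_top_iff]
  refine hS1.hasNPC_of_controls_fusion fun x hx g _ hgx => ?_
  have h1 : CF.Transfer.cj g T ≤ Subgroup.centralizer {g * x * g⁻¹} := by
    have := CF.Transfer.cj_mono g (hC x hx)
    rwa [← CF.Transfer.centralizer_conj_image, Set.image_singleton] at this
  obtain ⟨c, hc, e⟩ := ((hT1.cj_of_mem (Subgroup.mem_top g)).of_le h1 le_top).exists_cj_eq
    (hT1.of_le (hC _ hgx) le_top)
  rw [CF.Transfer.cj_cj, ← CF.Transfer.mem_normalizer_iff_cj, hT2] at e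
  have hH : HasNormalPComplement p H := by
    rw [CF.Transfer.hasNPC_iff_exists_normal]
    obtain ⟨k, hk⟩ := (CF.Solv.isPiHall_compl_singleton_iff hp).mp
      (CF.Solv.isPiHall_piCore_of_isNilpotent (G := H) {p}ᶜ)
    exact ⟨_, inferInstance, k, hk⟩
  obtain ⟨s, hs, h2⟩ := CF.Transfer.HasNPC.exists_conj_eq hH hS e
  have e2 : c * g * x * (c * g)⁻¹ = g * x * g⁻¹ := by
    have := Subgroup.mem_centralizer_singleton_iff.mp hc
    calc c * g * x * (c * g)⁻¹ = c * (g * x * g⁻¹) * c⁻¹ := by group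
      _ = g * x * g⁻¹ := by rw [this, mul_inv_cancel_right]
  exact ⟨s, hs, by rw [h2 x hx (e2 ▸ hgx), e2]⟩

end Cfsg.Agent.S0558
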