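import Cfsg.Statements.S0563
import Cfsg.Agent.SolvStr.Kegel

set_option autoImplicit false
open Pointwise
open Cfsg

namespace Cfsg.Agent.S0563

/-- If a finite group G is the product AB of two nilpotent subgroups of coprime orders, then G is solvable, and for every Sylow p-subgroup P of A and Sylow q-subgroup Q of B the product set PQ is a subgroup. -/
theorem result {G : Type*} [Group G] [Finite G] (A B : Subgroup G) (hA : Group.IsNilpotent A) (hB : Group.IsNilpotent B) (hcop : (Nat.card A).Coprime (Nat.card B)) (hAB : ∀ g : G, ∃ a ∈ A, ∃ b ∈ B, g = a * b) : Group.IsSolvable G ∧ ∀ (p q : ℕ) [Fact p.Prime] [Fact q.Prime] (P : Sylow p A) (Q : Sylow q B), ∃ S : Subgroup G, (S : Set G) = (((P : Subgroup A).map A.subtype : Subgroup G) : Set G) * (((Q : Subgroup B).map B.subtype : Subgroup G) : Set G) := by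
  have := CF.SolvStr.kegel_wielandt (A := A) (B := B) hAB
  refine ⟨this, fun p q _ _ P Q => ?_⟩
  have hcard := CF.Solv.card_mul_card_inf_of_forall_mul hAB
  rw [CF.SolvStr.inf_eq_bot_of_cop hcop, Subgroup.card_bot, mul_one] at hcard
  have key : ∀ (X Y : Subgroup G) (r : ℕ) [Fact r.Prime] (R : Sylow r X),
      Nat.card G = Nat.card X * Nat.card Y → (Nat.card X).Coprime (Nat.card Y) →
      (Nat.card ((R : Subgroup X).map X.subtype)).Coprime ((R : Subgroup X).map X.subtype).index := by
    intro X Y r _ R h1 h2
    rw [Subgroup.index_map_subtype, Subgroup.card_map_of_injective X.subtype_injective,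
      ← Nat.eq_of_mul_eq_mul_left Nat.card_pos (h1.symm.trans X.card_mul_index.symm)]
    exact Nat.Coprime.mul_right R.card_coprime_index
      (h2.coprime_dvd_left (Subgroup.card_subgroup_dvd_card _))
  exact CF.SolvStr.permutes_iff_exists.mp (CF.SolvStr.Fac.permutes_of_hall hAB
    (Subgroup.le_normalizer.trans (CF.Solv.normalizer_le_normalizer_sylow P))
    (Subgroup.le_normalizer.trans (CF.Solv.normalizer_le_normalizer_sylow Q))
    (key A B p P hcard hcop) (key B A q Q (hcard.trans (mul_comm _ _)) hcop.symm))

end Cfsg.Agent.S0563
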