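import Cfsg.Statements.S0569
import Cfsg.Agent.SolvStr.SysNorm
import Cfsg.Agent.S0045

set_option autoImplicit false
open Cfsg
open scoped Pointwise

namespace Cfsg.Agent.S0569

/-- In a finite solvable group: each nilpotent self-normalizing subgroup contains the system normalizer of some Hall complement system, and the system normalizer of any Hall complement system lies in some nilpotent self-normalizing subgroup. -/
theorem result {G : Type*} [Group G] [Finite G] [Group.IsSolvable G] : (∀ C : Subgroup G, Cfsg.IsCarterSubgroup C → ∃ K : Nat.Primes → Subgroup G, Cfsg.IsComplementSystem K ∧ Cfsg.systemNormalizer K ≤ C) ∧ ∀ K : Nat.Primes → Subgroup G, Cfsg.IsComplementSystem K → ∃ C : Subgroup G, Cfsg.IsCarterSubgroup C ∧ Cfsg.systemNormalizer K ≤ C := by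
  have h1 := CF.SolvStr.exists_sysNorm_le_carter
    (fun X _ _ _ C D hC hD => Cfsg.Agent.S0045.result.2 C D hC.1 hC.2 hD.1 hD.2) G
  refine ⟨fun C hC => h1 C hC, fun K hK => ?_⟩
  obtain ⟨C, hC1, hC2⟩ := (Cfsg.Agent.S0045.result (G := G)).1
  obtain ⟨L, hL, hLC⟩ := h1 C ⟨hC1, hC2⟩
  obtain ⟨g, hg⟩ := CF.SolvStr.sys_conj hL hK
  refine ⟨MulAut.conj g • C, ⟨CF.Solv.isNilpotent_map _ C, by
    rw [CF.Solv.normalizer_conj_smul, hC2]⟩, ?_⟩
  rw [← funext hg, CF.SolvStr.sysNorm_smul]
  exact Subgroup.pointwise_smul_le_pointwise_smul_iff.mpr hLC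

end Cfsg.Agent.S0569
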