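import Cfsg.Statements.S0570
import Cfsg.Agent.SolvStr.SysNorm
import Cfsg.Agent.S0045

set_option autoImplicit false
open Cfsg

namespace Cfsg.Agent.S0570

/-- Let G be a finite group with a nilpotent normal subgroup F such that G modulo F is nilpotent (nilpotent length at most two). Then a subgroup of G is a Carter subgroup if and only if it is the system normalizer of some Hall complement system. -/
theorem result {G : Type*} [Group G] [Finite G] (F : Subgroup G) [F.Normal] (hF : Group.IsNilpotent F) (hGF : Group.IsNilpotent (G ⧸ F)) (C : Subgroup G) : Cfsg.IsCarterSubgroup C ↔ ∃ K : Nat.Primes → Subgroup G, Cfsg.IsComplementSystem K ∧ C = Cfsg.systemNormalizer K := by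
  have : Group.IsSolvable G := CF.Solv.isSolvable_of_normal_of_quotient F
  constructor
  · intro hC
    obtain ⟨K, hK⟩ := CF.SolvStr.exists_sys (G := G)
    obtain ⟨g, hg⟩ := (Cfsg.Agent.S0045.result (G := G)).2 _ C (CF.SolvStr.sysNorm_isNilpotent hK)
      (CF.SolvStr.normalizer_sysNorm_eq F hK) hC.1 hC.2
    exact ⟨_, CF.SolvStr.sys_smul hK g, by rw [CF.SolvStr.sysNorm_smul, hg]⟩
  · rintro ⟨K, hK, rfl⟩
    exact ⟨CF.SolvStr.sysNorm_isNilpotent hK, CF.SolvStr.normalizer_sysNorm_eq F hK⟩

end Cfsg.Agent.S0570
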