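import Cfsg.Statements.S0576
import Cfsg.Agent.Solv.Frattini

set_option autoImplicit false
open Cfsg

namespace Cfsg.Agent.S0576

/-- Let H be a normal subgroup of a finite group G with H contained in the Frattini subgroup of G. Then the group of inner automorphisms of H is contained in the Frattini subgroup of the automorphism group of H. -/
theorem result {G : Type*} [Group G] [Finite G] (H : Subgroup G) [H.Normal] (hH : H ≤ frattini G) : (MulAut.conj : ↥H →* MulAut ↥H).range ≤ frattini (MulAut ↥H) := by
  let φ : G →* MulAut H := MulAut.conjNormal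
  have e : (MulAut.conj : ↥H →* MulAut ↥H).range = H.map φ := by
    ext x
    constructor
    · rintro ⟨h, rfl⟩
      exact ⟨h, h.2, by ext; rfl⟩
    · rintro ⟨h, hh, rfl⟩
      exact ⟨⟨h, hh⟩, by ext; rfl⟩
  have : (MulAut.conj : ↥H →* MulAut ↥H).range.Normal := ⟨by
    rintro _ ⟨h, rfl⟩ σ
    exact ⟨σ h, by ext; simp⟩⟩
  refine CF.Solv.le_frattini_of_le_map_frattini (K := φ.range) ?_
  rw [e]
  have h1 := (Subgroup.map_mono (f := φ.rangeRestrict) hH).trans
    (CF.Solv.frattini_map_le φ.rangeRestrict_surjective)
  have h2 := Subgroup.map_mono (f := φ.range.subtype) h1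
  rwa [Subgroup.map_map] at h2

end Cfsg.Agent.S0576
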