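import Cfsg.Statements.S0581
import Cfsg.Agent.SolvStr.Schmidt

set_option autoImplicit false
open Pointwise
open Cfsg

namespace Cfsg.Agent.S0581

/-- Let H be a nilpotent subgroup of a finite group G whose order is coprime to its index, and K a subgroup every prime divisor of whose order divides the order of H. Then K lies in some conjugate of H. -/
theorem result {G : Type*} [Group G] [Finite G] (H K : Subgroup G) (hH : Group.IsNilpotent H) (hHall : (Nat.card H).Coprime H.index) (hK : ∀ p : ℕ, p.Prime → p ∣ Nat.card K → p ∣ Nat.card H) : ∃ x : G, K ≤ MulAut.conj x • H := by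
  obtain ⟨x, hx⟩ := CF.SolvStr.wielandt_hall (CF.Solv.isPiHall_of_coprime hHall) (K := K) hK
  exact ⟨x⁻¹, CF.SolvStr.le_conj_inv_smul hx⟩

end Cfsg.Agent.S0581
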