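import Cfsg.Statements.S0584
import Cfsg.Agent.Solv.Frattini

set_option autoImplicit false
open Cfsg

namespace Cfsg.Agent.S0584

/-- Let B ≤ A be normal subgroups of a finite group G with B contained in the Frattini subgroup of G. If A modulo B is nilpotent then A is nilpotent. -/
theorem result {G : Type*} [Group G] [Finite G] (A B : Subgroup G) [A.Normal] [B.Normal] (hBA : B ≤ A) (hB : B ≤ frattini G) (h : Group.IsNilpotent (↥A ⧸ B.subgroupOf A)) : Group.IsNilpotent A := by
  have : Group.IsNilpotent (A.map (QuotientGroup.mk' B)) := by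
    let φ := (QuotientGroup.mk' B).subgroupMap A
    have hk : B.subgroupOf A = φ.ker := by
      ext x
      rw [MonoidHom.mem_ker, Subgroup.mem_subgroupOf, ← QuotientGroup.eq_one_iff]
      exact ⟨fun h => Subtype.ext h, fun h => congrArg Subtype.val h⟩
    exact Group.nilpotent_of_mulEquiv ((QuotientGroup.quotientMulEquivOfEq hk).trans
      (QuotientGroup.quotientKerEquivOfSurjective φ (MonoidHom.subgroupMap_surjective _ _)))
  exact CF.Solv.isNilpotent_of_map_mk'_of_le_frattini B A hB

end Cfsg.Agent.S0584
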