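import Cfsg.Statements.S0587
import Cfsg.Agent.SolvStr.Prim

set_option autoImplicit false
open Cfsg

namespace Cfsg.Agent.S0587

/-- Let G be a finite group whose largest normal p-subgroup L is nontrivial, and M a maximal subgroup of G with trivial normal core. Then L is elementary abelian, M is a complement to L, L is a minimal normal subgroup of G, the centralizer of L is L, and for every prime q such that the largest normal q-subgroup of M is nontrivial, the order of L is congruent to 1 modulo q and q ≠ p. -/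
theorem result {G : Type*} [Group G] [Finite G] (p : ℕ) [Fact p.Prime] (hL : Cfsg.pCore p G ≠ ⊥) (M : Subgroup G) (hM : IsCoatom M) (hcore : M.normalCore = ⊥) : Cfsg.IsElementaryAbelian p (Cfsg.pCore p G) ∧ Subgroup.IsComplement' (Cfsg.pCore p G) M ∧ (∀ K : Subgroup G, K.Normal → K ≤ Cfsg.pCore p G → K = ⊥ ∨ K = Cfsg.pCore p G) ∧ Subgroup.centralizer ((Cfsg.pCore p G : Subgroup G) : Set G) = Cfsg.pCore p G ∧ ∀ (q : ℕ) [Fact q.Prime], Cfsg.pCore q ↥M ≠ ⊥ → Nat.card (Cfsg.pCore p G) % q = 1 % q ∧ q ≠ p := by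
  have hP : IsPGroup p (Cfsg.pCore p G) := CF.Solv.pCore_isPGroup
  have := hP.isNilpotent
  have := CF.SolvStr.corefree_comm_of_isNilpotent hM hcore (Cfsg.pCore p G)
  have hmin := CF.SolvStr.corefree_isMinNormal_of_comm hM hcore _ hL
  have hc := CF.SolvStr.corefree_isComplement'_of_comm hM hcore _ hL
  refine ⟨?_, hc, hmin.2.2, CF.SolvStr.corefree_centralizer_eq_of_comm hM hcore _ hL, ?_⟩
  · obtain ⟨r, hr, h1, h2⟩ := hmin.exists_isElementaryAbelian
    obtain rfl : p = r := CF.SolvStr.eq_of_isPGroup_of_isPGroup Fact.out hr hL hP h2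
    exact h1
  · intro q hq hQ
    have hQb : (Cfsg.pCore q M).map M.subtype ≠ ⊥ := fun e =>
      hQ ((Subgroup.map_eq_bot_iff_of_injective _ M.subtype_injective).mp e)
    have hn := CF.SolvStr.corefree_normalizer_eq hM hcore hQb (Subgroup.map_subtype_le _)
      ((CF.Solv.normal_map_subtype_iff _).mp inferInstance)
    have h1 := CF.SolvStr.card_modEq_card_inf_centralizer (L := Cfsg.pCore p G)
      ((CF.Solv.pCore_isPGroup (p := q) (G := M)).map M.subtype) Subgroup.le_normalizer_of_normal
    have h2 : Cfsg.pCore p G ⊓ Subgroup.centralizer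
        (((Cfsg.pCore q M).map M.subtype : Subgroup G) : Set G) = ⊥ := by
      rw [eq_bot_iff, ← hc.disjoint.eq_bot]
      exact inf_le_inf_left _ ((Subgroup.centralizer_le_normalizer _).trans hn.le)
    rw [h2, Subgroup.card_bot] at h1
    refine ⟨h1, ?_⟩
    rintro rfl
    rcases hP.card_eq_or_dvd with h | h
    · exact hL (Subgroup.card_eq_one.mp h)
    · exact hq.out.ne_one (Nat.dvd_one.mp ((Nat.ModEq.dvd_iff h1 dvd_rfl).mp h))

end Cfsg.Agent.S0587
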