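import Cfsg.Statements.S0588
import Cfsg.Agent.SolvStr.Prim

set_option autoImplicit false
open Cfsg

namespace Cfsg.Agent.S0588

/-- If a subgroup H of a finite group G contains the centralizer of every non-identity element of H, then the order of H is coprime to its index. -/
theorem result {G : Type*} [Group G] [Finite G] (H : Subgroup G) (h : ∀ x ∈ H, x ≠ 1 → Subgroup.centralizer ({x} : Set G) ≤ H) : (Nat.card H).Coprime H.index := by
  refine Nat.coprime_of_dvd fun p hp h1 h2 => ?_
  have := Fact.mk hp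
  obtain ⟨x, hx⟩ := exists_prime_orderOf_dvd_card' p h1
  have hx1 : (x : G) ≠ 1 := by
    intro e
    rw [show x = 1 from Subtype.ext e, orderOf_one] at hx
    exact hp.ne_one hx.symm
  have hP : IsPGroup p (Subgroup.zpowers (x : G)) :=
    IsPGroup.of_card (n := 1) (by rw [Nat.card_zpowers, Subgroup.orderOf_coe, hx, pow_one])
  obtain ⟨R, hR⟩ := hP.exists_le_sylow
  have := R.isPGroup'.isNilpotent
  have hRb : (R : Subgroup G) ≠ ⊥ := fun e => hx1 (by simpa [e] using hR)
  obtain ⟨⟨z, hzR, hzC⟩, hz1⟩ := Subgroup.ne_bot_iff_exists_ne_one.mp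
    (CF.Solv.inf_centralizer_ne_bot_of_isNilpotent (le_refl (R : Subgroup G))
      Subgroup.le_normalizer hRb)
  have hz1 : z ≠ 1 := fun e => hz1 (Subtype.ext e)
  have hzH : z ∈ H := h x x.2 hx1
    (Subgroup.mem_centralizer_singleton_iff.mpr (hzC _ (hR (Subgroup.mem_zpowers _))).symm)
  refine CF.Solv.not_dvd_index_of_sylow_le R (le_trans ?_ (h z hzH hz1)) h2
  intro y hy
  exact Subgroup.mem_centralizer_singleton_iff.mpr (hzC y hy)

end Cfsg.Agent.S0588
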