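import Cfsg.Statements.S0589
import Cfsg.Agent.SolvStr.Schmidt
import Cfsg.Agent.Coprime.Frobenius

set_option autoImplicit false
open Pointwise
open Cfsg

namespace Cfsg.Agent.S0589

/-- Let H be a Frobenius complement in a finite group G and L a subgroup of G whose order divides the order of H. Then L is contained in some conjugate of H. -/
theorem result {G : Type*} [Group G] [Finite G] (H : Subgroup G) (hH : Cfsg.IsFrobeniusComplement H) (L : Subgroup G) (hL : Nat.card L ∣ Nat.card H) : ∃ x : G, L ≤ MulAut.conj x • H := by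
  obtain ⟨K, hK, hKn, hKH, -, hsr⟩ := CF.Coprime.frob_exists_kernel hH
  have hcop := hsr.coprime Subgroup.le_normalizer_of_normal
  have hLK : L ⊓ K = ⊥ := CF.SolvStr.inf_eq_bot_of_cop (hcop.coprime_dvd_left hL)
  have key : ∀ y ∈ L, y ≠ 1 → ∃ g : G, y ∈ MulAut.conj g • H := by
    intro y hy h1
    by_contra h
    push Not at h
    have : y ∈ (K : Set G) := hK ▸ Or.inr h
    exact h1 (Subgroup.mem_bot.mp (hLK.le ⟨hy, this⟩))
  by_contra h
  push Not at h
  have key2 : ∀ y ∈ L, y ≠ 1 → ∀ g : G, y ∈ MulAut.conj g • H →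
      IsFrobeniusComplement ((MulAut.conj g • H).subgroupOf L) := fun y hy h1 g hg =>
    CF.Coprime.frob_subgroupOf (CF.Coprime.frob_conj hH g)
      (fun e => h1 (Subgroup.mem_bot.mp (e.le ⟨hg, hy⟩))) (h g)
  have hL1 : L ≠ ⊥ := fun e => h 1 (e ▸ bot_le)
  obtain ⟨⟨x, hx⟩, hx1⟩ := Subgroup.ne_bot_iff_exists_ne_one.mp hL1
  have hx1' : x ≠ 1 := fun e => hx1 (Subtype.ext e)
  obtain ⟨g, hg⟩ := key x hx hx1'
  have h1 := key2 x hx hx1' g hg
  obtain ⟨K₁, hK₁, -, -, hK₁b, -⟩ := CF.Coprime.frob_exists_kernel h1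
  obtain ⟨⟨y, hy⟩, hy1⟩ := Subgroup.ne_bot_iff_exists_ne_one.mp hK₁b
  have hy1' : y ≠ 1 := fun e => hy1 (Subtype.ext e)
  have hy1'' : (y : G) ≠ 1 := fun e => hy1' (Subtype.ext e)
  obtain ⟨g', hg'⟩ := key y y.2 hy1''
  have h2 := key2 y y.2 hy1'' g' hg'
  have h3 : y ∈ frobeniusKernel ((MulAut.conj g' • H).subgroupOf L) := by
    rw [← CF.Coprime.frobeniusKernel_eq_of_frob h1 h2, ← hK₁]; exact hy
  rcases h3 with h3 | h3
  · exact hy1' h3
  · exact h3 1 (by rw [CF.SolvStr.one_conj_smul]; exact hg')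

end Cfsg.Agent.S0589
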