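import Cfsg.Statements.S0592
import Cfsg.Agent.PLocal.QuadPair

set_option autoImplicit false
open Cfsg

namespace Cfsg.Agent.S0592

/-- Two quadratically acting generators of a linear group that is not a p-group, with the p'-part of the order of their product dividing q - 1, give a homomorphism onto a subgroup of SL(2, q) that is not a p-group. -/
theorem result {K : Type*} [Field K] [Fintype K] {p : ℕ} [Fact p.Prime] [CharP K p] {W : Type*} [AddCommGroup W] [Module K W] [FiniteDimensional K W] [Finite W] [Nontrivial W] (H : Subgroup (W ≃ₗ[K] W)) (a b : W ≃ₗ[K] W) (hH : H = Subgroup.closure {a, b}) (ha : ∀ w : W, a (a w - w) = a w - w) (hb : ∀ w : W, b (b w - w) = b w - w) (hnp : ¬ IsPGroup p H) (hk : ∃ e k : ℕ, orderOf (a * b) = p ^ e * k ∧ k ∣ Fintype.card K - 1) : ∃ φ : H →* Matrix.SpecialLinearGroup (Fin 2) K, ¬ IsPGroup p φ.range := by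
  classical
  obtain ⟨e, k, hek, hk⟩ := hk
  have haH : a ∈ H := hH ▸ Subgroup.subset_closure (by simp)
  have hbH : b ∈ H := hH ▸ Subgroup.subset_closure (by simp)
  let ρ : H →* Module.End K W :=
    { toFun := fun h => (h.1 : W →ₗ[K] W)
      map_one' := rfl
      map_mul' := fun _ _ => rfl }
  have hgen : Subgroup.closure ({⟨a, haH⟩, ⟨b, hbH⟩} : Set H) = ⊤ := by
    subst hH
    rw [← Subgroup.closure_closure_coe_preimage (k := ({a, b} : Set (W ≃ₗ[K] W)))]
    congr 1
    ext x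
    simp [Subtype.ext_iff]
  have hq : ∀ x : H, (∀ w : W, x.1 (x.1 w - w) = x.1 w - w) → (ρ x - 1) * (ρ x - 1) = 0 := by
    intro x hx
    ext w
    exact sub_eq_zero.mpr (hx w)
  rcases CF.PLocal.quad_pair_field p ρ ⟨a, haH⟩ ⟨b, hbH⟩ hgen (hq _ ha) (hq _ hb) e k (by
      have h1 : ((⟨a, haH⟩ * ⟨b, hbH⟩ : H)) ^ (p ^ e * k) = 1 :=
        Subtype.ext (by rw [← hek]; exact pow_orderOf_eq_one (a * b))
      rw [← map_pow, h1, map_one]) hk with ⟨N, hN⟩ | ⟨μ, hμ, φ, h1, h2, -⟩
  · exfalso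
    apply hnp
    intro h
    refine ⟨N, ?_⟩
    have h1 := hN h
    rw [← map_pow] at h1
    exact Subtype.ext (LinearEquiv.toLinearMap_injective h1)
  · refine ⟨φ, fun hP => ?_⟩
    have : Finite (W ≃ₗ[K] W) := Finite.of_injective (fun e : W ≃ₗ[K] W => (e : W → W))
      DFunLike.coe_injective
    have : Finite φ.range := Finite.of_surjective _ φ.rangeRestrict_surjective
    have : Nontrivial φ.range := ⟨⟨φ.rangeRestrict ⟨a, haH⟩ * φ.rangeRestrict ⟨b, hbH⟩,
      φ.rangeRestrict ⟨b, hbH⟩ * φ.rangeRestrict ⟨a, haH⟩, fun h => CF.PLocal.upT_loT_not_comm hμ (by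
        rw [← h1, ← h2]; exact congrArg Subtype.val h)⟩⟩
    have := hP.center_nontrivial
    obtain ⟨⟨⟨z, hz⟩, hzc⟩, hz1⟩ := exists_ne (1 : Subgroup.center φ.range)
    obtain ⟨m, hm⟩ := hP ⟨z, hz⟩
    have hm' : z ^ p ^ m = 1 := congrArg Subtype.val hm
    rw [Subgroup.mem_center_iff] at hzc
    have c1 : CF.PLocal.upT μ * z = z * CF.PLocal.upT μ := by
      rw [← h1]; exact congrArg Subtype.val (hzc (φ.rangeRestrict ⟨a, haH⟩))
    have c2 : CF.PLocal.loT 1 * z = z * CF.PLocal.loT 1 := by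
      rw [← h2]; exact congrArg Subtype.val (hzc (φ.rangeRestrict ⟨b, hbH⟩))
    have e1 := congrArg (fun M : Matrix.SpecialLinearGroup (Fin 2) K =>
      (M : Matrix (Fin 2) (Fin 2) K) 0 0) c1
    have e2 := congrArg (fun M : Matrix.SpecialLinearGroup (Fin 2) K =>
      (M : Matrix (Fin 2) (Fin 2) K) 0 0) c2
    have e3 := congrArg (fun M : Matrix.SpecialLinearGroup (Fin 2) K =>
      (M : Matrix (Fin 2) (Fin 2) K) 1 0) c2
    simp [CF.PLocal.upT_val, CF.PLocal.loT_val, Matrix.mul_apply, Fin.sum_univ_two, hμ] at e1 e2 e3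
    have hzd : (z : Matrix (Fin 2) (Fin 2) K) = Matrix.scalar (Fin 2) (z 0 0) := by
      ext i j
      fin_cases i <;> fin_cases j <;> simp [e1, e2]
      linear_combination -e3
    have h3 : (z : Matrix (Fin 2) (Fin 2) K) ^ p ^ m = 1 := by
      rw [← Matrix.SpecialLinearGroup.coe_pow, hm']; rfl
    rw [hzd, ← map_pow, ← map_one (Matrix.scalar (Fin 2)), Matrix.scalar_inj] at h3
    have h4 : (z 0 0 - 1) ^ p ^ m = 0 := by rw [sub_pow_char_pow, h3, one_pow, sub_self]
    have h5 : z 0 0 = 1 := sub_eq_zero.mp (pow_eq_zero_iff (pow_pos (Fact.out : p.Prime).pos m).ne' |>.mp h4)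
    apply hz1
    apply Subtype.ext
    apply Subtype.ext
    apply Subtype.ext
    rw [hzd, h5, map_one]
    rfl

end Cfsg.Agent.S0592
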