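import Cfsg.Statements.S0594
import Cfsg.Agent.PLocal.Dickson

set_option autoImplicit false
open Cfsg

namespace Cfsg.Agent.S0594

/-- For odd p, two quadratic generators of a faithful group that is not a p-group, one of which acts nontrivially on a normal subgroup of order prime to p, force p = 3 and a section isomorphic to SL(2,3). -/
theorem result {G : Type*} [Group G] [Finite G] {p : ℕ} [Fact p.Prime] (hp : p ≠ 2) (V H : Subgroup G) (hV : Cfsg.IsElementaryAbelian p V) (hHV : H ≤ Subgroup.normalizer (V : Set G)) (hf : H ⊓ Subgroup.centralizer (V : Set G) = ⊥) (a b : G) (hab : H = Subgroup.closure {a, b}) (ha : ⁅⁅V, Subgroup.zpowers a⁆, Subgroup.zpowers a⁆ = ⊥) (hb : ⁅⁅V, Subgroup.zpowers b⁆, Subgroup.zpowers b⁆ = ⊥) (hnp : ¬ IsPGroup p H) (Q : Subgroup G) (hQH : Q ≤ H) (hQn : H ≤ Subgroup.normalizer (Q : Set G)) (hQ : (Nat.card Q).Coprime p) (hQa : ⁅Q, Subgroup.zpowers a⁆ ≠ ⊥) : p = 3 ∧ ∃ (K L : Subgroup G) (hL : (L.subgroupOf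 K).Normal), K ≤ H ∧ Nonempty ((K ⧸ L.subgroupOf K) ≃* Matrix.SpecialLinearGroup (Fin 2) (ZMod 3)) := by
  have haH : a ∈ H := hab ▸ CF.PLocal.left_mem_closure_pair a b
  have hle : Q ⊔ Subgroup.zpowers a ≤ H := sup_le hQH (Subgroup.zpowers_le.mpr haH)
  have hf' : (Q ⊔ Subgroup.zpowers a) ⊓ Subgroup.centralizer (V : Set G) = ⊥ :=
    eq_bot_iff.mpr (hf ▸ inf_le_inf_right _ hle)
  have hQn' : (Q.subgroupOf (Q ⊔ Subgroup.zpowers a)).Normal :=
    Subgroup.normal_subgroupOf_of_le_normalizer (hle.trans hQn)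
  have hco : (Nat.card (Q.subgroupOf (Q ⊔ Subgroup.zpowers a))).Coprime p := by
    rwa [Nat.card_congr (Subgroup.subgroupOfEquivOfLe le_sup_left).toEquiv]
  have hsep : Cfsg.IsPSolvable p (Q ⊔ Subgroup.zpowers a : Subgroup G) := by
    refine CF.Solv.isPSolvable_of_normal_of_quotient (Q.subgroupOf (Q ⊔ Subgroup.zpowers a))
      (CF.PLocal.isPSolvable_of_coprime hco) ?_
    have : IsCyclic ((Q ⊔ Subgroup.zpowers a : Subgroup G) ⧸
        Q.subgroupOf (Q ⊔ Subgroup.zpowers a)) := by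
      refine ⟨⟨QuotientGroup.mk ⟨a, Subgroup.mem_sup_right (Subgroup.mem_zpowers a)⟩, fun x => ?_⟩⟩
      obtain ⟨x, rfl⟩ := QuotientGroup.mk_surjective x
      obtain ⟨q, hq, y, ⟨k, rfl⟩, h⟩ := (CF.PLocal.mem_sup_of_le_normalizer'
        ((Subgroup.zpowers_le.mpr haH).trans hQn)).1 x.2
      refine ⟨k, ?_⟩
      dsimp only at h ⊢
      rw [← QuotientGroup.mk_zpow, QuotientGroup.eq_iff_div_mem, Subgroup.mem_subgroupOf]
      simp [← h, div_eq_mul_inv, hq]
    exact CF.Solv.isPSolvable_of_isSolvable p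
  have h := CF.PLocal.involves_SL2_of_quadratic hp hV (hle.trans hHV) hf'
    (Subgroup.mem_sup_right (Subgroup.mem_zpowers a)) ha (fun hO => hQa ?_)
  · obtain rfl := CF.PLocal.eq_three_of_involves_SL2 hp hsep h
    obtain ⟨K, L, hL, hK, he⟩ := CF.PLocal.exists_section_le_of_involves h
    exact ⟨rfl, K, L, hL, hK.trans hle, he⟩
  · obtain ⟨a', ha', h⟩ := hO
    rw [Subgroup.commutator_comm, Subgroup.commutator_eq_bot_iff_le_centralizer, Subgroup.zpowers_le]
    intro q hq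
    have := CF.Solv.pPrimeCore_le_centralizer_pCore (CF.Solv.le_pPrimeCore hco
      (show (⟨q, Subgroup.mem_sup_left hq⟩ : (Q ⊔ Subgroup.zpowers a : Subgroup G)) ∈ _ from hq)) a' ha'
    rw [← h]
    exact (congrArg Subtype.val this).symm

end Cfsg.Agent.S0594
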