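import Cfsg.Statements.S0601
import Cfsg.Agent.PLocal.Constraint

set_option autoImplicit false
open Cfsg

namespace Cfsg.Agent.S0601

/-- When O_p(G) contains its centralizer, the normal closure of Ω₁(Z(S)) is elementary abelian and G has no nontrivial normal p-subgroup modulo its centralizer. -/
theorem result {G : Type*} [Group G] [Finite G] {p : ℕ} [Fact p.Prime] (hc : Subgroup.centralizer (Cfsg.pCore p G : Set G) ≤ Cfsg.pCore p G) : (⨆ S : Sylow p G, Cfsg.omegaOne p (((S : Subgroup G)) ⊓ Subgroup.centralizer ((S : Subgroup G) : Set G))).Normal ∧ Cfsg.IsElementaryAbelian p (⨆ S : Sylow p G, Cfsg.omegaOne p (((S : Subgroup G)) ⊓ Subgroup.centralizer ((S : Subgroup G) : Set G))) ∧ ∀ D : Subgroup G, D.Normal → Subgroup.centralizer ((⨆ S : Sylow p G, Cfsg.omegaOne p (((S : Subgroup G)) ⊓ Subgroup.centralizer ((S : Subgroup G) : Set G)) : Subgroup G) : Set G) ≤ D → (∃ k : ℕ, (Subgroup.centralizer ((⨆ S : Sylow p G, Cfsg.omegaOne p (((S : Subgroup G)) ⊓ Subgroup.centralizer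 ((S : Subgroup G) : Set G)) : Subgroup G) : Set G)).relIndex D = p ^ k) → D = Subgroup.centralizer ((⨆ S : Sylow p G, Cfsg.omegaOne p (((S : Subgroup G)) ⊓ Subgroup.centralizer ((S : Subgroup G) : Set G)) : Subgroup G) : Set G) := by
  have := CF.PLocal.zG_normal (p := p) (G := G)
  refine ⟨this, CF.PLocal.isEA_zG hc, fun D hD h1 ⟨k, hk⟩ => le_antisymm ?_ h1⟩
  rw [← CF.Solv.map_mk'_eq_bot_iff, eq_bot_iff, ← CF.PLocal.pCore_quotient_centralizer_zG (p := p)]
  have := Subgroup.Normal.map hD _ (QuotientGroup.mk'_surjective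
    (Subgroup.centralizer (CF.PLocal.zG p G : Set G)))
  exact CF.Solv.le_pCore (IsPGroup.of_card (n := k) (by rw [CF.Solv.card_map_mk', hk]))

end Cfsg.Agent.S0601
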