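import Cfsg.Statements.S0602
import Cfsg.Agent.PLocal.Thompson

set_option autoImplicit false
open Cfsg

namespace Cfsg.Agent.S0602

/-- The Thompson subgroup is characteristic, and nontrivial as soon as p divides the group order. -/
theorem result {G : Type*} [Group G] [Finite G] {p : ℕ} [Fact p.Prime] : (Cfsg.thompsonSubgroup p G).Characteristic ∧ (p ∣ Nat.card G → Cfsg.thompsonSubgroup p G ≠ ⊥) := by
  refine ⟨CF.PLocal.thompson_characteristic p, fun h => ?_⟩
  obtain ⟨x, hx⟩ := exists_prime_orderOf_dvd_card' p h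
  rw [← CF.PLocal.thompsonSubgroupOf_top]
  refine CF.PLocal.thompson_ne_bot (x := x) (Subgroup.mem_top x) ?_ (hx ▸ pow_orderOf_eq_one x)
  rintro rfl
  exact (Fact.out : p.Prime).one_lt.ne (by simpa using hx)

end Cfsg.Agent.S0602
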