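import Cfsg.Statements.S0604
import Cfsg.Agent.PLocal.Thompson

set_option autoImplicit false
open Cfsg

namespace Cfsg.Agent.S0604

/-- The Thompson subgroup of G is the join of the Thompson subgroups of its Sylow p-subgroups. -/
theorem result {G : Type*} [Group G] [Finite G] {p : ℕ} [Fact p.Prime] : Cfsg.thompsonSubgroup p G = ⨆ S : Sylow p G, Cfsg.thompsonSubgroupOf p (S : Subgroup G) := by
  rw [← CF.PLocal.thompsonSubgroupOf_top]
  apply le_antisymm
  · rw [CF.PLocal.thompson_le_iff]
    intro A hA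
    obtain ⟨S, hS⟩ := (CF.PLocal.isEA_isPGroup hA.2.1).exists_le_sylow
    exact le_iSup_of_le S (CF.PLocal.le_thompson (CF.PLocal.mem_maxAb_of_le hA hS le_top))
  · refine iSup_le fun S => ?_
    obtain ⟨A, hA⟩ := CF.PLocal.maxAb_nonempty p (⊤ : Subgroup G)
    obtain ⟨T, hT⟩ := (CF.PLocal.isEA_isPGroup hA.2.1).exists_le_sylow
    obtain ⟨g, rfl⟩ := MulAction.exists_smul_eq G T S
    refine CF.PLocal.thompson_le_thompson_of_le (CF.PLocal.conj_mem_maxAb hA (g := g) ?_) ?_ le_top
    · rw [Subgroup.normalizer_eq_top]; trivial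
    · exact Subgroup.map_mono hT

end Cfsg.Agent.S0604
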