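import Cfsg.Statements.S0612
import Cfsg.Agent.Sig.OffD

set_option autoImplicit false
open Cfsg

namespace Cfsg.Agent.S0612

open CF.BG CF.Sig Subgroup in

/-- In such a faithful group every nontrivial best offender decomposes as a direct product of minimal nontrivially-acting best offenders. -/
theorem result {G : Type*} [Group G] [Finite G] {p : ℕ} [Fact p.Prime] (V H : Subgroup G) (hV : Cfsg.IsElementaryAbelian p V) (hHV : H ≤ Subgroup.normalizer (V : Set G)) (hf : H ⊓ Subgroup.centralizer (V : Set G) = ⊥) (hS1 : Subgroup.centralizer (Cfsg.pPrimeCore p ↥H : Set ↥H) ≤ Cfsg.pPrimeCore p ↥H) (hS3 : H = ⨆ A : {A : Subgroup G // A ≤ H ∧ Cfsg.IsBestOffenderOn p V A}, (A : Subgroup G)) (hH1 : H ≠ ⊥) (A : Subgroup G) (hAH : A ≤ H) (hA : Cfsg.IsBestOffenderOn p V A) (hA1 : A ≠ ⊥) : ∃ (k : ℕ) (B : Fin k → Subgroup G), (∀ i, B i ≤ A ∧ Cfsg.IsBestOffenderOn p V (B i) ∧ ⁅V, B i⁆ ≠ ⊥ ∧ ∀ C : Subgroup G, C ≤ B i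 → Cfsg.IsBestOffenderOn p V C → ⁅V, C⁆ ≠ ⊥ → C = B i) ∧ iSupIndep B ∧ ⨆ i, B i = A := by
  classical
  have h := os_of Fact.out hV hHV hf hS1
  have ex : ∃ k, ∃ B : Fin k → Subgroup G, (∀ i, B i ≤ A ∧ Tv p V H (B i)) ∧ ⨆ i, B i = A := by
    obtain ⟨k, ⟨e⟩⟩ := Finite.exists_equiv_fin {T : Subgroup G // T ≤ A ∧ Tv p V H T}
    refine ⟨k, fun i => (e.symm i).1, fun i => (e.symm i).2, le_antisymm
      (iSup_le fun i => (e.symm i).2.1) ((h.le_sSup_tv hAH (h.abelem_of_bo hAH hA) hA.1).trans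
        (sSup_le fun T hT => le_iSup_of_le (e ⟨T, hT⟩) (by simp)))⟩
  obtain ⟨B, hB, e⟩ := Nat.find_spec ex
  have m := fun k (hk : k < Nat.find ex) => Nat.find_min ex hk
  generalize Nat.find ex = k at B hB e m
  refine ⟨k, B, fun i => ⟨(hB i).1, h.min_of_tv (hB i).2⟩, fun i => ?_, e⟩
  rw [disjoint_iff]
  refine inf_eq_bot_of_prime_of_not_le ((hB i).2.elem h.prime).card_prime fun l => ?_
  obtain ⟨k, rfl⟩ : ∃ n, k = n + 1 := ⟨k - 1, by have := i.pos; omega⟩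
  refine m k (Nat.lt_succ_self k) ⟨fun j => B (i.succAbove j), fun j => hB _,
    le_antisymm (iSup_le fun j => (hB _).1) (e.ge.trans (iSup_le fun j => ?_))⟩
  have key : ∀ j, j ≠ i → B j ≤ ⨆ j, B (i.succAbove j) := fun j hj => by
    obtain ⟨j, rfl⟩ := Fin.exists_succAbove_eq hj
    exact le_iSup (fun j => B (i.succAbove j)) j
  by_cases hj : j = i
  · subst hj; exact l.trans (iSup₂_le key)
  · exact key j hj

end Cfsg.Agent.S0612
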