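import Cfsg.Statements.S0614
import Cfsg.Agent.Sig.OffD

set_option autoImplicit false
open Cfsg

namespace Cfsg.Agent.S0614

open CF.BG CF.Sig Subgroup in

/-- The commutator of the p'-core with a minimal nontrivially-acting best offender is a 3-group (when p = 2) or a non-abelian 2-group (when p = 3). -/
theorem result {G : Type*} [Group G] [Finite G] {p : ℕ} [Fact p.Prime] (V H : Subgroup G) (hV : Cfsg.IsElementaryAbelian p V) (hHV : H ≤ Subgroup.normalizer (V : Set G)) (hf : H ⊓ Subgroup.centralizer (V : Set G) = ⊥) (hS1 : Subgroup.centralizer (Cfsg.pPrimeCore p ↥H : Set ↥H) ≤ Cfsg.pPrimeCore p ↥H) (hS3 : H = ⨆ A : {A : Subgroup G // A ≤ H ∧ Cfsg.IsBestOffenderOn p V A}, (A : Subgroup G)) (hH1 : H ≠ ⊥) (A : Subgroup G) (hAH : A ≤ H) (hA : Cfsg.IsBestOffenderOn p V A) (hAV : ⁅V, A⁆ ≠ ⊥) (hmin : ∀ B : Subgroup G, B ≤ A → Cfsg.IsBestOffenderOn p V B → ⁅V, B⁆ ≠ ⊥ → B = A) : (p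 = 2 ∧ IsPGroup 3 ↥(⁅((Cfsg.pPrimeCore p ↥H).map H.subtype), A⁆)) ∨ (p = 3 ∧ IsPGroup 2 ↥(⁅((Cfsg.pPrimeCore p ↥H).map H.subtype), A⁆) ∧ ¬ IsMulCommutative ↥(⁅((Cfsg.pPrimeCore p ↥H).map H.subtype), A⁆)) := by
  have h := os_of Fact.out hV hHV hf hS1
  have t := h.tv_of_min hAH hA hAV hmin
  rw [map_pPrimeCore h.prime]
  rcases h.Bk_npc t with e | e
  · exact Or.inl ⟨e.1, (piGrp_of_card_prime Nat.prime_three e.2).isPGroup⟩
  · exact Or.inr ⟨e.1, (piGrp_of_card (k := 3) Nat.prime_two e.2.1).isPGroup,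
      fun c => e.2.2 (Abel.of_comm c)⟩

end Cfsg.Agent.S0614
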