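import Cfsg.Statements.S0615
import Cfsg.Agent.Sig.OffG

set_option autoImplicit false
open Cfsg

namespace Cfsg.Agent.S0615

open CF.BG CF.Sig Subgroup in

/-- Two subnormal subgroups acting irreducibly on their incomparable commutator modules, in a faithful group with trivial largest normal p-subgroup, generate their direct product, and the commutator module splits accordingly. -/
theorem result {G : Type*} [Group G] [Finite G] {p : ℕ} [Fact p.Prime] (V E E₁ E₂ : Subgroup G) (hV : Cfsg.IsElementaryAbelian p V) (hEV : E ≤ Subgroup.normalizer (V : Set G)) (hf : E ⊓ Subgroup.centralizer (V : Set G) = ⊥) (hgen : E = E₁ ⊔ E₂) (hs₁ : (E₁.subgroupOf E).IsSubnormal) (hs₂ : (E₂.subgroupOf E).IsSubnormal) (hOp : Cfsg.pCore p ↥E = ⊥) (hirr₁ : (∀ U : Subgroup G, U ≤ ⁅V, E₁⁆ → E₁ ≤ Subgroup.normalizer (U : Set G) → U = ⊥ ∨ U = ⁅V, E₁⁆))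 (hirr₂ : (∀ U : Subgroup G, U ≤ ⁅V, E₂⁆ → E₂ ≤ Subgroup.normalizer (U : Set G) → U = ⊥ ∨ U = ⁅V, E₂⁆)) (h12 : ¬ ⁅V, E₁⁆ ≤ ⁅V, E₂⁆) (h21 : ¬ ⁅V, E₂⁆ ≤ ⁅V, E₁⁆) (hc₁ : 2 < Nat.card E₁) (hc₂ : 2 < Nat.card E₂) : ⁅E₁, E₂⁆ = ⊥ ∧ E₁ ⊓ E₂ = ⊥ ∧ ⁅V, E₁⁆ ⊓ ⁅V, E₂⁆ = ⊥ ∧ ⁅V, E⁆ = ⁅V, E₁⁆ ⊔ ⁅V, E₂⁆ := by
  have hp : p.Prime := Fact.out
  have a := Abelem.of_isEA hp hV
  have l1 : E₁ ≤ E := hgen ▸ le_sup_left
  have l2 : E₂ ≤ E := hgen ▸ le_sup_right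
  obtain ⟨c, i⟩ := irr_pair hp a E E₁ E₂ hEV hf hgen (subN_of_isSubnormal l1 hs₁)
    (subN_of_isSubnormal l2 hs₂) (by rw [← map_pCore hp, hOp, Subgroup.map_bot]) hirr₁ hirr₂ h12 h21
    hc₁ hc₂
  refine ⟨c, eq_bot_mono hf (le_inf (inf_le_left.trans l1) (comm_eq_bot'.mp (eq_bot_mono i
    (le_inf (commutator_mono le_rfl inf_le_left) (commutator_mono le_rfl inf_le_right))))), i, ?_⟩
  rw [hgen, comm_sup_eq a.abel (l1.trans hEV) (l2.trans hEV)]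

end Cfsg.Agent.S0615
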