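import Cfsg.Statements.S0617
import Cfsg.Agent.Sig.OffD

set_option autoImplicit false
open Cfsg

namespace Cfsg.Agent.S0617

open CF.BG CF.Sig Subgroup in

/-- Structure Theorem for failure of factorization: a faithful group generated by best offenders, with self-centralizing p'-core, is a direct product of copies of SL(2, p) (p = 2 or 3), each acting on its own plane in V, which is the direct product of these planes and C_V(H). -/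
theorem result {G : Type*} [Group G] [Finite G] {p : ℕ} [Fact p.Prime] (V H : Subgroup G) (hV : Cfsg.IsElementaryAbelian p V) (hHV : H ≤ Subgroup.normalizer (V : Set G)) (hf : H ⊓ Subgroup.centralizer (V : Set G) = ⊥) (hS1 : Subgroup.centralizer (Cfsg.pPrimeCore p ↥H : Set ↥H) ≤ Cfsg.pPrimeCore p ↥H) (hS3 : H = ⨆ A : {A : Subgroup G // A ≤ H ∧ Cfsg.IsBestOffenderOn p V A}, (A : Subgroup G)) (hH1 : H ≠ ⊥) : (p = 2 ∨ p = 3) ∧ (∀ E : {E : Subgroup G // ∃ A : Subgroup G, A ≤ H ∧ Cfsg.IsBestOffenderOn p V A ∧ ⁅V, A⁆ ≠ ⊥ ∧ (∀ B : Subgroup G, B ≤ A → Cfsg.IsBestOffenderOn p V B → ⁅V, B⁆ ≠ ⊥ → B = A) ∧ E = ⁅((Cfsg.pPrimeCore p ↥H).map H.subtype), A⁆ ⊔ A}, H ≤ Subgroup.normalizer ((E : Subgroup G) : Set G) ∧ Nonempty (↥(E : Subgroup G) ≃* Matrix.SpecialLinearGroup (Fin 2) (ZMod p)) ∧ Nat.card ↥(⁅V, (E : Subgroup G)⁆) = p ^ 2) ∧ iSupIndep (fun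 E : {E : Subgroup G // ∃ A : Subgroup G, A ≤ H ∧ Cfsg.IsBestOffenderOn p V A ∧ ⁅V, A⁆ ≠ ⊥ ∧ (∀ B : Subgroup G, B ≤ A → Cfsg.IsBestOffenderOn p V B → ⁅V, B⁆ ≠ ⊥ → B = A) ∧ E = ⁅((Cfsg.pPrimeCore p ↥H).map H.subtype), A⁆ ⊔ A} => (E : Subgroup G)) ∧ (⨆ E : {E : Subgroup G // ∃ A : Subgroup G, A ≤ H ∧ Cfsg.IsBestOffenderOn p V A ∧ ⁅V, A⁆ ≠ ⊥ ∧ (∀ B : Subgroup G, B ≤ A → Cfsg.IsBestOffenderOn p V B → ⁅V, B⁆ ≠ ⊥ → B = A) ∧ E = ⁅((Cfsg.pPrimeCore p ↥H).map H.subtype), A⁆ ⊔ A}, (E : Subgroup G)) = H ∧ iSupIndep (fun o : Option {E : Subgroup G // ∃ A : Subgroup G, A ≤ H ∧ Cfsg.IsBestOffenderOn p V A ∧ ⁅V, A⁆ ≠ ⊥ ∧ (∀ B : Subgroup G, B ≤ A → Cfsg.IsBestOffenderOn p V B → ⁅V, B⁆ ≠ ⊥ → B = A) ∧ E = ⁅((Cfsg.pPrimeCore p ↥H).map H.subtype), A⁆ ⊔ A} => o.elim (V ⊓ Subgroup.centralizer (H : Set G)) (fun E => ⁅V, (E : Subgroup G)⁆)) ∧ (V ⊓ Subgroup.centralizer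 (H : Set G)) ⊔ (⨆ E : {E : Subgroup G // ∃ A : Subgroup G, A ≤ H ∧ Cfsg.IsBestOffenderOn p V A ∧ ⁅V, A⁆ ≠ ⊥ ∧ (∀ B : Subgroup G, B ≤ A → Cfsg.IsBestOffenderOn p V B → ⁅V, B⁆ ≠ ⊥ → B = A) ∧ E = ⁅((Cfsg.pPrimeCore p ↥H).map H.subtype), A⁆ ⊔ A}, ⁅V, (E : Subgroup G)⁆) = V := by
  have h := os_of Fact.out hV hHV hf hS1
  have g := h.le_sSup_of_gen hS3
  rw [map_pPrimeCore h.prime]
  have k1 : ∀ E : {E : Subgroup G // ∃ A : Subgroup G, A ≤ H ∧ Cfsg.IsBestOffenderOn p V A ∧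
      ⁅V, A⁆ ≠ ⊥ ∧ (∀ B : Subgroup G, B ≤ A → Cfsg.IsBestOffenderOn p V B → ⁅V, B⁆ ≠ ⊥ → B = A) ∧
      E = ⁅𝐎 {p}ᶜ H, A⁆ ⊔ A}, ∃ A, Tv p V H A ∧ E.1 = Bk p H A := by
    rintro ⟨E, A, a, b, c, d, e⟩
    exact ⟨A, h.tv_of_min a b c d, e⟩
  have k2 : ∀ A, Tv p V H A → ∃ A' : Subgroup G, A' ≤ H ∧ Cfsg.IsBestOffenderOn p V A' ∧
      ⁅V, A'⁆ ≠ ⊥ ∧ (∀ B : Subgroup G, B ≤ A' → Cfsg.IsBestOffenderOn p V B → ⁅V, B⁆ ≠ ⊥ → B = A') ∧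
      Bk p H A = ⁅𝐎 {p}ᶜ H, A'⁆ ⊔ A' := fun A t =>
    ⟨A, t.le, (h.min_of_tv t).1, (h.min_of_tv t).2.1, (h.min_of_tv t).2.2, rfl⟩
  have d := h.dprod_sSup (S := {T | Tv p V H T}) fun _ t => t
  have e1 : sSup (Bk p H '' {T | Tv p V H T}) = H := le_antisymm
    (sSup_le (by rintro _ ⟨T, t, rfl⟩; exact h.Bk_le t))
    (g.trans (sSup_le fun T t => (le_Bk p H T).trans (le_sSup ⟨T, t, rfl⟩)))
  rw [e1] at d
  refine ⟨?_, fun E => ?_, fun E => ?_, ?_, fun o => ?_, ?_⟩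
  · by_contra c
    exact hH1 (le_bot_iff.mp (g.trans (sSup_le fun T t => (c (h.two_or_three t)).elim)))
  · obtain ⟨A, t, e⟩ := k1 E
    rw [e]
    exact ⟨h.norm_Bk_of t g, h.Bk_equiv t, h.Bk_card_W t⟩
  · obtain ⟨A, t, e⟩ := k1 E
    rw [disjoint_iff]
    refine eq_bot_mono (h.Bk_faith t) (inf_le_inf e.le (iSup₂_le fun E' hE => ?_))
    obtain ⟨B, s, e'⟩ := k1 E'
    refine e'.le.trans (cent_symm (h.W_cent_of_ne t s fun e2 => hE (Subtype.ext ?_)))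
    rw [e, e', e2]
  · refine le_antisymm (iSup_le fun E => ?_) (e1.ge.trans (sSup_le ?_))
    · obtain ⟨A, t, e⟩ := k1 E
      exact e.le.trans (h.Bk_le t)
    · rintro _ ⟨T, t, rfl⟩
      exact le_iSup_of_le ⟨_, k2 T t⟩ le_rfl
  · rw [disjoint_iff]
    rcases o with _ | E
    · refine eq_bot_mono d.inf (inf_le_inf le_rfl (iSup₂_le fun o ho => ?_))
      rcases o with _ | E
      · exact (ho rfl).elim
      · obtain ⟨A, t, e⟩ := k1 E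
        exact le_sSup ⟨A, t, by simp [e]⟩
    · obtain ⟨A, t, e⟩ := k1 E
      refine eq_bot_mono (h.Bk_inf_cent t) (inf_le_inf (by simp [e]) (iSup₂_le fun o ho => ?_))
      rcases o with _ | E'
      · exact inf_le_right.trans (cent_anti (h.Bk_le t))
      · obtain ⟨B, s, e'⟩ := k1 E'
        refine le_trans (by simp [e']) (h.W_cent_of_ne s t fun e2 => ho ?_)
        rw [Option.some.injEq]
        exact Subtype.ext (by rw [e, e', e2])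
  · refine le_antisymm (sup_le inf_le_left (iSup_le fun E => ?_)) (d.sup.ge.trans
      (sup_le_sup_left (sSup_le ?_) _))
    · obtain ⟨A, t, e⟩ := k1 E
      rw [e]; exact h.Bk_W t
    · rintro _ ⟨T, t, rfl⟩
      exact le_iSup_of_le ⟨_, k2 T t⟩ le_rfl

end Cfsg.Agent.S0617
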