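import Cfsg.Statements.S0619
import Cfsg.Agent.Sig.OffF

set_option autoImplicit false
open Cfsg

namespace Cfsg.Agent.S0619

open CF.BG CF.Sig Subgroup in

/-- For a p-separable group and a normal elementary abelian p-subgroup V with no nontrivial normal p-subgroup modulo its centralizer C, the Thompson subgroup J(G) moves Ω₁(Z(J(C))) only inside V. -/
theorem result {G : Type*} [Group G] [Finite G] {p : ℕ} [Fact p.Prime] (hsep : Cfsg.IsPSolvable p G) (V : Subgroup G) [V.Normal] (hV : Cfsg.IsElementaryAbelian p V) (hO : Cfsg.pCore p (G ⧸ Subgroup.centralizer (V : Set G)) = ⊥) : ⁅Cfsg.omegaOne p (Cfsg.centerThompsonOf p (Subgroup.centralizer (V : Set G))), Cfsg.thompsonSubgroup p G⁆ ≤ V := by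
  have hp : p.Prime := Fact.out
  have a := Abelem.of_isEA hp hV
  have h := os_hol hp a (CF.Solv.isPSolvable_subgroup hsep ⊤) (red_of_pCore hp hO)
  have nV : ∀ X : Subgroup G, X ≤ 𝐍 V := fun X =>
    le_top.trans (normalIn_top.mpr inferInstance).norm
  rw [← CF.PLocal.thompsonSubgroupOf_top, commutator_comm]
  refine (le_centMod.mp (CF.PLocal.thompson_le_iff.mpr fun A hA => le_centMod.mpr ⟨nV A, ?_⟩)).2
  have m := CF.PLocal.mem_maxAb_of_le (baumann_maxAb h a le_top le_rfl hA)
    (sup_le inf_le_right a.abel) le_top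
  refine (commutator_mono le_rfl (CF.PLocal.omega_centerThompson_le_of_mem_maxAb m)).trans
    (comm_sup_le' ?_ (comm_le_right (nV A)) (nV _) (nV _))
  rw [comm_eq_bot.mpr ((abelem_of_maxAb hp hA).abel.cent le_rfl inf_le_left)]
  exact bot_le

end Cfsg.Agent.S0619
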