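import Cfsg.Statements.S0620
import Cfsg.Agent.Sig.OffF

set_option autoImplicit false
open Cfsg

namespace Cfsg.Agent.S0620

open CF.BG CF.Sig Subgroup in

/-- Under coprime action of an elementary abelian q-group X on a p-separable group K with trivial p'-core, K is generated by the normalizer of J(S), the centralizer of Ω₁(Z(S)) and the fixed points of X. -/
theorem result {G : Type*} [Group G] [Finite G] {p : ℕ} [Fact p.Prime] {q : ℕ} [Fact q.Prime] (K X : Subgroup G) (hXK : X ≤ Subgroup.normalizer (K : Set G)) (hX : Cfsg.IsElementaryAbelian q X) (hq : ¬ q ∣ Nat.card K) (hsep : Cfsg.IsPSolvable p ↥K) (hO : Cfsg.pPrimeCore p ↥K = ⊥) (S : Sylow p ↥K) : (Subgroup.normalizer (Cfsg.thompsonSubgroupOf p (S : Subgroup ↥K) : Set ↥K) ⊔ Subgroup.centralizer (Cfsg.omegaOne p ((S : Subgroup ↥K) ⊓ Subgroup.centralizer ((S : Subgroup ↥K) : Set ↥K)) : Set ↥K) ⊔ (Subgroup.centralizer (X : Set G)).subgroupOf K) = ⊤ := by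
  have hp : p.Prime := Fact.out
  have hq' : q.Prime := Fact.out
  have a := Abelem.of_isEA hq' hX
  have i := K.subtype_injective
  have h := ft2_char hp hsep (cent_O_le_of_psol hp hsep hO) hXK
    (a.pi.coprime ((piNat_compl_single hq').mpr hq)) (Or.inl a.abel.sol) (syl_sylow S)
  rw [eq_top_iff, ← map_le_map_iff_of_injective i, map_top_subtype, Subgroup.map_sup,
    Subgroup.map_sup]
  refine h.trans (sup_le (sup_le (le_sup_of_le_left (le_sup_of_le_right ?_))
    (le_sup_of_le_left (le_sup_of_le_left ?_))) (le_sup_of_le_right ?_))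
  · rw [← map_inf_cent i, ← map_Om _ _ i]
    conv_lhs => lhs; rw [← map_top_subtype K]
    rw [← map_inf_cent i, top_inf_eq]
  · rw [← map_J _ _ i]
    conv_lhs => lhs; rw [← map_top_subtype K]
    rw [← map_inf_norm i, top_inf_eq]
  · rw [subgroupOf_map_subtype, inf_comm]

end Cfsg.Agent.S0620
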