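import Cfsg.Statements.S0621
import Cfsg.Agent.Sig.OffF

set_option autoImplicit false
open Cfsg

namespace Cfsg.Agent.S0621

open CF.BG CF.Sig Subgroup in

/-- Let K be p-separable with O_p'(K) = 1, normalized by an elementary abelian q-group X for a prime q not dividing the order of K. If the Thompson factorization fails in K, then p is 2 or 3 and the fixed points of X contain a plane W of order p² and a subgroup inducing SL(2, p) on it. -/
theorem result {G : Type*} [Group G] [Finite G] {p : ℕ} [Fact p.Prime] {q : ℕ} [Fact q.Prime] (K X : Subgroup G) (hXK : X ≤ Subgroup.normalizer (K : Set G)) (hX : Cfsg.IsElementaryAbelian q X) (hq : ¬ q ∣ Nat.card K) (hsep : Cfsg.IsPSolvable p ↥K) (hO : Cfsg.pPrimeCore p ↥K = ⊥) (hnf : ¬ Cfsg.IsThompsonFactorizable p ↥K) : (p = 2 ∨ p = 3) ∧ ∃ W D : Subgroup G, W ≤ K ⊓ Subgroup.centralizer (X : Set G) ∧ D ≤ K ⊓ Subgroup.centralizer (X : Set G) ∧ Cfsg.IsElementaryAbelian p W ∧ Nat.card W = p ^ 2 ∧ D ≤ Subgroup.normalizer (W : Set G) ∧ ∃ hn : ((Subgroup.centralizer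 (W : Set G)).subgroupOf D).Normal, Nonempty ((↥D ⧸ (Subgroup.centralizer (W : Set G)).subgroupOf D) ≃* Matrix.SpecialLinearGroup (Fin 2) (ZMod p)) := by
  have hp : p.Prime := Fact.out
  have hq' : q.Prime := Fact.out
  have a := Abelem.of_isEA hq' hX
  have i := K.subtype_injective
  have c := cent_O_le_of_psol hp hsep hO
  rw [CF.PLocal.isThompsonFactorizable_iff hO] at hnf
  obtain ⟨h1, W, D, h2, h3, h4, h5, h6⟩ := diag_SL2 (abelem_ZV c) hsep (red_ZV p K)
    (ZV_normal p K).norm (hXK.trans (norm_ZV p K)) hXK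
    (a.pi.coprime ((piNat_compl_single hq').mpr hq)) (Or.inl a.abel.sol) (ZV_le p K) le_rfl (by
      intro e
      refine hnf ((map_cent_iff i).mp (le_trans ?_ (e.trans (cent_anti ?_))))
      · exact le_rfl
      · rw [map_le_iff_le_comap]
        refine iSup_le fun S => ?_
        rw [← map_le_iff_le_comap, map_Om _ _ i, map_inf_cent i]
        exact Hall.le_ZV (syl_sylow S))
  exact ⟨h1, W, D, h2.trans (inf_le_inf_right _ (ZV_le p K)), h4,
    ((abelem_ZV c).le (h2.trans inf_le_left)).isEA, h3, h5, h6⟩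

end Cfsg.Agent.S0621
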