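import Cfsg.Statements.S0629
import Cfsg.Agent.PLocal.Constraint

set_option autoImplicit false
open Cfsg

namespace Cfsg.Agent.S0629

/-- A group in which the centralizer of a Sylow p-subgroup of O_{p',p}(G) is p-solvable is p-constrained. -/
theorem result {G : Type*} [Group G] [Finite G] {p : ℕ} [Fact p.Prime] (P : Sylow p ↥(Cfsg.pPrimePCore p G)) (hsol : Cfsg.IsPSolvable p ↥(Subgroup.centralizer (((P : Subgroup ↥(Cfsg.pPrimePCore p G)).map (Cfsg.pPrimePCore p G).subtype : Subgroup G) : Set G))) : Cfsg.IsPConstrained p G := by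
  have hP := CF.Transfer.isSylowIn_map_sylow P
  rw [CF.PLocal.isPConstrained_iff]
  have h1 := CF.Solv.isPSolvable_of_surjective hsol (MonoidHom.subgroupMap_surjective
    (QuotientGroup.mk' (Cfsg.pPrimeCore p G)) _)
  rw [CF.PLocal.map_centralizer_of_coprime hP.isPGroup _ CF.Solv.pPrimeCore_coprime,
    CF.PLocal.map_mk'_eq_pCore hP] at h1
  have h0 := CF.Solv.pPrimeCore_quotient_pPrimeCore (p := p) (G := G)
  rw [CF.Solv.pPrimeCore_eq_piCore (Fact.out : p.Prime) (G ⧸ Cfsg.pPrimeCore p G)] at h0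
  rw [CF.Solv.pCore_eq_piCore] at h1 ⊢
  exact CF.Solv.IsPiSep.le_piCore_of_le_centralizer h0 (CF.Solv.isPSolvable_iff_isPiSep.mp h1) le_rfl

end Cfsg.Agent.S0629
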