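import Cfsg.Statements.S0632
import Cfsg.Agent.PLocal.Constraint

set_option autoImplicit false
open Cfsg

namespace Cfsg.Agent.S0632

/-- For a group with a nontrivial normal p-subgroup, p-stability passes to and from the quotient by the largest normal subgroup of order prime to p. -/
theorem result {G : Type*} [Group G] [Finite G] {p : ℕ} [Fact p.Prime] (hO : Cfsg.pCore p G ≠ ⊥) : Cfsg.IsPStable p G ↔ Cfsg.IsPStable p (G ⧸ Cfsg.pPrimeCore p G) := by
  rw [CF.PLocal.isPStable_iff,
    CF.PLocal.isPStable_iff_of_eq_bot CF.Solv.pPrimeCore_quotient_pPrimeCore]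
  refine and_congr_right fun _ => and_congr_left fun _ => ⟨fun _ h => hO ?_, fun _ => hO⟩
  have h1 := CF.Solv.pCore_map_le (p := p) (QuotientGroup.mk'_surjective (Cfsg.pPrimeCore p G))
  rw [h, le_bot_iff, CF.Solv.map_mk'_eq_bot_iff] at h1
  rw [← CF.Solv.pCore_inf_pPrimeCore (p := p), inf_eq_left.mpr h1]

end Cfsg.Agent.S0632
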