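import Mathlib
import Cfsg.Agent.Fgs2.HHB
import Cfsg.Statements.S0633

set_option autoImplicit false
open Cfsg

namespace Cfsg.Agent.S0633

open CF.Fgs2 Subgroup Module Polynomial TensorProduct

/-- Theorem B of Hall and Higman on the minimal polynomial of a p-element of order p^n in a p-solvable linear group on a nonzero vector space in characteristic p with no nontrivial normal p-subgroup: its degree is p^n, except when some p^n₀ - 1 (n₀ ≤ n) is a power of a prime q for which the Sylow q-subgroups are non-abelian, in which case the degree is at least p^(n-n₀)(p^n₀ - 1). -/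
theorem result {F : Type*} [Field F] {p : ℕ} [Fact p.Prime] [CharP F p] {V : Type*} [AddCommGroup V] [Module F V] [FiniteDimensional F V] [Nontrivial V] (H : Subgroup (V ≃ₗ[F] V)) [Finite H] (hsol : Cfsg.IsPSolvable p H) (hOp : Cfsg.pCore p H = ⊥) (x : V ≃ₗ[F] V) (hx : x ∈ H) (n : ℕ) (hn : orderOf x = p ^ n) (r : ℕ) (hr : minpoly F (x : Module.End F V) = (Polynomial.X - 1) ^ r) : r = p ^ n ∨ ∃ n₀ q m : ℕ, 1 ≤ n₀ ∧ n₀ ≤ n ∧ q.Prime ∧ 1 ≤ m ∧ p ^ n₀ - 1 = q ^ m ∧ (∀ Q : Sylow q H, ¬ IsMulCommutative Q) ∧ p ^ (n - n₀) * (p ^ n₀ - 1) ≤ r := by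
  have hp : p.Prime := Fact.out
  have hx1 : (x : End F V) ^ p ^ n = 1 := by
    have := congrArg (LinearEquiv.automorphismGroup.toLinearMapMonoidHom (R := F) (M := V))
      (hn ▸ pow_orderOf_eq_one x)
    rwa [map_pow, map_one] at this
  have hle : r ≤ p ^ n := by
    have h1 : minpoly F (x : End F V) ∣ (X - 1) ^ p ^ n := minpoly.dvd _ _ (by
      rw [sub_pow_char_pow, one_pow, map_sub, map_pow, aeval_X, hx1, map_one, sub_self])
    rw [hr] at h1
    exact (pow_dvd_pow_iff (by simpa using X_sub_C_ne_zero (1 : F))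
      (by simpa using not_isUnit_X_sub_C (1 : F))).1 h1
  rcases n with _ | l
  · left
    have h1 : x = 1 := orderOf_eq_one_iff.1 (by simpa using hn)
    have h2 := minpoly.natDegree_pos (A := F) (x := (x : End F V)) (Algebra.IsIntegral.isIntegral _)
    rw [hr] at h2
    have : r ≠ 0 := fun e => by simp [e] at h2
    simp only [pow_zero] at hle ⊢
    omega
  let K := AlgebraicClosure F
  let ι : (V ≃ₗ[F] V) →* End F V := LinearEquiv.automorphismGroup.toLinearMapMonoidHom
  let ρ : H →* End K (K ⊗[F] V) :=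
    ((End.baseChangeHom F K V : End F V →* End K (K ⊗[F] V)).comp ι).comp H.subtype
  have hρ : Function.Injective ρ :=
    ((LinearMap.baseChangeHom_injective F V K).comp LinearEquiv.toLinearMap_injective).comp
      H.subtype_injective
  have ho : orderOf (⟨x, hx⟩ : H) = p ^ (l + 1) := by rw [← hn, ← orderOf_coe]
  have hg : ((X - 1) ^ r : K[X]) ≠ 0 := pow_ne_zero _ (by simpa using X_sub_C_ne_zero (1 : K))
  have hd : ((X - 1) ^ r : K[X]).natDegree = r := by
    rw [natDegree_pow, ← C_1, natDegree_X_sub_C, mul_one]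
  have he : aeval (ρ ⟨x, hx⟩) ((X - 1) ^ r : K[X]) = 0 := by
    have h1 := congrArg (End.baseChangeHom F K V) (minpoly.aeval F (x : End F V))
    rw [hr, map_zero] at h1
    simp only [map_pow, map_sub, aeval_X, map_one] at h1 ⊢
    exact h1
  rcases hh_lin hsol hOp hρ (x := ⟨x, hx⟩) (l := l) (ho ▸ pow_orderOf_eq_one _) (fun e =>
    absurd (Nat.le_of_dvd (pow_pos hp.pos _) (ho ▸ orderOf_dvd_of_pow_eq_one e))
      (not_le.2 (Nat.pow_lt_pow_right hp.one_lt l.lt_succ_self))) with h | h
  · exact Or.inl (le_antisymm hle (hd ▸ h _ hg he))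
  · obtain ⟨q, m, s, Q, hQ, hc, hm, hs, h1, h2⟩ := h
    haveI := Fact.mk hQ.prime
    refine Or.inr ⟨l + 1 - s, q, m, by omega, by omega, hQ.prime, hm, by omega, fun S hS => ?_, ?_⟩
    · obtain ⟨T, hT⟩ := hQ.pi.exists_le_sylow
      obtain ⟨g, rfl⟩ := MulAction.exists_smul_eq H S T
      refine hc (CF.BG.Abel.comm (CF.BG.Abel.mono ?_ hT))
      exact (CF.BG.Abel.of_comm hS).map _
    · rw [show l + 1 - (l + 1 - s) = s by omega, ← h1, Nat.add_sub_cancel, ← hd]
      exact h2 _ hg he

end Cfsg.Agent.S0633
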