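import Cfsg.Statements.S0635
import Cfsg.Agent.PLocal.Constraint

set_option autoImplicit false
open Cfsg

namespace Cfsg.Agent.S0635

/-- The p-length of a p-soluble group is at most the nilpotency class of its Sylow p-subgroups. -/
theorem result {G : Type*} [Group G] [Finite G] {p : ℕ} [Fact p.Prime] (hsol : Cfsg.IsPSolvable p G) (S : Sylow p G) : Cfsg.PLengthLE p (Group.nilpotencyClass ↥(S : Subgroup G)) G := by
  have := S.isPGroup'.isNilpotent
  have key : ∀ i : ℕ, (Subgroup.upperCentralSeries (S : Subgroup G) i).map (S : Subgroup G).subtype ≤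
      (Cfsg.upperPSeries p G (2 * i)).1 := by
    intro i
    induction i with
    | zero => simp
    | succ i ih =>
      rintro _ ⟨z, hz, rfl⟩
      rw [show 2 * (i + 1) = 2 * i + 2 from rfl, CF.PLocal.upperPSeries_odd]
      refine CF.PLocal.charP_quotient_upperPSeries hsol i ?_
      have h1 : (Cfsg.upperPSeries p G (2 * i)).1 ≤ (Cfsg.upperPSeries p G (2 * i + 1)).1 := by
        rw [CF.PLocal.upperPSeries_even]
        exact CF.Solv.le_comap_mk' _ _
      refine CF.PLocal.centralizer_anti ((CF.PLocal.isSylowIn_map_mk'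
        (CF.Transfer.isSylowIn_top S) _).le_of_normalized CF.Solv.pCore_isPGroup le_top
        Subgroup.le_normalizer_of_normal) ?_
      rintro _ ⟨y, hy, rfl⟩
      have h2 := h1 (ih (Subgroup.mem_map_of_mem _
        (Subgroup.mem_upperCentralSeries_succ_iff.mp hz ⟨y, hy⟩)))
      rw [← map_mul, ← map_mul, QuotientGroup.mk'_apply, QuotientGroup.mk'_apply, eq_comm,
        QuotientGroup.eq_iff_div_mem, div_eq_mul_inv, mul_inv_rev, ← mul_assoc]
      exact h2
  have h1 := key (Group.nilpotencyClass ↥(S : Subgroup G))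
  rw [Subgroup.upperCentralSeries_nilpotencyClass, ← MonoidHom.range_eq_map,
    Subgroup.range_subtype] at h1
  unfold Cfsg.PLengthLE
  rw [CF.PLocal.upperPSeries_even, CF.Solv.pPrimeCore_eq_top_iff.mpr, Subgroup.comap_top]
  exact ((Nat.Prime.coprime_iff_not_dvd Fact.out).mpr fun h =>
    S.not_dvd_index (h.trans (Subgroup.index_dvd_of_le h1))).symm

end Cfsg.Agent.S0635
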