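import Cfsg.Statements.S0637
import Cfsg.Agent.BG2.P4b

set_option autoImplicit false
open Cfsg

namespace Cfsg.Agent.S0637

/-- For p greater than 3, the bound p² on the order of the subgroup generated by the elements of order dividing p passes from a p-group to all its quotients. -/
theorem result {R : Type*} [Group R] [Finite R] {p : ℕ} [Fact p.Prime] (hp : 3 < p) (hR : IsPGroup p R) (hO : Nat.card ↥(Cfsg.omegaOne p (⊤ : Subgroup R)) ≤ p ^ 2) (T : Subgroup R) [T.Normal] : Nat.card ↥(Cfsg.omegaOne p (⊤ : Subgroup (R ⧸ T))) ≤ p ^ 2 := by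
  have hpp : p.Prime := Fact.out
  have k := CF.BG2.piGrp_top hpp hR
  have hT : CF.BG.NormalIn T ⊤ := CF.BG.normalIn_top.2 inferInstance
  have h1 := CF.BG2.logn_Om_qt_le hpp hp k hT
    (CF.BG2.logn_le_of_card_le (k.le (CF.BG.Om_le _ _)) hpp hO)
  have h2 := CF.BG2.card_le_pow_of_logn ((k.qt T).le (CF.BG.Om_le _ _)) h1 hpp
  obtain ⟨e⟩ := CF.BG.iso_of_ker_eq (f := CF.BG.qtHom hT.norm)
    (g := (QuotientGroup.mk' T).comp (⊤ : Subgroup R).subtype) (CF.BG.qtHom_surj _)
    ((QuotientGroup.mk'_surjective T).comp fun x => ⟨⟨x, trivial⟩, rfl⟩) (by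
      rw [CF.BG.qtHom_ker, ← MonoidHom.comap_ker, QuotientGroup.ker_mk']; rfl)
  let f : R ⧸ T →* CF.BG.Quo T := (CF.BG.qt T ⊤).subtype.comp e.symm.toMonoidHom
  have hf : Function.Injective f := (Subgroup.subtype_injective _).comp e.symm.injective
  rw [← CF.BG.card_map hf, CF.BG.map_Om _ _ hf]
  refine le_trans (CF.BG.card_le (CF.BG.Om_mono p ?_)) h2
  rintro _ ⟨x, -, rfl⟩
  exact (e.symm x).2

end Cfsg.Agent.S0637
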