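import Cfsg.Statements.S0640
import Cfsg.Agent.BG2.P4c
import Cfsg.Agent.Coprime.Action

set_option autoImplicit false
open Cfsg

namespace Cfsg.Agent.S0640

/-- For odd p, a prime q ≠ p dividing the order of the automorphism group of a p-group of rank at most 2 divides p² - 1 and is less than p. -/
theorem result {R : Type*} [Group R] [Finite R] {p : ℕ} [Fact p.Prime] (hp : p ≠ 2) (hR : IsPGroup p R) (hrk : Cfsg.PRankLE p 2 R) (q : ℕ) (hq : q.Prime) (hqp : q ≠ p) (hdvd : q ∣ Nat.card (MulAut R)) : q ∣ p ^ 2 - 1 ∧ q < p := by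
  have hpp : p.Prime := Fact.out
  let φ : MulAut R →* MulAut R := MonoidHom.id _
  have k : CF.BG.PiGrp {p} (CF.Coprime.sdL φ ⊤) :=
    CF.BG.piGrp_of_isPGroup hpp ((CF.Coprime.isPGroup_sdL_iff φ).2 (hR.to_subgroup ⊤))
  have r : CF.BG.pRank p (CF.Coprime.sdL φ ⊤) ≤ 2 := by
    rw [CF.BG.pRank_map p ⊤ SemidirectProduct.inl_injective]
    exact (CF.BG.pRankLE_top_iff hpp).1 hrk
  refine CF.BG2.dvd_of_dvd_relIndex_cent hpp hp k r (A := CF.Coprime.sdR φ ⊤)
    (CF.Coprime.inv_top φ ⊤).le_normalizer hq hqp ?_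
  rw [CF.BG.relIndex_of_inf_bot, CF.Coprime.card_sdR, Subgroup.card_top]
  · exact hdvd
  · rw [eq_bot_iff]
    rintro _ ⟨h1, σ, -, rfl⟩
    have h2 : CF.Coprime.sdR φ (Subgroup.zpowers σ) ≤
        Subgroup.centralizer (CF.Coprime.sdL φ ⊤ : Set _) := by
      rw [CF.Coprime.sdR, MonoidHom.map_zpowers, Subgroup.zpowers_le]; exact h1
    rw [CF.Coprime.sdR_le_centralizer_iff] at h2
    have h3 : σ = 1 := MulEquiv.ext fun x =>
      (CF.Coprime.mem_fixSub_zpowers φ).1 (h2 (Subgroup.mem_top x))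
    simp [h3]

end Cfsg.Agent.S0640
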