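import Mathlib
import Cfsg.Agent.Fgs2.Regular
import Cfsg.Agent.Solv.FrattiniP
import Cfsg.Statements.S0642

set_option autoImplicit false
open Cfsg

namespace Cfsg.Agent.S0642

/-- Among finite 2-groups the regular ones are exactly the abelian ones. -/
theorem result {G : Type*} [Group G] [Finite G] (hG : IsPGroup 2 G) : Cfsg.IsRegularPGroup 2 G ↔ ∀ a b : G, a * b = b * a := by
  constructor
  · intro h a b
    have hR := CF.Fgs2.reg1_of_isRegular h
    set H := Subgroup.closure ({a, b} : Set G) with hH
    let a' : H := ⟨a, Subgroup.subset_closure (by simp)⟩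
    let b' : H := ⟨b, Subgroup.subset_closure (by simp)⟩
    have htop : Subgroup.closure {a', b'} = ⊤ := CF.Fgs2.closure_pair_mk_eq_top a b
    have h1 := hR.subgroup H a' b'
    rw [htop] at h1
    set D := ⁅(⊤ : Subgroup H), (⊤ : Subgroup H)⁆ with hD
    have h2 : D ≤ powerClosure 2 1 D := by
      conv_lhs => rw [hD, ← htop]
      apply CF.Fgs2.commutator_closure_pair_le
      have := (inferInstance : (powerClosure 2 1 D).Normal).conj_mem _ (inv_mem h1) (b' * a' * b')
      convert this using 1
      simp only [commutatorElement_def, pow_two]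
      group
    have hp : IsPGroup 2 D := (hG.to_subgroup H).to_subgroup D
    have h3 : D ≤ (frattini D).map D.subtype := h2.trans (CF.Fgs2.powerClosure_le_iff.2
      fun x hx => by simpa using CF.Solv.pow_mem_map_frattini hp hx)
    have h4 : D = ⊥ := by
      by_contra h
      exact (CF.Solv.map_frattini_lt h).not_ge h3
    have h5 : a' * b' = b' * a' := by
      rw [← commutatorElement_eq_one_iff_mul_comm, ← Subgroup.mem_bot, ← h4]
      exact Subgroup.commutator_mem_commutator trivial trivial
    exact congrArg Subtype.val h5
  · intro h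
    refine CF.Fgs2.Reg1.isRegular (fun a b => ?_) hG
    rw [Commute.mul_pow (h a b), inv_mul_cancel]
    exact one_mem _

end Cfsg.Agent.S0642
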