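import Mathlib
import Cfsg.Agent.Fgs2.Regular
import Cfsg.Statements.S0643

set_option autoImplicit false
open Cfsg

namespace Cfsg.Agent.S0643

/-- Kemhadze's criterion: a finite p-group is regular exactly when (ab)^p = a^p b^p c^p always holds for some c in the derived subgroup of the subgroup generated by a and b. -/
theorem result {G : Type*} [Group G] [Finite G] {p : ℕ} [Fact p.Prime] (hG : IsPGroup p G) : Cfsg.IsRegularPGroup p G ↔ ∀ a b : G, ∃ c ∈ ⁅Subgroup.closure ({a, b} : Set G), Subgroup.closure ({a, b} : Set G)⁆, (a * b) ^ p = a ^ p * b ^ p * c ^ p := by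
  constructor
  · intro h a b
    have hR := CF.Fgs2.reg1_of_isRegular h
    obtain ⟨c, hc, h1⟩ := (hR.mem_powerClosure_iff hG).1 (hR a b)
    exact ⟨c, hc, by rw [pow_one] at h1; rw [← h1]; group⟩
  · intro h
    refine CF.Fgs2.Reg1.isRegular (fun a b => ?_) hG
    obtain ⟨c, hc, h1⟩ := h a b
    rw [h1, inv_mul_cancel_left]
    simpa using CF.Fgs2.pow_mem_powerClosure (p := p) (n := 1) hc

end Cfsg.Agent.S0643
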