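import Mathlib
import Cfsg.Agent.Fgs2.Regular
import Cfsg.Statements.S0644

set_option autoImplicit false
open Cfsg

namespace Cfsg.Agent.S0644

/-- In a regular p-group the p^n-th powers of the elements of any subgroup H form a subgroup, whose derived subgroup is contained in the subgroup generated by the p^n-th powers of elements of the derived subgroup of H. -/
theorem result {G : Type*} [Group G] [Finite G] {p : ℕ} [Fact p.Prime] (hG : Cfsg.IsRegularPGroup p G) (H : Subgroup G) (n : ℕ) : {y : G | ∃ x ∈ H, y = x ^ (p ^ n)} = (Cfsg.powerClosure p n H : Set G) ∧ ⁅Cfsg.powerClosure p n H, Cfsg.powerClosure p n H⁆ ≤ Cfsg.powerClosure p n ⁅H, H⁆ := by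
  have hR := CF.Fgs2.reg1_of_isRegular hG
  refine ⟨Set.ext fun y => (hR.mem_powerClosure_iff hG.1).symm, ?_⟩
  rw [Subgroup.commutator_le]
  intro a ha b hb
  obtain ⟨x, hx, rfl⟩ := (hR.mem_powerClosure_iff hG.1).1 ha
  have hb' := CF.Fgs2.powerClosure_le n H hb
  set N := powerClosure p n ⁅(⊤ : Subgroup H), (⊤ : Subgroup H)⁆ with hN
  have h1 := (((hR.subgroup H).quotient N).commute_iff ((hG.1.to_subgroup H).to_quotient N) n
    (QuotientGroup.mk' N ⟨x, hx⟩) (QuotientGroup.mk' N ⟨b, hb'⟩)).2 (by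
      rw [← map_inv, ← map_inv, ← map_mul, ← map_mul, ← map_mul, ← map_pow]
      refine (QuotientGroup.eq_one_iff _).2 (CF.Fgs2.pow_mem_powerClosure ?_)
      have := Subgroup.commutator_mem_commutator (H₁ := ⊤) (H₂ := ⊤) (g₁ := (⟨x, hx⟩ : H)⁻¹)
        (g₂ := (⟨b, hb'⟩ : H)⁻¹) trivial trivial
      rwa [commutatorElement_def, inv_inv, inv_inv] at this)
  rw [← commutatorElement_eq_one_iff_mul_comm, ← map_pow, ← map_commutatorElement] at h1
  have h2 := Subgroup.mem_map_of_mem H.subtype ((QuotientGroup.eq_one_iff _).1 h1)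
  rwa [hN, CF.Fgs2.map_powerClosure, Subgroup.map_commutator, ← MonoidHom.range_eq_map,
    Subgroup.range_subtype] at h2

end Cfsg.Agent.S0644
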