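import Cfsg.Statements.S0646
import Cfsg.Agent.Solv.CyclicMax

set_option autoImplicit false
open Cfsg

namespace Cfsg.Agent.S0646

/-- Classification of non-abelian 2-groups with a cyclic maximal subgroup: dihedral, generalized quaternion, and for order at least 16 the modular group and the semidihedral group, each given by generators a (of index 2) and b with the stated relations. -/
theorem result {G : Type*} [Group G] [Finite G] (n : ℕ) (hn : 3 ≤ n) (hG : Nat.card G = 2 ^ n) (C : Subgroup G) (hC : IsCyclic C) (hCi : C.index = 2) (hna : ∃ x y : G, x * y ≠ y * x) : ∃ a b : G, orderOf a = 2 ^ (n - 1) ∧ b ∉ Subgroup.zpowers a ∧ ((b ^ 2 = 1 ∧ b * a * b⁻¹ = a⁻¹) ∨ (b ^ 2 = a ^ (2 ^ (n - 2)) ∧ b * a * b⁻¹ = a⁻¹) ∨ (4 ≤ n ∧ b ^ 2 = 1 ∧ b * a * b⁻¹ = a ^ (1 + 2 ^ (n - 2))) ∨ (4 ≤ n ∧ b ^ 2 = 1 ∧ b * a * b⁻¹ = a ^ (2 ^ (n - 2) - 1))) := by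
  obtain ⟨m, rfl⟩ : ∃ m, n = m + 1 := ⟨n - 1, by omega⟩
  obtain ⟨-, a, c, -, ha, hc, h | ⟨-, h | h | h⟩⟩ :=
    CF.Solv.cyclic_index_prime_cases (p := 2) hG hC hCi hna
  · exact ⟨a, c, ha, hc, Or.inr (Or.inr (Or.inl ⟨by have := h.2.2 rfl; omega, h.1, h.2.1⟩))⟩
  · exact ⟨a, c, ha, hc, Or.inl h⟩
  · exact ⟨a, c, ha, hc, Or.inr (Or.inl h)⟩
  · exact ⟨a, c, ha, hc, Or.inr (Or.inr (Or.inr ⟨by have := h.1; omega, h.2⟩))⟩

end Cfsg.Agent.S0646
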