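import Cfsg.Statements.S0658
import Cfsg.Agent.PLocal.Constraint

set_option autoImplicit false
open Cfsg

namespace Cfsg.Agent.S0658

open Subgroup CF.Transfer CF.PLocal

/-- In a group of characteristic p type all of whose p-locals are p-stable (p odd), the normalizer of Z(J(P)) contains the normalizer of every nontrivial subgroup of the Sylow p-subgroup P. -/
theorem result {G : Type*} [Group G] [Finite G] {p : ℕ} [Fact p.Prime] (hp : p ≠ 2) (hloc : ∀ Q : Subgroup G, IsPGroup p Q → Q ≠ ⊥ → Cfsg.pPrimeCore p ↥(Subgroup.normalizer (Q : Set G)) = ⊥ ∧ Cfsg.IsPConstrained p ↥(Subgroup.normalizer (Q : Set G)) ∧ Cfsg.IsPStable p ↥(Subgroup.normalizer (Q : Set G))) (P : Sylow p G) (Q : Subgroup G) (hQP : Q ≤ (P : Subgroup G)) (hQ1 : Q ≠ ⊥) : Subgroup.normalizer (Q : Set G) ≤ Subgroup.normalizer (Cfsg.centerThompsonAOf ((P : Subgroup G)) : Set G) := by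
  rw [centerThompsonAOf_eq]
  let F := centerThompsonF p 0 (dvd_zero p)
  have hZ : ∀ Q T : Subgroup G, IsPGroup p Q → Q ≠ ⊥ → IsSylowIn p T (normalizer (Q : Set G)) →
      normalizer (Q : Set G) ≤ normalizer (F.W T : Set G) := by
    intro Q T hQ hQ0 hT
    obtain ⟨h1, h2, h3⟩ := hloc Q hQ hQ0
    have : (F.W (T.subgroupOf (normalizer (Q : Set G)))).Normal := centerThompson_normal hp
      (Or.inl rfl) ((isPStable_iff_of_eq_bot h1).mp h3).2.2
      ((isPConstrained_iff_of_eq_bot h1).mp h2) hT.subgroupOf_top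
    rw [F.subgroupOf hT.le] at this
    exact le_normalizer_of_normal_subgroupOf ((F.le T).trans hT.le)
  change normalizer (Q : Set G) ≤ normalizer (F.W (P : Subgroup G) : Set G)
  set M := normalizer (F.W (P : Subgroup G) : Set G) with hM
  have hPM : (P : Subgroup G) ≤ M := le_normalizer.trans (F.normalizer_le _)
  have hP : IsSylowIn p (P : Subgroup G) M := isSylowIn_of_le P hPM
  by_contra hcon
  obtain ⟨⟨U, T⟩, ⟨hUp, hUM, hU0, hUn, hT⟩, hmax⟩ := Set.exists_max_image
    {x : Subgroup G × Subgroup G | IsPGroup p x.1 ∧ x.1 ≤ M ∧ x.1 ≠ ⊥ ∧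
      ¬ normalizer (x.1 : Set G) ≤ M ∧ IsSylowIn p x.2 (M ⊓ normalizer (x.1 : Set G))}
    (fun x => Nat.card x.2) (Set.toFinite _) (by
      obtain ⟨T, hT⟩ := exists_isSylowIn p (M ⊓ normalizer (Q : Set G))
      exact ⟨(Q, T), P.isPGroup'.to_le hQP, hQP.trans hPM, hQ1, hcon, hT⟩)
  simp only at hUp hUM hU0 hUn hT hmax
  have hTM : T ≤ M := hT.le.trans inf_le_left
  have hUT : U ≤ T := hT.le_of_normalized hUp (le_inf hUM le_normalizer) (hT.le.trans inf_le_right)
  have hT0 : T ≠ ⊥ := fun h => hU0 (le_bot_iff.mp (h ▸ hUT))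
  obtain ⟨g, hgM, hg⟩ := hP.exists_cj_le hT.isPGroup hTM
  apply hUn
  rcases eq_or_lt_of_le hg with hg | hg
  · have h1 : IsSylowIn p T ⊤ := by
      have := (isSylowIn_top P).cj g⁻¹
      rwa [← hg, cj_inv_cj, cj_top] at this
    refine (hZ U T hUp hU0 (h1.of_le (hT.le.trans inf_le_right) le_top)).trans ?_
    rw [cj_eq_iff] at hg
    rw [hg, F.cj, cj_eq_of_mem_normalizer (inv_mem hgM)]
  · have hK : ∀ K ≤ T, K ≠ ⊥ → normalizer (T : Set G) ≤ normalizer (K : Set G) →
        normalizer (K : Set G) ≤ M := by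
      intro K hK hK0 hn
      by_contra hKn
      have hlt : T < cj g⁻¹ P := by rwa [← cj_lt_cj (g := g), cj_cj_inv]
      have h4 := lt_inf_normalizer_of_lt (isPGroup_cj P.isPGroup' g⁻¹) hlt
      obtain ⟨T', hT'1, hT'2⟩ := exists_isSylowIn_ge
        (Q := cj g⁻¹ P ⊓ normalizer (T : Set G)) (H := M ⊓ normalizer (K : Set G))
        (isPGroup_cj P.isPGroup' g⁻¹).to_inf_left
        (inf_le_inf (cj_le_of_le_of_mem hPM (inv_mem hgM)) hn)
      have h5 := hmax (K, T') ⟨hT.isPGroup.to_le hK, hK.trans hTM, hK0, hKn, hT'2⟩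
      exact (CF.PLocal.card_lt_of_lt (h4.trans_le hT'1)).not_ge h5
    have h1 : IsSylowIn p T (normalizer (U : Set G)) := by
      obtain ⟨R, hR1, hR2⟩ := exists_isSylowIn_ge hT.isPGroup (hT.le.trans inf_le_right)
      rcases eq_or_lt_of_le hR1 with h | h
      · rwa [h]
      · have h2 := lt_inf_normalizer_of_lt hR2.isPGroup h
        exact absurd (hT.eq_of_le hR2.isPGroup.to_inf_left h2.le (le_inf
          (inf_le_right.trans (hK T le_rfl hT0 le_rfl)) (inf_le_left.trans hR2.le))) h2.ne'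
    exact (hZ U T hUp hU0 h1).trans (hK _ (F.le T) (F.ne_bot T hT.isPGroup hT0) (F.normalizer_le T))

end Cfsg.Agent.S0658
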