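import Cfsg.Statements.S0663
import Cfsg.Agent.Even.TI

set_option autoImplicit false
open Cfsg

namespace Cfsg.Agent.S0663
open Subgroup CF.Loc CF.Even
open scoped commutatorElement Pointwise
theorem card_le_of_lt {L : Type*} [Group L] [Finite L] {p : ℕ} [hp : Fact p.Prime] {A B : Subgroup L}
    (hB : IsPGroup p B) (h : A < B) : p * Nat.card A ≤ Nat.card B := by
  obtain ⟨a, ha⟩ := (hB.to_le h.le).exists_card_eq
  obtain ⟨b, hb⟩ := hB.exists_card_eq
  have := card_lt_card_of_lt h
  rw [ha, hb] at this ⊢
  rw [← pow_succ']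
  exact Nat.pow_le_pow_right hp.out.pos ((Nat.pow_lt_pow_iff_right hp.out.one_lt).1 this)

theorem card_iter_le {L : Type*} [Group L] [Finite L] {p : ℕ} [hp : Fact p.Prime] {N G : Subgroup L}
    (hN : IsPGroup p N) (hG : IsPGroup p G) (hGN : G ≤ 𝐍(N)) (i : ℕ)
    (h : ∀ j < i, iterCommutator N G j ≠ ⊥) :
    p ^ i * Nat.card (iterCommutator N G i) ≤ Nat.card N := by
  induction i with
  | zero => simp [iterCommutator_zero]
  | succ i ih =>
    have h1 := hN.to_le (iterCommutator_le hGN i)
    have := card_le_of_lt h1 (commutator_lt_of_isPGroup h1 hG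
      (le_normalizer_iterCommutator hGN le_normalizer i) (h i (by omega)))
    rw [iterCommutator_succ, pow_succ, mul_assoc]
    exact (Nat.mul_le_mul_left _ this).trans (ih fun j hj => h j (by omega))

/-- A p-group acts uniserially on a p-group N of order p^n exactly when the iterated commutator chain from N has length n; in that case the chain terms are all the invariant subgroups of N and they are normal in N. -/
theorem result {L : Type*} [Group L] [Finite L] {p : ℕ} [Fact p.Prime] (N G : Subgroup L) (hN : IsPGroup p N) (hG : IsPGroup p G) (hGN : G ≤ Subgroup.normalizer (N : Set L)) (n : ℕ) (hn : Nat.card N = p ^ n) : ((∀ H : Subgroup L, H ≤ N → G ≤ Subgroup.normalizer (H : Set L) → H ≠ ⊥ → (⁅H, G⁆).relIndex H = p) ↔ Cfsg.iterCommutator N G (n - 1) ≠ ⊥ ∨ n = 0) ∧ ((∀ H : Subgroup L, H ≤ N → G ≤ Subgroup.normalizer (H : Set L) → H ≠ ⊥ → (⁅H, G⁆).relIndex H = p) → ∀ H : Subgroup L, H ≤ N → G ≤ Subgroup.normalizer (H : Set L) → (∃ i ≤ n, H = Cfsg.iterCommutator N G i) ∧ N ≤ Subgroup.normalizer (H : Set L)) := by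
  have hp : p.Prime := Fact.out
  have inv : ∀ i, G ≤ 𝐍(iterCommutator N G i) := le_normalizer_iterCommutator hGN le_normalizer
  have anti : ∀ i, iterCommutator N G (i + 1) ≤ iterCommutator N G i := fun i =>
    commutator_le_left_of_le_normalizer (inv i)
  have anti' : ∀ i j, i ≤ j → iterCommutator N G j ≤ iterCommutator N G i := fun i j h =>
    antitone_nat_of_succ_le anti h
  have A : (∀ H : Subgroup L, H ≤ N → G ≤ 𝐍(H) → H ≠ ⊥ → (⁅H, G⁆).relIndex H = p) →
      iterCommutator N G (n - 1) ≠ ⊥ ∨ n = 0 := fun h => by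
    have : ∀ i ≤ n, Nat.card (iterCommutator N G i) = p ^ (n - i) := fun i => by
      induction i with
      | zero => intro _; simpa [iterCommutator_zero] using hn
      | succ i ih =>
        intro hi
        have c := ih (by omega)
        have d := card_mul_relIndex (anti i)
        rw [iterCommutator_succ, h _ (iterCommutator_le hGN i) (inv i) (fun e => by
          rw [e, card_bot] at c
          exact absurd c.symm (Nat.one_lt_pow (by omega) hp.one_lt).ne'), c,
          show n - i = n - (i + 1) + 1 by omega, pow_succ] at d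
        exact Nat.eq_of_mul_eq_mul_right hp.pos d
    refine or_iff_not_imp_right.2 fun h0 e => ?_
    have c := this (n - 1) (by omega)
    rw [e, card_bot] at c
    exact absurd c.symm (Nat.one_lt_pow (by omega) hp.one_lt).ne'
  have B : iterCommutator N G (n - 1) ≠ ⊥ ∨ n = 0 →
      (∀ i ≤ n, Nat.card (iterCommutator N G i) = p ^ (n - i)) ∧
      ∀ H : Subgroup L, H ≤ N → G ≤ 𝐍(H) → (∃ i ≤ n, H = iterCommutator N G i) ∧ N ≤ 𝐍(H) := fun h => by
    have ne : ∀ j < n, iterCommutator N G j ≠ ⊥ := fun j hj e =>
      (h.resolve_right (by omega)) (le_bot_iff.1 (e ▸ anti' j (n - 1) (by omega)))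
    have lo : ∀ i ≤ n, p ^ (n - i) ≤ Nat.card (iterCommutator N G i) := fun i hi => by
      have := card_iter_le (hN.to_le (iterCommutator_le hGN i)) hG (inv i) (n - i)
        fun j hj => by rw [← iterCommutator_add]; exact ne _ (by omega)
      exact (Nat.le_mul_of_pos_right _ Nat.card_pos).trans this
    have hP : IsPGroup p ↥(N ⊔ G) := hN.to_sup_of_normal_left' hG hGN
    have hPN : N ⊔ G ≤ 𝐍(N) := sup_le le_normalizer hGN
    have le : ∀ i, iterCommutator N G i ≤ iterCommutator N (N ⊔ G) i :=
      iterCommutator_mono_right le_sup_right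
    have hi : ∀ i ≤ n, Nat.card (iterCommutator N (N ⊔ G) i) ≤ p ^ (n - i) := fun i hi => by
      have := card_iter_le hN hP hPN i fun j hj e => ne j (by omega) (le_bot_iff.1 (e ▸ le j))
      rw [hn, show n = i + (n - i) by omega, pow_add] at this
      exact Nat.le_of_mul_le_mul_left this (pow_pos hp.pos _)
    have eq : ∀ i ≤ n, iterCommutator N G i = iterCommutator N (N ⊔ G) i := fun i h =>
      eq_of_le_of_card_le (le i) ((hi i h).trans (lo i h))
    have cd : ∀ i ≤ n, Nat.card (iterCommutator N G i) = p ^ (n - i) := fun i h =>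
      le_antisymm (eq i h ▸ hi i h) (lo i h)
    have nr : ∀ i ≤ n, N ⊔ G ≤ 𝐍(iterCommutator N G i) := fun i h =>
      eq i h ▸ le_normalizer_iterCommutator hPN le_normalizer i
    have cm : ∀ i < n, ⁅iterCommutator N G i, N ⊔ G⁆ ≤ iterCommutator N G (i + 1) := fun i h => by
      rw [eq i h.le, eq (i + 1) h, iterCommutator_succ]
    have bt : iterCommutator N G n = ⊥ := card_eq_one.1 (by simpa using cd n le_rfl)
    refine ⟨cd, fun H hH hGH => ?_⟩
    classical
    suffices ∃ i ≤ n, H = iterCommutator N G i from
      ⟨this, by obtain ⟨i, a, rfl⟩ := this; exact le_sup_left.trans (nr i a)⟩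
    let i := Nat.findGreatest (fun i => H ≤ iterCommutator N G i) n
    have h1 : H ≤ iterCommutator N G i :=
      Nat.findGreatest_spec (P := fun i => H ≤ iterCommutator N G i) (Nat.zero_le n) hH
    have h2 : i ≤ n := Nat.findGreatest_le n
    refine ⟨i, h2, le_antisymm h1 ?_⟩
    rcases h2.eq_or_lt with h3 | h3
    · rw [h3, bt]; exact bot_le
    have h4 : ¬ H ≤ iterCommutator N G (i + 1) :=
      Nat.findGreatest_is_greatest (P := fun i => H ≤ iterCommutator N G i) (Nat.lt_succ_self _) h3
    have st : ∀ j, i ≤ j → j < n →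
        iterCommutator N G j ≤ (H ⊓ iterCommutator N G j) ⊔ iterCommutator N G (j + 1) := fun j hj => by
      induction j, hj using Nat.le_induction with
      | base =>
        intro _
        rw [inf_eq_left.2 h1]
        have a := card_le_of_lt (hN.to_le (sup_le hH (iterCommutator_le hGN (i + 1))))
          (right_lt_sup.2 h4)
        rw [cd _ h3, ← pow_succ', show n - (i + 1) + 1 = n - i by omega, ← cd i h2] at a
        exact (eq_of_le_of_card_le (sup_le h1 (anti i)) a).ge
      | succ j hj ih =>
        intro h5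
        have nW : N ≤ 𝐍((H ⊓ iterCommutator N G (j + 1)) ⊔ iterCommutator N G (j + 1 + 1)) :=
          le_normalizer_iff_commutator_le_left.2 (le_sup_of_le_right ((commutator_mono
            (sup_le inf_le_right (anti _)) le_sup_left).trans (cm _ h5)))
        refine (commutator_mono (ih (by omega)) le_rfl).trans (commutator_sup_left_le
          ((inf_le_left.trans hH).trans nW) ((iterCommutator_le hGN _).trans nW)
          (le_sup_of_le_left (le_inf ((commutator_mono inf_le_left le_rfl).trans
            (commutator_le_left_of_le_normalizer hGH)) (commutator_mono inf_le_right le_rfl)))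
          le_sup_right)
    have fin : ∀ k j, j + k = n → i ≤ j → iterCommutator N G j ≤ H := fun k => by
      induction k with
      | zero => intro j a _; rw [show j = n by omega, bt]; exact bot_le
      | succ k ih =>
        intro j a b
        exact (st j b (by omega)).trans (sup_le inf_le_left (ih (j + 1) (by omega) (by omega)))
    exact fin (n - i) i (by omega) le_rfl
  refine ⟨⟨A, fun h H hH hGH h1 => ?_⟩, fun h => (B (A h)).2⟩
  obtain ⟨cd, h2⟩ := B h
  obtain ⟨⟨i, hi, rfl⟩, -⟩ := h2 H hH hGH
  have h3 : i < n := lt_of_le_of_ne hi fun e => h1 (card_eq_one.1 (by simpa [e] using cd n le_rfl))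
  have d := card_mul_relIndex (anti i)
  rw [cd _ hi, cd _ h3, show n - i = n - (i + 1) + 1 by omega, pow_succ] at d
  exact Nat.eq_of_mul_eq_mul_left (pow_pos hp.pos _) d

end Cfsg.Agent.S0663
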