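import Cfsg.Statements.S0672
import Cfsg.Agent.Perm.PrimeDegree2

set_option autoImplicit false
open Cfsg

namespace Cfsg.Agent.S0672

/-- Let a finite group act faithfully and doubly transitively with point stabilisers of even order, and let `K` have characteristic `p` dividing the degree. If the heart of the permutation module admits no non-zero equivariant map to the permutation module on unordered pairs (phrased: every intertwining map from the sum-zero functions vanishing on the constants is zero), the action is triply transitive. -/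
theorem result {G : Type*} [Group G] [Finite G] {K : Type*} [Field K] {p : ℕ} [Fact p.Prime] [CharP K p] {Ω : Type*} [Fintype Ω] [DecidableEq Ω] [MulAction G Ω] [FaithfulSMul G Ω] (h2 : MulAction.IsMultiplyPretransitive G Ω 2) (hp : p ∣ Fintype.card Ω) (heven : ∀ a : Ω, Even (Nat.card (MulAction.stabilizer G a))) (h : ∀ f : Representation.IntertwiningMap (Cfsg.permSumZero K G Ω).toRepresentation (Cfsg.permRep K G (Set.powersetCard Ω 2)), (∀ v : (Cfsg.permSumZero K G Ω).toSubmodule, (v : Ω → K) ∈ (Cfsg.permConstants K G Ω).toSubmodule → f v = 0) → f = 0) : MulAction.IsMultiplyPretransitive G Ω 3 := by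
  rcases isEmpty_or_nonempty Ω with hΩ | ⟨⟨z⟩⟩
  · rw [CF.Perm.threeTrans_iff]
    intro a; exact hΩ.elim a
  obtain ⟨s, hs⟩ := exists_prime_orderOf_dvd_card' 2 (heven z).two_dvd
  have hs' : orderOf (s : G) = 2 := by rw [Subgroup.orderOf_coe, hs]
  obtain ⟨x, hx⟩ : ∃ x : Ω, (s : G) • x ≠ x := by
    by_contra! h
    have : (s : G) = 1 := FaithfulSMul.eq_of_smul_eq_smul (α := Ω) (by simpa using h)
    rw [this, orderOf_one] at hs'
    omega
  refine CF.Perm.threeTrans_of_heart_hom (K := K) h2 (s : G)
    (by rw [← pow_two, ← hs', pow_orderOf_eq_one]) hx s.2 ?_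
  intro φ hφ h1 v hv
  have := h (LinearMap.intertwiningMap_of_isIntertwiningMap _ _
    (φ.comp (Cfsg.permSumZero K G Ω).toSubmodule.subtype) (fun g v => hφ g v)) (by
      intro v hv
      obtain ⟨c, hc⟩ := (CF.Perm.mem_permConstants _).1 hv
      change φ v = 0
      have : (fun _ : Ω => c) = c • fun _ => 1 := by ext; simp
      rw [hc, this, map_smul, h1, smul_zero])
  exact congrArg (fun f : Representation.IntertwiningMap
    (Cfsg.permSumZero K G Ω).toRepresentation (Cfsg.permRep K G (Set.powersetCard Ω 2)) =>
      f ⟨v, hv⟩) this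

end Cfsg.Agent.S0672
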