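import Cfsg.Statements.S0681
import Cfsg.Agent.Perm.NearField

set_option autoImplicit false
open Cfsg

namespace Cfsg.Agent.S0681

open CF.Perm.NF in
/-- the affine group of a near-field -/
def aff (F : Type*) [Cfsg.NearField F] : Subgroup (Equiv.Perm F) where
  carrier := {σ | ∃ a b : F, a ≠ 0 ∧ ∀ x : F, σ x = x * a + b}
  one_mem' := ⟨1, 0, one_ne_zero', by simp⟩
  mul_mem' := by
    rintro σ τ ⟨a, b, ha, hσ⟩ ⟨c, d, hc, hτ⟩
    refine ⟨c * a, d * a + b, mul_ne_zero' hc ha, fun x => ?_⟩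
    rw [Equiv.Perm.mul_apply, hτ, hσ, add_mul', mul_assoc, add_assoc]
  inv_mem' := by
    rintro σ ⟨a, b, ha, hσ⟩
    obtain ⟨c, h1, h2⟩ := Cfsg.NearField.exists_inv a ha
    refine ⟨c, -b * c, inv_ne_zero' h1, fun x => ?_⟩
    rw [Equiv.Perm.inv_eq_iff_eq, hσ, ← add_mul', mul_assoc, h2, mul_one, neg_add_cancel_right]

/-- The affine maps `x ↦ x * a + b`, `a ≠ 0`, of a near-field form a sharply doubly transitive permutation group. -/
theorem result {F : Type*} [Cfsg.NearField F] : ∃ H : Subgroup (Equiv.Perm F), (∀ σ : Equiv.Perm F, σ ∈ H ↔ ∃ a b : F, a ≠ 0 ∧ ∀ x : F, σ x = x * a + b) ∧ MulAction.IsMultiplyPretransitive H F 2 ∧ ∀ x : Fin 2 ↪ F, MulAction.stabilizer H x = ⊥ := by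
  refine ⟨aff F, fun σ => Iff.rfl, ?_, ?_⟩
  · have key : ∀ u v : F, u ≠ v → ∃ g : aff F, g • (0 : F) = u ∧ g • (1 : F) = v := by
      intro u v huv
      have ha : v - u ≠ 0 := sub_ne_zero.2 huv.symm
      obtain ⟨c, h1, h2⟩ := Cfsg.NearField.exists_inv _ ha
      refine ⟨⟨CF.Perm.NF.affine h1 h2 u, v - u, u, ha, fun x => rfl⟩, ?_, ?_⟩
      · change 0 * (v - u) + u = u
        rw [CF.Perm.NF.zero_mul', zero_add]
      · change 1 * (v - u) + u = v
        simp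
    rw [CF.Perm.twoTrans_iff]
    intro a b c d hab hcd
    obtain ⟨g, g1, g2⟩ := key a b hab
    obtain ⟨k, k1, k2⟩ := key c d hcd
    exact ⟨k * g⁻¹, by rw [mul_smul, ← g1, inv_smul_smul, k1],
      by rw [mul_smul, ← g2, inv_smul_smul, k2]⟩
  · refine (CF.Perm.sharp_two_iff (G := aff F) (α := F)).2 ?_
    rintro x y hxy ⟨σ, a, b, ha, hσ⟩ h1 h2
    change σ x = x at h1
    change σ y = y at h2
    rw [hσ] at h1 h2
    have h3 : (x - y) * a = x - y := by
      rw [CF.Perm.NF.sub_mul', eq_sub_of_add_eq h1, eq_sub_of_add_eq h2, sub_sub_sub_cancel_right]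
    obtain ⟨c, -, hc⟩ := Cfsg.NearField.exists_inv _ (sub_ne_zero.2 hxy)
    have ha1 : a = 1 := by rw [← one_mul a, ← hc, mul_assoc, h3]
    rw [ha1, mul_one, add_eq_left] at h1
    apply Subtype.ext
    ext z
    simp [hσ, ha1, h1]

end Cfsg.Agent.S0681
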