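import Cfsg.Statements.S0682
import Cfsg.Agent.Perm.NearField

set_option autoImplicit false
open Cfsg

namespace Cfsg.Agent.S0682

/-- A finite near-field has prime-power order; its additive group is commutative of prime exponent. -/
theorem result {F : Type*} [Cfsg.NearField F] [Finite F] : ∃ p j : ℕ, p.Prime ∧ 1 ≤ j ∧ Nat.card F = p ^ j ∧ (∀ x y : F, x + y = y + x) ∧ ∀ x : F, p • x = 0 := by
  have : Nontrivial F := ⟨0, 1, Cfsg.NearField.zero_ne_one⟩
  obtain ⟨p, hp, h1, h2⟩ := CF.Perm.elementaryAbelian_of_aut_trans (K := Multiplicative F) (by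
    intro x y hx hy
    obtain ⟨c, hc1, hc2⟩ := Cfsg.NearField.exists_inv (Multiplicative.toAdd x) hx
    have hne := CF.Perm.NF.mul_ne_zero' (CF.Perm.NF.inv_ne_zero' hc1) (b := Multiplicative.toAdd y) hy
    obtain ⟨d, hd1, hd2⟩ := Cfsg.NearField.exists_inv _ hne
    let e : F ≃+ F :=
      { toFun := fun z => z * (c * Multiplicative.toAdd y)
        invFun := fun z => z * d
        left_inv := fun z => by simp only [mul_assoc z, hd1, mul_one]
        right_inv := fun z => by simp only [mul_assoc z, hd2, mul_one]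
        map_add' := fun a b => CF.Perm.NF.add_mul' _ _ _ }
    refine ⟨AddEquiv.toMultiplicative e, ?_⟩
    change Multiplicative.toAdd x * (c * Multiplicative.toAdd y) = Multiplicative.toAdd y
    rw [← mul_assoc, hc1, one_mul])
  have := Fact.mk hp
  have hP : IsPGroup p (Multiplicative F) := fun y => ⟨1, by simpa using h1 y⟩
  obtain ⟨j, hj⟩ := hP.exists_card_eq
  refine ⟨p, j, hp, ?_, hj, fun x y => h2 (Multiplicative.ofAdd x) (Multiplicative.ofAdd y),
    fun x => h1 (Multiplicative.ofAdd x)⟩
  rcases j with _ | j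
  · have := Finite.one_lt_card (α := Multiplicative F)
    rw [pow_zero] at hj; omega
  · omega

end Cfsg.Agent.S0682
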