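import Cfsg.Statements.S0683
import Cfsg.Agent.Perm.Regular

set_option autoImplicit false
open Cfsg

namespace Cfsg.Agent.S0683

/-- A finite sharply doubly transitive permutation group is the affine group of a near-field: the permuted set carries a near-field structure for which the group consists exactly of the maps `x ↦ x * a + b` with `a ≠ 0`. -/
theorem result {α : Type*} [Fintype α] [DecidableEq α] (H : Subgroup (Equiv.Perm α)) [MulAction.IsMultiplyPretransitive H α 2] (hsharp : ∀ x : Fin 2 ↪ α, MulAction.stabilizer H x = ⊥) (h2 : 2 ≤ Fintype.card α) : ∃ _ : Cfsg.NearField α, ∀ σ : Equiv.Perm α, σ ∈ H ↔ ∃ a b : α, a ≠ 0 ∧ ∀ x : α, σ x = x * a + b := by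
  have : Nontrivial α := Fintype.one_lt_card_iff_nontrivial.1 h2
  obtain ⟨K, hK, hKt, hKr, -⟩ := CF.Perm.sharp2_kernel (G := H) inferInstance hsharp
  obtain ⟨o, u, hou⟩ := exists_pair_ne α
  rw [CF.Perm.isPretransitive_subgroup_iff] at hKt
  choose τ hτK hτ using hKt o
  have hτu : ∀ {x y : H}, x ∈ K → y ∈ K → x • o = y • o → x = y :=
    fun hx hy h => CF.Perm.eq_of_smul_eq_of_regular (hKr o) hx hy h
  have hs := CF.Perm.sharp_two_iff.1 hsharp
  have hμu : ∀ {x y : H}, x • o = y • o → x • u = y • u → x = y := by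
    intro x y h1 h2
    have := hs o u hou (y⁻¹ * x) (by rw [mul_smul, h1, inv_smul_smul])
      (by rw [mul_smul, h2, inv_smul_smul])
    exact (inv_mul_eq_one.1 this).symm
  have hμ : ∀ a : α, ∃ g : H, a ≠ o → g • o = o ∧ g • u = a := by
    intro a
    by_cases ha : a = o
    · exact ⟨1, fun h => absurd ha h⟩
    · obtain ⟨g, h1, h2⟩ := CF.Perm.twoTrans_iff.1 (inferInstance : MulAction.IsMultiplyPretransitive H α 2) o u o a hou (Ne.symm ha)
      exact ⟨g, fun _ => ⟨h1, h2⟩⟩
  choose μ hμ using hμ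
  have hτmul : ∀ b c, τ (τ c • b) = τ c * τ b := fun b c =>
    hτu (hτK _) (K.mul_mem (hτK _) (hτK _)) (by rw [hτ, mul_smul, hτ])
  have hτo : τ o = 1 := hτu (hτK _) K.one_mem (by rw [hτ, one_smul])
  have hμne : ∀ a b, a ≠ o → b ≠ o → μ b • a ≠ o := by
    intro a b ha hb h
    rw [← (hμ b hb).1, smul_left_cancel_iff] at h
    exact ha h
  have hμmul : ∀ a b, a ≠ o → b ≠ o → μ (μ b • a) = μ b * μ a := by
    intro a b ha hb
    apply hμu
    · rw [(hμ _ (hμne a b ha hb)).1, mul_smul, (hμ a ha).1, (hμ b hb).1]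
    · rw [(hμ _ (hμne a b ha hb)).2, mul_smul, (hμ a ha).2]
  have hμ1 : μ u = 1 := hμu (by rw [(hμ u hou.symm).1, one_smul])
    (by rw [(hμ u hou.symm).2, one_smul])
  letI : Add α := ⟨fun x b => τ b • x⟩
  letI : Zero α := ⟨o⟩
  letI : Neg α := ⟨fun b => (τ b)⁻¹ • o⟩
  letI AG : AddGroup α := AddGroup.ofLeftAxioms
    (fun a b c => by
      change τ c • τ b • a = τ (τ c • b) • a
      rw [hτmul, mul_smul])
    (fun a => hτ a)
    (fun a => by
      change τ a • (τ a)⁻¹ • o = o
      simp)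
  letI : Mul α := ⟨fun x a => if a = o then o else μ a • x⟩
  letI : One α := ⟨u⟩
  have hmul : ∀ x a : α, a ≠ o → x * a = μ a • x := fun x a ha => if_neg ha
  have hmul0 : ∀ x : α, x * o = o := fun x => if_pos rfl
  have h0mul : ∀ x : α, o * x = o := fun x => by
    by_cases hx : x = o
    · rw [hx, hmul0]
    · rw [hmul _ _ hx, (hμ x hx).1]
  letI M : Monoid α :=
    { mul_assoc := fun a b c => by
        by_cases hc : c = o
        · rw [hc, hmul0, hmul0, hmul0]
        by_cases hb : b = o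
        · rw [hb, hmul0, h0mul, hmul0]
        rw [hmul _ _ hc, hmul _ _ hb, hmul _ _ hc, hmul _ _ (hμne b c hb hc), hμmul _ _ hb hc,
          mul_smul]
      one_mul := fun a => by
        by_cases ha : a = o
        · rw [ha, hmul0]
        · rw [hmul _ _ ha]; exact (hμ a ha).2
      mul_one := fun a => by
        change a * u = a
        rw [hmul _ _ hou.symm, hμ1, one_smul]
      npow := npowRec }
  refine ⟨{ AG, M with
    right_distrib := fun a b c => ?_
    mul_zero := hmul0
    zero_ne_one := hou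
    exists_inv := fun a ha => ?_ }, fun σ => ?_⟩
  · change (τ b • a) * c = τ (b * c) • (a * c)
    by_cases hc : c = o
    · rw [hc, hmul0, hmul0, hmul0, hτ]
    · rw [hmul _ _ hc, hmul _ _ hc, hmul _ _ hc]
      have : τ (μ c • b) = μ c * τ b * (μ c)⁻¹ := hτu (hτK _) (hK.conj_mem _ (hτK _) _) (by
        rw [hτ, mul_smul, mul_smul, inv_smul_eq_iff.2 (hμ c hc).1.symm, hτ])
      rw [this, mul_smul, mul_smul, inv_smul_smul]
  · have ha' : a ≠ o := ha
    have hb : (μ a)⁻¹ • u ≠ o := by
      rw [ne_eq, inv_smul_eq_iff, (hμ a ha').1]; exact hou.symm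
    have hinv : μ ((μ a)⁻¹ • u) = (μ a)⁻¹ := hμu
      (by rw [(hμ _ hb).1, eq_inv_smul_iff, (hμ a ha').1]) (hμ _ hb).2
    refine ⟨(μ a)⁻¹ • u, ?_, ?_⟩
    · change a * _ = u
      rw [hmul _ _ hb, hinv, inv_smul_eq_iff, (hμ a ha').2]
    · change _ * a = u
      rw [hmul _ _ ha', smul_inv_smul]
  · constructor
    · intro hσ
      let g : H := ⟨σ, hσ⟩
      have hg : ((τ (g • o))⁻¹ * g) • o = o := by rw [mul_smul, inv_smul_eq_iff, hτ]
      have ha : ((τ (g • o))⁻¹ * g) • u ≠ o := by
        intro h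
        exact hou (smul_left_cancel _ (hg.trans h.symm))
      refine ⟨_, g • o, ha, fun x => ?_⟩
      change g • x = τ (g • o) • (x * _)
      rw [hmul _ _ ha, hμu ((hμ _ ha).1.trans hg.symm) (hμ _ ha).2, mul_smul, smul_inv_smul]
    · rintro ⟨a, b, ha, h⟩
      have : σ = (τ b * μ a : H) := by
        ext x
        rw [h]
        change τ b • (x * a) = (τ b * μ a) • x
        rw [hmul _ _ ha, mul_smul]
      rw [this]
      exact (τ b * μ a).2

end Cfsg.Agent.S0683
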