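import Cfsg.Statements.S0684
import Cfsg.Agent.Perm.Huppert4

set_option autoImplicit false
open Cfsg

namespace Cfsg.Agent.S0684

/-- Point stabiliser of a sharply doubly transitive group not of semilinear type: a maximal normal abelian subgroup `A` of a linear group `H` that is regular on non-zero vectors and has no irreducible cyclic normal subgroup is cyclic and reducible, and the order of `A` divides `p ^ k - 1` for `k` the dimension of a minimal `A`-invariant subspace. -/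
theorem result {p : ℕ} [Fact p.Prime] {V : Type*} [AddCommGroup V] [Module (ZMod p) V] [Finite V] (H : Subgroup (V ≃ₗ[ZMod p] V)) (hreg : ∀ v w : V, v ≠ 0 → w ≠ 0 → ∃! h : H, (h : V ≃ₗ[ZMod p] V) v = w) (hI : ∀ A : Subgroup H, A.Normal → IsCyclic A → ∃ W : Submodule (ZMod p) V, W ≠ ⊥ ∧ W ≠ ⊤ ∧ ∀ a ∈ A, ∀ v ∈ W, ((a : H) : V ≃ₗ[ZMod p] V) v ∈ W) (A : Subgroup H) (hAn : A.Normal) (hAc : IsMulCommutative A) (hAmax : ∀ B : Subgroup H, B.Normal → IsMulCommutative B → A ≤ B → B = A) : IsCyclic A ∧ ∃ W : Submodule (ZMod p) V, W ≠ ⊥ ∧ W ≠ ⊤ ∧ (∀ a ∈ A, ∀ v ∈ W, ((a : H) : V ≃ₗ[ZMod p] V) v ∈ W) ∧ (∀ W' : Submodule (ZMod p) V, W' ≤ W → (∀ a ∈ A, ∀ v ∈ W', ((a : H) : V ≃ₗ[ZMod p] V) v ∈ W') → W' = ⊥ ∨ W' = W) ∧ Nat.card A ∣ p ^ Module.finrank (ZMod p) W - 1 := by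
  obtain ⟨_, _, -, -, h1, K, _, _, _, σ, h, -⟩ := CF.Perm.typeTwo hreg hI A hAn hAc
  obtain ⟨W₀, h2, h3, h4⟩ := hI A hAn h1
  obtain ⟨W, ⟨h5, h6, h7⟩, h8⟩ := exists_minimal_of_wellFoundedLT (fun W : Submodule (ZMod p) V =>
    W ≠ ⊥ ∧ W ≤ W₀ ∧ ∀ a ∈ A, ∀ v ∈ W, ((a : H) : V ≃ₗ[ZMod p] V) v ∈ W) ⟨W₀, h2, le_rfl, h4⟩
  refine ⟨h1, W, h5, fun e => h3 (top_le_iff.1 (e ▸ h6)), h7, fun W' h9 h10 =>
    or_iff_not_imp_left.2 fun h11 => h9.antisymm (h8 ⟨h11, h9.trans h6, h10⟩ h9), h.card_dvd.trans ?_⟩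
  let U : Submodule K V := ⟨W.toAddSubmonoid, fun k v hv => h.gen W.toAddSubgroup h7 k v hv⟩
  have h9 := Module.natCard_eq_pow_finrank (K := ZMod p) (V := W)
  rw [Nat.card_zmod] at h9
  rw [← h9, show Nat.card W = Nat.card U from rfl, Module.natCard_eq_pow_finrank (K := K) (V := U)]
  exact Nat.sub_one_dvd_pow_sub_one _ _

end Cfsg.Agent.S0684
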