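import Cfsg.Statements.S0685
import Cfsg.Agent.Perm.Huppert4

set_option autoImplicit false
open Cfsg

namespace Cfsg.Agent.S0685

/-- In a linear group over the prime field that is regular on non-zero vectors and has no irreducible cyclic normal subgroup, a maximal normal abelian subgroup is properly contained in its centraliser, which is non-abelian. -/
theorem result {p : ℕ} [Fact p.Prime] {V : Type*} [AddCommGroup V] [Module (ZMod p) V] [Finite V] (H : Subgroup (V ≃ₗ[ZMod p] V)) (hreg : ∀ v w : V, v ≠ 0 → w ≠ 0 → ∃! h : H, (h : V ≃ₗ[ZMod p] V) v = w) (hI : ∀ A : Subgroup H, A.Normal → IsCyclic A → ∃ W : Submodule (ZMod p) V, W ≠ ⊥ ∧ W ≠ ⊤ ∧ ∀ a ∈ A, ∀ v ∈ W, ((a : H) : V ≃ₗ[ZMod p] V) v ∈ W) (A : Subgroup H) (hAn : A.Normal) (hAc : IsMulCommutative A) (hAmax : ∀ B : Subgroup H, B.Normal → IsMulCommutative B → A ≤ B → B = A) : A < Subgroup.centralizer (A : Set H) ∧ ¬ IsMulCommutative (Subgroup.centralizer (A : Set H)) := by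
  obtain ⟨_, _, ht, -, -, K, _, _, _, σ, h, hd⟩ := CF.Perm.typeTwo hreg hI A hAn hAc
  have h1 : ¬ Subgroup.centralizer (A : Set H) ≤ A := fun h1 => by
    obtain ⟨h2, h3⟩ := h.cases ⟨hAn, hAn, le_rfl, A.le_centralizer, fun x hx y hy =>
      Subgroup.commutator_le_left A A (Subgroup.commutator_mem_commutator hx hy),
      fun B h2 h3 h4 => (hAmax B h2 h3 h4).le, fun c hc _ => h1 hc⟩ ht hd
    have h4 := h.card_dvd
    rw [top_le_iff.1 (h2.ge.trans h1), Subgroup.card_top] at h4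
    have h5 := ht.card_dvd.trans h4
    rw [Module.natCard_eq_pow_finrank (K := K) (V := V)] at h5
    rcases h3 with ⟨h6, h7 | h7 | h7 | h7 | h7⟩ | ⟨h6, h7⟩ <;> norm_num [h6, h7] at h5
  exact ⟨A.le_centralizer.lt_of_not_ge h1,
    fun h2 => h1 (hAmax _ inferInstance h2 A.le_centralizer).le⟩

end Cfsg.Agent.S0685
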