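import Cfsg.Statements.S0687
import Cfsg.Agent.Perm.Huppert4

set_option autoImplicit false
open Cfsg

namespace Cfsg.Agent.S0687

/-- In a linear group over the prime field that is regular on non-zero vectors and has no irreducible cyclic normal subgroup, a normal subgroup `N` minimal among the non-abelian normal subgroups centralising a maximal normal abelian subgroup `A` is irreducible on `V`, and its centraliser is `A`. -/
theorem result {p : ℕ} [Fact p.Prime] {V : Type*} [AddCommGroup V] [Module (ZMod p) V] [Finite V] (H : Subgroup (V ≃ₗ[ZMod p] V)) (hreg : ∀ v w : V, v ≠ 0 → w ≠ 0 → ∃! h : H, (h : V ≃ₗ[ZMod p] V) v = w) (hI : ∀ A : Subgroup H, A.Normal → IsCyclic A → ∃ W : Submodule (ZMod p) V, W ≠ ⊥ ∧ W ≠ ⊤ ∧ ∀ a ∈ A, ∀ v ∈ W, ((a : H) : V ≃ₗ[ZMod p] V) v ∈ W) (A : Subgroup H) (hAn : A.Normal) (hAc : IsMulCommutative A) (hAmax : ∀ B : Subgroup H, B.Normal → IsMulCommutative B → A ≤ B → B = A) (N : Subgroup H) (hNn : N.Normal) (hNle :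 N ≤ Subgroup.centralizer (A : Set H)) (hNna : ¬ IsMulCommutative N) (hNmin : ∀ M : Subgroup H, M.Normal → M ≤ N → ¬ IsMulCommutative M → M = N) : (∀ W : Submodule (ZMod p) V, (∀ n ∈ N, ∀ v ∈ W, ((n : H) : V ≃ₗ[ZMod p] V) v ∈ W) → W = ⊥ ∨ W = ⊤) ∧ Subgroup.centralizer (N : Set H) = A := by
  have h1 := CF.Perm.typeTwo_irred hreg hI A hAn hAc hAmax N hNn hNle hNna hNmin
  obtain ⟨_, -⟩ := CF.Perm.typeTwo hreg hI A hAn hAc
  let T := DistribMulAction.toAddMonoidEnd H V
  have h2 := CF.Perm.isField_centralizer (T '' N) fun W hW =>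
    (h1 (AddSubgroup.toZModSubmodule p W) fun n hn => hW _ ⟨n, hn, rfl⟩).imp
      (fun e => (AddSubgroup.toZModSubmodule p).injective (e.trans (map_bot _).symm))
      fun e => (AddSubgroup.toZModSubmodule p).injective (e.trans (map_top _).symm)
  have h3 : ∀ c ∈ Subgroup.centralizer (N : Set H), T c ∈ Subring.centralizer (T '' N) := by
    rintro c hc _ ⟨n, hn, rfl⟩
    rw [← map_mul, hc n hn, map_mul]
  refine ⟨h1, hAmax _ inferInstance ⟨⟨fun a b => Subtype.ext (eq_of_smul_eq_smul fun v : V => ?_)⟩⟩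
    (Subgroup.le_centralizer_iff.1 hNle)⟩
  exact DFunLike.congr_fun (congrArg Subtype.val (h2.mul_comm ⟨_, h3 a a.2⟩ ⟨_, h3 b b.2⟩)) v

end Cfsg.Agent.S0687
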