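import Cfsg.Statements.S0694
import Mathlib

set_option autoImplicit false
open Cfsg

namespace Cfsg.Agent.S0694

theorem lte_two_odd {q i : ℕ} (hq : 1 < q) (h : ¬ 2 ∣ q) (hi : ¬ 2 ∣ i) :
    padicValNat 2 (q ^ i - 1) = padicValNat 2 (q - 1) := by
  have h1 := emultiplicity_pow_sub_pow_of_prime (x := (q : ℤ)) (y := 1) Int.prime_two (by omega)
    (by omega) (n := i) (by omega)
  have h2 : ∀ m : ℕ, 0 < m → emultiplicity (2 : ℤ) (m : ℤ) = padicValNat 2 m := fun m hm => by
    rw [padicValNat_eq_emultiplicity hm.ne', ← Int.natCast_emultiplicity]; rfl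
  have h3 := Nat.one_lt_pow (n := i) (by omega) hq
  rw [one_pow, show (q : ℤ) ^ i - 1 = (q ^ i - 1 : ℕ) by rw [Nat.cast_sub h3.le]; simp,
    show (q : ℤ) - 1 = (q - 1 : ℕ) by omega, h2 _ (by omega), h2 _ (by omega)] at h1
  exact_mod_cast h1

theorem lte {q s i : ℕ} (hq : 1 < q) (hs : s.Prime) (hi : i ≠ 0) (h : s ∣ q - 1) :
    padicValNat s (q - 1) + padicValNat s i ≤ padicValNat s (q ^ i - 1) ∧
    ((s = 2 → 4 ∣ q - 1 ∨ ¬ 2 ∣ i) →
      padicValNat s (q ^ i - 1) = padicValNat s (q - 1) + padicValNat s i) := by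
  have := Fact.mk hs
  have hsq : ¬ s ∣ q := fun h' => hs.one_lt.ne' (Nat.dvd_one.1 (by
    simpa [Nat.sub_sub_self hq.le] using Nat.dvd_sub h' h))
  rcases hs.eq_two_or_odd' with rfl | ho
  · by_cases h2 : 2 ∣ i
    · have h3 := padicValNat.pow_two_sub_one hq hsq hi (even_iff_two_dvd.2 h2)
      have h4 : 1 ≤ padicValNat 2 (q + 1) := one_le_padicValNat_of_dvd (by omega) (by omega)
      refine ⟨by omega, fun h5 => ?_⟩
      have : ¬ 2 ≤ padicValNat 2 (q + 1) := by
        rw [← padicValNat_dvd_iff_le (by omega)]; omega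
      omega
    · rw [lte_two_odd hq hsq h2, padicValNat.eq_zero_of_not_dvd h2]; simp
  · have := padicValNat.pow_sub_pow ho hq h hsq hi
    rw [one_pow] at this
    exact ⟨this.ge, fun _ => this⟩

theorem modEq_iff {q n i : ℕ} (hq : 1 < q) (hn : n ≠ 0) (hi : i ≠ 0) :
    q ^ i ≡ 1 [MOD n * (q - 1)] ↔ ∀ s : ℕ, s.Prime → s ∣ n →
      padicValNat s n + padicValNat s (q - 1) ≤ padicValNat s (q ^ i - 1) := by
  have h3 := Nat.one_lt_pow hi hq
  rw [Nat.ModEq.comm, Nat.modEq_iff_dvd' h3.le,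
    ← Nat.factorization_prime_le_iff_dvd (Nat.mul_ne_zero hn (by omega)) (by omega)]
  refine forall₂_congr fun s hs => ?_
  have := Fact.mk hs
  rw [Nat.factorization_def _ hs, Nat.factorization_def _ hs, padicValNat.mul hn (by omega)]
  refine ⟨fun h _ => h, fun h => ?_⟩
  by_cases h1 : s ∣ n
  · exact h h1
  · rw [padicValNat.eq_zero_of_not_dvd h1, zero_add, ← padicValNat_dvd_iff_le (by omega)]
    exact pow_padicValNat_dvd.trans (by simpa using Nat.sub_dvd_pow_sub_pow q 1 i)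

/-- The Dickson pair condition: for a prime power `q` and `n > 1`, (every prime factor of `n` divides `q - 1`, and `4 ∣ n → 4 ∣ q - 1`) holds exactly when `q ^ n ≡ 1` modulo `n * (q - 1)` but `q ^ i` is not, for `0 < i < n`. -/
theorem result (q n : ℕ) (hq : IsPrimePow q) (hn : 1 < n) : ((∀ r : ℕ, r.Prime → r ∣ n → r ∣ q - 1) ∧ (4 ∣ n → 4 ∣ q - 1)) ↔ (q ^ n ≡ 1 [MOD n * (q - 1)] ∧ ∀ i : ℕ, 0 < i → i < n → ¬ q ^ i ≡ 1 [MOD n * (q - 1)]) := by
  have hq := hq.one_lt
  have hn0 : n ≠ 0 := by omega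
  refine ⟨fun ⟨h1, h2⟩ => ⟨(modEq_iff hq hn0 hn0).2 fun s hs hsn => ?_, fun i hi hin h => ?_⟩,
    fun ⟨h1, h2⟩ => ?_⟩
  · have := (lte hq hs hn0 (h1 s hs hsn)).1
    omega
  · refine (Nat.le_of_dvd hi ?_).not_gt hin
    rw [← Nat.factorization_prime_le_iff_dvd hn0 hi.ne']
    intro s hs
    have := Fact.mk hs
    rw [Nat.factorization_def _ hs, Nat.factorization_def _ hs]
    by_cases hsn : s ∣ n
    swap
    · simp [padicValNat.eq_zero_of_not_dvd hsn]
    have h3 := (modEq_iff hq hn0 hi.ne').1 h s hs hsn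
    by_cases h4 : s = 2 → 4 ∣ q - 1 ∨ ¬ 2 ∣ i
    · have := (lte hq hs hi.ne' (h1 s hs hsn)).2 h4
      omega
    · push Not at h4
      obtain ⟨rfl, h4, h5⟩ := h4
      have h6 : 1 ≤ padicValNat 2 i := one_le_padicValNat_of_dvd hi.ne' h5
      have : ¬ 2 ≤ padicValNat 2 n := by
        rw [← padicValNat_dvd_iff_le hn0]; exact fun h => h4 (h2 h)
      omega
  have h3 : ∀ i, q ^ i ≡ 1 [MOD n * (q - 1)] → n ∣ i := by
    intro i hi
    by_contra h
    refine h2 (i % n) (Nat.pos_of_ne_zero fun h' => h (Nat.dvd_of_mod_eq_zero h'))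
      (Nat.mod_lt _ (by omega)) ?_
    have := (h1.pow (i / n)).mul_right (q ^ (i % n))
    rw [← pow_mul, ← pow_add, Nat.div_add_mod, one_pow, one_mul] at this
    exact this.symm.trans hi
  have h4 : ∀ r : ℕ, r.Prime → r ∣ n → r ∣ q - 1 := by
    by_contra! h
    classical
    obtain ⟨r, hr, hmax⟩ := (n.primeFactors.filter fun r => ¬ r ∣ q - 1).exists_max_image id (by
      obtain ⟨r, h1, h2, h3⟩ := h
      exact ⟨r, by simp [h1, h2, h3, hn0]⟩)
    simp only [Finset.mem_filter, Nat.mem_primeFactors, id] at hr hmax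
    obtain ⟨⟨hr, ⟨m, hm⟩, -⟩, hrq⟩ := hr
    have hm0 : m ≠ 0 := by rintro rfl; omega
    have hf := (r - 1).factorial_ne_zero
    have h5 := h3 (m * (r - 1).factorial) ((modEq_iff hq hn0 (Nat.mul_ne_zero hm0 hf)).2
      fun s hs hsn => ?_)
    · rw [hm, mul_comm r, Nat.mul_dvd_mul_iff_left (by omega), hr.dvd_factorial] at h5
      have := hr.pos
      omega
    have := Fact.mk hs
    have h6 : padicValNat s n = padicValNat s r + padicValNat s m := by
      rw [hm, padicValNat.mul hr.ne_zero hm0]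
    by_cases hsq : s ∣ q - 1
    · have h7 := (lte hq hs (Nat.mul_ne_zero hm0 hf) hsq).1
      rw [padicValNat.mul hm0 hf] at h7
      have : padicValNat s r = 0 := padicValNat.eq_zero_of_not_dvd fun h =>
        hrq ((Nat.prime_dvd_prime_iff_eq hs hr).1 h ▸ hsq)
      omega
    · have h7 := Nat.one_lt_pow (Nat.mul_ne_zero hm0 hf) hq
      rw [padicValNat.eq_zero_of_not_dvd hsq, add_zero, ← padicValNat_dvd_iff_le (by omega),
        ← Nat.modEq_iff_dvd' h7.le, Nat.ModEq.comm]
      have hcop : q.Coprime (s ^ padicValNat s n) := by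
        refine Nat.Coprime.pow_right _ ((Nat.Prime.coprime_iff_not_dvd hs).2 fun h => ?_).symm
        have h8 := (h1.of_dvd (hsn.mul_right _)).symm.trans
          (Nat.modEq_zero_iff_dvd.2 (h.trans (dvd_pow_self q hn0)))
        exact hs.one_lt.ne' (Nat.dvd_one.1 (Nat.modEq_zero_iff_dvd.1 h8))
      have h8 : (s ^ padicValNat s n).totient ∣ m * (r - 1).factorial := by
        rw [Nat.totient_prime_pow hs (one_le_padicValNat_of_dvd hn0 hsn)]
        refine Nat.mul_dvd_mul ((padicValNat_dvd_iff_le hm0).2 ?_) (Nat.dvd_factorial ?_ ?_)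
        · have : ¬ 2 ≤ padicValNat s r := by
            rw [← padicValNat_dvd_iff_le hr.ne_zero]
            intro h
            have := (Nat.prime_dvd_prime_iff_eq hs hr).1 ((dvd_pow_self s two_ne_zero).trans h)
            subst this
            exact hs.one_lt.ne' (Nat.dvd_one.1 ((Nat.mul_dvd_mul_iff_left hs.pos).1
              (by simpa [sq] using h)))
          omega
        · have := hs.two_le; omega
        · have := hmax s ⟨⟨hs, hsn, hn0⟩, hsq⟩; omega
      obtain ⟨c, hc⟩ := h8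
      simpa [hc, pow_mul] using (Nat.ModEq.pow_totient hcop).pow c
  refine ⟨h4, fun ⟨m, hm⟩ => by_contra fun h5 => ?_⟩
  have hm0 : 2 * m ≠ 0 := by omega
  have h6 := h3 (2 * m) ((modEq_iff hq hn0 hm0).2 fun s hs hsn => ?_)
  · have := Nat.le_of_dvd (by omega) h6
    omega
  have := Fact.mk hs
  have h6 : padicValNat s n = padicValNat s 2 + padicValNat s (2 * m) := by
    rw [← padicValNat.mul two_ne_zero hm0, hm]; ring_nf
  rcases eq_or_ne s 2 with rfl | hs2
  · have h7 := h4 2 hs hsn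
    have h8 := padicValNat.pow_two_sub_one hq (by omega) hm0 (even_two_mul m)
    have h9 : 2 ≤ padicValNat 2 (q + 1) := by
      rw [← padicValNat_dvd_iff_le (by omega)]; omega
    rw [padicValNat_self] at h6
    omega
  · have h7 := (lte hq hs hm0 (h4 s hs hsn)).1
    have : padicValNat s 2 = 0 := padicValNat.eq_zero_of_not_dvd fun h =>
      hs2 ((Nat.prime_dvd_prime_iff_eq hs Nat.prime_two).1 h)
    omega

end Cfsg.Agent.S0694
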