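import Cfsg.Statements.S0697
import Cfsg.Agent.Perm.NormalTrans

set_option autoImplicit false
open Cfsg

namespace Cfsg.Agent.S0697

/-- In a `k`-primitive permutation group which is not the whole symmetric group, a non-trivial non-regular normal subgroup is `k`-transitive. -/
theorem result {α : Type*} [Fintype α] [DecidableEq α] (G : Subgroup (Equiv.Perm α)) {k : ℕ} (hk : 1 ≤ k) (hkn : k ≤ Fintype.card α) (hG : MulAction.IsMultiplyPreprimitive G α k) (htop : G ≠ ⊤) (H : Subgroup G) [H.Normal] (hH : H ≠ ⊥) (hnr : ∃ a : α, MulAction.stabilizer H a ≠ ⊥) : MulAction.IsMultiplyPretransitive H α k := by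
  refine CF.Perm.normal_multTrans_of_multPrim k hk (by simpa using hkn) hG (Or.inr fun h => ?_)
    H hH (Or.inr hnr)
  exact htop (Equiv.Perm.eq_top_of_isMultiplyPretransitive
    (CF.Perm.multTrans_of_le h (Nat.sub_le _ _) le_rfl))

end Cfsg.Agent.S0697
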