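import Cfsg.Statements.S0701
import Cfsg.Agent.Perm.Centralizer

set_option autoImplicit false
open Cfsg

namespace Cfsg.Agent.S0701

/-- The centraliser in the full symmetric group of a transitive permutation group `G` is semiregular, and it is transitive if and only if `G` is regular. -/
theorem result {α : Type*} (G : Subgroup (Equiv.Perm α)) [MulAction.IsPretransitive G α] : (∀ c ∈ Subgroup.centralizer (G : Set (Equiv.Perm α)), ∀ a : α, c a = a → c = 1) ∧ (MulAction.IsPretransitive (Subgroup.centralizer (G : Set (Equiv.Perm α))) α ↔ ∀ a : α, MulAction.stabilizer G a = ⊥) := by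
  have h1 : ∀ c ∈ Subgroup.centralizer (G : Set (Equiv.Perm α)), ∀ a : α, c a = a → c = 1 := by
    intro c hc a ha
    ext x
    exact CF.Perm.fix_all_of_equivariant (G := G) c ((CF.Perm.mem_centralizer_perm_iff G c).1 hc) ha x
  refine ⟨h1, fun h a => ?_, fun h => ?_⟩
  · rw [CF.Perm.stabilizer_subgroup_eq_bot_iff]
    intro g hg hga
    exact CF.Perm.eq_one_of_commute_trans (α := α)
      (M := Subgroup.centralizer (G : Set (Equiv.Perm α))) (fun m hm => hm g hg) hga
  · rw [CF.Perm.isPretransitive_subgroup_iff]
    intro a b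
    obtain ⟨c, hc, hc'⟩ := CF.Perm.exists_equivariant_perm (G := G) ((h a).trans (h b).symm)
    exact ⟨c, (CF.Perm.mem_centralizer_perm_iff G c).2 hc, hc'⟩

end Cfsg.Agent.S0701
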