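import Cfsg.Statements.S0702
import Cfsg.Agent.Perm.Centralizer

set_option autoImplicit false
open Cfsg

namespace Cfsg.Agent.S0702

/-- For a transitive permutation group `G` on a finite set, the centraliser of `G` in the symmetric group is isomorphic to `N_G(G_ω)/G_ω`, and its orbit of `ω` is the set of fixed points of `G_ω`. -/
theorem result {α : Type*} [Finite α] (G : Subgroup (Equiv.Perm α)) [MulAction.IsPretransitive G α] (a : α) : Nonempty (Subgroup.centralizer (G : Set (Equiv.Perm α)) ≃* Subgroup.normalizer ((MulAction.stabilizer G a : Subgroup G) : Set G) ⧸ (MulAction.stabilizer G a).subgroupOf (Subgroup.normalizer ((MulAction.stabilizer G a : Subgroup G) : Set G))) ∧ MulAction.orbit (Subgroup.centralizer (G : Set (Equiv.Perm α))) a = MulAction.fixedPoints (MulAction.stabilizer G a) α := by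
  have hstab : ∀ g : G, g ∈ Subgroup.normalizer ((MulAction.stabilizer G a : Subgroup G) : Set G) ↔
      MulAction.stabilizer G a = MulAction.stabilizer G (g⁻¹ • a) := by
    intro g
    rw [Subgroup.mem_normalizer_iff, Subgroup.ext_iff]
    refine forall_congr' fun x => ?_
    simp only [SetLike.mem_coe, MulAction.mem_stabilizer_iff, mul_smul]
    rw [eq_inv_smul_iff (g := g)]
  have huniq : ∀ c d : Subgroup.centralizer (G : Set (Equiv.Perm α)),
      (c : Equiv.Perm α) a = (d : Equiv.Perm α) a → c = d := by
    intro c d h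
    have := CF.Perm.fix_all_of_equivariant (G := G) ((d⁻¹ * c : Subgroup.centralizer _) : Equiv.Perm α)
      ((CF.Perm.mem_centralizer_perm_iff G _).1 (d⁻¹ * c).2) (a := a) (by simp [h])
    rw [eq_comm, ← inv_mul_eq_one]
    exact Subtype.ext (Equiv.ext this)
  have hceq : ∀ c : Subgroup.centralizer (G : Set (Equiv.Perm α)),
      MulAction.stabilizer G a = MulAction.stabilizer G ((c : Equiv.Perm α) a) := by
    intro c
    ext g
    rw [MulAction.mem_stabilizer_iff, MulAction.mem_stabilizer_iff,
      ← (CF.Perm.mem_centralizer_perm_iff G _).1 c.2, (c : Equiv.Perm α).apply_eq_iff_eq]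
  constructor
  · have hex : ∀ n : Subgroup.normalizer ((MulAction.stabilizer G a : Subgroup G) : Set G),
        ∃ c : Subgroup.centralizer (G : Set (Equiv.Perm α)), (c : Equiv.Perm α) a = (n : G)⁻¹ • a := by
      intro n
      obtain ⟨c, hc, hc'⟩ := CF.Perm.exists_equivariant_perm ((hstab n).1 n.2)
      exact ⟨⟨c, (CF.Perm.mem_centralizer_perm_iff G c).2 hc⟩, hc'⟩
    choose f hf using hex
    let φ := MonoidHom.mk' f (fun m n => huniq _ _ (by
      rw [Subgroup.coe_mul, Equiv.Perm.mul_apply, hf, hf,
        (CF.Perm.mem_centralizer_perm_iff G _).1 (f m).2, hf, Subgroup.coe_mul, mul_inv_rev,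
        mul_smul]))
    have hsurj : Function.Surjective φ := by
      intro c
      obtain ⟨g, hg⟩ := MulAction.exists_smul_eq G a ((c : Equiv.Perm α) a)
      refine ⟨⟨g⁻¹, (hstab _).2 (by rw [inv_inv, hg]; exact hceq c)⟩, huniq _ _ ?_⟩
      change (f _ : Equiv.Perm α) a = _
      rw [hf, inv_inv, hg]
    have hker : φ.ker = (MulAction.stabilizer G a).subgroupOf _ := by
      ext n
      rw [MonoidHom.mem_ker, Subgroup.mem_subgroupOf, ← Subgroup.inv_mem_iff,
        MulAction.mem_stabilizer_iff, ← hf]
      constructor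
      · intro h
        change (φ n : Equiv.Perm α) a = a
        rw [h]; rfl
      · intro h
        exact huniq _ _ h
    exact ⟨((QuotientGroup.quotientMulEquivOfEq hker.symm).trans
      (QuotientGroup.quotientKerEquivOfSurjective φ hsurj)).symm⟩
  · ext b
    constructor
    · rintro ⟨c, rfl⟩ ⟨g, hg⟩
      rw [hceq c] at hg
      exact hg
    · intro hb
      have hle : MulAction.stabilizer G a ≤ MulAction.stabilizer G b := fun g hg => hb ⟨g, hg⟩
      have h1 := CF.Perm.card_mul_card_stabilizer (G := G) a
      rw [← CF.Perm.card_mul_card_stabilizer (G := G) b] at h1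
      have : Nonempty α := ⟨a⟩
      obtain ⟨c, hc, hc'⟩ := CF.Perm.exists_equivariant_perm (Subgroup.eq_of_le_of_card_ge hle
        (Nat.eq_of_mul_eq_mul_left Nat.card_pos h1).ge)
      exact ⟨⟨c, (CF.Perm.mem_centralizer_perm_iff G c).2 hc⟩, hc'⟩

end Cfsg.Agent.S0702
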