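import Cfsg.Statements.S0703
import Cfsg.Agent.Perm.Centralizer

set_option autoImplicit false
open Cfsg

namespace Cfsg.Agent.S0703

/-- An abelian transitive minimal normal subgroup `M` of a permutation group on a finite set is self-centralising in the symmetric group, regular, elementary abelian, and is the unique minimal normal subgroup. -/
theorem result {α : Type*} [Finite α] (G : Subgroup (Equiv.Perm α)) (M : Subgroup G) [M.Normal] (hM : M ≠ ⊥) (hmin : ∀ L : Subgroup G, L.Normal → L ≤ M → L = ⊥ ∨ L = M) (hab : IsMulCommutative M) (htrans : MulAction.IsPretransitive M α) : Subgroup.centralizer ((M.map G.subtype : Subgroup (Equiv.Perm α)) : Set (Equiv.Perm α)) = M.map G.subtype ∧ (∀ a : α, MulAction.stabilizer M a = ⊥) ∧ (∃ p : ℕ, p.Prime ∧ ∀ m ∈ M, m ^ p = 1) ∧ ∀ L : Subgroup G, L.Normal → L ≠ ⊥ → (∀ L' : Subgroup G, L'.Normal → L' ≤ L → L' = ⊥ ∨ L' = L) → L = M := by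
  obtain ⟨⟨n, hn⟩, hn1⟩ := (Subgroup.ne_bot_iff_exists_ne_one).1 hM
  obtain ⟨a, ha⟩ := CF.Perm.exists_smul_ne_of_ne_one (α := α) (g := n)
    (fun h => hn1 (Subtype.ext h))
  have : Nonempty α := ⟨a⟩
  have hc : ∀ m ∈ M, ∀ n ∈ M, m * n = n * m := fun a ha b hb =>
    congrArg Subtype.val (hab.1.1 ⟨a, ha⟩ ⟨b, hb⟩)
  have h1 := CF.Perm.centralizer_map_eq M M hc
  refine ⟨h1, fun a => ?_, CF.Perm.exponent_prime_of_minimal_normal_comm M hM hmin hab, ?_⟩
  · rw [CF.Perm.stabilizer_subgroup_eq_bot_iff]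
    intro g hg hga
    exact CF.Perm.eq_one_of_commute_trans (α := α) (M := M) (hc g hg) hga
  · intro L hL hL1 hLmin
    by_contra hne
    have h2 := CF.Perm.commute_of_minimal_normal_ne hL1 hLmin hmin hne
    refine hne ((hmin L hL fun l hl => ?_).resolve_left hL1)
    have : (l : Equiv.Perm α) ∈ M.map G.subtype := by
      rw [← h1]
      rintro _ ⟨m, hm, rfl⟩
      exact congrArg Subtype.val (h2 l hl m hm).symm
    obtain ⟨m, hm, hm'⟩ := this
    exact (Subtype.ext hm' : m = l) ▸ hm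

end Cfsg.Agent.S0703
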