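import Cfsg.Statements.S0704
import Cfsg.Agent.Perm.Centralizer

set_option autoImplicit false
open Cfsg

namespace Cfsg.Agent.S0704

/-- Two distinct transitive minimal normal subgroups `M`, `N` of a permutation group are regular, non-abelian, isomorphic, each other's centraliser in the symmetric group, and the only minimal normal subgroups. -/
theorem result {α : Type*} (G : Subgroup (Equiv.Perm α)) (M N : Subgroup G) [M.Normal] [N.Normal] (hM : M ≠ ⊥) (hN : N ≠ ⊥) (hMmin : ∀ L : Subgroup G, L.Normal → L ≤ M → L = ⊥ ∨ L = M) (hNmin : ∀ L : Subgroup G, L.Normal → L ≤ N → L = ⊥ ∨ L = N) (hMN : M ≠ N) (hMt : MulAction.IsPretransitive M α) (hNt : MulAction.IsPretransitive N α) : (∀ a : α, MulAction.stabilizer M a = ⊥) ∧ (∀ a : α, MulAction.stabilizer N a = ⊥) ∧ ¬ IsMulCommutative M ∧ Nonempty (M ≃* N) ∧ Subgroup.centralizer ((M.map G.subtype : Subgroup (Equiv.Perm α)) : Set (Equiv.Perm α)) = N.map G.subtype ∧ Subgroup.centralizer ((N.map G.subtype : Subgroup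 (Equiv.Perm α)) : Set (Equiv.Perm α)) = M.map G.subtype ∧ ∀ L : Subgroup G, L.Normal → L ≠ ⊥ → (∀ L' : Subgroup G, L'.Normal → L' ≤ L → L' = ⊥ ∨ L' = L) → L = M ∨ L = N := by
  obtain ⟨⟨n, hn⟩, hn1⟩ := (Subgroup.ne_bot_iff_exists_ne_one).1 hM
  obtain ⟨a, ha⟩ := CF.Perm.exists_smul_ne_of_ne_one (α := α) (g := n)
    (fun h => hn1 (Subtype.ext h))
  have : Nonempty α := ⟨a⟩
  have hc := CF.Perm.commute_of_minimal_normal_ne hM hMmin hNmin hMN
  have hc' : ∀ n ∈ N, ∀ m ∈ M, n * m = m * n := fun n hn m hm => (hc m hm n hn).symm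
  have h1 := CF.Perm.centralizer_map_eq M N hc
  have h2 := CF.Perm.centralizer_map_eq N M hc'
  have hMr : ∀ a : α, MulAction.stabilizer M a = ⊥ := fun a => by
    rw [CF.Perm.stabilizer_subgroup_eq_bot_iff]
    intro g hg hga
    exact CF.Perm.eq_one_of_commute_trans (α := α) (M := N) (hc g hg) hga
  have hNr : ∀ a : α, MulAction.stabilizer N a = ⊥ := fun a => by
    rw [CF.Perm.stabilizer_subgroup_eq_bot_iff]
    intro g hg hga
    exact CF.Perm.eq_one_of_commute_trans (α := α) (M := M) (hc' g hg) hga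
  have hle : ∀ L : Subgroup G, (∀ l ∈ L, ∀ m ∈ M, l * m = m * l) → L ≤ N := by
    intro L hL l hl
    have : (l : Equiv.Perm α) ∈ N.map G.subtype := by
      rw [← h1]
      rintro _ ⟨m, hm, rfl⟩
      exact congrArg Subtype.val (hL l hl m hm).symm
    obtain ⟨m, hm, hm'⟩ := this
    exact (Subtype.ext hm' : m = l) ▸ hm
  refine ⟨hMr, hNr, fun hab => ?_, ?_, h1, h2, fun L hL hL1 hLmin => ?_⟩
  · exact hMN ((hNmin M inferInstance (hle M fun a ha b hb =>
      congrArg Subtype.val (hab.1.1 ⟨a, ha⟩ ⟨b, hb⟩))).resolve_left hM)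
  · have hex : ∀ m : M, ∃ n : N, n⁻¹ • a = m • a := fun m => by
      obtain ⟨n, hn⟩ := MulAction.exists_smul_eq N a (m • a)
      exact ⟨n⁻¹, by simpa using hn⟩
    choose f hf using hex
    have hNu : ∀ x y : N, x⁻¹ • a = y⁻¹ • a → x = y := fun x y h =>
      inv_injective (Subtype.ext (CF.Perm.eq_of_smul_eq_of_regular (hNr a) x⁻¹.2 y⁻¹.2 h))
    have hcs : ∀ (m : M) (n : N) (x : α), m • n • x = n • m • x := by
      intro m n x
      change (m : G) • (n : G) • x = (n : G) • (m : G) • x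
      rw [← mul_smul, hc m m.2 n n.2, mul_smul]
    refine ⟨MulEquiv.ofBijective (MonoidHom.mk' f fun x y => hNu _ _ ?_) ⟨fun x y h => ?_, fun n => ?_⟩⟩
    · rw [hf, mul_inv_rev, mul_smul, mul_smul, hf, ← hf y, hcs]
    · apply Subtype.ext
      apply CF.Perm.eq_of_smul_eq_of_regular (hMr a) x.2 y.2
      change x • a = y • a
      rw [← hf, ← hf]
      exact congrArg (fun z : N => z⁻¹ • a) h
    · obtain ⟨m, hm⟩ := MulAction.exists_smul_eq M a (n⁻¹ • a)
      exact ⟨m, hNu _ _ ((hf m).trans hm)⟩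
  · by_cases hLM : L = M
    · exact Or.inl hLM
    · exact Or.inr ((hNmin L hL (hle L
        (CF.Perm.commute_of_minimal_normal_ne hL1 hLmin hMmin hLM))).resolve_left hL1)

end Cfsg.Agent.S0704
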