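import Cfsg.Statements.S0706
import Cfsg.Agent.Perm.Multi

set_option autoImplicit false
open Cfsg
open scoped Pointwise

namespace Cfsg.Agent.S0706

/-- In a generously `k`-transitive permutation group, for a prime `p ≤ k` and a `k`-set `Γ`, there are no `p` points outside `Γ` lying in distinct orbits of the pointwise stabiliser of `Γ` all of length prime to `p` (at most `p - 1` such orbits). -/
theorem result {α : Type*} [Fintype α] [DecidableEq α] (G : Subgroup (Equiv.Perm α)) {k : ℕ} (hk : k < Fintype.card α) (hgen : ∀ s : Finset α, s.card = k + 1 → ∀ σ : Equiv.Perm ↥s, ∃ g ∈ G, ∀ x : ↥s, g (x : α) = σ x) {p : ℕ} (hp : p.Prime) (hpk : p ≤ k) (Γ : Finset α) (hΓ : Γ.card = k) (f : Fin p → α) (hf : ∀ i, f i ∉ Γ) (hdist : ∀ i j, i ≠ j → f j ∉ MulAction.orbit (fixingSubgroup G (Γ : Set α)) (f i)) : ∃ i, p ∣ Nat.card (MulAction.orbit (fixingSubgroup G (Γ : Set α)) (f i)) := by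
  have h : CF.Perm.Generous G k := hgen
  have hT := h.multTrans hk
  have := Fact.mk hp
  by_contra! hne
  obtain ⟨C, hC, hCp⟩ := Finset.exists_subset_card_eq (hΓ ▸ hpk : p ≤ Γ.card)
  let K := fixingSubgroup G (Γ : Set α)
  let L := fixingSubgroup G ((Γ \ C : Finset α) : Set α) ⊓ MulAction.stabilizer G C
  have hL : ∀ g : G, g ∈ L ↔ (∀ x ∈ Γ, x ∉ C → g • x = x) ∧ ∀ x ∈ C, g • x ∈ C := by
    intro g
    simp only [L, Subgroup.mem_inf, mem_fixingSubgroup_iff, Finset.mem_coe, Finset.mem_sdiff,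
      and_imp, MulAction.mem_stabilizer_finset']
  have hK : ∀ g : G, g ∈ K ↔ ∀ x ∈ Γ, g • x = x := fun g => mem_fixingSubgroup_iff G
  have hKL : K ≤ L := fun g hg => (hL g).2 ⟨fun x hx _ => (hK g).1 hg x hx,
    fun x hx => by rwa [(hK g).1 hg x (hC hx)]⟩
  have horb : ∀ a ∉ Γ, MulAction.orbit L a = MulAction.orbit K a := by
    intro a ha
    ext b
    rw [CF.Perm.mem_orbit_subgroup_iff, CF.Perm.mem_orbit_subgroup_iff]
    refine ⟨fun ⟨g, hg, h1⟩ => ?_, fun ⟨g, hg, h1⟩ => ⟨g, hKL hg, h1⟩⟩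
    obtain ⟨g', hg', h2, h3⟩ := h.exists_fixing Γ hΓ ha g.2 fun x hx => by
      by_cases hxC : x ∈ C
      · exact hC (((hL g).1 hg).2 x hxC)
      · have : g.1 x = x := ((hL g).1 hg).1 x hx hxC
        rwa [this]
    exact ⟨⟨g', hg'⟩, (hK _).2 h2, h3.trans h1⟩
  obtain ⟨c, hc⟩ : C.Nonempty := Finset.card_pos.1 (hCp ▸ hp.pos)
  have horbc : MulAction.orbit L c = C := by
    ext d
    rw [CF.Perm.mem_orbit_subgroup_iff]
    refine ⟨fun ⟨g, hg, h1⟩ => h1 ▸ ((hL g).1 hg).2 c hc, fun hd => ?_⟩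
    obtain ⟨g, hg⟩ := CF.Perm.multTrans_finset_eq hT Γ hΓ (Equiv.swap c d) (Equiv.injective _).injOn
    refine ⟨g, (hL g).2 ⟨fun x hx hxC => (hg x hx).trans (Equiv.swap_apply_of_ne_of_ne ?_ ?_),
      fun x hx => ?_⟩, (hg c (hC hc)).trans (Equiv.swap_apply_left _ _)⟩
    · rintro rfl; exact hxC hc
    · rintro rfl; exact hxC hd
    · rw [hg x (hC hx), Equiv.swap_apply_def]
      split_ifs
      exacts [hd, hc, hx]
  have h1 : p ∣ K.relIndex L := by
    have h2 := CF.Perm.card_orbit_subgroup L c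
    rw [horbc, Finset.coe_sort_coe, Nat.card_eq_fintype_card, Fintype.card_coe, hCp] at h2
    rw [h2]
    exact Subgroup.relIndex_dvd_of_le_left _ fun g hg => (hK g).1 hg c (hC hc)
  obtain ⟨P⟩ : Nonempty (Sylow p L) := inferInstance
  let Q := (P : Subgroup L).map L.subtype
  have hQ : IsPGroup p Q := P.2.map _
  have hQL : Q ≤ L := Subgroup.map_subtype_le _
  choose a ha ha' using fun i => CF.Perm.exists_fixed_in_orbit L Q hQL hQ (f i)
    (by rw [horb _ (hf i)]; exact hne i)
  have haΓ : ∀ i, a i ∉ Γ := by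
    intro i hi
    have := ha i
    rw [horb _ (hf i)] at this
    obtain ⟨g, hg⟩ := this
    have h2 := (hK g).1 g.2 _ hi
    rw [← hg] at h2 hi
    exact hf i (by rwa [← (smul_left_cancel_iff (g : G)).1 h2])
  have hai : Function.Injective a := by
    intro i j hij
    by_contra h2
    have h3 := ha i
    have h4 := ha j
    rw [horb _ (hf _)] at h3 h4
    refine hdist i j h2 ?_
    rw [← MulAction.orbit_eq_iff.2 h3, hij, MulAction.orbit_eq_iff.2 h4]
    exact MulAction.mem_orbit_self _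
  let Δ := (Γ \ C) ∪ Finset.univ.image a
  have hΔ : Δ.card = k := by
    rw [Finset.card_union_of_disjoint, Finset.card_sdiff_of_subset hC,
      Finset.card_image_of_injective _ hai, Finset.card_univ, Fintype.card_fin]
    · omega
    · rw [Finset.disjoint_right]
      simp only [Finset.mem_image, Finset.mem_univ, true_and, Finset.mem_sdiff, not_and]
      rintro _ ⟨i, rfl⟩ h
      exact absurd h (haΓ i)
  have h2 : Q ≤ fixingSubgroup G (Δ : Set α) := by
    intro g hg
    rw [mem_fixingSubgroup_iff]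
    intro x hx
    simp only [Δ, Finset.coe_union, Finset.coe_sdiff, Finset.coe_image, Set.mem_union,
      Set.mem_sdiff, Finset.mem_coe, Set.mem_image] at hx
    rcases hx with hx | ⟨i, -, rfl⟩
    · exact ((hL g).1 (hQL hg)).1 x hx.1 hx.2
    · exact ha' i g hg
  have h3 := Subgroup.card_dvd_of_le h2
  rw [CF.Perm.card_fixingSubgroup_eq hT (t := (Γ : Set α)) (by simpa using hΔ) (by simpa using hΓ),
    Subgroup.card_subtype, P.card_eq_multiplicity] at h3
  have h4 : p * p ^ (Nat.card L).factorization p ∣ Nat.card L := by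
    have h5 := (K.subgroupOf L).index_mul_card
    rw [Nat.card_congr (Subgroup.subgroupOfEquivOfLe hKL).toEquiv] at h5
    exact (Nat.mul_dvd_mul h1 h3).trans h5.dvd
  rw [← pow_succ'] at h4
  exact Nat.pow_succ_factorization_not_dvd Nat.card_pos.ne' hp h4

end Cfsg.Agent.S0706
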