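import Cfsg.Statements.S0707
import Cfsg.Agent.Perm.Multi

set_option autoImplicit false
open Cfsg
open scoped Pointwise

namespace Cfsg.Agent.S0707

/-- In a primitive permutation group, distinct points have distinct stabilisers unless the group is regular of prime degree. -/
theorem result {α : Type*} (G : Subgroup (Equiv.Perm α)) [MulAction.IsPreprimitive G α] (h : ¬ (Nat.card α).Prime ∨ ∃ a : α, MulAction.stabilizer G a ≠ ⊥) {a b : α} (hab : a ≠ b) : MulAction.stabilizer G a ≠ MulAction.stabilizer G b := by
  intro he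
  have : Nontrivial α := ⟨a, b, hab⟩
  have hB : MulAction.IsBlock G {x : α | MulAction.stabilizer G x = MulAction.stabilizer G a} := by
    rw [MulAction.isBlock_iff_smul_eq_of_mem]
    intro g x hx hgx
    simp only [Set.mem_ofPred_eq, MulAction.stabilizer_smul_eq_stabilizer_map_conj] at hx hgx
    ext y
    obtain ⟨y, rfl⟩ := MulAction.surjective g y
    simp only [Set.smul_mem_smul_set_iff, Set.mem_ofPred_eq,
      MulAction.stabilizer_smul_eq_stabilizer_map_conj]
    conv_rhs => rw [← hgx, hx]
    exact (Subgroup.map_injective (MulEquiv.injective _)).eq_iff.symm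
  have h1 : ∀ x : α, MulAction.stabilizer G x = MulAction.stabilizer G a := by
    rcases hB.subsingleton_or_eq_univ with h1 | h1
    · exact absurd (h1 rfl he.symm) hab
    · exact fun x => h1.ge (Set.mem_univ x)
  have h2 : MulAction.stabilizer G a = ⊥ := by
    rw [eq_bot_iff]
    exact fun g hg => Subtype.ext (Equiv.ext fun x => (h1 x).ge hg)
  rcases h with h | ⟨x, hx⟩
  · apply h
    have hc := MulAction.IsPreprimitive.isCoatom_stabilizer_of_isPreprimitive G a
    rw [h2] at hc
    have : Nontrivial G := (Subgroup.nontrivial_iff).1 ⟨_, _, hc.1⟩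
    have h3 : ∀ H : Subgroup G, H = ⊥ ∨ H = ⊤ := fun H =>
      (eq_or_ne H ⊥).imp id fun h => hc.2 H (bot_lt_iff_ne_bot.2 h)
    obtain ⟨g, hg⟩ := exists_ne (1 : G)
    have : IsCyclic G := isCyclic_iff_exists_zpowers_eq_top.2 ⟨g, (h3 _).resolve_left (by simpa)⟩
    have : IsSimpleGroup G := ⟨fun H _ => h3 H⟩
    have h4 := CF.Perm.card_mul_card_stabilizer (G := G) a
    rw [h2, Subgroup.card_bot, mul_one] at h4
    rw [h4]
    exact Group.is_simple_iff_prime_card.1 this
  · exact hx ((h1 x).trans h2)

end Cfsg.Agent.S0707
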