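import Cfsg.Statements.S0708
import Cfsg.Agent.Perm.Multi

set_option autoImplicit false
open Cfsg

namespace Cfsg.Agent.S0708

/-- Tits' argument: a sharply 4-transitive group (no finiteness assumed) has finite degree at most 11, and at most 6 when the degree is even. -/
theorem result {G : Type*} [Group G] {Ω : Type*} [MulAction G Ω] (h4 : MulAction.IsMultiplyPretransitive G Ω 4) (hsharp : ∀ x : Fin 4 ↪ Ω, MulAction.stabilizer G x = ⊥) (hne : Nonempty (Fin 4 ↪ Ω)) : Finite Ω ∧ Nat.card Ω ≤ 11 ∧ (Even (Nat.card Ω) → Nat.card Ω ≤ 6) := by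
  classical
  rw [CF.Perm.fourTrans_iff] at h4
  rw [CF.Perm.sharp_four_iff] at hsharp
  obtain ⟨x⟩ := hne
  have hx : ∀ {i j : Fin 4}, i ≠ j → x i ≠ x j := fun h => x.injective.ne h
  obtain ⟨u, v, a, b, huv, hua, hub, hva, hvb, hab⟩ : ∃ u v a b : Ω,
      u ≠ v ∧ u ≠ a ∧ u ≠ b ∧ v ≠ a ∧ v ≠ b ∧ a ≠ b :=
    ⟨x 0, x 1, x 2, x 3, hx (by decide), hx (by decide), hx (by decide), hx (by decide),
      hx (by decide), hx (by decide)⟩
  have heq : ∀ (g k : G) (p q r s : Ω), p ≠ q → p ≠ r → p ≠ s → q ≠ r → q ≠ s → r ≠ s →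
      g • p = k • p → g • q = k • q → g • r = k • r → g • s = k • s → g = k := by
    intro g k p q r s h1 h2 h3 h4 h5 h6 e1 e2 e3 e4
    refine (inv_mul_eq_one.1 (hsharp p q r s h1 h2 h3 h4 h5 h6 (k⁻¹ * g) ?_ ?_ ?_ ?_)).symm <;>
      rw [mul_smul, inv_smul_eq_iff] <;> assumption
  obtain ⟨t, htu, htv, hta, htb⟩ := h4 u v a b u v b a huv hua hub hva hvb hab huv hub hua hvb hva
    hab.symm
  have htt : t * t = 1 := hsharp u v a b huv hua hub hva hvb hab _ (by rw [mul_smul, htu, htu])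
    (by rw [mul_smul, htv, htv]) (by rw [mul_smul, hta, htb]) (by rw [mul_smul, htb, hta])
  have htt' : ∀ y : Ω, t • t • y = y := fun y => by rw [smul_smul, htt, one_smul]
  have ht1 : t ≠ 1 := by rintro rfl; exact hab (by simpa using hta)
  let F := MulAction.fixedBy Ω t
  obtain ⟨hF, hF3⟩ : F.Finite ∧ F.ncard ≤ 3 := by
    have : F.encard ≤ 3 := by
      by_contra! h
      obtain ⟨s, hs, hs4⟩ := Set.exists_subset_encard_eq (Order.add_one_le_of_lt h)
      obtain ⟨p, q, r, s, h1, h2, h3, h4, h5, h6, rfl⟩ := Set.encard_eq_four.1 hs4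
      exact ht1 (hsharp p q r s h1 h2 h3 h4 h5 h6 t (hs (by simp)) (hs (by simp)) (hs (by simp))
        (hs (by simp)))
    exact ⟨Set.finite_of_encard_le_coe this, ENat.toNat_le_of_le_natCast this⟩
  let R := {c : Ω | c ∉ F ∧ c ≠ a ∧ c ≠ b}
  obtain ⟨φ, hφ, hφ'⟩ : ∃ φ : Ω → Ω × Ω, Set.MapsTo φ R F.offDiag ∧ Set.InjOn φ R := by
    rcases R.eq_empty_or_nonempty with h | ⟨c, hc⟩
    · exact ⟨fun y => (y, y), h ▸ Set.mapsTo_empty _ _, by simp [h]⟩
    have hR : ∀ d ∈ R, a ≠ d ∧ a ≠ t • d ∧ b ≠ d ∧ b ≠ t • d ∧ d ≠ t • d := fun d hd =>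
      ⟨hd.2.1.symm, fun h => hd.2.2 (by rw [← hta, h, htt']), hd.2.2.symm,
        fun h => hd.2.1 (by rw [← htb, h, htt']), fun h => hd.1 h.symm⟩
    obtain ⟨c1, c2, c3, c4, c5⟩ := hR c hc
    have : ∀ d : Ω, ∃ g : G, d ∈ R → g • a = a ∧ g • b = b ∧ g • c = d ∧ g • t • c = t • d := by
      intro d
      by_cases hd : d ∈ R
      · obtain ⟨d1, d2, d3, d4, d5⟩ := hR d hd
        obtain ⟨g, hg⟩ := h4 a b c (t • c) a b d (t • d) hab c1 c2 c3 c4 c5 hab d1 d2 d3 d4 d5
        exact ⟨g, fun _ => hg⟩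
      · exact ⟨1, fun h => absurd h hd⟩
    choose g hg using this
    refine ⟨fun d => (g d • u, g d • v), fun d hd => ?_, fun d hd e he h => ?_⟩
    · obtain ⟨e1, e2, e3, e4⟩ := hg d hd
      have h1 : t * g d = g d * t := heq _ _ a b c (t • c) hab c1 c2 c3 c4 c5
        (by simp only [mul_smul, e1, hta, e2]) (by simp only [mul_smul, e1, htb, e2])
        (by simp only [mul_smul, e3, e4]) (by simp only [mul_smul, e3, e4, htt'])
      refine ⟨?_, ?_, fun h => huv (MulAction.injective _ h)⟩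
      · change t • g d • u = g d • u
        rw [smul_smul, h1, mul_smul, htu]
      · change t • g d • v = g d • v
        rw [smul_smul, h1, mul_smul, htv]
    · simp only [Prod.mk.injEq] at h
      rw [← (hg d hd).2.2.1, ← (hg e he).2.2.1, heq _ _ u v a b huv hua hub hva hvb hab h.1 h.2
        (by rw [(hg d hd).1, (hg e he).1]) (by rw [(hg d hd).2.1, (hg e he).2.1])]
  have hFo : F.offDiag.Finite := (hF.prod hF).subset (Set.offDiag_subset_prod _)
  have hR : R.Finite := Set.Finite.of_injOn hφ hφ' hFo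
  have hU : (Set.univ : Set Ω) ⊆ F ∪ ({a, b} ∪ R) := fun y _ => by
    by_contra h
    simp only [Set.mem_union, Set.mem_insert_iff, Set.mem_singleton_iff, not_or] at h
    exact h.2.2 ⟨h.1, h.2.1⟩
  have hfin : Finite Ω := Set.finite_univ_iff.1 ((hF.union ((Set.toFinite _).union hR)).subset hU)
  have := Fintype.ofFinite Ω
  have h1 := Set.ncard_le_ncard hU
  have h2 := Set.ncard_union_le F ({a, b} ∪ R)
  have h3 := Set.ncard_union_le {a, b} R
  have h5 := Set.ncard_le_ncard_of_injOn φ hφ hφ'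
  have h6 : F.offDiag.ncard = F.ncard * F.ncard - F.ncard := by
    rw [Set.ncard_eq_toFinset_card', Set.ncard_eq_toFinset_card', Set.toFinset_offDiag,
      Finset.offDiag_card]
  have h7 := Equiv.Perm.card_fixedPoints_modEq (f := fun y : Ω => t • y) (p := 2) (n := 1)
    (funext htt')
  have h8 : Fintype.card (Function.fixedPoints fun y : Ω => t • y) = F.ncard := by
    rw [← Nat.card_eq_fintype_card]; rfl
  rw [Set.ncard_pair hab] at h3
  rw [Set.ncard_univ] at h1
  rw [← Nat.card_eq_fintype_card (α := Ω)] at h7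
  erw [h8] at h7
  unfold Nat.ModEq at h7
  refine ⟨hfin, ?_, fun ⟨k, hk⟩ => ?_⟩ <;> interval_cases F.ncard <;> omega

end Cfsg.Agent.S0708
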