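import Cfsg.Statements.S0709
import Cfsg.Agent.Perm.Basic

set_option autoImplicit false
open Cfsg

namespace Cfsg.Agent.S0709

theorem dcoset {Γ : Type*} [Group Γ] {A B : Subgroup Γ} (hAB : A ≤ B) {s g : Γ} (hg : g ∈ B)
    (h1 : ∀ b ∈ B, b ∈ A ∨ ∃ a ∈ A, ∃ a' ∈ A, b = a * g * a') (h2 : ∀ a ∈ A, s * a * s⁻¹ ∈ A)
    (h3 : s ^ 2 ∈ A) (h4 : (g * s) ^ 3 ∈ B) {x : Γ} (hx : x ∈ B ⊔ Subgroup.closure {s}) :
    x ∈ B ∨ ∃ b ∈ B, ∃ b' ∈ B, x = b * s * b' := by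
  have h5 : ∀ b ∈ B, ∀ x, (x ∈ B ∨ ∃ b ∈ B, ∃ b' ∈ B, x = b * s * b') →
      b * x ∈ B ∨ ∃ c ∈ B, ∃ b' ∈ B, b * x = c * s * b' := fun b hb x hx =>
    hx.imp (B.mul_mem hb) fun ⟨c, hc, c', hc', e⟩ => ⟨_, B.mul_mem hb hc, c', hc', by rw [e]; group⟩
  have h6 : ∀ x, (x ∈ B ∨ ∃ b ∈ B, ∃ b' ∈ B, x = b * s * b') →
      s * x ∈ B ∨ ∃ c ∈ B, ∃ b' ∈ B, s * x = c * s * b' := by
    rintro x (hx | ⟨b, hb, b', hb', rfl⟩)
    · exact .inr ⟨1, B.one_mem, x, hx, by simp⟩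
    rcases h1 b hb with h | ⟨a, ha, a', ha', rfl⟩
    · exact .inl (by convert B.mul_mem (hAB (A.mul_mem (h2 b h) h3)) hb' using 1; group)
    · refine .inr ⟨_, B.mul_mem (B.mul_mem (hAB (h2 a ha)) (B.inv_mem hg)) h4, _, B.mul_mem (B.mul_mem
        (B.mul_mem (hAB (A.inv_mem h3)) (B.inv_mem hg)) (hAB (A.mul_mem (A.mul_mem (A.inv_mem h3)
          (h2 a' ha')) h3))) hb', ?_⟩
      simp only [pow_three, sq]
      group
  rw [← B.closure_eq, ← Subgroup.closure_union] at hx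
  induction hx using Subgroup.closure_induction_left with
  | one => exact .inl B.one_mem
  | mul_left y hy x _ ih => exact hy.elim (fun h => h5 y h x ih) fun h => h ▸ h6 x ih
  | inv_mul_cancel y hy x _ ih =>
    rcases hy with h | rfl
    · exact h5 _ (B.inv_mem h) x ih
    · have := h6 _ (h5 _ (B.inv_mem (hAB h3)) x ih)
      rwa [show y * ((y ^ 2)⁻¹ * x) = y⁻¹ * x by group] at this

/-- Witt's Lemma for constructing transitive extensions. Points `q 1, …, q t` (`t ≥ 2`) of a finite set are given; `G` fixes `q i` for `i ≥ 3` and is doubly transitive on the remaining points; `s 1 ∈ G` swaps `q 1, q 2`; for `2 ≤ i ≤ t-1`, `s i` swaps `q i, q (i+1)` and fixes the other `q j`; with `H` the stabiliser of `q 1, q 2` in `G`: `s i ^ 2 ∈ H`, `(s i * s (i+1)) ^ 3 ∈ H`, `(s i * s j) ^ 2 ∈ H` for `j ≥ i + 2`, and `s i` (`i ≥ 2`) normalises the stabiliser of `q 2` in `G`. Then `G` and the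 `s i` generate a `t`-transitive group whose pointwise stabiliser of the `q`'s is `H`. -/
theorem result {α : Type*} [Fintype α] [DecidableEq α] (t : ℕ) (ht : 2 ≤ t) (q : ℕ → α) (hq : ∀ i j : ℕ, 1 ≤ i → i ≤ t → 1 ≤ j → j ≤ t → q i = q j → i = j) (G : Subgroup (Equiv.Perm α)) (hfix : ∀ g ∈ G, ∀ i : ℕ, 3 ≤ i → i ≤ t → g (q i) = q i) (h2 : ∀ a b c d : α, (∀ i, 3 ≤ i → i ≤ t → a ≠ q i ∧ b ≠ q i ∧ c ≠ q i ∧ d ≠ q i) → a ≠ b → c ≠ d → ∃ g ∈ G, g a = c ∧ g b = d) (s : ℕ → Equiv.Perm α) (hs1 : s 1 ∈ G) (hs1q : s 1 (q 1) = q 2 ∧ s 1 (q 2) = q 1) (hsq : ∀ i : ℕ, 2 ≤ i → i + 1 ≤ t → s i (q i) = q (i + 1) ∧ s i (q (i + 1)) = q i ∧ ∀ j : ℕ, 1 ≤ j → j ≤ t → j ≠ i → j ≠ i + 1 → s i (q j) = q j) (H : Subgroup (Equiv.Perm α)) (hH : H = G ⊓ MulAction.stabilizer (Equiv.Perm α) (q 1) ⊓ MulAction.stabilizer (Equiv.Perm α) (q 2)) (hsq2 : ∀ i : ℕ, 1 ≤ i → i + 1 ≤ t → s i ^ 2 ∈ H) (hbraid : ∀ i : ℕ, 1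 ≤ i → i + 2 ≤ t → (s i * s (i + 1)) ^ 3 ∈ H) (hcomm : ∀ i j : ℕ, 1 ≤ i → i + 2 ≤ j → j + 1 ≤ t → (s i * s j) ^ 2 ∈ H ∧ (s j * s i) ^ 2 ∈ H) (hnorm : ∀ i : ℕ, 2 ≤ i → i + 1 ≤ t → ∀ g ∈ G ⊓ MulAction.stabilizer (Equiv.Perm α) (q 2), s i * g * (s i)⁻¹ ∈ G ⊓ MulAction.stabilizer (Equiv.Perm α) (q 2)) : MulAction.IsMultiplyPretransitive ↥(Subgroup.closure ((G : Set (Equiv.Perm α)) ∪ {x | ∃ i : ℕ, 2 ≤ i ∧ i + 1 ≤ t ∧ x = s i})) α t ∧ Subgroup.closure ((G : Set (Equiv.Perm α)) ∪ {x | ∃ i : ℕ, 2 ≤ i ∧ i + 1 ≤ t ∧ x = s i}) ⊓ fixingSubgroup (Equiv.Perm α) {x | ∃ i : ℕ, 1 ≤ i ∧ i ≤ t ∧ x = q i} = H := by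
  open MulAction Subgroup CF.Perm in
  let K (i : ℕ) := G ⊓ stabilizer _ (q 2) ⊔ closure {x | ∃ j, 1 ≤ j ∧ j < i ∧ x = s j}
  have hK1 : K 1 = G ⊓ stabilizer _ (q 2) := by
    simp only [K, show {x | ∃ j, 1 ≤ j ∧ j < 1 ∧ x = s j} = ∅ by ext; simp, Subgroup.closure_empty,
      sup_bot_eq]
  have hK : ∀ i, 1 ≤ i → K (i + 1) = K i ⊔ closure {s i} := fun i hi => by
    simp only [K, sup_assoc, ← Subgroup.closure_union]
    congr 2
    ext
    simp only [Set.mem_ofPred_eq, Set.mem_union, Set.mem_singleton_iff]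
    grind
  have hs : ∀ i j, 1 ≤ j → j < i → s j ∈ K i := fun i j h1 h2 =>
    mem_sup_right (Subgroup.subset_closure ⟨j, h1, h2, rfl⟩)
  have hHK : ∀ i, H ≤ K i := fun i g hg => mem_sup_left ⟨(hH ▸ hg).1.1, (hH ▸ hg).2⟩
  have hsq' : ∀ i, 1 ≤ i → i + 1 ≤ t → s i (q i) = q (i + 1) ∧ s i (q (i + 1)) = q i ∧
      ∀ j, i + 1 < j → j ≤ t → s i (q j) = q j := fun i h1 h2 => by
    rcases h1.eq_or_lt with rfl | h1
    · exact ⟨hs1q.1, hs1q.2, hfix _ hs1⟩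
    · exact (hsq i h1 h2).imp_right (.imp_right fun h j h3 h4 => h j (by omega) h4 (by omega) (by omega))
  have hf : ∀ i, ∀ g ∈ K i, ∀ j, 1 ≤ i → i < j → j ≤ t → g (q j) = q j := fun i g hg j h1 h2 h3 =>
    (show K i ≤ stabilizer _ (q j) from sup_le (fun g hg => (show j = 2 ∨ 3 ≤ j by omega).elim
      (fun e => e ▸ hg.2) fun e => hfix g hg.1 j e h3) ((closure_le _).2 fun _ ⟨k, h4, h5, e⟩ =>
        e ▸ (hsq' k h4 (by omega)).2.2 j (by omega) h3)) hg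
  have hT : ∀ i, 1 ≤ i → i ≤ t → ∀ a, (∀ j, i < j → j ≤ t → a ≠ q j) → ∃ g ∈ K i, g a = q i := by
    intro i h1
    induction i, h1 using Nat.le_induction with
    | base =>
      intro _ a ha
      obtain ⟨g, h3, h4, h5⟩ := h2 a (q 2) (q 1) (q 2) (fun i h3 h4 => ⟨ha i (by omega) h4, by grind,
        by grind, by grind⟩) (ha 2 (by omega) ht) (by grind)
      exact ⟨g, hK1 ▸ ⟨h3, h5⟩, h4⟩
    | succ i h1 ih =>
      intro h3 a ha
      by_cases h4 : a = q (i + 1)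
      · exact ⟨1, one_mem _, h4⟩
      obtain ⟨g, h5, h6⟩ := ih (by omega) a (by grind)
      exact ⟨s i * g, mul_mem (hs _ _ h1 (by omega)) (hK i h1 ▸ mem_sup_left h5), by
        simp [h6, (hsq' i h1 h3).1]⟩
  have hD : ∀ i, 1 ≤ i → i + 1 ≤ t → ∀ B : Subgroup (Equiv.Perm α), K (i + 1) ≤ B →
      (∀ g ∈ B, ∀ j, i + 1 < j → j ≤ t → g (q j) = q j) → (∀ g ∈ B, g (q (i + 1)) = q (i + 1) → g ∈ K i) →
      ∀ b ∈ B, b ∈ K i ∨ ∃ a ∈ K i, ∃ a' ∈ K i, b = a * s i * a' := fun i h1 h3 B h4 h5 h6 b hb => by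
    refine or_iff_not_imp_left.2 fun h7 => ?_
    obtain ⟨a, h8, h9⟩ := hT i h1 (by omega) (b (q (i + 1))) fun j h8 h9 e => by
      rcases (show j = i + 1 ∨ i + 1 < j by omega) with rfl | h10
      · exact h7 (h6 b hb e)
      · have := hq _ _ (by omega) h3 (by omega) h9 (b.injective (e.trans (h5 b hb j h10 h9).symm))
        omega
    refine ⟨_, inv_mem h8, (s i)⁻¹ * a * b, h6 _ (mul_mem (mul_mem (inv_mem (h4 (hs _ _ h1 (by omega))))
      (h4 (hK i h1 ▸ mem_sup_left h8))) hb) ?_, by group⟩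
    simp [h9, Equiv.symm_apply_eq, (hsq' i h1 h3).2.1]
  have hK2' : K 2 ≤ G := sup_le inf_le_left ((closure_le _).2 fun _ ⟨j, h3, h4, e⟩ => by
    rwa [e, show j = 1 by omega])
  have hK2 : K 2 = G := hK2'.antisymm fun b hb => by
    rcases hD 1 le_rfl ht G hK2' hfix (fun g h3 h4 => hK1 ▸ ⟨h3, h4⟩) b hb with h | ⟨a, ha, a', ha', rfl⟩
    · exact hK 1 le_rfl ▸ mem_sup_left h
    · exact mul_mem (mul_mem (hK 1 le_rfl ▸ mem_sup_left ha) (hs _ _ le_rfl (by omega)))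
        (hK 1 le_rfl ▸ mem_sup_left ha')
  have hS : ∀ i, 1 ≤ i → i + 1 ≤ t → ∀ g ∈ K (i + 1), g (q (i + 1)) = q (i + 1) → g ∈ K i := by
    intro i h1
    induction i, h1 using Nat.le_induction with
    | base => exact fun _ g h3 h4 => hK1 ▸ ⟨hK2 ▸ h3, h4⟩
    | succ i h1 ih =>
      intro h3 g h4 h5
      rw [hK _ (by omega)] at h4
      refine (dcoset (hK i h1 ▸ le_sup_left) (hs _ i h1 (by omega)) (hD i h1 (by omega) _ le_rfl
        (fun g hg j => hf _ g hg j (by omega)) (ih (by omega))) (fun a ha => ?_)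
        (hHK _ (hsq2 _ (by omega) h3)) (hHK _ (hbraid i h1 h3)) h4).resolve_right ?_
      · refine (show K i ≤ (K i).comap (MulAut.conj (s (i + 1))).toMonoidHom from sup_le (fun g hg =>
          mem_sup_left (hnorm _ (by omega) h3 g hg)) ((closure_le _).2 ?_)) ha
        rintro _ ⟨j, h6, h7, rfl⟩
        convert mul_mem (mul_mem (hHK i (hcomm j (i + 1) h6 (by omega) h3).2) (inv_mem (hs i j h6 h7)))
          (inv_mem (hHK i (hsq2 (i + 1) (by omega) h3))) using 1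
        simp [sq, mul_assoc]
      · rintro ⟨b, hb, b', hb', rfl⟩
        rw [Equiv.Perm.mul_apply, Equiv.Perm.mul_apply, hf _ _ hb' _ (by omega) (by omega) h3,
          (hsq' _ (by omega) h3).2.1, ← hf _ _ hb _ (by omega) (Nat.lt_succ_self _) h3] at h5
        have := hq _ _ (by omega) (by omega) (by omega) h3 (b.injective h5)
        omega
  have hKt : closure ((G : Set (Equiv.Perm α)) ∪ {x | ∃ i, 2 ≤ i ∧ i + 1 ≤ t ∧ x = s i}) = K t := by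
    have h3 : ∀ i j, i ≤ j → K i ≤ K j := fun i j h => sup_le_sup_left (Subgroup.closure_mono
      (by rintro _ ⟨k, h1, h2, e⟩; exact ⟨k, h1, by omega, e⟩)) _
    refine le_antisymm ((closure_le _).2 (Set.union_subset (hK2 ▸ h3 2 t ht) fun _ ⟨i, h4, h5, e⟩ =>
      e ▸ hs _ _ (by omega) h5)) (sup_le (fun g hg => Subgroup.subset_closure (.inl hg.1)) ((closure_le _).2 ?_))
    rintro _ ⟨j, h4, h5, rfl⟩
    rcases h4.eq_or_lt with rfl | e
    exacts [Subgroup.subset_closure (.inl hs1), Subgroup.subset_closure (.inr ⟨j, e, h5, rfl⟩)]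
  rw [hKt]
  constructor
  · have h3 : ∀ m ≤ t, IsMultiplyPretransitive (K t) α m := fun m hm => by
      induction m with
      | zero => exact is_zero_pretransitive'
      | succ m ih =>
        refine multTrans_succ_of_fixing_one (ih (by omega)) ((Finset.Ioc (t - m) t).image q)
          (by rw [Finset.card_image_of_injOn fun i hi j hj => by simp at hi hj; grind]; simp; omega)
          fun a b ha hb => ?_
        obtain ⟨g, h3, h4⟩ := hT (t - m) (by omega) (by omega) a (by simpa [eq_comm] using ha)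
        obtain ⟨k, h5, h6⟩ := hT (t - m) (by omega) (by omega) b (by simpa [eq_comm] using hb)
        refine ⟨⟨k⁻¹ * g, sup_le_sup_left (Subgroup.closure_mono
          (by rintro _ ⟨k, h1, h2, e⟩; exact ⟨k, h1, by omega, e⟩)) _
          (mul_mem (inv_mem h5) h3)⟩, fun x hx => ?_, by simp [h4, ← h6]⟩
        obtain ⟨j, hj, rfl⟩ := Finset.mem_image.1 hx
        exact hf _ _ (mul_mem (inv_mem h5) h3) j (by omega) (Finset.mem_Ioc.1 hj).1 (Finset.mem_Ioc.1 hj).2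
    exact h3 t le_rfl
  refine le_antisymm ?_ fun g hg => ⟨hHK t hg, ?_⟩
  · rintro g ⟨h3, h4⟩
    replace h4 : ∀ i, 1 ≤ i → i ≤ t → g (q i) = q i := fun i h5 h6 =>
      (mem_fixingSubgroup_iff _).1 h4 (q i) ⟨i, h5, h6, rfl⟩
    have h5 : ∀ i, 1 ≤ i → i ≤ t → g ∈ K i → g ∈ K 1 := fun i h1 => by
      induction i, h1 using Nat.le_induction with
      | base => exact fun _ => id
      | succ i h1 ih => exact fun h5 h6 => ih (by omega) (hS i h1 h5 g h6 (h4 _ (by omega) h5))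
    have h6 := hK1 ▸ h5 t (by omega) le_rfl h3
    exact hH ▸ ⟨⟨h6.1, h4 1 le_rfl (by omega)⟩, h6.2⟩
  · refine (mem_fixingSubgroup_iff _).2 ?_
    rintro _ ⟨i, h5, h6, rfl⟩
    rcases h5.eq_or_lt with rfl | h5
    · exact (hH ▸ hg).1.2
    · exact hf 1 g (hHK 1 hg) i le_rfl h5 h6

end Cfsg.Agent.S0709
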