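import Cfsg.Statements.S0712
import Cfsg.Agent.Perm.Multi

set_option autoImplicit false
open Cfsg

namespace Cfsg.Agent.S0712

/-- Jordan: a primitive group in which the pointwise stabiliser of a set `s` is doubly transitive on the complement of `s` (which has at least 2 points) is `(|s| + 2)`-transitive. -/
theorem result {α : Type*} [Fintype α] [DecidableEq α] (G : Subgroup (Equiv.Perm α)) (hG : MulAction.IsPreprimitive G α) (s : Set α) {m : ℕ} (hsm : s.ncard = m) (hm : m + 2 ≤ Fintype.card α) (h2 : MulAction.IsMultiplyPretransitive (fixingSubgroup G s) (SubMulAction.ofFixingSubgroup G s) 2) : MulAction.IsMultiplyPretransitive G α (m + 2) := by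
  rw [CF.Perm.twoTrans_iff] at h2
  have key : ∀ a b c d : α, a ∉ s → b ∉ s → c ∉ s → d ∉ s → a ≠ b → c ≠ d →
      ∃ g : G, (∀ x ∈ s, g • x = x) ∧ g • a = c ∧ g • b = d := by
    intro a b c d ha hb hc hd hab hcd
    obtain ⟨g, h1, h2⟩ := h2 ⟨a, ha⟩ ⟨b, hb⟩ ⟨c, hc⟩ ⟨d, hd⟩ (fun h => hab (congrArg Subtype.val h))
      (fun h => hcd (congrArg Subtype.val h))
    exact ⟨g, (mem_fixingSubgroup_iff G).1 g.2, congrArg Subtype.val h1, congrArg Subtype.val h2⟩
  rcases m with _ | m
  · rw [Set.ncard_eq_zero] at hsm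
    subst hsm
    rw [CF.Perm.twoTrans_iff]
    intro a b c d hab hcd
    obtain ⟨g, -, h⟩ := key a b c d (by simp) (by simp) (by simp) (by simp) hab hcd
    exact ⟨g, h⟩
  have h3 := (hG.isMultiplyPreprimitive hsm (by rw [Nat.card_eq_fintype_card]; omega)
    (MulAction.isPreprimitive_of_is_two_pretransitive
      (CF.Perm.twoTrans_iff.2 h2))).isMultiplyPretransitive
  obtain ⟨a, ha⟩ : ∃ a, a ∉ s := by
    by_contra! h
    rw [Set.eq_univ_of_forall h, Set.ncard_univ, Nat.card_eq_fintype_card] at hsm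
    omega
  refine CF.Perm.multTrans_succ_of_fixing_one h3 (insert a s.toFinite.toFinset) ?_ fun b c hb hc => ?_
  · rw [Finset.card_insert_of_notMem (by simpa), ← Set.ncard_eq_toFinset_card, hsm]
  · simp only [Finset.mem_insert, Set.Finite.mem_toFinset, not_or] at hb hc ⊢
    obtain ⟨g, h1, h2, h3⟩ := key a b a c ha hb.2 ha hc.2 (Ne.symm hb.1) (Ne.symm hc.1)
    refine ⟨g, ?_, h3⟩
    rintro x (rfl | hx)
    exacts [h2, h1 x hx]

end Cfsg.Agent.S0712
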