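import Cfsg.Statements.S0714
import Cfsg.Agent.Perm.Module
import Cfsg.Agent.Perm.Multi

set_option autoImplicit false
open Cfsg

namespace Cfsg.Agent.S0714

/-- Over any field, the permutation module of the alternating group of degree at least 5 has exactly four invariant subspaces: zero, the constant functions, the functions with coordinate sum zero, and everything. -/
theorem result {α : Type*} [Fintype α] [DecidableEq α] (hα : 5 ≤ Fintype.card α) {K : Type*} [Field K] (W : Subrepresentation (Cfsg.permRep K (alternatingGroup α) α)) : W.toSubmodule = ⊥ ∨ W = Cfsg.permConstants K (alternatingGroup α) α ∨ W = Cfsg.permSumZero K (alternatingGroup α) α ∨ W.toSubmodule = ⊤ := by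
  by_cases hc : ∀ f ∈ W.toSubmodule, ∀ a b, f a = f b
  · have : Nonempty α := Fintype.card_pos_iff.1 (by omega)
    obtain ⟨a⟩ := this
    rcases eq_or_ne W.toSubmodule ⊥ with h | h
    · exact Or.inl h
    · refine Or.inr (Or.inl (Subrepresentation.toSubmodule_injective (le_antisymm ?_ ?_)))
      · exact fun f hf => (CF.Perm.mem_permConstants f).2 ⟨f a, funext fun x => hc f hf x a⟩
      · obtain ⟨f, hf, hf0⟩ := (Submodule.ne_bot_iff _).1 h
        have h1 : f a ≠ 0 := fun h => hf0 (funext fun x => (hc f hf x a).trans h)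
        intro g hg
        obtain ⟨c, rfl⟩ := (CF.Perm.mem_permConstants g).1 hg
        convert W.toSubmodule.smul_mem (c / f a) hf using 1
        ext x
        simp [hc f hf x a, h1]
  push Not at hc
  obtain ⟨f, hf, a, b, hab⟩ := hc
  have hne : a ≠ b := by rintro rfl; exact hab rfl
  obtain ⟨c, d, e, hc, hd, he, hcd, hce, hde⟩ := Finset.two_lt_card_iff.1
    (show 2 < ({a, b} : Finset α)ᶜ.card by rw [Finset.card_compl, Finset.card_pair hne]; omega)
  simp only [Finset.mem_compl, Finset.mem_insert, Finset.mem_singleton, not_or] at hc hd he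
  have h3 : ∀ u ∈ W.toSubmodule, ∀ x y z : α, x ≠ y → x ≠ z → y ≠ z →
      (fun t => u (Equiv.swap x z (Equiv.swap x y t)) - u t) ∈ W.toSubmodule := by
    intro u hu x y z hxy hxz hyz
    exact W.toSubmodule.sub_mem (W.apply_mem_toSubmodule ⟨_,
      (Equiv.Perm.isThreeCycle_swap_mul_swap_same hxy hxz hyz).mem_alternatingGroup⟩ hu) hu
  have h4 := h3 _ (h3 f hf b c a (Ne.symm hc.2) hne.symm hc.1) a d e (Ne.symm hd.1) (Ne.symm he.1)
    hde
  have h5 : Pi.single e 1 - Pi.single a 1 ∈ W.toSubmodule := by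
    convert W.toSubmodule.smul_mem (f b - f a)⁻¹ h4 using 1
    have h6 : f b - f a ≠ 0 := sub_ne_zero.2 hab.symm
    ext t
    simp only [Pi.sub_apply, Pi.smul_apply, smul_eq_mul, Pi.single_apply, Equiv.swap_apply_def]
    rw [eq_inv_mul_iff_mul_eq₀ h6]
    grind
  have h6 : ∀ x y : α, Pi.single x 1 - Pi.single y 1 ∈ W.toSubmodule := by
    intro x y
    rcases eq_or_ne x y with rfl | hxy
    · simp
    have h2 := CF.Perm.multTrans_of_le (alternatingGroup.isMultiplyPretransitive α) (m := 2)
      (by rw [Nat.card_eq_fintype_card]; omega) (Nat.sub_le _ _)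
    obtain ⟨g, hg1, hg2⟩ := CF.Perm.twoTrans_iff.1 h2 e a x y he.1 hxy
    have := W.apply_mem_toSubmodule g h5
    rwa [map_sub, CF.Perm.permRep_single, CF.Perm.permRep_single, hg1, hg2] at this
  have h7 : ∀ u : α → K, u - (∑ x, u x) • Pi.single a 1 ∈ W.toSubmodule := by
    intro u
    convert W.toSubmodule.sum_mem fun x (_ : x ∈ Finset.univ) =>
      W.toSubmodule.smul_mem (u x) (h6 x a) using 1
    simp only [smul_sub, Finset.sum_sub_distrib, Finset.sum_smul]
    congr 1
    ext y
    simp [Pi.single_apply]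
  right; right
  by_cases h8 : ∀ u ∈ W.toSubmodule, ∑ x, u x = 0
  · refine Or.inl (Subrepresentation.toSubmodule_injective (le_antisymm h8 fun u hu => ?_))
    simpa [(CF.Perm.mem_permSumZero u).1 hu] using h7 u
  · push Not at h8
    obtain ⟨u, hu, hu0⟩ := h8
    have h9 := (W.toSubmodule.smul_mem_iff hu0).1 ((W.toSubmodule.sub_mem_iff_right hu).1 (h7 u))
    exact Or.inr (eq_top_iff.2 fun v _ =>
      (W.toSubmodule.sub_mem_iff_left (W.toSubmodule.smul_mem _ h9)).1 (h7 v))

end Cfsg.Agent.S0714
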