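import Cfsg.Statements.S0716
import Cfsg.Agent.Perm.Orbital

set_option autoImplicit false
open Cfsg

namespace Cfsg.Agent.S0716

/-- (a) If all non-principal irreducible constituents of the permutation character of a transitive group have the same degree `f`, the character is multiplicity-free and all non-trivial subdegrees equal `f`. (b) A transitive group of rank at most 5 has multiplicity-free permutation character. -/
theorem result {G : Type*} [Group G] [Fintype G] {Ω : Type*} [Fintype Ω] [MulAction G Ω] [MulAction.IsPretransitive G Ω] (a : Ω) : ((f : ℕ) → (∀ χ : G → ℂ, Cfsg.IsIrrCharacter G χ → χ ≠ (fun _ => 1) → Cfsg.classInner (fun g : G => (Nat.card (MulAction.fixedBy Ω g) : ℂ)) χ ≠ 0 → χ 1 = f) → (∀ χ : G → ℂ, Cfsg.IsIrrCharacter G χ → Cfsg.classInner (fun g : G => (Nat.card (MulAction.fixedBy Ω g) : ℂ)) χ = 0 ∨ Cfsg.classInner (fun g : G => (Nat.card (MulAction.fixedBy Ω g) : ℂ)) χ = 1) ∧ ∀ b : Ω, b ≠ a → Nat.card (MulAction.orbit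 (MulAction.stabilizer G a) b) = f) ∧ (Nat.card (MulAction.orbitRel.Quotient (MulAction.stabilizer G a) Ω) ≤ 5 → ∀ χ : G → ℂ, Cfsg.IsIrrCharacter G χ → Cfsg.classInner (fun g : G => (Nat.card (MulAction.fixedBy Ω g) : ℂ)) χ = 0 ∨ Cfsg.classInner (fun g : G => (Nat.card (MulAction.fixedBy Ω g) : ℂ)) χ = 1) := by
  open CF.Perm CF.Char MulAction Finset in
  classical
  have : Nonempty Ω := ⟨a⟩
  have := Fintype.ofFinite (orbitRel.Quotient (stabilizer G a) Ω)
  have hπ := char_fixedBy (G := G) Ω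
  choose m hm using fun χ : IrrCharacter G => inner_char_eq_nat hπ (irr_isCharacter χ.2)
  have h1 : m (oneIrr G) = 1 := by
    exact_mod_cast (hm (oneIrr G)).symm.trans (inner_fixedBy_one_of_pretransitive Ω)
  have h2 : Nat.card (orbitRel.Quotient (stabilizer G a) Ω) =
      1 + ∑ χ ∈ univ.erase (oneIrr G), m χ ^ 2 := by
    have h2 := inner_eq_sum_irr (char_isClassFunction hπ) (pc G Ω)
    rw [inner_fixedBy_fixedBy, card_orbits_prod_eq a, ← add_sum_erase _ _ (mem_univ (oneIrr G))] at h2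
    simp only [hm, h1, map_natCast, ← sq] at h2
    exact_mod_cast h2
  have h3 : ∀ χ : G → ℂ, IsIrrCharacter G χ → (∀ ψ ∈ univ.erase (oneIrr G), m ψ = m ψ ^ 2) →
      classInner (pc G Ω) χ = 0 ∨ classInner (pc G Ω) χ = 1 := fun χ hχ h => by
    rw [hm ⟨χ, hχ⟩]
    norm_cast
    by_cases h3 : ⟨χ, hχ⟩ = oneIrr G
    · exact .inr (h3 ▸ h1)
    · exact (eq_zero_or_one_of_sq_eq_self (h _ (mem_erase.2 ⟨h3, mem_univ _⟩)).symm)
  have key : ∀ f : ℕ, (∀ χ, IsIrrCharacter G χ → χ ≠ (fun _ => 1) → classInner (pc G Ω) χ ≠ 0 →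
      χ 1 = f) → (∀ ψ ∈ univ.erase (oneIrr G), m ψ = m ψ ^ 2) ∧
      ∀ b : Ω, b ≠ a → Nat.card (orbit (stabilizer G a) b) = f := fun f hf => by
    have h4 : Nat.card Ω = 1 + ∑ χ ∈ univ.erase (oneIrr G), f * m χ := by
      have h4 := classFun_apply_eq_sum (char_isClassFunction hπ) 1
      rw [← add_sum_erase _ _ (mem_univ (oneIrr G)), sum_congr rfl (g := fun χ => ((f * m χ : ℕ) : ℂ))
        fun χ hχ => by
          by_cases h4 : classInner (pc G Ω) χ.1 = 0
          · rw [Nat.cast_mul, ← hm, h4]; simp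
          · rw [hf _ χ.2 (fun e => ne_of_mem_erase hχ (Subtype.ext e)) h4, hm]; simp [mul_comm]] at h4
      simp only [hm, h1, fixedBy_one_eq_univ, Nat.card_univ, oneIrr_apply] at h4
      exact_mod_cast h4
    have h5 : Nat.card Ω = 1 + ∑ q ∈ univ.erase (Quotient.mk (orbitRel (stabilizer G a) Ω) a),
        Nat.card (orbitRel.Quotient.orbit q) := by
      rw [Nat.card_congr (selfEquivSigmaOrbits' (stabilizer G a) Ω), Nat.card_sigma,
        ← add_sum_erase _ _ (mem_univ (Quotient.mk _ a)), orbitRel.Quotient.orbit_mk,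
        Nat.card_eq_fintype_card (α := orbit _ a), mem_fixedPoints_iff_card_orbit_eq_one.1 fun g => g.2]
    have h6 : ∀ q ∈ univ.erase (Quotient.mk (orbitRel (stabilizer G a) Ω) a),
        f ≤ Nat.card (orbitRel.Quotient.orbit q) := by
      rintro ⟨b⟩ hb
      exact Nat.le_of_dvd (Nat.card_pos_iff.2 ⟨⟨⟨b, mem_orbit_self b⟩⟩, inferInstance⟩) (dvd_subdegree (fun χ h1 h2 h3 => ⟨1, by simp [hf χ h1 h2 h3]⟩)
        fun e => ne_of_mem_erase hb (e ▸ rfl))
    have h7 : ∀ χ ∈ univ.erase (oneIrr G), f * m χ ≤ f * m χ ^ 2 := fun χ _ =>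
      Nat.mul_le_mul_left _ (Nat.le_self_pow two_ne_zero _)
    have h8 := sum_le_sum h6
    have h9 := sum_le_sum h7
    rw [← mul_sum _ (fun χ => m χ ^ 2)] at h9
    have h10 := h8
    rw [sum_const, card_erase_of_mem (mem_univ _), card_univ, ← Nat.card_eq_fintype_card, h2,
      Nat.add_sub_cancel_left, smul_eq_mul, mul_comm] at h10
    refine ⟨fun χ hχ => ?_, fun b hb => ((sum_eq_sum_iff_of_le h6).1 ?_ (Quotient.mk _ b)
      (mem_erase.2 ⟨fun e => hb ?_, mem_univ _⟩)).symm⟩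
    · by_cases h11 : m χ = 0
      · simp [h11]
      refine Nat.eq_of_mul_eq_mul_left (Nat.pos_of_ne_zero fun e => irr_one_ne_zero χ.2 ?_)
        ((sum_eq_sum_iff_of_le h7).1 (by rw [← mul_sum _ (fun χ => m χ ^ 2)]; omega) χ hχ)
      rw [hf _ χ.2 (fun e => ne_of_mem_erase hχ (Subtype.ext e)) (by simpa [hm]), e, Nat.cast_zero]
    · rw [sum_const, card_erase_of_mem (mem_univ _), card_univ, ← Nat.card_eq_fintype_card, h2,
        Nat.add_sub_cancel_left, smul_eq_mul, mul_comm]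
      omega
    · obtain ⟨g, rfl⟩ := Quotient.exact e
      exact g.2
  refine ⟨fun f hf => (key f hf).imp_left fun h χ hχ => h3 χ hχ h, fun h χ hχ => h3 χ hχ
    fun ψ hψ => by_contra fun h4 => ?_⟩
  obtain ⟨f, -, hf⟩ := irr_one_eq_nat ψ.2
  refine h4 ((key f fun φ h5 h6 h7 => by_contra fun h8 => ?_).1 ψ hψ)
  have h9 : ψ ≠ ⟨φ, h5⟩ := fun e => h8 (by rw [← hf, e])
  have h10 := sum_le_sum_of_subset (f := fun χ => m χ ^ 2) (show {ψ, ⟨φ, h5⟩} ⊆ univ.erase (oneIrr G)
    from insert_subset hψ (singleton_subset_iff.2 (mem_erase.2 ⟨fun e => h6 (congrArg Subtype.val e),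
      mem_univ _⟩)))
  rw [sum_pair h9] at h10
  have h11 : 2 ≤ m ψ := by
    by_contra h11
    interval_cases m ψ <;> simp at h4
  have h12 : 1 ≤ m ⟨φ, h5⟩ := Nat.pos_of_ne_zero fun e => h7 (by rw [hm ⟨φ, h5⟩, e, Nat.cast_zero])
  nlinarith

end Cfsg.Agent.S0716
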