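import Cfsg.Statements.S0717
import Cfsg.Agent.Perm.Orbital

set_option autoImplicit false
open Cfsg

namespace Cfsg.Agent.S0717

/-- All suborbits of a transitive group are self-paired (every pair of points is interchanged by some group element) if and only if the permutation character is multiplicity-free and each of its irreducible constituents is real-valued. -/
theorem result {G : Type*} [Group G] [Fintype G] {Ω : Type*} [Fintype Ω] [MulAction G Ω] [MulAction.IsPretransitive G Ω] : (∀ a b : Ω, ∃ g : G, g • a = b ∧ g • b = a) ↔ ∀ χ : G → ℂ, Cfsg.IsIrrCharacter G χ → Cfsg.classInner (fun g : G => (Nat.card (MulAction.fixedBy Ω g) : ℂ)) χ ≠ 0 → Cfsg.classInner (fun g : G => (Nat.card (MulAction.fixedBy Ω g) : ℂ)) χ = 1 ∧ ∀ g : G, (starRingEnd ℂ) (χ g) = χ g := by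
  open CF.Perm CF.Char Matrix in
  classical
  refine ⟨fun h χ hχ h0 => ?_, fun h a b => ?_⟩
  · have h1 : ∀ M : Matrix Ω Ω ℂ, Inv G M → Mᵀ = M := fun M hM => ext fun a b => by
      obtain ⟨g, h1, h2⟩ := h a b
      rw [← hM g, h1, h2]; rfl
    have h2 := ((multFree_iff.2 fun M N hM hN => by
      rw [← h1 _ (hM.mul hN), transpose_mul, h1 M hM, h1 N hN]) χ hχ).resolve_left h0
    have h3 := fun g => sum_isoM (Ω := Ω) (irr_comp_inv hχ) g
    simp only [← isoM_transpose, h1 _ (isoM_inv hχ), sum_isoM hχ, h2, one_mul] at h3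
    have h4 := h3 1
    rw [inv_one, eq_comm, mul_eq_right₀ (irr_one_ne_zero hχ)] at h4
    exact ⟨h2, fun g => by rw [← irr_inv hχ, h3 g, h4, one_mul]⟩
  · have h1 : (orb G a b)ᵀ = orb G a b := by
      rw [← mul_one (orb G a b), ← sum_irr_isoM (G := G), Finset.mul_sum, transpose_sum]
      refine Finset.sum_congr rfl fun χ _ => ?_
      by_cases h0 : classInner (pc G Ω) χ.1 = 0
      · simp [isoM_eq_zero χ.2 h0]
      obtain ⟨h1, h2⟩ := h _ χ.2 h0
      obtain ⟨θ, h3⟩ := (orb_inv a b).exists_mul_isoM χ.2 h1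
      simp only [h3, transpose_smul, isoM_transpose, irr_inv χ.2, h2]
    have h2 := congrFun (congrFun h1 a) b
    rw [transpose_apply, ((orb_cases a b a b).resolve_left fun h => h.2 ⟨1, by simp⟩).1] at h2
    exact ((orb_cases a b b a).resolve_left fun h => zero_ne_one (h.1.symm.trans h2)).2

end Cfsg.Agent.S0717
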