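import Cfsg.Statements.S0719
import Cfsg.Agent.Perm.TwoP

set_option autoImplicit false
open Cfsg

namespace Cfsg.Agent.S0719

theorem arith {m k θ τ : ℤ} (h1 : 0 < k) (h2 : k < m) (h3 : k + m * θ + (m - 1) * τ = 0)
    (h4 : 2 * m * k = k ^ 2 + m * θ ^ 2 + (m - 1) * τ ^ 2) :
    k = 1 ∨ 0 < θ ∧ m = 2 * θ ^ 2 + 2 * θ + 1 ∧ k = θ * (2 * θ + 1) := by
  have h5 : τ ^ 2 ≤ m + 1 := by
    rcases eq_or_ne m 1 with rfl | h
    · omega
    refine le_of_mul_le_mul_left ?_ (show 0 < m - 1 by omega)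
    nlinarith [sq_nonneg θ, mul_nonneg (show 0 ≤ m by omega) (sq_nonneg θ)]
  have h6 : τ = k + m * (θ + τ) := by linear_combination -h3
  obtain h | h : θ + τ = 0 ∨ θ + τ = -1 := by
    by_contra! h
    rcases le_or_gt (θ + τ) (-2) with h7 | h7
    · have : τ ≤ -m - 1 := by nlinarith
      nlinarith
    · have : m + 1 ≤ τ := by nlinarith [show 1 ≤ θ + τ by omega]
      nlinarith
  · obtain rfl : τ = k := by rw [h] at h6; omega
    obtain rfl : θ = -τ := by omega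
    exact .inl (mul_left_cancel₀ (mul_pos (show 0 < 2 * m by omega) h1).ne' (by linear_combination -h4))
  · obtain rfl : τ = -1 - θ := by omega
    obtain rfl : k = m - 1 - θ := by linear_combination -h6
    obtain rfl : m = 2 * θ ^ 2 + 2 * θ + 1 :=
      mul_left_cancel₀ (show m ≠ 0 by omega) (by linear_combination h4)
    exact .inr ⟨by nlinarith, rfl, by ring⟩

/-- Groups of Wielandt type: if a primitive group of degree `2m` has rank 3 and permutation character `1 + χ₁ + χ₂` with irreducible `χ₁, χ₂` of degrees `m - 1` and `m`, then `m = 2a² + 2a + 1` for some positive integer `a` and the two non-trivial subdegrees are `a(2a+1)` and `(a+1)(2a+1)`. -/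
theorem result {G : Type*} [Group G] [Fintype G] {Ω : Type*} [Fintype Ω] [MulAction G Ω] (hprim : MulAction.IsPreprimitive G Ω) {m : ℕ} (hm : Fintype.card Ω = 2 * m) (a₀ : Ω) (hrank : Nat.card (MulAction.orbitRel.Quotient (MulAction.stabilizer G a₀) Ω) = 3) (χ₁ χ₂ : G → ℂ) (h₁ : Cfsg.IsIrrCharacter G χ₁) (h₂ : Cfsg.IsIrrCharacter G χ₂) (hπ : (fun g : G => (Nat.card (MulAction.fixedBy Ω g) : ℂ)) = fun g => 1 + χ₁ g + χ₂ g) (hd₁ : χ₁ 1 = (m : ℂ) - 1) (hd₂ : χ₂ 1 = m) : ∃ a : ℕ, 0 < a ∧ m = 2 * a ^ 2 + 2 * a + 1 ∧ ∀ b : Ω, b ≠ a₀ → Nat.card (MulAction.orbit (MulAction.stabilizer G a₀) b) = a * (2 * a + 1) ∨ Nat.card (MulAction.orbit (MulAction.stabilizer G a₀) b) = (a + 1) * (2 * a + 1) := by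
  open CF.Perm CF.Char MulAction Matrix in
  classical
  have : Nonempty Ω := ⟨a₀⟩
  have hπ' : pc G Ω = (fun _ => 1) + χ₁ + χ₂ := hπ
  have h12 : χ₁ ≠ χ₂ := fun e => by
    rw [e, hd₂, eq_comm, sub_eq_self] at hd₁
    exact one_ne_zero hd₁
  have h0 := inner_fixedBy_one_of_pretransitive (G := G) Ω
  have hi : ∀ {φ ψ : G → ℂ}, IsIrrCharacter G φ → IsIrrCharacter G ψ →
    classInner φ ψ = if φ = ψ then 1 else 0 := inner_irr
  have h1 : ∀ ψ, IsIrrCharacter G ψ → classInner (pc G Ω) ψ = (if (fun _ => 1) = ψ then 1 else 0) +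
      (if χ₁ = ψ then 1 else 0) + if χ₂ = ψ then 1 else 0 := fun ψ h => by
    rw [hπ', CF.Char.inner_add_left, CF.Char.inner_add_left, hi irr_one h, hi h₁ h, hi h₂ h]
  obtain ⟨h01, h02⟩ : (fun _ => 1) ≠ χ₁ ∧ (fun _ => 1) ≠ χ₂ := by
    rw [h1 _ irr_one] at h0
    constructor <;> intro e <;> simp [← e, e ▸ h12, e ▸ h12.symm] at h0
  have e1 : classInner (pc G Ω) χ₁ = 1 := by simp [h1 _ h₁, h01, h12.symm]
  have e2 : classInner (pc G Ω) χ₂ = 1 := by simp [h1 _ h₂, h02, h12]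
  have hσ : ∀ (σ : ℂ →+* ℂ) {χ}, IsIrrCharacter G χ → (fun _ => 1) ≠ χ → classInner (pc G Ω) χ = 1 →
      χ₁ = (fun g => σ (χ g)) ∨ χ₂ = fun g => σ (χ g) := fun σ χ h h2 h3 => by
    have h4 := inner_map_gen (gen_of_char (char_fixedBy Ω)) (gen_of_irr h) σ
    simp only [map_natCast] at h4
    rw [h1 _ (irr_map h σ), h3, if_neg fun e => h2 (funext fun g => σ.injective
      ((map_one σ).trans (congrFun e g)))] at h4
    by_contra! e
    simp [e] at h4
  have f1 : ∀ (σ : ℂ →+* ℂ) g, σ (χ₁ g) = χ₁ g := fun σ g => (congrFun ((hσ σ h₁ h01 e1).resolve_right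
    fun e => by simpa [hd₁, hd₂, eq_sub_iff_add_eq] using congrFun e 1) g).symm
  have f2 : ∀ (σ : ℂ →+* ℂ) g, σ (χ₂ g) = χ₂ g := fun σ g => (congrFun ((hσ σ h₂ h02 e2).resolve_left
    fun e => by simpa [hd₁, hd₂, sub_eq_self] using congrFun e 1) g).symm
  have hI : isoM Ω (fun _ : G => (1 : ℂ)) + isoM Ω χ₁ + isoM Ω χ₂ = 1 := by
    rw [← sum_irr_isoM (G := G), ← Finset.sum_subset (Finset.subset_univ {oneIrr G, ⟨_, h₁⟩, ⟨_, h₂⟩})
      fun ψ _ h => isoM_eq_zero ψ.2 ?_, Finset.sum_insert (by simp [Subtype.ext_iff, h01, h02]; exact ⟨h01, h02⟩),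
      Finset.sum_pair (by simpa), add_assoc]
    · rfl
    simp only [Finset.mem_insert, Finset.mem_singleton, not_or, Subtype.ext_iff, eq_comm (a := ψ.1)] at h
    rw [h1 _ ψ.2, if_neg (show ¬ (fun _ => 1) = ψ.1 from h.1), if_neg h.2.1, if_neg h.2.2]
    simp
  have key : ∀ b, b ≠ a₀ → ∀ k, Nat.card (orbit (stabilizer G a₀) b) = k → k < m → ∃ a : ℕ, 0 < a ∧
      m = 2 * a ^ 2 + 2 * a + 1 ∧ k = a * (2 * a + 1) := fun b hb k hk hkm => by
    obtain ⟨κ, g0⟩ := exists_int_orb_mul irr_one h0 (fun σ _ => map_one σ) a₀ b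
    obtain ⟨τ, g1⟩ := exists_int_orb_mul h₁ e1 f1 a₀ b
    obtain ⟨θ, g2⟩ := exists_int_orb_mul h₂ e2 f2 a₀ b
    have t : ∀ {χ : G → ℂ} {θ : ℂ}, IsIrrCharacter G χ → (∀ (σ : ℂ →+* ℂ) g, σ (χ g) = χ g) →
        orb G a₀ b * isoM Ω χ = θ • isoM Ω χ →
        (orb G a₀ b)ᵀ * orb G a₀ b * isoM Ω χ = θ ^ 2 • isoM Ω χ := fun h f g => by
      rw [mul_assoc, g, Matrix.mul_smul, ← isoM_symm h f, ← transpose_mul,
        ← (orb_inv a₀ b).comm_isoM, g, transpose_smul, smul_smul, sq]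
    have h2 := congrArg (fun M => (orb G a₀ b * M).trace) hI
    have h3 := congrArg (fun M => ((orb G a₀ b)ᵀ * orb G a₀ b * M).trace) hI
    simp only [mul_add, t irr_one (fun σ _ => map_one σ) g0, t h₁ f1 g1, t h₂ f2 g2] at h3
    simp only [mul_add, g0, g1, g2, trace_add, trace_smul, trace_isoM irr_one h0, trace_isoM h₁ e1,
      trace_isoM h₂ e2, hd₁, hd₂, mul_one, smul_eq_mul] at h2 h3
    rw [trace_mul_comm] at h3
    simp only [trace, diag, orb_self hb, mul_apply, transpose_apply, orb_mul_self, sum_orb, hk,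
      Finset.sum_const, Finset.card_univ, hm, nsmul_eq_mul] at h2 h3
    obtain rfl : κ = k := by
      have h4 := congrArg (fun M => ∑ x, M a₀ x) g0
      have h5 : ∀ u, ∑ x, isoM Ω (fun _ : G => (1 : ℂ)) u x = 1 := fun u => by
        rw [← isoM_symm irr_one fun σ _ => map_one σ]
        simpa using sum_isoM_col (fun _ : G => (1 : ℂ)) u
      simp only [mul_apply, Matrix.smul_apply, smul_eq_mul, ← Finset.mul_sum, h5] at h4
      rw [Finset.sum_comm] at h4
      simp only [← Finset.mul_sum, h5, mul_one, sum_orb, hk] at h4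
      exact_mod_cast h4.symm
    have hk0 : k ≠ 0 := hk ▸ Nat.card_ne_zero.2 ⟨⟨⟨b, mem_orbit_self b⟩⟩, inferInstance⟩
    rcases arith (m := m) (k := k) (θ := θ) (τ := τ) (by omega) (by omega)
      (by exact_mod_cast (show (k + m * θ + (m - 1) * τ : ℂ) = 0 by push_cast at h2; linear_combination h2))
      (by exact_mod_cast (show (2 * m * k : ℂ) = k ^ 2 + m * θ ^ 2 + (m - 1) * τ ^ 2 by
        push_cast at h3; linear_combination -h3)) with h | ⟨h4, h5, h6⟩
    · exact absurd (prime_of_subdegree_one hprim hb (by omega)) (by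
        rw [Nat.card_eq_fintype_card, hm]; exact Nat.not_prime_mul (by simp) (by omega))
    · lift θ to ℕ using h4.le
      exact ⟨θ, by exact_mod_cast h4, by exact_mod_cast h5, by exact_mod_cast h6⟩
  have := Fintype.ofFinite (orbitRel.Quotient (stabilizer G a₀) Ω)
  have h5 : 2 * m = 1 + ∑ q ∈ Finset.univ.erase (Quotient.mk (orbitRel (stabilizer G a₀) Ω) a₀),
      Nat.card (orbitRel.Quotient.orbit q) := by
    rw [← hm, ← Nat.card_eq_fintype_card, Nat.card_congr (selfEquivSigmaOrbits' (stabilizer G a₀) Ω),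
      Nat.card_sigma, ← Finset.add_sum_erase _ _ (Finset.mem_univ (Quotient.mk _ a₀)),
      orbitRel.Quotient.orbit_mk, Nat.card_eq_fintype_card (α := orbit _ a₀),
      mem_fixedPoints_iff_card_orbit_eq_one.1 fun g => g.2]
  generalize hs : Finset.univ.erase (Quotient.mk (orbitRel (stabilizer G a₀) Ω) a₀) = s at h5
  have h7 : ∀ d, d ≠ a₀ ↔ Quotient.mk _ d ∈ s := fun d => by
    refine hs ▸ ⟨fun h => Finset.mem_erase.2 ⟨fun e => ?_, Finset.mem_univ _⟩, fun h e =>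
      Finset.ne_of_mem_erase h (e ▸ rfl)⟩
    obtain ⟨g, rfl⟩ := Quotient.exact e
    exact h g.2
  obtain ⟨b, c, hbc, rfl⟩ := Finset.card_eq_two.1 (show s.card = 2 by
    rw [← hs, Finset.card_erase_of_mem (Finset.mem_univ _), Finset.card_univ,
      ← Nat.card_eq_fintype_card]; exact hrank ▸ rfl)
  obtain ⟨b, rfl⟩ := Quotient.exists_rep b
  obtain ⟨c, rfl⟩ := Quotient.exists_rep c
  rw [Finset.sum_pair hbc] at h5
  change _ = 1 + (Nat.card (orbit _ b) + Nat.card (orbit _ c)) at h5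
  have h8 : ∀ d, d ≠ a₀ → orbit (stabilizer G a₀) d = orbit (stabilizer G a₀) b ∨
      orbit (stabilizer G a₀) d = orbit (stabilizer G a₀) c := fun d hd =>
    (Finset.mem_insert.1 ((h7 d).1 hd)).imp (fun e => orbit_eq_iff.2 (Quotient.exact e))
      fun e => orbit_eq_iff.2 (Quotient.exact (Finset.mem_singleton.1 e))
  rcases lt_or_ge (Nat.card (orbit (stabilizer G a₀) b)) m with h | h
  · obtain ⟨a, h9, h10, h11⟩ := key b ((h7 b).2 (by simp)) _ rfl h
    exact ⟨a, h9, h10, fun d hd => (h8 d hd).imp (fun e => by rw [e, h11]) fun e => by rw [e]; nlinarith⟩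
  · obtain ⟨a, h9, h10, h11⟩ := key c ((h7 c).2 (by simp)) _ rfl (by omega)
    exact ⟨a, h9, h10, fun d hd => (h8 d hd).symm.imp (fun e => by rw [e, h11]) fun e => by rw [e]; nlinarith⟩

end Cfsg.Agent.S0719
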