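import Cfsg.Statements.S0724
import Cfsg.Agent.Perm.Multi

set_option autoImplicit false
open Cfsg

namespace Cfsg.Agent.S0724

/-- Blichfeldt's Theorem: if a finite set `L` of natural numbers contains the number of fixed points of every non-identity element of a permutation group `G` of degree `n`, then the order of `G` divides `∏ (n - l)` over `l ∈ L`. -/
theorem result {α : Type*} [Fintype α] [DecidableEq α] (G : Subgroup (Equiv.Perm α)) (L : Finset ℕ) (hL : ∀ g ∈ G, g ≠ 1 → Nat.card (MulAction.fixedBy α g) ∈ L) : Nat.card G ∣ ∏ l ∈ L, (Fintype.card α - l) := by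
  classical
  have := Fintype.ofFinite G
  let π : G → ℤ := fun g => Nat.card (MulAction.fixedBy α g)
  have h0 : ∀ j : ℕ, (Nat.card G : ℤ) ∣ ∑ g, π g ^ j := by
    intro j
    have := Fintype.ofFinite (Quotient (MulAction.orbitRel G (Fin j → α)))
    have h1 := MulAction.sum_card_fixedBy_eq_card_orbits_mul_card_group G (Fin j → α)
    have h2 : ∀ g : G, Fintype.card (MulAction.fixedBy (Fin j → α) g) =
        Nat.card (MulAction.fixedBy α g) ^ j := by
      intro g
      rw [← Nat.card_eq_fintype_card, Nat.card_congr (β := Fin j → MulAction.fixedBy α g)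
        ⟨fun x i => ⟨x.1 i, congrFun x.2 i⟩, fun x => ⟨fun i => x i, funext fun i => (x i).2⟩,
          fun _ => rfl, fun _ => rfl⟩, Nat.card_fun, Nat.card_eq_fintype_card (α := Fin j),
        Fintype.card_fin]
    simp only [h2] at h1
    have h3 : ∑ g, π g ^ j = ((∑ g : G, Nat.card (MulAction.fixedBy α g) ^ j : ℕ) : ℤ) := by
      simp [π]
    rw [h3, h1, Nat.card_eq_fintype_card]
    exact Int.natCast_dvd_natCast.2 (Dvd.intro_left _ rfl)
  have h1 : ∀ (M : Finset ℕ) (j : ℕ), (Nat.card G : ℤ) ∣ ∑ g, π g ^ j * ∏ l ∈ M, (π g - l) := by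
    intro M
    induction M using Finset.induction_on with
    | empty => simpa using h0
    | insert l M hl ih =>
      intro j
      have : ∑ g, π g ^ j * ∏ l ∈ insert l M, (π g - l) = ∑ g, π g ^ (j + 1) * ∏ l ∈ M, (π g - l) -
          l * ∑ g, π g ^ j * ∏ l ∈ M, (π g - l) := by
        rw [Finset.mul_sum, ← Finset.sum_sub_distrib]
        refine Finset.sum_congr rfl fun g _ => ?_
        rw [Finset.prod_insert hl]; ring
      rw [this]
      exact dvd_sub (ih _) ((ih _).mul_left _)
  have h2 := h1 L 0
  rw [Finset.sum_eq_single 1 (fun g _ hg => by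
    rw [Finset.prod_eq_zero (hL g g.2 fun h => hg (Subtype.ext h)) (sub_self _), mul_zero])
    (by simp)] at h2
  by_cases h3 : ∀ l ∈ L, l ≤ Fintype.card α
  · rw [← Int.natCast_dvd_natCast, Nat.cast_prod]
    convert h2 using 1
    rw [pow_zero, one_mul]
    refine Finset.prod_congr rfl fun l hl => ?_
    rw [Nat.cast_sub (h3 l hl)]
    simp [π]
  · push Not at h3
    obtain ⟨l, hl, h3⟩ := h3
    rw [Finset.prod_eq_zero hl (by omega)]
    exact dvd_zero _

end Cfsg.Agent.S0724
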