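import Cfsg.Statements.S0728
import Cfsg.Agent.Perm.Zass3

set_option autoImplicit false
open Cfsg

namespace Cfsg.Agent.S0728

/-- In a sharply triply transitive group of even degree at least 6 (degree `q + 1`, `q` odd), a two-point stabiliser has at most one subgroup of order 3. -/
theorem result {α : Type*} [Fintype α] [DecidableEq α] (heven : Even (Fintype.card α)) (h6 : 6 ≤ Fintype.card α) (G : Subgroup (Equiv.Perm α)) (h3 : MulAction.IsMultiplyPretransitive G α 3) (hsharp : ∀ x : Fin 3 ↪ α, MulAction.stabilizer G x = ⊥) {a b : α} (hab : a ≠ b) (A B : Subgroup G) (hA : A ≤ MulAction.stabilizer G a ⊓ MulAction.stabilizer G b) (hB : B ≤ MulAction.stabilizer G a ⊓ MulAction.stabilizer G b) (hA3 : Nat.card A = 3) (hB3 : Nat.card B = 3) : A = B := by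
  have hT := CF.Perm.three_of_sharp hsharp
  obtain ⟨c, hca, hcb⟩ := CF.Perm.exists_third_of_card
    (by rw [Nat.card_eq_fintype_card]; omega : 3 ≤ Nat.card α) a b
  have : Fact (Nat.Prime 3) := ⟨Nat.prime_three⟩
  obtain ⟨⟨x, hx⟩, hx3⟩ := exists_prime_orderOf_dvd_card' (G := A) 3 hA3.symm.dvd
  obtain ⟨⟨y, hy⟩, hy3⟩ := exists_prime_orderOf_dvd_card' (G := B) 3 hB3.symm.dvd
  rw [← Subgroup.orderOf_coe] at hx3 hy3
  have hyA : y ∈ A := by
    rcases CF.Perm.eq_or_eq_inv_of_orderOf_three h3 hT hab hca hcb (hA hx) (hB hy) hx3 hy3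
      with h | h
    · exact h ▸ hx
    · exact h ▸ inv_mem hx
  have h1 : Subgroup.zpowers y = A := Subgroup.eq_of_le_of_card_ge (by simpa using hyA)
    (by rw [Nat.card_zpowers, hA3]; exact hy3.ge)
  have h2 : Subgroup.zpowers y = B := Subgroup.eq_of_le_of_card_ge (by simpa using hy)
    (by rw [Nat.card_zpowers, hB3]; exact hy3.ge)
  rw [← h1, h2]

end Cfsg.Agent.S0728
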