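import Cfsg.Statements.S0732
import Cfsg.Agent.Perm.Semiaffine

set_option autoImplicit false
open Cfsg

namespace Cfsg.Agent.S0732

open Subgroup MulAction CF.Small CF.Perm in
theorem zsetup {G Ω : Type*} [Group G] [Finite G] [MulAction G Ω] [FaithfulSMul G Ω] [Finite Ω]
    [IsPretransitive G Ω] {p d : ℕ} (hp : p.Prime) (hα : Nat.card Ω = p + 1)
    (hG : Nat.card G = (p + 1) * p * d) (hd : d < p) (o : Ω) :
    ∃ P : Subgroup G, Nat.card P = p ∧ ZSetup G Ω P o := by
  classical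
  have := Fact.mk hp
  have := Fintype.ofFinite Ω
  have h1 : Nat.card (stabilizer G o) = p * d := by
    have := card_mul_card_stabilizer (G := G) o
    rw [hα, hG, mul_assoc] at this
    exact Nat.eq_of_mul_eq_mul_left (by omega) this
  have hd0 : 0 < d := Nat.pos_of_mul_pos_left (h1 ▸ Nat.card_pos)
  obtain ⟨S⟩ : Nonempty (Sylow p (stabilizer G o)) := inferInstance
  have hS : Nat.card S = p := by
    rw [S.card_eq_multiplicity, h1, Nat.factorization_mul hp.ne_zero hd0.ne',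
      Finsupp.add_apply, hp.factorization_self,
      Nat.factorization_eq_zero_of_not_dvd (Nat.not_dvd_of_pos_of_lt hd0 hd)]
    simp
  have hSi : (S : Subgroup (stabilizer G o)).index = d := by
    have := (S : Subgroup (stabilizer G o)).card_mul_index
    rw [hS, h1] at this
    exact Nat.eq_of_mul_eq_mul_left hp.pos this
  have hSn : (S : Subgroup (stabilizer G o)).Normal := by
    have h2 := card_sylow_modEq_one p (stabilizer G o)
    have h3 := Nat.le_of_dvd hd0 (hSi ▸ S.card_dvd_index)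
    have h4 := Nat.ModEq.eq_of_lt_of_lt h2 (by omega) hp.one_lt
    have := (Nat.card_eq_one_iff_unique.1 h4).1
    exact S.normal_of_subsingleton
  let P := (S : Subgroup (stabilizer G o)).map (stabilizer G o).subtype
  have hP : Nat.card P = p := (card_map_of_injective (stabilizer G o).subtype_injective).trans hS
  have hfix : ∀ u ∈ P, u • o = o := fun u hu => map_subtype_le _ hu
  have hnorm : ∀ g : G, g • o = o → ∀ u ∈ P, g * u * g⁻¹ ∈ P := by
    rintro g hg _ ⟨u, hu, rfl⟩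
    exact ⟨_, hSn.conj_mem u hu ⟨g, hg⟩, rfl⟩
  have hgen : ∀ u ∈ P, u ≠ 1 → zpowers u = P := fun u hu hu1 =>
    eq_of_le_of_card_ge (zpowers_le.2 hu) (by
      rw [hP, Nat.card_zpowers]
      exact (((Nat.dvd_prime hp).1 (hP ▸ orderOf_dvd_natCard P hu)).resolve_left
        (by simpa using hu1)).ge)
  obtain ⟨⟨u, hu⟩, hu1⟩ := ne_bot_iff_exists_ne_one.1 (show P ≠ ⊥ from
    (one_lt_card_iff_ne_bot P).1 (hP ▸ hp.one_lt))
  obtain ⟨a, ha⟩ := exists_smul_ne_of_ne_one' (α := Ω) (fun h => hu1 (Subtype.ext h) : u ≠ 1)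
  have hao : a ≠ o := by rintro rfl; exact ha (hfix u hu)
  have horb : orbit P a = {o}ᶜ := by
    have h2 : Nat.card (orbit P a) = p :=
      ((Nat.dvd_prime hp).1 (hP ▸ card_orbit_dvd (G := P) a)).resolve_left fun h => ha (by
        have := (Nat.card_eq_one_iff_unique.1 h).1
        exact congrArg Subtype.val (this.elim (⟨u • a, ⟨u, hu⟩, rfl⟩ : orbit P a)
          ⟨a, mem_orbit_self a⟩))
    refine Set.eq_of_subset_of_ncard_le ?_ ?_
    · rintro _ ⟨v, rfl⟩ h
      exact hao ((smul_left_cancel_iff (v : G)).1 (h.trans (hfix v v.2).symm))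
    · rw [Set.ncard_compl, Set.ncard_singleton, hα, ← Nat.card_coe_set_eq, h2]; simp
  have htr : ∀ b c : Ω, b ≠ o → c ≠ o → ∃ u ∈ P, u • b = c := fun b c hb hc => by
    obtain ⟨v, hv, rfl⟩ := (mem_orbit_subgroup_iff P a b).1 (horb ▸ hb)
    obtain ⟨w, hw, rfl⟩ := (mem_orbit_subgroup_iff P a c).1 (horb ▸ hc)
    exact ⟨w * v⁻¹, mul_mem hw (inv_mem hv), by rw [mul_smul, inv_smul_smul]⟩
  have hfree : ∀ u ∈ P, ∀ b : Ω, b ≠ o → u • b = b → u = 1 := fun v hv b hb h => by
    by_contra h1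
    obtain ⟨w, hw, h2⟩ := htr b a hb hao
    have h3 : P ≤ stabilizer G b := hgen v hv h1 ▸ zpowers_le.2 h
    rw [← h2, show w • b = b from h3 hw] at ha
    exact ha (h3 hu)
  have h2 : IsMultiplyPretransitive G Ω 2 := twoTrans_of_stabilizer o fun b c hb hc => by
    obtain ⟨v, hv, h⟩ := htr b c hb hc
    exact ⟨v, hfix v hv, h⟩
  have h3 : ∀ (g : G) (b c : Ω), o ≠ b → o ≠ c → b ≠ c → g • o = o → g • b = b → g • c = c →
      g = 1 := fun g b c hb hc hbc h4 h5 h6 => by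
    obtain ⟨v, hv, h⟩ := htr b c hb.symm hc.symm
    have h7 : v⁻¹ * (g * v * g⁻¹) = 1 := hfree _ (mul_mem (inv_mem hv) (hnorm g h4 v hv)) b hb.symm
      (by rw [mul_smul, mul_smul, mul_smul, inv_smul_eq_iff.2 h5.symm, h, h6, ← h, inv_smul_smul])
    have h8 : P ≤ centralizer {g} := hgen v hv (by rintro rfl; exact hbc (by simpa using h)) ▸
      zpowers_le.2 (mem_centralizer_singleton_iff.2
        (mul_inv_eq_iff_eq_mul.1 (inv_mul_eq_one.1 h7).symm).symm)
    refine eq_of_smul_eq_smul (α := Ω) fun x => ?_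
    rw [one_smul]
    by_cases hx : x = o
    · rw [hx, h4]
    · obtain ⟨w, hw, rfl⟩ := htr b x hb.symm hx
      rw [← mul_smul, ← mem_centralizer_singleton_iff.1 (h8 hw), mul_smul, h5]
  refine ⟨P, hP, hfix, fun g hg => mem_normalizer_fintype (hnorm g hg), htr, hfree,
    fun g b c e hbc hbe hce h4 h5 h6 => ?_, ?_⟩
  · obtain ⟨k, rfl⟩ := exists_smul_eq G o b
    have := h3 (k⁻¹ * g * k⁻¹⁻¹) (k⁻¹ • c) (k⁻¹ • e) (by rwa [Ne, eq_inv_smul_iff])
      (by rwa [Ne, eq_inv_smul_iff]) (by simpa using hce) (by simpa [mul_smul, inv_smul_eq_iff])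
      (by simpa [mul_smul]) (by simpa [mul_smul])
    exact conj_eq_one_iff.1 this
  · obtain ⟨k, hk⟩ := exists_smul_eq G o a
    exact ⟨k, hk ▸ hao⟩

/-- A transitive permutation group on `p + 1` points (`p` prime) of order `(p+1) p d` with `d < p` is isomorphic to `PGL(2,p)` with `d = p - 1`, or to `PSL(2,p)` with `2d = p - 1`, or else `p + 1 = 2^q` for a prime `q`, `d = 1` or `d = q`, and the group is permutation-isomorphic to a group of semi-affine maps `x ↦ a φ(x) + b` of the field with `2^q` elements. -/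
theorem result {α : Type*} [Fintype α] [DecidableEq α] {p d : ℕ} (hp : p.Prime) (hα : Fintype.card α = p + 1) (G : Subgroup (Equiv.Perm α)) [MulAction.IsPretransitive G α] (hG : Nat.card G = (p + 1) * p * d) (hd : d < p) : (d = p - 1 ∧ Nonempty (G ≃* Matrix.ProjGenLinGroup (Fin 2) (ZMod p))) ∨ (2 * d = p - 1 ∧ Nonempty (G ≃* Matrix.ProjectiveSpecialLinearGroup (Fin 2) (ZMod p))) ∨ (∃ q : ℕ, q.Prime ∧ p + 1 = 2 ^ q ∧ (d = 1 ∨ d = q) ∧ ∃ e : α ≃ GaloisField 2 q, ∀ g : G, (e.symm.trans (((g : Equiv.Perm α)).trans e)) ∈ Cfsg.semiaffineGroup (GaloisField 2 q)) := by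
  have := Fact.mk hp
  rw [← Nat.card_eq_fintype_card] at hα
  have : Nontrivial α := Finite.one_lt_card_iff_nontrivial.1 (by have := hp.pos; omega)
  obtain ⟨o', o, ho⟩ := exists_pair_ne α
  obtain ⟨P, hP, Z⟩ := zsetup hp hα hG hd o
  have hT := CF.Perm.ZS.three Z
  have h2 := CF.Perm.ZS.twoTrans Z
  have hE : Nat.card (CF.Small.stab2 G o o') = d := by
    have := Z.card_group ho
    rw [hG, hP] at this
    exact (Nat.eq_of_mul_eq_mul_left (Nat.mul_pos (by omega) hp.pos) this).symm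
  have hp1 := hp.one_lt
  have hPc : IsCyclic P := isCyclic_of_prime_card hP
  by_cases hd1 : d = p - 1
  · refine Or.inl ⟨hd1, ?_⟩
    have h3 := CF.Perm.three_trans_of_card h2 hT ho.symm (by omega)
    by_cases hp2 : p = 2
    · subst hp2
      obtain ⟨f, -, h4, h5⟩ := CF.Perm.psl_of_three_trans_odd h3 hT (by omega) (by rw [hα]; decide)
      obtain ⟨e⟩ := h5 (ZMod 2) (by rw [ZMod.card]; omega)
      obtain ⟨e'⟩ := CF.Perm.psl_equiv_pgl_of_even (ZMod 2) (by simp)
      exact ⟨e.trans e'⟩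
    · exact CF.Perm.pgl_of_three_trans_odd_exp h3 hT hp hp2 odd_one (by simpa using hα) _ (by simp)
  right
  by_cases hZ : Cfsg.IsZassenhausGroup G α
  · left
    rcases CF.Perm.Zass.three_trans_or_psl hZ Z ho hPc.isMulCommutative with
      h | ⟨h, q, f, -, -, -, h4, h5⟩
    · omega
    · exact ⟨by omega, h5 _ (by rw [ZMod.card, ← h4, hP])⟩
  right
  obtain ⟨N, hN, h3, h4⟩ : ∃ N : Subgroup G, N.Normal ∧ MulAction.IsPretransitive N α ∧
      ∀ a : α, MulAction.stabilizer N a = ⊥ := by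
    by_contra h
    by_cases h1 : ∃ g : G, g ≠ 1 ∧ ∃ a b : α, a ≠ b ∧ g • a = a ∧ g • b = b
    · refine hZ ⟨inferInstance, h2, fun g a b c h3 h4 h5 => hT g a b c h3 h5 h4, h1,
        fun N hN h3 => ?_⟩
      by_contra! h4
      exact h ⟨N, hN, h3, h4⟩
    · obtain ⟨K, h3, h4, h5, -⟩ := CF.Perm.sharp2_kernel h2 (CF.Perm.sharp_two_iff.2
        fun a b hab g ha hb => by_contra fun hg => h1 ⟨g, hg, a, b, hab, ha, hb⟩)
      exact h ⟨K, h3, h4, h5⟩
  obtain ⟨r, hr, h5, hNc⟩ := CF.Perm.elementaryAbelian_of_regular_normal h2 N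
    (CF.Perm.ne_bot_of_isPretransitive N ho) o (h4 o)
  have := Fact.mk hr
  obtain ⟨k, hk⟩ := IsPGroup.exists_card_eq (p := r) (G := N)
    fun x => ⟨1, Subtype.ext (by simpa using h5 x x.2)⟩
  rw [CF.Perm.card_eq_of_regular N o (h4 o), hα] at hk
  have hd0 : 0 < d := hE ▸ Nat.card_pos
  have hp2 : p ≠ 2 := by omega
  obtain rfl : 2 = r := (Nat.prime_dvd_prime_iff_eq Nat.prime_two hr).1
    (Nat.prime_two.dvd_of_dvd_pow (hk ▸ (hp.odd_of_ne_two hp2).add_one.two_dvd))
  have hkp : k.Prime := (Nat.prime_of_pow_sub_one_prime (by rintro rfl; omega)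
    (by rw [← hk]; exact hp)).2
  obtain ⟨e, rfl, rfl, he⟩ := CF.Perm.exists_semiaffine_coords N hNc (h4 o) P Z.fix Z.norm
    (fun x hx y hy => congrArg Subtype.val (hPc.isMulCommutative.1.1 (⟨x, hx⟩ : P) ⟨y, hy⟩))
    Z.trans ho (GaloisField 2 k) ((GaloisField.card 2 k hkp.ne_zero).trans (hα.trans hk).symm)
  refine ⟨k, hkp, hk, ?_, e.symm, fun g => ?_⟩
  · rw [or_iff_not_imp_left]
    intro h
    have h6 := CF.Perm.card_eq_two_pow_of_semiaffine hT e he le_rfl
      (fun h7 => h (by rw [← hE, h7, Subgroup.card_bot]))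
    rw [hE, GaloisField.card 2 k hkp.ne_zero] at h6
    exact (Nat.pow_right_injective le_rfl h6).symm
  · obtain ⟨c, b, φ, hc, h6⟩ := he g
    exact ⟨Units.mk0 c hc, b, φ, fun x => e.symm_apply_eq.2 (h6 x)⟩

end Cfsg.Agent.S0732
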