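import Cfsg.Statements.S0733
import Cfsg.Agent.Perm.Multi

set_option autoImplicit false
open Cfsg
open scoped Pointwise

namespace Cfsg.Agent.S0733

/-- A permutation group of affine type — generated by the translations of a finite vector space `V` over `ZMod p` together with a group `G₀` of linear automorphisms — is primitive on `V` if and only if `G₀` is irreducible on `V`. -/
theorem result {p : ℕ} [Fact p.Prime] {V : Type*} [AddCommGroup V] [Module (ZMod p) V] [Finite V] [Nontrivial V] (G₀ : Subgroup (V ≃ₗ[ZMod p] V)) (G : Subgroup (Equiv.Perm V)) (hG : ∀ σ : Equiv.Perm V, σ ∈ G ↔ ∃ g ∈ G₀, ∃ b : V, ∀ x : V, σ x = (g : V ≃ₗ[ZMod p] V) x + b) : MulAction.IsPreprimitive G V ↔ ∀ W : Submodule (ZMod p) V, (∀ g ∈ G₀, ∀ v ∈ W, (g : V ≃ₗ[ZMod p] V) v ∈ W) → W = ⊥ ∨ W = ⊤ := by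
  have htr : ∀ b : V, Equiv.addRight b ∈ G := fun b => (hG _).2 ⟨1, G₀.one_mem, b, fun _ => rfl⟩
  refine ⟨fun h W hW => ?_, fun h => ?_⟩
  · have hB : MulAction.IsBlock G (W : Set V) := by
      rw [MulAction.isBlock_iff_smul_eq_of_mem]
      intro σ x hx hσ
      obtain ⟨g, hg, b, h1⟩ := (hG _).1 σ.2
      have hb : b ∈ W := by
        have : σ.1 x ∈ W := hσ
        rwa [h1, W.add_mem_iff_right (hW g hg x hx)] at this
      refine Set.eq_of_subset_of_ncard_le ?_ (Set.ncard_smul_set _ _).ge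
      rintro _ ⟨y, hy, rfl⟩
      change σ.1 y ∈ W
      rw [h1]
      exact W.add_mem (hW g hg y hy) hb
    rcases hB.subsingleton_or_eq_univ with h1 | h1
    · exact Or.inl ((Submodule.eq_bot_iff W).2 fun x hx => h1 hx W.zero_mem)
    · exact Or.inr (SetLike.coe_injective h1)
  · have : MulAction.IsPretransitive G V :=
      ⟨fun x y => ⟨⟨_, htr (y - x)⟩, by change x + (y - x) = y; abel⟩⟩
    refine MulAction.IsPreprimitive.of_isTrivialBlock_base (0 : V) fun {B} h0 hB => ?_
    have hadd : ∀ x ∈ B, ∀ y ∈ B, x + y ∈ B := by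
      intro x hx y hy
      rw [← hB.smul_eq_of_mem (g := ⟨_, htr y⟩) h0 (by change 0 + y ∈ B; simpa)]
      exact ⟨x, hx, rfl⟩
    let W : Submodule (ZMod p) V :=
      { carrier := B, zero_mem' := h0, add_mem' := fun hx hy => hadd _ hx _ hy
        smul_mem' := fun c x hx => by
          obtain ⟨n, rfl⟩ := ZMod.natCast_zmod_surjective c
          rw [Nat.cast_smul_eq_nsmul]
          induction n with
          | zero => simpa using h0
          | succ n ih => rw [succ_nsmul]; exact hadd _ ih _ hx }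
    rcases h W (fun g hg v hv => by
      change g v ∈ B
      rw [← hB.smul_eq_of_mem (g := ⟨g.toEquiv, (hG _).2 ⟨g, hg, 0, by simp⟩⟩) h0
        (by change g 0 ∈ B; simpa)]
      exact ⟨v, hv, rfl⟩) with h1 | h1
    · exact Or.inl fun x hx y hy => ((Submodule.eq_bot_iff W).1 h1 x hx).trans
        ((Submodule.eq_bot_iff W).1 h1 y hy).symm
    · exact Or.inr (congrArg (fun U : Submodule (ZMod p) V => (U : Set V)) h1)

end Cfsg.Agent.S0733
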