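import Cfsg.Statements.S0734
import Cfsg.Agent.Perm.Multi

set_option autoImplicit false
open Cfsg
open scoped Pointwise

namespace Cfsg.Agent.S0734

/-- Higman's criterion for primitivity: a transitive action on a finite set is primitive if and only if every non-trivial orbital graph (edges = images of a fixed pair of distinct points) is connected. -/
theorem result {G : Type*} [Group G] {Ω : Type*} [Finite Ω] [MulAction G Ω] [MulAction.IsPretransitive G Ω] [Nontrivial Ω] : MulAction.IsPreprimitive G Ω ↔ ∀ a b : Ω, a ≠ b → (SimpleGraph.fromRel fun x y : Ω => ∃ g : G, g • a = x ∧ g • b = y).Connected := by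
  refine ⟨fun h a b hab => ?_, fun h => ⟨fun {B} hB => ?_⟩⟩
  · set Γ := SimpleGraph.fromRel fun x y : Ω => ∃ g : G, g • a = x ∧ g • b = y with hΓ
    have hinv : ∀ (g : G) (x y : Ω), Γ.Reachable x y → Γ.Reachable (g • x) (g • y) := by
      intro g x y hxy
      refine hxy.map ⟨fun x => g • x, fun {x y} hxy => ?_⟩
      simp only [hΓ, SimpleGraph.fromRel_adj] at hxy ⊢
      refine ⟨fun h => hxy.1 (MulAction.injective g h), ?_⟩
      rcases hxy.2 with ⟨k, rfl, rfl⟩ | ⟨k, rfl, rfl⟩
      · exact Or.inl ⟨g * k, mul_smul _ _ _, mul_smul _ _ _⟩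
      · exact Or.inr ⟨g * k, mul_smul _ _ _, mul_smul _ _ _⟩
    have hB : MulAction.IsBlock G {x | Γ.Reachable a x} := by
      rw [MulAction.isBlock_iff_smul_eq_of_mem]
      intro g x hx hgx
      refine Set.eq_of_subset_of_ncard_le ?_ (Set.ncard_smul_set _ _).ge
      rintro _ ⟨y, hy, rfl⟩
      exact SimpleGraph.Reachable.trans hgx (hinv g x y (SimpleGraph.Reachable.trans hx.symm hy))
    rcases hB.subsingleton_or_eq_univ with h1 | h1
    · refine absurd (h1 (SimpleGraph.Reachable.refl a) (SimpleGraph.Adj.reachable ?_)) hab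
      rw [hΓ, SimpleGraph.fromRel_adj]
      exact ⟨hab, Or.inl ⟨1, one_smul _ _, one_smul _ _⟩⟩
    · have h2 : ∀ x, Γ.Reachable a x := fun x => h1.ge (Set.mem_univ x)
      exact ⟨fun x y => (h2 x).symm.trans (h2 y)⟩
  · refine B.subsingleton_or_nontrivial.imp id fun ⟨a, ha, b, hb, hab⟩ => ?_
    refine Set.eq_univ_of_forall fun x => ?_
    have h1 := (SimpleGraph.reachable_iff_reflTransGen _ _).1 ((h a b hab).preconnected a x)
    induction h1 with
    | refl => exact ha
    | tail _ h2 ih =>
      rw [SimpleGraph.fromRel_adj] at h2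
      rcases h2.2 with ⟨g, rfl, rfl⟩ | ⟨g, rfl, rfl⟩
      · rw [← hB.smul_eq_of_mem ha ih]; exact Set.smul_mem_smul_set hb
      · rw [← hB.smul_eq_of_mem hb ih]; exact Set.smul_mem_smul_set ha

end Cfsg.Agent.S0734
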