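import Cfsg.Statements.S0737
import Cfsg.Agent.Perm.Kantor
import Cfsg.Agent.Hyp.FTProof

set_option autoImplicit false
open Cfsg

namespace Cfsg.Agent.S0737

/-- A non-trivial 2-homogeneous permutation group that is not doubly transitive has odd order and degree `p^f ≡ 3 (mod 4)`, and is permutation-isomorphic to a group of semi-affine transformations `x ↦ a φ(x) + b` of the field with `p^f` elements containing all translations. -/
theorem result {α : Type*} [Fintype α] [DecidableEq α] (G : Subgroup (Equiv.Perm α)) (hne : G ≠ ⊥) (h2 : MulAction.IsPretransitive G (Set.powersetCard α 2)) (hn2 : ¬ MulAction.IsMultiplyPretransitive G α 2) : Odd (Nat.card G) ∧ ∃ (p f : ℕ) (_ : Fact p.Prime), p ≠ 2 ∧ Fintype.card α = p ^ f ∧ p ^ f % 4 = 3 ∧ ∃ e : α ≃ GaloisField p f, (∀ g : G, e.symm.trans (((g : Equiv.Perm α)).trans e) ∈ Cfsg.semiaffineGroup (GaloisField p f)) ∧ ∀ b : GaloisField p f, ∃ g : G, ∀ x : α, e ((g : Equiv.Perm α) x) = e x + b := by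
  open CF.Perm MulAction Subgroup in
  have h3 : 3 ≤ Fintype.card α := by
    by_contra! h3
    refine hn2 (twoTrans_iff.2 fun a b c d hab hcd => ?_)
    obtain ⟨g, g1⟩ := twoTrans_iff.1 (Equiv.Perm.isMultiplyPretransitive α 2) a b c d hab hcd
    refine ⟨⟨g, (eq_top_of_le_card G (le_trans ?_ (one_lt_card_iff_ne_bot G |>.2 hne))).ge trivial⟩, g1⟩
    rw [Nat.card_perm, Nat.card_eq_fintype_card]
    exact Nat.factorial_le (n := 2) (by omega)
  obtain ⟨h4, h5⟩ := Cfsg.Agent.S0735.result G h2 h3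
  have hodd := Nat.not_even_iff_odd.1 (mt h4 hn2)
  have := CF.Hyp.isSolvable_of_odd hodd
  have := (nontrivial_iff_ne_bot G).2 hne
  have := Fintype.one_lt_card_iff_nontrivial.1 (show 1 < Fintype.card α by omega)
  obtain ⟨N, hN⟩ := CF.Solv.exists_isMinNormal (G := G)
  have := hN.1
  have := normal_isPretransitive_of_ne_bot (h5 hne) N hN.2.1
  obtain ⟨p, hp, ⟨_, -⟩, h6⟩ := hN.exists_isElementaryAbelian
  have := Fact.mk hp
  obtain ⟨f, hf⟩ := h6.exists_card_eq
  obtain ⟨o⟩ : Nonempty α := inferInstance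
  have hreg : stabilizer N o = ⊥ := eq_bot_iff.2 fun n hn => eq_of_smul_eq_smul fun x : α => by
    obtain ⟨m, rfl⟩ := exists_smul_eq N o x
    rw [smul_smul, IsMulCommutative.is_comm.comm n, mul_smul, hn, one_smul]
  rw [card_eq_of_regular N o hreg] at hf
  have h7 : Nat.card α % 4 = 3 := by
    obtain ⟨a, b, hab⟩ := exists_pair_ne α
    have : Nonempty (Set.powersetCard α 2) := ⟨⟨{a, b}, Finset.card_pair hab⟩⟩
    have := (h5 hne).toIsPretransitive
    obtain ⟨k, hk⟩ := hodd.of_dvd_nat (card_dvd_of_trans (α := α))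
    have h7 := hodd.of_dvd_nat (card_dvd_of_trans (α := Set.powersetCard α 2))
    rw [Set.powersetCard.card, hk, Nat.choose_two_right, Nat.add_sub_cancel, mul_left_comm,
      Nat.mul_div_cancel_left _ two_pos] at h7
    obtain ⟨l, hl⟩ := (Nat.odd_mul.1 h7).2
    omega
  have h8 : f ≠ 0 := by rintro rfl; rw [hf, pow_zero] at h7; omega
  refine ⟨hodd, p, f, this, ?_, Nat.card_eq_fintype_card.symm.trans hf, hf ▸ h7,
    (semiaffine_of_twoHomog h2 N hreg _ ((GaloisField.card p f h8).trans hf.symm)).resolve_right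
    (by simp only [Set.mem_insert_iff, Set.mem_singleton_iff]; omega) |>.imp fun e he =>
      ⟨fun g => (he.1 g).imp fun a => .imp fun b => .imp fun τ h x => ?_, he.2⟩⟩
  · rintro rfl
    have := dvd_pow_self 2 h8
    omega
  · exact (h (e.symm x)).trans (by simp)

end Cfsg.Agent.S0737
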