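import Cfsg.Statements.S0739
import Cfsg.Agent.Perm.ZassOdd

set_option autoImplicit false
open Cfsg

namespace Cfsg.Agent.S0739

/-- In a finite Zassenhaus group whose two-point stabiliser `H = G_{a,b}` has odd order `d`, and which has no normal `q`-complement for any prime `q ∣ d`, `H` is cyclic, `C_G(H) = H`, and every element swapping `a` and `b` inverts each element of `H`. -/
theorem result {G Ω : Type*} [Group G] [Finite G] [MulAction G Ω] [Fintype Ω] (hZ : Cfsg.IsZassenhausGroup G Ω) {a b : Ω} (hab : a ≠ b) (hodd : Odd (Nat.card ↥(MulAction.stabilizer G a ⊓ MulAction.stabilizer G b))) (hnil : ∀ q : ℕ, q.Prime → q ∣ Nat.card ↥(MulAction.stabilizer G a ⊓ MulAction.stabilizer G b) → ¬ ∃ N : Subgroup G, N.Normal ∧ N.index = q ^ (Nat.card G).factorization q) : IsCyclic ↥(MulAction.stabilizer G a ⊓ MulAction.stabilizer G b) ∧ Subgroup.centralizer ((MulAction.stabilizer G a ⊓ MulAction.stabilizer G b : Subgroup G) : Set G) = MulAction.stabilizer G a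 ⊓ MulAction.stabilizer G b ∧ ∀ s : G, s • a = b → s • b = a → ∀ h ∈ MulAction.stabilizer G a ⊓ MulAction.stabilizer G b, s * h * s⁻¹ = h⁻¹ := by
  have := hZ.1
  obtain ⟨P, Z⟩ := CF.Perm.Zass.exists_zsetup hZ a
  have hP := CF.Perm.Zass.kernel_ne_bot hZ Z
  obtain ⟨t, ht, h3, h4⟩ := CF.Perm.exists_invol_swap hZ.2.1 hab
  have hinv := CF.Perm.ZS.inverts_of_odd Z hab.symm hP hodd (fun q hq h => by
    rintro ⟨S, N, hN, hc⟩
    have := Fact.mk hq
    exact hnil q hq h ⟨N, hN, by rw [hc.symm.index_eq_card, S.card_eq_multiplicity]⟩) h3 h4 ht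
  have hall : ∀ s : G, s • a = b → s • b = a → ∀ h ∈ CF.Small.stab2 G a b, s * h * s⁻¹ = h⁻¹ :=
    fun s h1 h2 => CF.Perm.ZS.inverts_of_swap h3 h4 hinv h1 h2
  have hc := CF.Perm.comm_of_inverts hinv
  refine ⟨CF.Perm.ZS.isCyclic_of_comm Z hab.symm hP hc, le_antisymm (fun g hg => ?_)
    (fun g hg h hh => hc h hh g hg), hall⟩
  rcases (CF.Perm.Zass.mem_normalizer_stab2 hZ hab).1 (Subgroup.centralizer_le_normalizer _ hg)
    with h | h
  · exact h
  · exfalso
    apply CF.Perm.Zass.stab2_ne_bot hZ hab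
    rw [eq_bot_iff]
    intro x hx
    refine CF.Perm.mem_of_sq_mem_of_odd_card hodd hx ?_
    have h1 := hall g h.1 h.2 x hx
    rw [← hg x hx, mul_inv_cancel_right] at h1
    rw [Subgroup.mem_bot]
    nth_rewrite 1 [h1]
    simp

end Cfsg.Agent.S0739
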