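import Cfsg.Statements.S0740
import Cfsg.Agent.Perm.Zass2

set_option autoImplicit false
open Cfsg

namespace Cfsg.Agent.S0740

/-- In a finite Zassenhaus group any two points `a ≠ b` are swapped by an involution; every such involution has exactly one fixed point when the degree is odd and 0 or 2 fixed points when the degree is even; and if the two-point stabiliser has even order, some such involution has exactly 2 fixed points. -/
theorem result {G Ω : Type*} [Group G] [Finite G] [MulAction G Ω] [Fintype Ω] (hZ : Cfsg.IsZassenhausGroup G Ω) {a b : Ω} (hab : a ≠ b) : (∃ s : G, orderOf s = 2 ∧ s • a = b ∧ s • b = a) ∧ (∀ s : G, orderOf s = 2 → s • a = b → s • b = a → (Odd (Fintype.card Ω) → Nat.card (MulAction.fixedBy Ω s) = 1) ∧ (Even (Fintype.card Ω) → Nat.card (MulAction.fixedBy Ω s) = 0 ∨ Nat.card (MulAction.fixedBy Ω s) = 2)) ∧ (Even (Fintype.card Ω) → Even (Nat.card ↥(MulAction.stabilizer G a ⊓ MulAction.stabilizer G b)) → ∃ s : G, orderOf s = 2 ∧ s • a = b ∧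 s • b = a ∧ Nat.card (MulAction.fixedBy Ω s) = 2) := by
  have := hZ.1
  have h3 := CF.Perm.Zass.three hZ
  have key : ∀ s : G, orderOf s = 2 → Nat.card (MulAction.fixedBy Ω s) ≤ 2 ∧
      Fintype.card Ω % 2 = Nat.card (MulAction.fixedBy Ω s) % 2 := by
    intro s hs
    refine ⟨h3.card_fixedBy_le (by rintro rfl; simp at hs), ?_⟩
    rw [← Nat.card_eq_fintype_card]
    exact CF.Small.card_fixedBy_modEq (q := 2) (k := 1) (by rw [pow_one, ← hs, pow_orderOf_eq_one])
  have hord : ∀ s : G, s * s = 1 → s • a = b → orderOf s = 2 := fun s h1 h2 =>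
    orderOf_eq_prime (by rw [sq, h1]) (by rintro rfl; exact hab (by simpa using h2))
  refine ⟨?_, fun s hs _ _ => ?_, fun he1 he2 => ?_⟩
  · obtain ⟨s, h1, h2, h4⟩ := CF.Perm.exists_invol_swap hZ.2.1 hab
    exact ⟨s, hord s h1 h2, h2, h4⟩
  · obtain ⟨h1, h2⟩ := key s hs
    rw [Nat.odd_iff, Nat.even_iff]
    omega
  · obtain ⟨c, hca, hcb⟩ := CF.Perm.Zass.exists_third hZ hab
    obtain ⟨t, h1, h2, h4⟩ := CF.Perm.exists_swap_fix hZ.2.1 h3 hab hca hcb he2
    have ht := hord t (h3.mul_self_of_swap hab h1 h2 h4) h1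
    refine ⟨t, ht, h1, h2, ?_⟩
    obtain ⟨h5, h6⟩ := key t ht
    have : Nonempty (MulAction.fixedBy Ω t) := ⟨⟨c, h4⟩⟩
    have : 0 < Nat.card (MulAction.fixedBy Ω t) := Nat.card_pos
    rw [Nat.even_iff] at he1
    omega

end Cfsg.Agent.S0740
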