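import Cfsg.Statements.S0748
import Cfsg.Agent.Perm.LW

set_option autoImplicit false
open Cfsg

namespace Cfsg.Agent.S0748

/-- The Livingstone–Wagner Theorem: a `k`-homogeneous permutation group of degree `n` with `10 ≤ 2k ≤ n` is `k`-transitive. -/
theorem result {α : Type*} [Fintype α] [DecidableEq α] (G : Subgroup (Equiv.Perm α)) {k : ℕ} (hk : 5 ≤ k) (hkn : 2 * k ≤ Fintype.card α) (hh : MulAction.IsPretransitive G (Set.powersetCard α k)) : MulAction.IsMultiplyPretransitive G α k := by
  open CF.Perm in
  obtain ⟨k, rfl⟩ := Nat.exists_eq_add_of_le' hk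
  by_contra h
  have := lw_large G (by omega) ((hom_iff.1 hh).multTrans_pred hkn) (hom_iff.1 hh) h
  omega

end Cfsg.Agent.S0748
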