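import Cfsg.Statements.S0752
import Cfsg.Agent.Geom.Forms

set_option autoImplicit false
open Cfsg

namespace Cfsg.Agent.S0752

/-- Classification of alternating forms: for an alternating bilinear form B on a finite-dimensional space over any field there is a basis indexed by (Fin m ⊕ Fin m) ⊕ Fin k such that B (e_i, f_j) = δ_ij, the e's are pairwise orthogonal, the f's are pairwise orthogonal, and the last k basis vectors are orthogonal to everything (they span the radical). -/
theorem result {F V : Type*} [Field F] [AddCommGroup V] [Module F V] [FiniteDimensional F V] (B : LinearMap.BilinForm F V) (hA : B.IsAlt) : ∃ (m k : ℕ) (b : Module.Basis ((Fin m ⊕ Fin m) ⊕ Fin k) F V), (∀ i j : Fin m, B (b (Sum.inl (Sum.inl i))) (b (Sum.inl (Sum.inr j))) = if i = j then 1 else 0) ∧ (∀ i j : Fin m, B (b (Sum.inl (Sum.inl i))) (b (Sum.inl (Sum.inl j))) = 0) ∧ (∀ i j : Fin m, B (b (Sum.inl (Sum.inr i))) (b (Sum.inl (Sum.inr j))) = 0) ∧ (∀ (j : Fin k) (v : V), B (b (Sum.inr j)) v = 0) := by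
  obtain ⟨W, hW⟩ := Submodule.exists_isCompl (LinearMap.ker B)
  have hB : (B.restrict W).Nondegenerate := by
    have h1 : ∀ x : W, (∀ y : W, B x y = 0) → x = 0 := fun x hx => by
      have : (x : V) ∈ LinearMap.ker B := by
        rw [LinearMap.mem_ker]
        ext y
        obtain ⟨u, hu, w, hw, rfl⟩ := Submodule.mem_sup.1
          (hW.sup_eq_top ▸ Submodule.mem_top : y ∈ LinearMap.ker B ⊔ W)
        have h2 : B x u = 0 := by rw [← hA.neg_eq, LinearMap.mem_ker.1 hu]; simp
        simp [h2, hx ⟨w, hw⟩]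
      exact Subtype.ext (Submodule.disjoint_def.1 hW.disjoint _ this x.2)
    exact ⟨h1, fun x hx => h1 x fun y => hA.isRefl _ _ (hx y)⟩
  obtain ⟨m, e, f, h1, h2⟩ := CF.Geom.exists_symp_frame hB (fun x => hA (x : V))
  obtain ⟨w, h3, h4, -⟩ := CF.Geom.exists_li_mem (LinearMap.ker B) rfl
  have h5 := (h1.linearIndependent (CF.Geom.isWittPair_alt _ hB (fun x => hA (x : V)))).map'
    W.subtype W.ker_subtype
  obtain ⟨b, hb⟩ := CF.Geom.exists_basis_of_li (CF.Geom.li_sum_of_disjoint h5 h3
    (fun i => (Sum.elim e f i).2) h4 hW.disjoint.symm) (by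
      simp only [Fintype.card_sum, Fintype.card_fin]
      have := Submodule.finrank_add_eq_of_isCompl hW
      omega)
  refine ⟨m, _, b, fun i j => ?_, fun i j => ?_, fun i j => ?_, fun j v => ?_⟩
  · rw [hb, hb]; exact h1.ef i j
  · rw [hb, hb]; exact h1.ee i j
  · rw [hb, hb]; exact h1.ff i j
  · rw [hb]; show B (w j) v = 0; rw [LinearMap.mem_ker.1 (h4 j)]; rfl

end Cfsg.Agent.S0752
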