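import Cfsg.Statements.S0756
import Cfsg.Agent.Geom.Disc

set_option autoImplicit false
open Cfsg

namespace Cfsg.Agent.S0756

/-- Classification of symmetric bilinear forms over finite fields of odd characteristic: if B is non-degenerate symmetric on V of dimension n + 1 and α is a fixed non-square of F, there is an orthogonal basis b_0, ..., b_n with B(b_i, b_i) = 1 for i < n and B(b_n, b_n) ∈ {1, α}. -/
theorem result {F V : Type*} [Field F] [Finite F] [AddCommGroup V] [Module F V] [FiniteDimensional F V] (h2 : (2 : F) ≠ 0) (B : LinearMap.BilinForm F V) (hS : B.IsSymm) (hB : B.Nondegenerate) {n : ℕ} (hn : Module.finrank F V = n + 1) (α : F) (hα : ¬ IsSquare α) : ∃ b : Module.Basis (Fin (n + 1)) F V, (∀ i j, i ≠ j → B (b i) (b j) = 0) ∧ (∀ i, i ≠ Fin.last n → B (b i) (b i) = 1) ∧ (B (b (Fin.last n)) (b (Fin.last n)) = 1 ∨ B (b (Fin.last n)) (b (Fin.last n)) = α) := by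
  obtain ⟨v, w, h1, h3⟩ := CF.Geom.exists_orthFam_one h2 hS hB hn
  have h5 : B w w ≠ 0 := by simpa using (h3 1 one_ne_zero).ne (Fin.last n)
  obtain ⟨t, ht, h6⟩ : ∃ t : F, t ≠ 0 ∧ (B (t • w) (t • w) = 1 ∨ B (t • w) (t • w) = α) := by
    by_cases h : IsSquare (B w w)
    · obtain ⟨c, hc, h7⟩ := CF.Geom.exists_eq_sq_mul_of_isSquare_mul one_ne_zero h5
        (by rwa [one_mul])
      exact ⟨c, hc, Or.inl (by simp [h7, sq, mul_assoc])⟩
    · obtain ⟨c, hc, h7⟩ := CF.Geom.exists_eq_sq_mul_of_isSquare_mul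
        (by rintro rfl; exact hα IsSquare.zero) h5 (CF.Geom.isSquare_mul_of_not_isSquare hα h)
      exact ⟨c, hc, Or.inr (by simp [h7, sq, mul_assoc])⟩
  obtain ⟨b, hb⟩ := CF.Geom.exists_basis_of_li (h3 t ht).linearIndependent (by simp [hn])
  refine ⟨b, fun i j hij => ?_, fun i => ?_, ?_⟩
  · rw [hb, hb]; exact (h3 t ht).orth i j hij
  · refine Fin.lastCases (fun h => absurd rfl h) (fun i _ => ?_) i
    simp [hb, h1]
  · simpa only [hb, Fin.snoc_last] using h6

end Cfsg.Agent.S0756
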