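import Cfsg.Statements.S0757
import Cfsg.Agent.Geom.Disc

set_option autoImplicit false
open Cfsg

namespace Cfsg.Agent.S0757

/-- The two diagonal forms Σ x_i^2 and Σ_(i<n) x_i^2 + α x_n^2 on F^(n+1), with α a non-square and 2 ≠ 0 in F, are inequivalent quadratic forms (so over a finite field of odd order there are exactly two classes of non-singular symmetric bilinear forms in each dimension). -/
theorem result {F : Type*} [Field F] (h2 : (2 : F) ≠ 0) (n : ℕ) (α : F) (hα : ¬ IsSquare α) : ¬ (QuadraticMap.weightedSumSquares F (fun _ : Fin (n + 1) => (1 : F))).Equivalent (QuadraticMap.weightedSumSquares F (fun i : Fin (n + 1) => if i = Fin.last n then α else (1 : F))) := by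
  rintro ⟨g⟩
  obtain ⟨t, ht, h⟩ := CF.Geom.exists_det_gram_eq_of_equiv g.toLinearEquiv (c := 1)
    (CF.Geom.polar_equiv g.toLinearEquiv (fun v => by rw [one_mul]; exact g.map_app v))
    (Pi.basisFun F (Fin (n + 1))) (Pi.basisFun F (Fin (n + 1)))
  have key : ∀ w : Fin (n + 1) → F, (CF.Geom.gram (QuadraticMap.polarBilin
      (QuadraticMap.weightedSumSquares F w)) (Pi.basisFun F (Fin (n + 1)))).det =
      2 ^ (n + 1) * ∏ i, w i := fun w => by
    have : CF.Geom.gram (QuadraticMap.polarBilin (QuadraticMap.weightedSumSquares F w))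
        (Pi.basisFun F (Fin (n + 1))) = Matrix.diagonal fun i => 2 * w i := by
      ext i j
      by_cases hij : i = j
      · simp [hij, Pi.single_apply]
      · simp only [CF.Geom.gram_apply, QuadraticMap.polarBilin_apply_apply, QuadraticMap.polar,
          QuadraticMap.weightedSumSquares_apply, ← Finset.sum_sub_distrib, Pi.basisFun_apply,
          Matrix.diagonal_apply_ne _ hij]
        refine Finset.sum_eq_zero fun k _ => ?_
        by_cases h1 : k = i <;> by_cases h3 : k = j <;> simp_all [Pi.single_apply]
    rw [this, Matrix.det_diagonal, Finset.prod_mul_distrib]; simp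
  rw [key, key] at h
  simp only [Finset.prod_ite_eq', Finset.mem_univ, if_true, Finset.prod_const_one, one_pow,
    one_mul, mul_one] at h
  exact hα ⟨t, mul_left_cancel₀ (pow_ne_zero (n + 1) h2) (by rw [h]; ring)⟩

end Cfsg.Agent.S0757
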