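import Cfsg.Statements.S0758
import Cfsg.Agent.Geom.Disc

set_option autoImplicit false
open Cfsg

namespace Cfsg.Agent.S0758

/-- For a finite field F of odd order q and a non-square α: the form x² + y² is isotropic iff q ≡ 1 mod 4, and the form x² + α y² is isotropic iff q ≡ 3 mod 4. -/
theorem result {F : Type*} [Field F] [Fintype F] (h2 : (2 : F) ≠ 0) (α : F) (hα : ¬ IsSquare α) : ((∃ x y : F, (x ≠ 0 ∨ y ≠ 0) ∧ x ^ 2 + y ^ 2 = 0) ↔ Fintype.card F % 4 = 1) ∧ ((∃ x y : F, (x ≠ 0 ∨ y ≠ 0) ∧ x ^ 2 + α * y ^ 2 = 0) ↔ Fintype.card F % 4 = 3) := by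
  have key : ∀ a : F, a ≠ 0 → ((∃ x y : F, (x ≠ 0 ∨ y ≠ 0) ∧ x ^ 2 + a * y ^ 2 = 0) ↔
      IsSquare (-a)) := fun a ha => by
    constructor
    · rintro ⟨x, y, h1, h3⟩
      have hy : y ≠ 0 := by rintro rfl; simp_all
      exact ⟨x / y, by field_simp; linear_combination -h3⟩
    · rintro ⟨s, hs⟩
      exact ⟨s, 1, Or.inr one_ne_zero, by linear_combination -hs⟩
  have h1 := CF.Geom.isSquare_neg_one_pow_iff h2 1
  have h3 := CF.Geom.card_pow_mod_four h2 1
  simp only [pow_one] at h1 h3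
  have hα0 : α ≠ 0 := by rintro rfl; exact hα IsSquare.zero
  constructor
  · simpa only [one_mul, h1] using key 1 one_ne_zero
  · rw [key α hα0, neg_eq_neg_one_mul, CF.Geom.isSquare_mul_iff (by simp) hα0, h1]
    simp only [hα, iff_false]
    omega

end Cfsg.Agent.S0758
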