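import Cfsg.Statements.S0759
import Cfsg.Agent.Geom.Disc

set_option autoImplicit false
open Cfsg

namespace Cfsg.Agent.S0759

/-- Type of the orthonormal form: over a finite field of odd order q and for m ≥ 1, the quadratic form Σ_(i<2m) x_i² on F^(2m) admits an m-dimensional subspace on which it vanishes identically if and only if it is not the case that q ≡ 3 (mod 4) and m is odd. -/
theorem result {F : Type*} [Field F] [Fintype F] (h2 : (2 : F) ≠ 0) (m : ℕ) (hm : 1 ≤ m) : (∃ W : Submodule F (Fin (2 * m) → F), Module.finrank F W = m ∧ ∀ w ∈ W, ∑ i, w i ^ 2 = 0) ↔ ¬ (Fintype.card F % 4 = 3 ∧ Odd m) := by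
  let Q : QuadraticForm F (Fin (2 * m) → F) :=
    LinearMap.BilinMap.toQuadraticMap (Matrix.toBilin' (1 : Matrix (Fin (2 * m)) (Fin (2 * m)) F))
  have hQ1 : ∀ w, Q w = ∑ i, w i ^ 2 := fun w => by
    simp [Q, Matrix.toBilin'_apply', dotProduct, sq]
  have hS : (Matrix.toBilin' (1 : Matrix (Fin (2 * m)) (Fin (2 * m)) F)).IsSymm :=
    ⟨fun x y => by simp [Matrix.toBilin'_apply', dotProduct_comm]⟩
  have hG : (CF.Geom.gram (QuadraticMap.polarBilin Q) (Pi.basisFun F (Fin (2 * m)))).det =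
      (2 ^ m) ^ 2 * 1 := by
    have : CF.Geom.gram (QuadraticMap.polarBilin Q) (Pi.basisFun F (Fin (2 * m))) =
        (2 : F) • (1 : Matrix (Fin (2 * m)) (Fin (2 * m)) F) := by
      ext i j
      simp [Q, CF.Geom.polarBilin_toQuadraticMap hS]
    rw [this, Matrix.det_smul]; simp; ring
  have hQ : (QuadraticMap.polarBilin Q).Nondegenerate :=
    CF.Geom.nondegenerate_of_det_gram (Pi.basisFun F (Fin (2 * m))) (by rw [hG]; simp [h2])
  have h1 := CF.Geom.isSquare_det_gram_iff h2 hQ (m := m) (by simp) (Pi.basisFun F (Fin (2 * m)))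
  rw [hG, CF.Geom.isSquare_sq_mul_iff (pow_ne_zero _ h2)] at h1
  have h3 := h1.1 IsSquare.one
  have h4 : (∃ W : Submodule F (Fin (2 * m) → F), Module.finrank F W = m ∧
      ∀ w ∈ W, ∑ i, w i ^ 2 = 0) ↔ CF.Geom.IsPlus Q := by
    refine exists_congr fun W => and_congr ?_ (by simp only [hQ1])
    simp
  rw [h4, h3, ← CF.Geom.isSquare_neg_one_pow_iff h2]
  have h5 := FiniteField.isSquare_neg_one_iff (F := F)
  rcases Nat.even_or_odd m with h | h
  · simp [h.neg_one_pow, Nat.not_odd_iff_even.2 h]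
  · simp [h.neg_one_pow, h, h5]

end Cfsg.Agent.S0759
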