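import Cfsg.Statements.S0763
import Cfsg.Agent.Geom.Forms

set_option autoImplicit false
open Cfsg

namespace Cfsg.Agent.S0763

/-- Binary quadratic forms in characteristic two over a finite field: if Q is a quadratic form on a 2-dimensional space whose polar form is non-degenerate, then either there are vectors v, w with Q v = Q w = 0 and polar value 1 (Q is xy in these coordinates), or there are v, w and μ with Q v = 1, Q w = μ, polar value 1 and x² + x + μ without roots in F (Q is x² + xy + μy²). -/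
theorem result {F V : Type*} [Field F] [Finite F] [CharP F 2] [AddCommGroup V] [Module F V] (Q : QuadraticForm F V) (h2 : Module.finrank F V = 2) (hQ : (QuadraticMap.polarBilin Q).Nondegenerate) : (∃ v w : V, LinearIndependent F ![v, w] ∧ Q v = 0 ∧ Q w = 0 ∧ QuadraticMap.polar Q v w = 1) ∨ (∃ (v w : V) (μ : F), LinearIndependent F ![v, w] ∧ (∀ x : F, x ^ 2 + x + μ ≠ 0) ∧ Q v = 1 ∧ Q w = μ ∧ QuadraticMap.polar Q v w = 1) := by
  have : FiniteDimensional F V := Module.finite_of_finrank_pos (by omega)
  by_cases hp : CF.Geom.IsPlus Q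
  · obtain ⟨e, f, h⟩ := hp.exists_qFrame hQ (m := 1) h2
    exact Or.inl ⟨e 0, f 0, CF.Geom.IsWittPair.linearIndependent_hyperbolic (h.ee 0 0)
      (by rw [h.ef_self]; exact one_ne_zero), h.qe' 0, h.qf' 0, h.ef_self 0⟩
  · obtain ⟨ζ, hζ, h⟩ := CF.Geom.exists_elliptic_frame hQ (m := 0) h2 hp
    obtain ⟨e, f, x, y, b, -, -, -, h3, h4, h5, hb⟩ := h ζ hζ
    refine Or.inr ⟨x, y, ζ, ?_, hζ, h3, h5, h4⟩
    convert b.linearIndependent.comp _ Sum.inr_injective using 1
    ext i; simp [hb]

end Cfsg.Agent.S0763
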