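import Cfsg.Statements.S0766
import Cfsg.Agent.Geom.SpGen

set_option autoImplicit false
open Cfsg

namespace Cfsg.Agent.S0766

/-- The subgroup generated by the symplectic transvections acts transitively on ordered pairs (u, v) with f(u, v) = 1. -/
theorem result {F : Type*} [Field F] (m : ℕ) (u v u' v' : Fin m ⊕ Fin m → F) (h : Cfsg.sympForm m F u v = 1) (h' : Cfsg.sympForm m F u' v' = 1) : ∃ A ∈ Subgroup.closure {A : Matrix.symplecticGroup (Fin m) F | ∃ (w : Fin m ⊕ Fin m → F) (c : F), (A : Matrix (Fin m ⊕ Fin m) (Fin m ⊕ Fin m) F) = Cfsg.sympTransvection m w c}, (A : Matrix (Fin m ⊕ Fin m) (Fin m ⊕ Fin m) F).mulVec u = u' ∧ (A : Matrix (Fin m ⊕ Fin m) (Fin m ⊕ Fin m) F).mulVec v = v' := by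
  have li : ∀ a b : Fin m ⊕ Fin m → F, Cfsg.sympForm m F a b = 1 → LinearIndependent F ![a, b] :=
    fun a b hab => CF.Geom.IsWittPair.linearIndependent_hyperbolic (B := CF.Geom.sympBilin m F)
      ((CF.Geom.sympBilin_isAlt m).self_eq_zero a) (by simp [CF.Geom.sympBilin_apply, hab])
  obtain ⟨g, hg, h1, h2⟩ := (CF.Geom.isWittPair_symp (F := F) m).exists_isom_pair (li u v h)
    (li u' v' h') rfl rfl (by simp only [CF.Geom.sympBilin_apply, h, h'])
  refine ⟨(CF.Geom.spEquiv m F).symm ⟨g, hg⟩, ?_, ?_, ?_⟩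
  · rw [CF.Geom.closure_sympTransvection]; trivial
  · rw [CF.Geom.spEquiv_symm_mulVec]; exact h1
  · rw [CF.Geom.spEquiv_symm_mulVec]; exact h2

end Cfsg.Agent.S0766
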