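import Cfsg.Statements.S0767
import Cfsg.Agent.Geom.SpGen

set_option autoImplicit false
open Cfsg

namespace Cfsg.Agent.S0767

/-- The root group of a point: T_v(c) T_v(d) = T_v(c + d), and for A in the symplectic group with A v = a v, the conjugate A T_v(c) A⁻¹ is again some T_v(d). -/
theorem result {F : Type*} [Field F] (m : ℕ) (v : Fin m ⊕ Fin m → F) : (∀ c d : F, Cfsg.sympTransvection m v c * Cfsg.sympTransvection m v d = Cfsg.sympTransvection m v (c + d)) ∧ ∀ (A : Matrix (Fin m ⊕ Fin m) (Fin m ⊕ Fin m) F) (a : F), A ∈ Matrix.symplecticGroup (Fin m) F → A.mulVec v = a • v → ∀ c : F, ∃ d : F, A * Cfsg.sympTransvection m v c * A⁻¹ = Cfsg.sympTransvection m v d := by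
  have hvv : Cfsg.sympForm m F v v = 0 := by
    rw [← CF.Geom.sympBilin_apply]; exact (CF.Geom.sympBilin_isAlt m).self_eq_zero v
  refine ⟨fun c d => ?_, fun A a hA hv c => ⟨a ^ 2 * c, ?_⟩⟩
  · have := congrArg (fun g => ((CF.Geom.spEquiv m F).symm g).1)
      (CF.Geom.spTrans_add (CF.Geom.sympBilin_isAlt m) v c d)
    have e : ∀ c, ((CF.Geom.spEquiv m F).symm (CF.Geom.spTrans (CF.Geom.sympBilin_isAlt m) v c)).1
        = Cfsg.sympTransvection m v c := fun c =>
      (CF.Geom.spEquiv_eq_spTrans_iff _ v c).1 (by simp)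
    simp only [map_mul, Submonoid.coe_mul, e] at this
    exact this.symm
  · have h := CF.Geom.conj_spTrans (CF.Geom.sympBilin_isAlt m) (CF.Geom.spEquiv m F ⟨A, hA⟩) v c
    rw [CF.Geom.spEquiv_apply, hv, CF.Geom.spTrans_smul,
      ← (CF.Geom.spEquiv_eq_spTrans_iff ⟨_, CF.Geom.sympTransvection_mem m v c⟩ v c).2 rfl,
      ← map_inv, ← map_mul, ← map_mul, CF.Geom.spEquiv_eq_spTrans_iff] at h
    rw [← h, Submonoid.coe_mul, Submonoid.coe_mul, SymplecticGroup.coe_inv']

end Cfsg.Agent.S0767
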