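import Cfsg.Statements.S0768
import Cfsg.Agent.Geom.SpGen

set_option autoImplicit false
open scoped LinearAlgebra.Projectivization
open Cfsg

namespace Cfsg.Agent.S0768

/-- Primitivity: for m ≥ 1 and F finite, the symplectic group of the form sympForm (as a subgroup of the general linear group) acts primitively on the projective space of F^(2m). -/
theorem result {F : Type*} [Field F] [Finite F] (m : ℕ) (hm : 1 ≤ m) : MulAction.IsPreprimitive ↥(Cfsg.spGL m F) (ℙ F (Fin m ⊕ Fin m → F)) := by
  have hW := CF.Geom.isWittPair_symp (F := F) m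
  have lift : ∀ g ∈ CF.Geom.SpG (CF.Geom.sympBilin m F), ∃ A : Cfsg.spGL m F, ∀ v (hv : v ≠ 0),
      A • Projectivization.mk F v hv = Projectivization.mk F (g v) (by simpa using hv) :=
    fun g hg => ⟨⟨(CF.Geom.glEquiv _ F).symm g, fun u v => by
      have := hg.1 u v
      rwa [CF.Geom.sympBilin_apply, CF.Geom.sympBilin_apply, ← CF.Geom.glEquiv_symm_mulVec,
        ← CF.Geom.glEquiv_symm_mulVec] at this⟩, fun v hv => by
          refine (Projectivization.smul_mk ((CF.Geom.glEquiv _ F).symm g) hv).trans ?_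
          congr 1
          exact CF.Geom.glEquiv_symm_mulVec g v⟩
  have htr : MulAction.IsPretransitive ↥(Cfsg.spGL m F) (ℙ F (Fin m ⊕ Fin m → F)) := by
    refine ⟨fun x y => ?_⟩
    induction x using Projectivization.ind with | h a ha => ?_
    induction y using Projectivization.ind with | h b hb => ?_
    obtain ⟨g, hg, e⟩ := hW.exists_isom_vec ha hb rfl
    obtain ⟨A, hA⟩ := lift g hg
    exact ⟨A, by simp only [hA, e]⟩
  refine { htr with isTrivialBlock_of_isBlock := fun {Bl} hBl => ?_ }
  by_cases hs : Bl.Subsingleton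
  · exact Or.inl hs
  right
  obtain ⟨x, hx, y, hy, hxy⟩ := Set.not_subsingleton_iff.1 hs
  induction x using Projectivization.ind with | h a ha => ?_
  induction y using Projectivization.ind with | h b hb => ?_
  have key := CF.Geom.sp_block (CF.Geom.sympBilin_nondegenerate m) (CF.Geom.sympBilin_isAlt m)
    {v | ∃ hv : v ≠ 0, Projectivization.mk F v hv ∈ Bl} (fun g hg a ⟨ha, ha'⟩ ⟨hga, hga'⟩ b ⟨hb, hb'⟩ => by
      obtain ⟨A, hA⟩ := lift g hg
      have e := MulAction.isBlock_iff_smul_eq_of_mem.1 hBl (g := A) ha'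
        (by rw [hA]; exact hga')
      refine ⟨by simpa using hb, ?_⟩
      have := Set.smul_mem_smul_set (a := A) hb'
      rwa [e, hA] at this)
    (fun c hc a ⟨ha, ha'⟩ => ⟨smul_ne_zero hc ha, by
      rwa [(Projectivization.mk_eq_mk_iff' F _ _ _ ha).2 ⟨c, rfl⟩]⟩) ⟨ha, hx⟩ ⟨hb, hy⟩
    (by
      rw [LinearIndependent.pair_iff' ha]
      intro t ht
      exact hxy ((Projectivization.mk_eq_mk_iff' F _ _ hb ha).2 ⟨t, ht⟩).symm)
  rw [Set.eq_univ_iff_forall]
  intro z
  induction z using Projectivization.ind with | h c hc => ?_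
  exact (key c hc).2

end Cfsg.Agent.S0768
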