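import Cfsg.Statements.S0770
import Cfsg.Agent.Geom.Levi

set_option autoImplicit false
open Cfsg

namespace Cfsg.Agent.S0770

/-- For a field with at least 3 elements, an invertible matrix normalises the subgroup of invertible diagonal matrices of GL_n if and only if it is monomial (exactly one non-zero entry in each row). -/
theorem result {F : Type*} [Field F] (hF : ∃ a : F, a ≠ 0 ∧ a ≠ 1) (n : ℕ) (g : Matrix.GeneralLinearGroup (Fin n) F) : g ∈ Subgroup.normalizer ((Units.map (Matrix.diagonalRingHom (Fin n) F).toMonoidHom).range : Subgroup (Matrix.GeneralLinearGroup (Fin n) F)) ↔ ∀ i : Fin n, ∃! j : Fin n, (g : Matrix (Fin n) (Fin n) F) i j ≠ 0 := by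
  classical
  obtain ⟨a, ha0, ha1⟩ := hF
  have hT : ∀ x : Matrix.GeneralLinearGroup (Fin n) F,
      x ∈ ((Units.map (Matrix.diagonalRingHom (Fin n) F).toMonoidHom).range :
        Subgroup (Matrix.GeneralLinearGroup (Fin n) F)) ↔
      ∃ d : Fin n → F, (x : Matrix (Fin n) (Fin n) F) = Matrix.diagonal d := fun x => by
    refine ⟨fun ⟨u, hu⟩ => ⟨u, by rw [← hu]; rfl⟩, fun ⟨d, hd⟩ => ?_⟩
    have h1 : ∀ i, d i ≠ 0 := fun i => by
      have := x.det_ne_zero
      rw [hd, Matrix.det_diagonal] at this
      exact Finset.prod_ne_zero_iff.1 this i (Finset.mem_univ i)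
    exact ⟨⟨d, d⁻¹, funext fun i => mul_inv_cancel₀ (h1 i), funext fun i => inv_mul_cancel₀ (h1 i)⟩,
      Units.ext hd.symm⟩
  have hrow : ∀ i, ∃ j, (g : Matrix (Fin n) (Fin n) F) i j ≠ 0 := fun i => by
    by_contra hc; push Not at hc
    exact g.det_ne_zero (Matrix.det_eq_zero_of_row_eq_zero i hc)
  rw [Subgroup.mem_normalizer_iff]
  constructor
  · intro h i
    obtain ⟨j, hj⟩ := hrow i
    refine ⟨j, hj, fun k hk => ?_⟩
    by_contra hkj
    obtain ⟨d, hd⟩ := (hT _).1 ((h (CF.Classical.diagGL j (Units.mk0 a ha0))).1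
      ((hT _).2 ⟨_, CF.Classical.coe_diagGL _ _⟩))
    have h1 : (g : Matrix (Fin n) (Fin n) F) * (CF.Classical.diagGL j (Units.mk0 a ha0) :
        Matrix.GeneralLinearGroup (Fin n) F) = Matrix.diagonal d * g := by
      rw [← hd, ← Units.val_mul, ← Units.val_mul, inv_mul_cancel_right]
    rw [CF.Classical.coe_diagGL] at h1
    have h2 := congrFun (congrFun h1 i) j
    have h3 := congrFun (congrFun h1 i) k
    simp only [Matrix.mul_diagonal, Matrix.diagonal_mul, if_pos, if_neg hkj, Units.val_mk0] at h2 h3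
    rw [mul_comm, mul_left_inj' hj] at h2
    rw [mul_comm, mul_left_inj' hk] at h3
    exact ha1 (h2.trans h3.symm)
  · intro h
    choose σ h1 h2 using h
    have h3 : Function.Bijective σ := by
      refine Finite.surjective_iff_bijective.1 fun j => ?_
      by_contra hc; push Not at hc
      exact g.det_ne_zero (Matrix.det_eq_zero_of_column_eq_zero j fun i => by
        by_contra h; exact hc i (h2 i j h).symm)
    have h4 : ∀ d : Fin n → F, (g : Matrix (Fin n) (Fin n) F) * Matrix.diagonal d =
        Matrix.diagonal (d ∘ σ) * g := fun d => by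
      ext i j
      rw [Matrix.mul_diagonal, Matrix.diagonal_mul, mul_comm]
      by_cases h : (g : Matrix (Fin n) (Fin n) F) i j = 0
      · simp [h]
      · rw [h2 i j h]; rfl
    intro x
    rw [hT, hT]
    constructor
    · rintro ⟨d, hd⟩
      exact ⟨d ∘ σ, by rw [Units.val_mul, Units.val_mul, hd, h4, Units.mul_inv_cancel_right]⟩
    · rintro ⟨d, hd⟩
      refine ⟨d ∘ (Equiv.ofBijective σ h3).symm, ?_⟩
      rw [← Units.mul_right_inj g, h4, Function.comp_assoc,
        show (Equiv.ofBijective σ h3).symm ∘ σ = id from (Equiv.ofBijective σ h3).symm_comp_self,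
        Function.comp_id, ← hd, ← Units.val_mul, ← Units.val_mul, inv_mul_cancel_right]

end Cfsg.Agent.S0770
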