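import Cfsg.Statements.S0773
import Cfsg.Agent.Geom.Levi

set_option autoImplicit false
open Cfsg

namespace Cfsg.Agent.S0773

/-- Inverse transpose followed by reversing the coordinates. -/
def tau (n : ℕ) (F : Type*) [Field F] : Matrix.GeneralLinearGroup (Fin n) F →*
    Matrix.GeneralLinearGroup (Fin n) F where
  toFun A := ⟨(A⁻¹).1.transpose.submatrix Fin.revPerm Fin.revPerm,
    A.1.transpose.submatrix Fin.revPerm Fin.revPerm,
    by rw [Matrix.submatrix_mul_equiv, ← Matrix.transpose_mul]; simp,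
    by rw [Matrix.submatrix_mul_equiv, ← Matrix.transpose_mul]; simp⟩
  map_one' := by ext1; simp
  map_mul' A B := by
    ext1
    simp only [Units.val_mul, Matrix.submatrix_mul_equiv, ← Matrix.transpose_mul, mul_inv_rev]

theorem tau_tau (n : ℕ) (F : Type*) [Field F] (A : Matrix.GeneralLinearGroup (Fin n) F) :
    tau n F (tau n F A) = A := by
  ext i j; show A.1 (Fin.rev (Fin.rev i)) (Fin.rev (Fin.rev j)) = _; simp

theorem tau_mem {F : Type*} [Field F] {n k l : ℕ} (h : k + l = n)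
    {A : Matrix.GeneralLinearGroup (Fin n) F}
    (hA : A ∈ Cfsg.stabilizing (Cfsg.glToMat (Fin n) F) (CF.Geom.coordSub n k F)) :
    tau n F A ∈ Cfsg.stabilizing (Cfsg.glToMat (Fin n) F) (CF.Geom.coordSub n l F) := by
  have h1 := (CF.Geom.mem_stabilizing_iff_of_single _ _ _ (fun _ => CF.Geom.mem_coordSub) _).1
    (inv_mem hA)
  refine (CF.Geom.mem_stabilizing_iff_of_single _ _ _ (fun _ => CF.Geom.mem_coordSub) _).2
    fun i j hi hj => h1 (Fin.rev j) (Fin.rev i) ?_ ?_
  · rw [Fin.val_rev]; omega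
  · rw [Fin.val_rev]; omega

/-- The stabilisers in GL_n(F), F finite, of the coordinate subspaces of dimensions k and n − k are isomorphic groups, but when 2k ≠ n (and 0 < k < n) no element of GL_n conjugates one onto the other. -/
theorem result {F : Type*} [Field F] [Finite F] (n k : ℕ) (hk0 : 0 < k) (hkn : k < n) (h2 : 2 * k ≠ n) : Nonempty (↥(Cfsg.stabilizing (Cfsg.glToMat (Fin n) F) {v : Fin n → F | ∀ i : Fin n, k ≤ (i : ℕ) → v i = 0}) ≃* ↥(Cfsg.stabilizing (Cfsg.glToMat (Fin n) F) {v : Fin n → F | ∀ i : Fin n, n - k ≤ (i : ℕ) → v i = 0})) ∧ ∀ g : Matrix.GeneralLinearGroup (Fin n) F, (Cfsg.stabilizing (Cfsg.glToMat (Fin n) F) {v : Fin n → F | ∀ i : Fin n, k ≤ (i : ℕ) → v i = 0}).map (MulAut.conj g).toMonoidHom ≠ Cfsg.stabilizing (Cfsg.glToMat (Fin n) F) {v : Fin n → F | ∀ i : Fin n, n - k ≤ (i : ℕ) → v i = 0} := by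
  refine ⟨⟨MonoidHom.toMulEquiv
    (((tau n F).comp (Subgroup.subtype _)).codRestrict _ fun A => tau_mem (by omega) A.2)
    (((tau n F).comp (Subgroup.subtype _)).codRestrict _ fun A => tau_mem (by omega) A.2)
    (by ext1; ext1; exact tau_tau _ _ _) (by ext1; ext1; exact tau_tau _ _ _)⟩, fun g h => ?_⟩
  have h1 := CF.Geom.finrank_coordSub (F := F) hkn.le
  have h3 := CF.Geom.finrank_coordSub (F := F) (Nat.sub_le n k)
  have h4 := CF.Geom.finrank_map_equiv (CF.Geom.glTop (Fin n) F g).1 (CF.Geom.coordSub n k F)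
  have h5 := CF.Geom.eq_of_stabSet_top_le (U := CF.Geom.coordSub n (n - k) F)
    (W := (CF.Geom.coordSub n k F).map (CF.Geom.glTop (Fin n) F g).1.toLinearMap)
    (fun h => by rw [h, h1] at h4; simp at h4; omega)
    (fun h => by rw [h, h1] at h4; simp at h4; omega) fun x hx => by
      obtain ⟨x, rfl⟩ := (CF.Geom.glTop (Fin n) F).surjective x
      obtain ⟨y, hy, rfl⟩ := h.ge hx
      refine CF.Geom.mem_stabSet_iff_le.2 ?_
      rintro _ ⟨u, hu, rfl⟩
      refine ⟨_, (hy u).1 hu, ?_⟩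
      show g.1.mulVec (y.1.mulVec u) = (g * y * g⁻¹).1.mulVec (g.1.mulVec u)
      simp [mul_assoc]
  rw [← h5, h1, h3] at h4
  omega

end Cfsg.Agent.S0773
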