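import Cfsg.Statements.S0774
import Cfsg.Agent.Geom.Levi

set_option autoImplicit false
open Cfsg

namespace Cfsg.Agent.S0774

/-- Borel subgroup of the symplectic group: the elements of Sp_2m(q) stabilising each of the totally isotropic coordinate subspaces ⟨e_0, ..., e_k⟩ (k < m) form a subgroup of order q^(m²) (q − 1)^m. -/
theorem result {F : Type*} [Field F] [Fintype F] {q : ℕ} (hF : Fintype.card F = q) (m : ℕ) : Nat.card ↥(⨅ k : Fin m, Cfsg.stabilizing (Cfsg.spToMat m F) {v : Fin m ⊕ Fin m → F | (∀ i : Fin m, (k : ℕ) < (i : ℕ) → v (Sum.inl i) = 0) ∧ ∀ i : Fin m, v (Sum.inr i) = 0}) = q ^ (m ^ 2) * (q - 1) ^ m := by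
  subst hF
  set K := ⨅ k : Fin m, Cfsg.stabilizing (Cfsg.spToMat m F) {v : Fin m ⊕ Fin m → F |
    (∀ i : Fin m, (k : ℕ) < (i : ℕ) → v (Sum.inl i) = 0) ∧ ∀ i : Fin m, v (Sum.inr i) = 0} with hK
  have h1 : ∀ g, g ∈ K ↔ (∀ i j, j < i → g.1 (.inl i) (.inl j) = 0) ∧
      ∀ i j, g.1 (.inr i) (.inl j) = 0 := fun g => by
    have h2 : ∀ k : Fin m, g ∈ Cfsg.stabilizing (Cfsg.spToMat m F) {v : Fin m ⊕ Fin m → F |
        (∀ i : Fin m, (k : ℕ) < (i : ℕ) → v (Sum.inl i) = 0) ∧ ∀ i : Fin m, v (Sum.inr i) = 0} ↔ _ :=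
      fun k => CF.Geom.mem_stabilizing_iff_of_single (Cfsg.spToMat m F)
        { carrier := {v : Fin m ⊕ Fin m → F |
            (∀ i : Fin m, (k : ℕ) < (i : ℕ) → v (Sum.inl i) = 0) ∧ ∀ i : Fin m, v (Sum.inr i) = 0}
          add_mem' := fun ha hb => ⟨fun i hi => by simp [ha.1 i hi, hb.1 i hi],
            fun i => by simp [ha.2 i, hb.2 i]⟩
          zero_mem' := ⟨fun _ _ => rfl, fun _ => rfl⟩
          smul_mem' := fun c _ ha => ⟨fun i hi => by simp [ha.1 i hi], fun i => by simp [ha.2 i]⟩ }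
        (Sum.elim (fun i => k < i) fun _ => True) (fun v => by simp) g
    simp only [hK, Subgroup.mem_iInf, h2, Sum.forall]
    simp only [Sum.elim_inl, Sum.elim_inr, not_true, false_imp_iff, implies_true, and_true, not_lt,
      true_imp_iff]
    exact ⟨fun h => ⟨fun i j hij => (h j).1 i j hij le_rfl, fun i j => (h j).2 i j le_rfl⟩,
      fun h k => ⟨fun i j hi hj => h.1 i j (hj.trans_lt hi), fun i j _ => h.2 i j⟩⟩
  let W := LinearMap.ker (LinearMap.funLeft F F (Sum.inr : Fin m → Fin m ⊕ Fin m))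
  have hWk : Module.finrank F W = m := (CF.Geom.maxTS_qPlus_iff.1 (CF.Geom.maxTS_ker_inr m)).1
  have hP := CF.Geom.isWittPair_symp (F := F) m
  have hW' : W ≤ CF.Geom.perp (CF.Geom.sympBilin m F) W := fun v hv =>
    CF.Geom.mem_perp.2 fun u hu => by
      rw [CF.Geom.sympBilin_apply, CF.Geom.sympForm_eq_sum]
      exact Finset.sum_eq_zero fun i _ => by
        rw [show u (.inr i) = 0 from congrFun hu i, show v (.inr i) = 0 from congrFun hv i]; simp
  obtain ⟨X, h3, h4, h5⟩ := hP.card_parabolic (CF.Geom.slideCard_alt _) (fun _ _ => rfl) hW' hWk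
  have h6 : Module.finrank F X = 2 * 0 := by simp at h4; omega
  rw [CF.Geom.card_SpG (hP.restrict h3).nondegenerate
    (fun x => CF.Geom.sympBilin_isAlt m (x : Fin m ⊕ Fin m → F)) h6, h6] at h5
  let ρ := (Subgroup.subtype _).comp (CF.Geom.spEquiv m F).toMonoidHom
  let N := (CF.Geom.fixSub (CF.Geom.SpG (CF.Geom.sympBilin m F)) W).comap ρ
  have h7 : ∀ g, g ∈ N ↔ ∀ j, g.1.mulVec (Pi.single (.inl j) 1) = Pi.single (.inl j) 1 := fun g => by
    refine ⟨fun h j => h.2 _ (funext fun i => by simp), fun h => ⟨(CF.Geom.spEquiv m F g).2,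
      fun z hz => ?_⟩⟩
    have h8 : z = ∑ j, z (.inl j) • Pi.single (.inl j) 1 := by
      ext (i | i)
      · simp [Pi.single_apply]
      · simpa using congrFun hz i
    rw [h8, map_sum]
    exact Finset.sum_congr rfl fun j _ => by rw [map_smul]; exact congrArg _ (h j)
  have h8 : N ≤ K := fun g hg => (h1 g).2 ⟨fun i j hij => by
    simpa [hij.ne'] using congrFun ((h7 g).1 hg j) (.inl i), fun i j => by
    simpa using congrFun ((h7 g).1 hg j) (.inr i)⟩
  have h9 : Nat.card N = Nat.card (CF.Geom.fixSub (CF.Geom.SpG (CF.Geom.sympBilin m F)) W) := by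
    rw [← Subgroup.card_map_of_injective (f := ρ)
      (Subtype.val_injective.comp (CF.Geom.spEquiv m F).injective), Subgroup.map_comap_eq_self]
    exact fun g hg => ⟨(CF.Geom.spEquiv m F).symm ⟨g, hg.1⟩, by simp [ρ]⟩
  rw [CF.Geom.card_eq_mul_of_coset (N.subgroupOf K) (fun g => g.1.1.toBlocks₁₁.transpose),
    Nat.card_congr (Subgroup.subgroupOfEquivOfLe h8).toEquiv, h9, h5,
    show Set.range (fun g : K => g.1.1.toBlocks₁₁.transpose) =
      {A | (∀ i j, i < j → A i j = 0) ∧ A.det ≠ 0} from ?_]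
  · erw [CF.Geom.card_lowerTriangular]
    have h11 : 2 * (m * (m - 1) / 2) = m * (m - 1) :=
      Nat.mul_div_cancel' (Nat.even_mul_pred_self m).two_dvd
    have h12 : m ^ 2 = m + 2 * (m * (m - 1) / 2) := by
      rw [h11]; rcases m with _ | m
      · rfl
      · simp only [Nat.add_sub_cancel]; ring
    rw [h12, Nat.card_eq_fintype_card]
    simp; ring
  · ext A
    constructor
    · rintro ⟨g, rfl⟩
      refine ⟨fun i j hij => ((h1 _).1 g.2).1 j i hij, fun h => ?_⟩
      have h10 := SymplecticGroup.symplectic_det g.1.2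
      rw [← Matrix.fromBlocks_toBlocks g.1.1, show g.1.1.toBlocks₂₁ = 0 from
        Matrix.ext ((h1 _).1 g.2).2, Matrix.det_fromBlocks_zero₂₁, ← Matrix.det_transpose, h]
        at h10
      simp at h10
    · rintro ⟨h10, h11⟩
      refine ⟨⟨CF.Geom.spLevi m F (Matrix.GeneralLinearGroup.mkOfDetNeZero A.transpose
        (by rwa [Matrix.det_transpose])), (h1 _).2 ⟨fun i j hij => h10 j i hij, fun i j => rfl⟩⟩,
        rfl⟩
  · intro g h
    rw [Subgroup.mem_subgroupOf, h7]
    have h10 : ∀ v, (g⁻¹ * h).1.1.mulVec v = v ↔ h.1.1.mulVec v = g.1.1.mulVec v := fun v => by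
      show (CF.Geom.spEquiv m F (g.1⁻¹ * h.1)).1 v = v ↔
        (CF.Geom.spEquiv m F h.1).1 v = (CF.Geom.spEquiv m F g.1).1 v
      rw [map_mul, map_inv]
      exact LinearEquiv.symm_apply_eq _
    simp only [h10]
    refine ⟨fun h11 j => funext fun i => ?_, fun h11 => Matrix.ext fun i j => ?_⟩
    · rcases i with i | i
      · simpa [Matrix.toBlocks₁₁] using (congrFun (congrFun h11 j) i).symm
      · simp [((h1 _).1 g.2).2, ((h1 _).1 h.2).2]
    · simpa [Matrix.toBlocks₁₁] using (congrFun (h11 i) (.inl j)).symm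

end Cfsg.Agent.S0774
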