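import Cfsg.Statements.S0775
import Cfsg.Agent.Geom.Orders

set_option autoImplicit false
open Cfsg

namespace Cfsg.Agent.S0775

/-- Maximal parabolics of the symplectic group: if W is a k-dimensional subspace of F^(2m) on which the symplectic form vanishes identically, its stabiliser in Sp_2m(q) has order q^(k(k+1)/2 + 2k(m−k)) · |Sp_(2m−2k)(q)| · |GL_k(q)|. -/
theorem result {F : Type*} [Field F] [Fintype F] {q : ℕ} (hF : Fintype.card F = q) (m k : ℕ) (hk : k ≤ m) (W : Submodule F (Fin m ⊕ Fin m → F)) (hWk : Module.finrank F W = k) (hW : ∀ u ∈ W, ∀ v ∈ W, Cfsg.sympForm m F u v = 0) : Nat.card ↥(Cfsg.stabilizing (Cfsg.spToMat m F) (W : Set (Fin m ⊕ Fin m → F))) = q ^ (k * (k + 1) / 2 + 2 * k * (m - k)) * (q ^ ((m - k) ^ 2) * ∏ i ∈ Finset.range (m - k), (q ^ (2 * (i + 1)) - 1)) * ∏ i : Fin k, (q ^ k - q ^ (i : ℕ)) := by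
  subst hF
  have hP := CF.Geom.isWittPair_symp (F := F) m
  have hW' : W ≤ CF.Geom.perp (CF.Geom.sympBilin m F) W := fun v hv =>
    CF.Geom.mem_perp.2 fun u hu => by rw [CF.Geom.sympBilin_apply]; exact hW u hu v hv
  obtain ⟨X, h1, h2, h3⟩ := hP.card_parabolic (CF.Geom.slideCard_alt _) (fun _ _ => rfl) hW' hWk
  have h4 : Module.finrank F X = 2 * (m - k) := by simp at h2; omega
  have h5 := CF.Geom.card_SpG (hP.restrict h1).nondegenerate
    (fun x => CF.Geom.sympBilin_isAlt m (x : Fin m ⊕ Fin m → F)) h4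
  rw [Nat.card_congr (CF.Geom.stabilizingEquiv (Cfsg.spToMat m F) (CF.Geom.spEquiv m F)
    (fun _ _ => rfl) _).toEquiv, hP.card_stabSet_totally_singular (fun _ _ => rfl) hW' hWk, h3,
    h5, h4, Nat.card_eq_fintype_card, ← pow_add]
  congr 3
  have := Nat.triangle_succ k
  rw [Nat.add_sub_cancel, mul_comm (k + 1)] at this
  rw [this]; ring

end Cfsg.Agent.S0775
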