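import Cfsg.Statements.S0776
import Cfsg.Agent.Geom.Stab

set_option autoImplicit false
open Cfsg

namespace Cfsg.Agent.S0776

/-- If W ≤ F^(2m) is a 2k-dimensional subspace on which the symplectic form is non-degenerate, then the stabiliser of W in Sp_2m(F) is isomorphic to Sp_2k(F) × Sp_(2m−2k)(F). -/
theorem result {F : Type*} [Field F] (m k : ℕ) (hk : k ≤ m) (W : Submodule F (Fin m ⊕ Fin m → F)) (hWk : Module.finrank F W = 2 * k) (hW : ∀ u ∈ W, (∀ v ∈ W, Cfsg.sympForm m F u v = 0) → u = 0) : Nonempty (↥(Cfsg.stabilizing (Cfsg.spToMat m F) (W : Set (Fin m ⊕ Fin m → F))) ≃* Matrix.symplecticGroup (Fin k) F × Matrix.symplecticGroup (Fin (m - k)) F) := by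
  have hP := CF.Geom.isWittPair_symp (F := F) m
  have hd : Disjoint W (CF.Geom.perp (CF.Geom.sympBilin m F) W) := by
    rw [Submodule.disjoint_def]
    intro u hu hu'
    exact hW u hu fun v hv => by
      rw [← CF.Geom.sympBilin_apply]; exact hP.refl (CF.Geom.mem_perp.1 hu' v hv)
  obtain ⟨e⟩ := hP.nonempty_stabEquiv hd
  have h1 := hP.finrank_perp W
  obtain ⟨a, ha⟩ := CF.Geom.exists_equiv_sympBilin (hP.restrict hd).nondegenerate
    (fun x => CF.Geom.sympBilin_isAlt m (x : Fin m ⊕ Fin m → F)) hWk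
  obtain ⟨b, hb⟩ := CF.Geom.exists_equiv_sympBilin
    (hP.restrict (hP.disjoint_perp_perp hd)).nondegenerate
    (fun x => CF.Geom.sympBilin_isAlt m (x : Fin m ⊕ Fin m → F)) (m := m - k)
    (by simp at h1; omega)
  exact ⟨(CF.Geom.stabilizingEquiv (Cfsg.spToMat m F) (CF.Geom.spEquiv m F)
    (fun _ _ => rfl) _).trans (e.trans (MulEquiv.prodCongr
      ((CF.Geom.isomCongr a ha fun _ => rfl).trans (CF.Geom.spEquiv k F).symm)
      ((CF.Geom.isomCongr b hb fun _ => rfl).trans (CF.Geom.spEquiv (m - k) F).symm)))⟩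

end Cfsg.Agent.S0776
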