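import Cfsg.Statements.S0777
import Cfsg.Agent.Geom.Levi

set_option autoImplicit false
open Cfsg

namespace Cfsg.Agent.S0777

open CF.Geom Matrix

section
variable {F : Type*} [Field F] {m : ℕ}

/-- The diagonal torus. -/
abbrev T (m : ℕ) (F : Type*) [Field F] : Subgroup (symplecticGroup (Fin m) F) :=
  ⨅ i : Fin m ⊕ Fin m, Cfsg.stabilizing (Cfsg.spToMat m F)
    ((Submodule.span F {(Pi.single i (1 : F) : Fin m ⊕ Fin m → F)} :
      Submodule F (Fin m ⊕ Fin m → F)) : Set (Fin m ⊕ Fin m → F))

theorem mem_T {g : symplecticGroup (Fin m) F} : g ∈ T m F ↔ ∃ d, g.1 = diagonal d := by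
  have h : ∀ i : Fin m ⊕ Fin m, g ∈ Cfsg.stabilizing (Cfsg.spToMat m F)
      ((Submodule.span F {(Pi.single i (1 : F) : Fin m ⊕ Fin m → F)} :
        Submodule F (Fin m ⊕ Fin m → F)) : Set (Fin m ⊕ Fin m → F)) ↔ _ := fun i =>
    mem_stabilizing_iff_of_single _ _ (fun j => j ≠ i) (fun v => by
      rw [Submodule.mem_span_singleton]
      refine ⟨by rintro ⟨a, rfl⟩ j hj; simp [hj], fun h => ⟨v i, funext fun j => ?_⟩⟩
      by_cases hj : j = i
      · simp [hj]
      · simp [hj, h j hj]) g
  simp only [Subgroup.mem_iInf, h]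
  refine ⟨fun h => ⟨fun i => g.1 i i, Matrix.ext fun i j => ?_⟩, ?_⟩
  · by_cases hij : i = j
    · simp [hij]
    · rw [diagonal_apply_ne _ hij]; exact h j i j hij (by simp)
  · rintro ⟨d, hd⟩ k i j hi hj
    rw [not_not.1 hj]
    exact (congrFun (congrFun hd i) k).trans (diagonal_apply_ne _ hi)

theorem symp_single (i j : Fin m ⊕ Fin m) (a b : F) :
    sympBilin m F (Pi.single i a) (Pi.single j b) =
      if j = i.swap then (if i.isRight then a * b else -(a * b)) else 0 := by
  rw [sympBilin_apply, sympForm_eq_sum]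
  rcases i with i | i <;> rcases j with j | j <;> simp [Pi.single_apply, eq_comm]
  split_ifs <;> simp

theorem diagonal_mem (d : Fin m ⊕ Fin m → F) (hd : ∀ i, d (.inl i) * d (.inr i) = 1) :
    diagonal d ∈ symplecticGroup (Fin m) F := by
  rw [mem_symplecticGroup_iff]
  intro u v
  simp only [sympForm_eq_sum, mulVec_diagonal]
  exact Finset.sum_congr rfl fun i _ => by
    linear_combination (u (.inr i) * v (.inl i) - u (.inl i) * v (.inr i)) * hd i

/-- Monomial symplectic matrices. -/
def Mono (g : symplecticGroup (Fin m) F) : Prop :=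
  ∀ j, ∃ i a, g.1 *ᵥ Pi.single j 1 = Pi.single i a

theorem mem_normalizer_iff [Finite F] (ha : ∃ a : F, a ≠ 0 ∧ a ^ 2 ≠ 1)
    (g : symplecticGroup (Fin m) F) : g ∈ Subgroup.normalizer (T m F : Set _) ↔ Mono g := by
  obtain ⟨a, ha0, ha1⟩ := ha
  constructor
  · intro h j
    by_contra hc
    obtain ⟨i, hi⟩ : ∃ i, g.1 i j ≠ 0 := by
      by_contra h1; push Not at h1
      exact hc ⟨j, 0, funext fun i => by simp [h1]⟩
    obtain ⟨k, hk, hki⟩ : ∃ k, g.1 k j ≠ 0 ∧ k ≠ i := by
      by_contra h1; push Not at h1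
      refine hc ⟨i, g.1 i j, funext fun k => ?_⟩
      by_cases hki : k = i
      · simp [hki]
      · simpa [hki] using mt (h1 k) hki
    let d : Fin m ⊕ Fin m → F := fun l => if l = i then a else if l = i.swap then a⁻¹ else 1
    obtain ⟨d', hd⟩ := mem_T.1 ((Subgroup.mem_normalizer_iff.1 (inv_mem h)
      ⟨diagonal d, diagonal_mem d fun l => by
        rcases i with i | i <;> by_cases hl : l = i <;> simp [d, hl, ha0]⟩).1 (mem_T.2 ⟨d, rfl⟩))
    have h1 : diagonal d * g.1 = g.1 * diagonal d' := by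
      rw [← hd, inv_inv, ← Submonoid.coe_mul, ← mul_assoc, mul_inv_cancel_left]; rfl
    have h2 := congrFun (congrFun h1 i) j
    have h3 := congrFun (congrFun h1 k) j
    rw [mul_diagonal, diagonal_mul, mul_comm, mul_right_inj' hi] at h2
    rw [mul_diagonal, diagonal_mul, mul_comm, mul_right_inj' hk, ← h2] at h3
    simp only [d, if_pos, if_neg hki] at h3
    split_ifs at h3
    · exact ha1 (by rw [sq]; nth_rw 1 [← h3]; exact inv_mul_cancel₀ ha0)
    · exact ha1 (by rw [← h3, one_pow])
  · intro h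
    refine inv_mem_iff.1 (Subgroup.mem_normalizer_fintype fun x hx => ?_)
    obtain ⟨d, hd⟩ := mem_T.1 hx
    choose σ b h1 using h
    refine mem_T.2 ⟨d ∘ σ, ?_⟩
    have h2 : x.1 * g.1 = g.1 * diagonal (d ∘ σ) := by
      ext i j
      have h3 : g.1 i j = (Pi.single (σ j) (b j) : Fin m ⊕ Fin m → F) i := by simp [← h1]
      rw [hd, mul_diagonal, diagonal_mul, h3]
      by_cases hi : i = σ j
      · simp [hi, mul_comm]
      · simp [hi]
    rw [inv_inv, mul_assoc, Submonoid.coe_mul, Submonoid.coe_mul, h2, ← mul_assoc,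
      ← Submonoid.coe_mul, inv_mul_cancel]
    simp

theorem Mono.ext {g g' : symplecticGroup (Fin m) F} (h : Mono g) (h' : Mono g')
    (he : ∀ j, g.1 *ᵥ Pi.single (.inl j) 1 = g'.1 *ᵥ Pi.single (.inl j) 1) : g = g' := by
  have key : ∀ j, g.1 *ᵥ Pi.single j 1 = g'.1 *ᵥ Pi.single j 1 := by
    rintro (j | j)
    · exact he j
    obtain ⟨i, a, h1⟩ := h (.inl j)
    obtain ⟨k, b, h2⟩ := h (.inr j)
    obtain ⟨k', b', h3⟩ := h' (.inr j)
    have h4 := (spEquiv m F g).2.1 (Pi.single (.inl j) 1) (Pi.single (.inr j) 1)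
    have h5 := (spEquiv m F g').2.1 (Pi.single (.inl j) 1) (Pi.single (.inr j) 1)
    rw [spEquiv_apply, spEquiv_apply, h1, h2, symp_single, symp_single] at h4
    rw [spEquiv_apply, spEquiv_apply, ← he, h1, h3, symp_single, symp_single] at h5
    obtain rfl : k = i.swap := by by_contra hc; simp [hc] at h4
    obtain rfl : k' = i.swap := by by_contra hc; simp [hc] at h5
    have h6 : a ≠ 0 := by rintro rfl; simp at h4
    rw [h2, h3]
    have h7 := h4.trans h5.symm
    congr 1
    rcases i with i | i <;> simpa [h6] using h7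
  ext i j
  simpa using congrFun (key j) i

theorem exists_mono (x : (Equiv.Perm (Fin m) × (Fin m → Bool)) × (Fin m → Fˣ)) :
    ∃ g : symplecticGroup (Fin m) F, Mono g ∧ ∀ j, g.1 *ᵥ Pi.single (.inl j) 1 =
      Pi.single (Equiv.boolProdEquivSum _ (x.1.2 j, x.1.1 j)) (x.2 j : F) := by
  obtain ⟨⟨σ, ε⟩, a⟩ := x
  have hP := isWittPair_symp (F := F) m
  have h1 : HypFrame (sympBilin m F) (fun _ => 0) (fun j => Pi.single (.inl j) 1)
      (fun j => Pi.single (.inr j) (-1)) :=
    ⟨fun _ => rfl, fun _ => rfl, fun i j => by simp [symp_single], fun i j => by simp [symp_single],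
      fun i => by simp [symp_single], fun i j h => by simp [symp_single, h.symm]⟩
  have h2 : HypFrame (sympBilin m F) (fun _ => 0)
      (fun j => Pi.single (Equiv.boolProdEquivSum _ (ε j, σ j)) (a j : F))
      (fun j => Pi.single (Equiv.boolProdEquivSum _ (ε j, σ j)).swap
        (if ε j then (a j : F)⁻¹ else -(a j : F)⁻¹)) := by
    refine ⟨fun _ => rfl, fun _ => rfl, fun i j => ?_, fun i j => ?_, fun i => ?_, fun i j h => ?_⟩
    · by_cases h : i = j
      · rw [h]; exact sympBilin_isAlt m _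
      · cases hi : ε i <;> cases hj : ε j <;> simp [symp_single, Ne.symm h]
    · by_cases h : i = j
      · rw [h]; exact sympBilin_isAlt m _
      · cases hi : ε i <;> cases hj : ε j <;> simp [symp_single, Ne.symm h]
    · cases hi : ε i <;> simp [symp_single]
    · cases hi : ε i <;> cases hj : ε j <;> simp [symp_single, h.symm]
  obtain ⟨g, hg, h3, h4⟩ := h1.exists_isom hP h2
  refine ⟨(spEquiv m F).symm ⟨g, hg⟩, ?_, fun j => (spEquiv_symm_mulVec _ _ _).trans (h3 j)⟩
  rintro (j | j)
  · exact ⟨_, _, (spEquiv_symm_mulVec _ _ _).trans (h3 j)⟩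
  · refine ⟨(Equiv.boolProdEquivSum _ (ε j, σ j)).swap, -(if ε j then (a j : F)⁻¹ else -(a j : F)⁻¹),
      (spEquiv_symm_mulVec _ _ _).trans ?_⟩
    rw [Pi.single_neg, ← h4, ← map_neg, ← Pi.single_neg, neg_neg]

end

/-- Weyl group of type C_m: for q ≥ 4 the diagonal matrices of Sp_2m(q) form a torus T ≅ (C_(q−1))^m (the elements stabilising every coordinate axis), and the normaliser of T in Sp_2m(q) has order 2^m · m! · (q − 1)^m. -/
theorem result {F : Type*} [Field F] [Fintype F] {q : ℕ} (hF : Fintype.card F = q) (hq : 4 ≤ q) (m : ℕ) : Nat.card ↥(Subgroup.normalizer (⨅ i : Fin m ⊕ Fin m, Cfsg.stabilizing (Cfsg.spToMat m F) ((Submodule.span F {(Pi.single i (1 : F) : Fin m ⊕ Fin m → F)} : Submodule F (Fin m ⊕ Fin m → F)) : Set (Fin m ⊕ Fin m → F)) : Set (Matrix.symplecticGroup (Fin m) F))) = 2 ^ m * Nat.factorial m * (q - 1) ^ m := by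
  subst hF
  have ha := exists_sq_ne_one (F := F) (Or.inl (by rwa [Nat.card_eq_fintype_card]))
  choose Ψ h1 h2 using exists_mono (F := F) (m := m)
  rw [Set.iInf_eq_iInter, ← Subgroup.coe_iInf, ← Nat.card_congr (Equiv.ofBijective
    (fun x => (⟨Ψ x, (mem_normalizer_iff ha _).2 (h1 x)⟩ : Subgroup.normalizer (T m F : Set _)))
    ⟨?_, ?_⟩)]
  · simp [Fintype.card_perm, Nat.card_fun, Nat.card_units, mul_comm]
  · intro x y h
    have h3 : ∀ j, Equiv.boolProdEquivSum _ (x.1.2 j, x.1.1 j) =
        Equiv.boolProdEquivSum _ (y.1.2 j, y.1.1 j) ∧ x.2 j = y.2 j := fun j => by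
      have h4 := (h2 x j).symm.trans ((congrArg (fun g => g.1.1 *ᵥ _) h).trans (h2 y j))
      have h6 : Equiv.boolProdEquivSum _ (x.1.2 j, x.1.1 j) =
          Equiv.boolProdEquivSum _ (y.1.2 j, y.1.1 j) := by
        by_contra hc
        have := congrFun h4 (Equiv.boolProdEquivSum _ (x.1.2 j, x.1.1 j))
        rw [Pi.single_eq_same, Pi.single_eq_of_ne hc] at this
        exact (x.2 j).ne_zero this
      rw [h6] at h4
      exact ⟨h6, Units.ext (Pi.single_injective _ h4)⟩
    simp only [EmbeddingLike.apply_eq_iff_eq, Prod.mk.injEq] at h3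
    exact Prod.ext (Prod.ext (Equiv.ext fun j => (h3 j).1.2) (funext fun j => (h3 j).1.1))
      (funext fun j => (h3 j).2)
  · rintro ⟨g, hg⟩
    have h3 := (mem_normalizer_iff ha g).1 hg
    choose c b h4 using fun j => h3 (.inl j)
    have h5 : ∀ j, b j ≠ 0 := fun j h => by
      have := h4 j
      rw [h, Pi.single_zero, ← spEquiv_apply, LinearEquiv.map_eq_zero_iff] at this
      simpa using congrFun this (.inl j)
    have h6 : Function.Injective fun j => ((Equiv.boolProdEquivSum _).symm (c j)).2 := by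
      intro i j hij
      by_contra hc
      have h7 : c j = c i ∨ c j = (c i).swap := by
        revert hij
        dsimp only
        rcases c i with x | x <;> rcases c j with y | y <;> simp [eq_comm]
      rcases h7 with h7 | h7
      · have h8 : (spEquiv m F g).1 (b j • Pi.single (.inl i) 1) =
            (spEquiv m F g).1 (b i • Pi.single (.inl j) 1) := by
          rw [map_smul, map_smul, spEquiv_apply, spEquiv_apply, h4, h4, h7, ← Pi.single_smul,
            ← Pi.single_smul, smul_eq_mul, smul_eq_mul, mul_comm]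
        have := congrFun ((spEquiv m F g).1.injective h8) (.inl i)
        simp [hc, h5] at this
      · have h8 := (spEquiv m F g).2.1 (Pi.single (.inl i) 1) (Pi.single (.inl j) 1)
        rw [spEquiv_apply, spEquiv_apply, h4, h4, symp_single, symp_single, if_pos h7] at h8
        split_ifs at h8 <;> simp_all
    refine ⟨((Equiv.ofBijective _ (Finite.injective_iff_bijective.1 h6),
      fun j => ((Equiv.boolProdEquivSum _).symm (c j)).1), fun j => Units.mk0 (b j) (h5 j)),
      Subtype.ext ((h1 _).ext h3 fun j => ?_)⟩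
    rw [h2, h4]
    simp only [Equiv.ofBijective_apply, Prod.mk.eta, Equiv.apply_symm_apply, Units.val_mk0]

end Cfsg.Agent.S0777
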