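import Cfsg.Statements.S0778
import Cfsg.Agent.Geom.Levi

set_option autoImplicit false
open Cfsg

namespace Cfsg.Agent.S0778

/-- The elements of Sp_2m(F) stabilising both W = ⟨e_1..e_m⟩ and U = ⟨f_1..f_m⟩ form a subgroup isomorphic to GL_m(F) (block-diagonal matrices diag(X, X^(−ᵀ)) up to the sign convention of J), for m ≥ 1 or m = 0 alike. -/
theorem result {F : Type*} [Field F] (m : ℕ) : Nonempty (↥(Cfsg.stabilizing (Cfsg.spToMat m F) {v : Fin m ⊕ Fin m → F | ∀ i : Fin m, v (Sum.inr i) = 0} ⊓ Cfsg.stabilizing (Cfsg.spToMat m F) {v : Fin m ⊕ Fin m → F | ∀ i : Fin m, v (Sum.inl i) = 0}) ≃* Matrix.GeneralLinearGroup (Fin m) F) := by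
  have h1 := CF.Geom.mem_stabilizing_iff_of_single (Cfsg.spToMat m F)
    (LinearMap.ker (LinearMap.funLeft F F (Sum.inr : Fin m → Fin m ⊕ Fin m))) (fun i => i.isRight)
    (fun v => by simp [funext_iff])
  have h2 := CF.Geom.mem_stabilizing_iff_of_single (Cfsg.spToMat m F)
    (LinearMap.ker (LinearMap.funLeft F F (Sum.inl : Fin m → Fin m ⊕ Fin m))) (fun i => i.isLeft)
    (fun v => by simp [funext_iff])
  have h3 : (CF.Geom.spLevi m F).range =
      Cfsg.stabilizing (Cfsg.spToMat m F) {v | ∀ i : Fin m, v (Sum.inr i) = 0} ⊓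
      Cfsg.stabilizing (Cfsg.spToMat m F) {v | ∀ i : Fin m, v (Sum.inl i) = 0} := by
    rw [show {v : Fin m ⊕ Fin m → F | ∀ i : Fin m, v (Sum.inr i) = 0} =
      LinearMap.ker (LinearMap.funLeft F F (Sum.inr : Fin m → Fin m ⊕ Fin m)) by
        ext v; simp [funext_iff],
      show {v : Fin m ⊕ Fin m → F | ∀ i : Fin m, v (Sum.inl i) = 0} =
      LinearMap.ker (LinearMap.funLeft F F (Sum.inl : Fin m → Fin m ⊕ Fin m)) by
        ext v; simp [funext_iff]]
    ext g
    rw [Subgroup.mem_inf, h1, h2]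
    constructor
    · rintro ⟨A, rfl⟩
      simp [CF.Geom.coe_spLevi]
    · rintro ⟨h4, h5⟩
      have h6 : g.1 = Matrix.fromBlocks g.1.toBlocks₁₁ 0 0 g.1.toBlocks₂₂ := by
        ext (i | i) (j | j)
        · rfl
        · exact h5 _ _ rfl (by simp)
        · exact h4 _ _ rfl (by simp)
        · rfl
      have h7 := SymplecticGroup.mem_iff.1 g.2
      rw [h6, Matrix.J, Matrix.fromBlocks_transpose, Matrix.fromBlocks_multiply,
        Matrix.fromBlocks_multiply] at h7
      have h8 : g.1.toBlocks₁₁ * g.1.toBlocks₂₂.transpose = 1 := by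
        simpa using (Matrix.fromBlocks_inj.1 h7).2.1
      refine ⟨⟨_, _, h8, mul_eq_one_comm.1 h8⟩, Subtype.ext ?_⟩
      rw [CF.Geom.coe_spLevi, Matrix.inv_eq_right_inv h8, Matrix.transpose_transpose, ← h6]
  exact ⟨(MulEquiv.subgroupCongr h3.symm).trans (MonoidHom.ofInjective fun A B h =>
    CF.Geom.leviGL_injective (Units.ext (congrArg Subtype.val h))).symm⟩

end Cfsg.Agent.S0778
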