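import Cfsg.Statements.S0779
import Cfsg.Agent.Geom.UMat

set_option autoImplicit false
open Cfsg

namespace Cfsg.Agent.S0779

/-- Unitary transvections: let |F| = q², h the standard Hermitian form Σ x_i y_i^q and v ≠ 0 with h(v, v) = 0. The linear map x ↦ x + c h(x, v) v is an isometry of h if and only if c = 0 or c^(q−1) = −1. -/
theorem result {F : Type*} [Field F] [Fintype F] {q : ℕ} (hF : Fintype.card F = q ^ 2) (n : ℕ) (v : Fin n → F) (hv : v ≠ 0) (hv0 : Cfsg.hermForm n F q v v = 0) (c : F) : (∀ x y : Fin n → F, Cfsg.hermForm n F q ((Cfsg.unitaryTransvection n q v c).mulVec x) ((Cfsg.unitaryTransvection n q v c).mulVec y) = Cfsg.hermForm n F q x y) ↔ (c = 0 ∨ c ^ (q - 1) = -1) := by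
  obtain ⟨σ, h1, h2, h3⟩ := CF.Geom.exists_conj hF
  have hH := CF.Geom.isHerm_hermSesq (ι := Fin n) h2 h3
  have hq := CF.Geom.two_le_of_card_eq_sq hF
  have hc : σ c = -c ↔ (c = 0 ∨ c ^ (q - 1) = -1) := by
    have : c ^ q = c * c ^ (q - 1) := by rw [← pow_succ']; congr 1; omega
    rw [h1, this]
    by_cases hc : c = 0
    · simp [hc]
    · constructor
      · intro h; right; apply mul_left_cancel₀ hc; rw [h]; ring
      · rintro (h | h)
        · exact absurd h hc
        · rw [h]; ring
  rw [← hc]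
  rw [CF.Geom.hermForm_eq h1] at hv0
  simp only [CF.Geom.unitaryTransvection_mulVec, CF.Geom.hermForm_eq h1]
  constructor
  · intro h
    exact CF.Geom.skew_of_isometry hH (CF.Geom.hermSesq_nondegenerate σ) hv hv0
      fun x y => h y x
  · intro h x y
    exact CF.Geom.UG_map (CF.Geom.uTrans hH hv0 h) y x

end Cfsg.Agent.S0779
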