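import Cfsg.Statements.S0783
import Cfsg.Agent.Geom.Perfect

set_option autoImplicit false
open Cfsg

namespace Cfsg.Agent.S0783

/-- PGU_n(q)/PSU_n(q) is cyclic of order (n, q+1): for n ≥ 2 and |F| = q² there is a surjective homomorphism from GU_n(q) onto the cyclic group of order gcd(n, q + 1) whose kernel is generated by the determinant-one elements together with the centre. -/
theorem result {F : Type*} [Field F] [Fintype F] {q : ℕ} (hF : Fintype.card F = q ^ 2) (n : ℕ) (hn : 2 ≤ n) : ∃ φ : ↥(Cfsg.GU n F q) →* Multiplicative (ZMod (Nat.gcd n (q + 1))), Function.Surjective φ ∧ φ.ker = (Matrix.GeneralLinearGroup.det : Matrix.GeneralLinearGroup (Fin n) F →* Fˣ).ker.subgroupOf (Cfsg.GU n F q) ⊔ Subgroup.center ↥(Cfsg.GU n F q) := by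
  obtain ⟨σ, h1, h2, h3⟩ := CF.Geom.exists_conj hF
  have : Nonempty (Fin n) := ⟨⟨0, by omega⟩⟩
  have hH := CF.Geom.isHerm_hermSesq (ι := Fin n) h2 h3
  have hB := CF.Geom.hermSesq_nondegenerate (ι := Fin n) σ
  let N := CF.Geom.normOne σ
  let K : Subgroup N := (powMonoidHom n : N →* N).range
  have : IsCyclic (N ⧸ K) := isCyclic_of_surjective _ (QuotientGroup.mk'_surjective K)
  have : NeZero (Nat.gcd n (q + 1)) := ⟨Nat.gcd_ne_zero_right (by omega)⟩
  have h4 : Nat.card (N ⧸ K) = Nat.card (Multiplicative (ZMod (Nat.gcd n (q + 1)))) := by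
    rw [← Subgroup.index, IsCyclic.index_powMonoidHom_range, CF.Geom.card_normOne hF h1,
      Nat.gcd_comm]; simp
  let e := mulEquivOfCyclicCardEq h4
  let ρ := (CF.Geom.guEquiv n h1).toMonoidHom
  have hρ : ρ.range = ⊤ := MonoidHom.range_eq_top.2 (CF.Geom.guEquiv n h1).surjective
  refine ⟨(e.toMonoidHom.comp (QuotientGroup.mk' K)).comp ((CF.Geom.udet hB).comp ρ),
    (e.surjective.comp (QuotientGroup.mk'_surjective K)).comp
      ((CF.Geom.udet_surjective hH hB).comp (CF.Geom.guEquiv n h1).surjective), ?_⟩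
  have h5 : ∀ g, g ∈ ((e.toMonoidHom.comp (QuotientGroup.mk' K)).comp
      ((CF.Geom.udet hB).comp ρ)).ker ↔ CF.Geom.udet hB (ρ g) ∈ K := fun g => by
    simp [MonoidHom.mem_ker]
  have h6 : ∀ g : Cfsg.GU n F q, g ∈ (Matrix.GeneralLinearGroup.det :
      Matrix.GeneralLinearGroup (Fin n) F →* Fˣ).ker.subgroupOf (Cfsg.GU n F q) ↔
      CF.Geom.udet hB (ρ g) = 1 := fun g => by
    rw [Subgroup.mem_subgroupOf, MonoidHom.mem_ker, Subtype.ext_iff, Units.ext_iff, Units.ext_iff,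
      CF.Geom.udet_coe]
    erw [CF.Geom.det_guEquiv]; rfl
  have h7 : ∀ (g : Cfsg.GU n F q) (c : N), (∀ v, (ρ g).1 v = ((c : Fˣ) : F) • v) →
      CF.Geom.udet hB (ρ g) = c ^ n := fun g c h => by
    rw [Subtype.ext_iff, Units.ext_iff, CF.Geom.udet_coe, CF.Geom.det_of_scalar h]; simp
  refine le_antisymm (fun g hg => ?_) (sup_le (fun g hg => ?_) fun g hg => ?_)
  · obtain ⟨c, hc⟩ := (h5 g).1 hg
    obtain ⟨z, hz⟩ : CF.Geom.uScal (CF.Geom.hermSesq (Fin n) σ) c.2 ∈ ρ.range := by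
      rw [hρ]; trivial
    have h8 : ∀ v, (ρ z).1 v = ((c : Fˣ) : F) • v := fun v => by rw [hz]; rfl
    rw [← inv_mul_cancel_right g z]
    refine Subgroup.mul_mem_sup ((h6 _).2 ?_)
      (CF.Geom.mem_center_of_scalar (CF.Geom.guEquiv n h1).injective h8)
    rw [map_mul, map_mul, map_inv, map_inv, h7 z c h8, ← hc, powMonoidHom_apply, mul_inv_cancel]
  · rw [h5, (h6 g).1 hg]; exact one_mem _
  · obtain ⟨c, hc⟩ := CF.Geom.center_su_scalar hH hB (by simp; omega) (ρ := ρ)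
      (by rw [hρ]; exact le_top) g hg
    have h8 := CF.Geom.norm_eq_one_of_scalar hB hc
    rw [h5, h7 g ⟨Units.mk0 c (by rintro rfl; simp at h8), h8⟩ hc]
    exact ⟨_, rfl⟩

end Cfsg.Agent.S0783
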