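import Cfsg.Statements.S0787
import Cfsg.Agent.Geom.OmegaIndex

set_option autoImplicit false
open Cfsg

namespace Cfsg.Agent.S0787

/-- Existence and uniqueness of Ω: if F is finite, n ≥ 2, Q is a quadratic form on F^n with non-degenerate polar form and (|F|, n) ≠ (2, 4), then the group of isometries of determinant one has a unique subgroup of index 2. -/
theorem result {F : Type*} [Field F] [Fintype F] {n : ℕ} (hn : 2 ≤ n) (Q : QuadraticForm F (Fin n → F)) (hQ : (QuadraticMap.polarBilin Q).Nondegenerate) (h : Fintype.card F ≠ 2 ∨ n ≠ 4) : ∃! H : Subgroup ↥(Cfsg.specialIsometryGroup F ⇑Q), H.index = 2 := by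
  obtain ⟨H, hH, hu⟩ := CF.Geom.existsUnique_index_two_SOG hQ
    (CF.Geom.reflSub_eq_top_fin hQ (by simpa using h)) (by simpa using hn)
  let e := CF.Geom.soEquiv Q
  refine ⟨H.comap e.toMonoidHom, (Subgroup.index_comap_of_surjective _ e.surjective).trans hH,
    fun K hK => ?_⟩
  rw [← hu (K.map e.toMonoidHom) ((Subgroup.index_map_of_bijective e.bijective K).trans hK)]
  exact (Subgroup.comap_map_eq_self_of_injective e.injective K).symm

end Cfsg.Agent.S0787
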