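import Cfsg.Statements.S0790
import Cfsg.Agent.Geom.Disc

set_option autoImplicit false
open Cfsg

namespace Cfsg.Agent.S0790

/-- −1 ∈ Ω⁺_2m(q) iff q^m ≡ 1 (mod 4), for q odd and m ≥ 1 (so that in the other case SO⁺_2m(q) = 2 × Ω⁺_2m(q)). -/
theorem result {F : Type*} [Field F] [Fintype F] {q : ℕ} (hF : Fintype.card F = q) (hodd : Odd q) (m : ℕ) (hm : 1 ≤ m) : (∃ g : ↥(Cfsg.isometryGroup F (Cfsg.quadFormPlus m F)), g ∈ Cfsg.Omega F (Cfsg.quadFormPlus m F) ∧ ((g : Matrix.GeneralLinearGroup (Fin m ⊕ Fin m) F) : Matrix (Fin m ⊕ Fin m) (Fin m ⊕ Fin m) F) = -1) ↔ q ^ m % 4 = 1 := by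
  subst hF
  have h2 := CF.Geom.two_ne_zero_of_odd_card hodd
  refine (CF.Geom.exists_mem_Omega_iff (CF.Geom.qPlus m F) (CF.Geom.oNeg _) _
    (fun v => by simp [Matrix.neg_mulVec])).trans ?_
  rw [CF.Geom.oNeg_mem_commutator_iff_isPlus h2 (CF.Geom.qPlus_nondegenerate m) (m := m)
    (by simp [two_mul])]
  simp [CF.Geom.isPlus_qPlus]

end Cfsg.Agent.S0790
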