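import Cfsg.Statements.S0792
import Cfsg.Agent.Geom.OmegaIndex

set_option autoImplicit false
open Cfsg

namespace Cfsg.Agent.S0792

/-- For q odd and Q with non-degenerate polar form on F^n, the determinant-one isometries form the subgroup generated by all products r_u r_v of two reflections (Q(u), Q(v) ≠ 0). -/
theorem result {F : Type*} [Field F] [Fintype F] (h2 : (2 : F) ≠ 0) {n : ℕ} (Q : QuadraticForm F (Fin n → F)) (hQ : (QuadraticMap.polarBilin Q).Nondegenerate) : Cfsg.specialIsometryGroup F ⇑Q = Subgroup.closure {g : ↥(Cfsg.isometryGroup F ⇑Q) | ∃ u v : Fin n → F, Q u ≠ 0 ∧ Q v ≠ 0 ∧ ((g : Matrix.GeneralLinearGroup (Fin n) F) : Matrix (Fin n) (Fin n) F) = Cfsg.reflectionMatrix ⇑Q u * Cfsg.reflectionMatrix ⇑Q v} := by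
  ext g
  rw [CF.Geom.mem_specialIsometryGroup_iff, CF.Geom.SOG_eq_reflTwoSub hQ h2]
  refine (CF.Geom.mem_closure_iff_of_equiv (CF.Geom.oEquiv Q) (fun g => ?_) g).symm
  refine exists_congr fun u => exists_congr fun v => and_congr_right fun _ =>
    and_congr_right fun _ => ?_
  simpa using (CF.Geom.oEquiv_eq_prod_oRefl_iff Q g [u, v]).symm

end Cfsg.Agent.S0792
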