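import Cfsg.Statements.S0793
import Cfsg.Agent.Geom.OGen

set_option autoImplicit false
open Cfsg

namespace Cfsg.Agent.S0793

/-- Root elements: if Q(u) = Q(v) = 0 and f(u, v) = 0 (f the polar form), then for every c the Siegel matrix T_(u,v)(c) preserves Q, fixes u and v, and T(c) T(d) = T(c + d). -/
theorem result {F : Type*} [Field F] {n : ℕ} (Q : QuadraticForm F (Fin n → F)) (u v : Fin n → F) (hu : Q u = 0) (hv : Q v = 0) (huv : QuadraticMap.polar ⇑Q u v = 0) : (∀ c x, Q ((Cfsg.siegelMatrix ⇑Q u v c).mulVec x) = Q x) ∧ (∀ c, (Cfsg.siegelMatrix ⇑Q u v c).mulVec u = u ∧ (Cfsg.siegelMatrix ⇑Q u v c).mulVec v = v) ∧ ∀ c d, Cfsg.siegelMatrix ⇑Q u v c * Cfsg.siegelMatrix ⇑Q u v d = Cfsg.siegelMatrix ⇑Q u v (c + d) := by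
  have h : ∀ c : F, QuadraticMap.polar ⇑Q u (c • v) = 0 := fun c => by simp [huv]
  have e0 : ∀ c, ((((CF.Geom.oEquiv Q).symm (CF.Geom.eichler hu (h c)) : Cfsg.isometryGroup F Q) :
      GL (Fin n) F) : Matrix (Fin n) (Fin n) F) = Cfsg.siegelMatrix ⇑Q u v c := fun c =>
    (CF.Geom.oEquiv_eq_eichler_iff Q _ hu hv c (h c)).1 (by simp)
  have e : ∀ c x, (Cfsg.siegelMatrix ⇑Q u v c).mulVec x = (CF.Geom.eichler hu (h c)).1 x :=
    fun c x => by rw [← e0, CF.Geom.oEquiv_symm_mulVec]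
  refine ⟨fun c x => by rw [e, CF.Geom.OG_map], fun c => ⟨?_, ?_⟩, fun c d => ?_⟩
  · simp [CF.Geom.siegelMatrix_mulVec, hu, QuadraticMap.polar_comm Q v u, huv]
  · simp [CF.Geom.siegelMatrix_mulVec, hv, huv]
  · rw [CF.Geom.matrix_eq_iff_mulVec]
    intro x
    rw [← Matrix.mulVec_mulVec, e, e, e, CF.Geom.eichler_congr hu (h (c + d)) rfl (add_smul c d v),
      CF.Geom.eichler_add hu (h c) (h d)]
    rfl

end Cfsg.Agent.S0793
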