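import Cfsg.Statements.S0794
import Cfsg.Agent.Geom.OmegaIndex

set_option autoImplicit false
open Cfsg

namespace Cfsg.Agent.S0794

/-- For q odd, n ≥ 5 and Q with non-degenerate polar form: an isometry whose matrix is a Siegel transformation T_(u,v)(c) (u, v singular and orthogonal) is a commutator in the isometry group, so lies in Ω. -/
theorem result {F : Type*} [Field F] [Fintype F] (h2 : (2 : F) ≠ 0) {n : ℕ} (hn : 5 ≤ n) (Q : QuadraticForm F (Fin n → F)) (hQ : (QuadraticMap.polarBilin Q).Nondegenerate) (u v : Fin n → F) (hu : Q u = 0) (hv : Q v = 0) (huv : QuadraticMap.polar ⇑Q u v = 0) (c : F) (g : ↥(Cfsg.isometryGroup F ⇑Q)) (hg : ((g : Matrix.GeneralLinearGroup (Fin n) F) : Matrix (Fin n) (Fin n) F) = Cfsg.siegelMatrix ⇑Q u v c) : g ∈ commutatorSet ↥(Cfsg.isometryGroup F ⇑Q) ∧ g ∈ Cfsg.Omega F ⇑Q := by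
  have h : QuadraticMap.polar ⇑Q u (c • v) = 0 := by simp [huv]
  have e := (CF.Geom.oEquiv_eq_eichler_iff Q g hu hv c h).2 hg
  obtain ⟨a, -, b, -, e'⟩ := CF.Geom.siegel_eq_commutator hQ (by simpa using hn) hu h
    (by simp [CF.Geom.quad_smul, hv])
  have : g ∈ commutatorSet ↥(Cfsg.isometryGroup F ⇑Q) := by
    rw [CF.Geom.mem_commutatorSet_iff_of_equiv (CF.Geom.oEquiv Q), e]
    exact ⟨a, b, e'.symm⟩
  refine ⟨this, ?_⟩
  obtain ⟨x, y, rfl⟩ := this
  exact Subgroup.commutator_mem_commutator (Subgroup.mem_top _) (Subgroup.mem_top _)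

end Cfsg.Agent.S0794
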