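import Cfsg.Statements.S0795
import Cfsg.Agent.Geom.OmegaIndex

set_option autoImplicit false
open Cfsg

namespace Cfsg.Agent.S0795

/-- Generation of Ω by root elements: for q odd, n ≥ 5 and Q with non-degenerate polar form on F^n, the commutator subgroup of the isometry group equals the subgroup generated by the isometries whose matrices are Siegel transformations T_(u,v)(c) with u, v singular and orthogonal. -/
theorem result {F : Type*} [Field F] [Fintype F] (h2 : (2 : F) ≠ 0) {n : ℕ} (hn : 5 ≤ n) (Q : QuadraticForm F (Fin n → F)) (hQ : (QuadraticMap.polarBilin Q).Nondegenerate) : Cfsg.Omega F ⇑Q = Subgroup.closure {g : ↥(Cfsg.isometryGroup F ⇑Q) | ∃ (u v : Fin n → F) (c : F), Q u = 0 ∧ Q v = 0 ∧ QuadraticMap.polar ⇑Q u v = 0 ∧ ((g : Matrix.GeneralLinearGroup (Fin n) F) : Matrix (Fin n) (Fin n) F) = Cfsg.siegelMatrix ⇑Q u v c} := by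
  ext g
  rw [CF.Geom.mem_Omega_iff, CF.Geom.commutator_eq_siegelSub hQ (by simpa using hn)]
  refine (CF.Geom.mem_closure_iff_of_equiv (CF.Geom.oEquiv Q) (fun g => ⟨?_, ?_⟩) g).symm
  · rintro ⟨u, v, c, hu, hv, huv, e⟩
    exact ⟨u, c • v, hu, by simp [huv], by simp [CF.Geom.quad_smul, hv],
      (CF.Geom.oEquiv_eq_eichler_iff Q g hu hv c _).2 e⟩
  · rintro ⟨u, v, hu, huv, hv, e⟩
    refine ⟨u, v, 1, hu, hv, huv, (CF.Geom.oEquiv_eq_eichler_iff Q g hu hv 1 (by simp [huv])).1 ?_⟩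
    rw [e]
    exact CF.Geom.eichler_congr _ _ rfl (one_smul F v).symm

end Cfsg.Agent.S0795
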