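import Cfsg.Statements.S0796

set_option autoImplicit false
open Cfsg

namespace Cfsg.Agent.S0796

/-- If G is finite and acts faithfully and primitively on X, H is the stabiliser of a point, A is a normal subgroup of H whose normal closure in G is G, then for every non-trivial normal subgroup K of G the quotient G ⧸ K is isomorphic to A ⧸ B for some normal subgroup B of A. -/
theorem result {G X : Type*} [Group G] [Finite G] [MulAction G X] [FaithfulSMul G X] (hprim : MulAction.IsPreprimitive G X) (x : X) (A : Subgroup G) (hA : A ≤ MulAction.stabilizer G x) (hAn : (A.subgroupOf (MulAction.stabilizer G x)).Normal) (hgen : Subgroup.normalClosure (A : Set G) = ⊤) (K : Subgroup G) [K.Normal] (hK : K ≠ ⊥) : ∃ (B : Subgroup A) (_ : B.Normal), Nonempty (G ⧸ K ≃* A ⧸ B) := by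
  have hKn : K.Normal := inferInstance
  have h1 : MulAction.IsPretransitive K X := hprim.isQuasiPreprimitive.isPretransitive_of_normal
    (fun h => hK (by
      rw [eq_bot_iff]
      intro k hk
      exact FaithfulSMul.eq_of_smul_eq_smul (α := X) fun y => by
        rw [one_smul]; exact (Set.eq_univ_iff_forall.1 h y) ⟨k, hk⟩))
  have h2 : ∀ g : G, ∃ k ∈ K, k⁻¹ * g ∈ MulAction.stabilizer G x := fun g => by
    obtain ⟨k, hk⟩ := h1.exists_smul_eq x (g • x)
    exact ⟨k, k.2, by rw [MulAction.mem_stabilizer_iff, mul_smul, ← hk]; exact inv_smul_smul _ _⟩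
  have h3 : (A.map (QuotientGroup.mk' K)).Normal := ⟨by
    rintro _ ⟨a, ha, rfl⟩ g
    obtain ⟨g, rfl⟩ := QuotientGroup.mk'_surjective K g
    obtain ⟨k, hk, h⟩ := h2 g
    refine ⟨k⁻¹ * g * a * (k⁻¹ * g)⁻¹, hAn.conj_mem ⟨a, hA ha⟩ ha ⟨_, h⟩, ?_⟩
    simp [(QuotientGroup.eq_one_iff k).2 hk]⟩
  have h4 : Function.Surjective ((QuotientGroup.mk' K).comp A.subtype) := by
    rw [← MonoidHom.range_eq_top, MonoidHom.range_comp, Subgroup.range_subtype, eq_top_iff,
      ← Subgroup.map_top_of_surjective _ (QuotientGroup.mk'_surjective K), ← hgen,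
      Subgroup.map_le_iff_le_comap]
    exact Subgroup.normalClosure_le_normal (Subgroup.le_comap_map _ _)
  exact ⟨_, inferInstance, ⟨(QuotientGroup.quotientKerEquivOfSurjective _ h4).symm⟩⟩

end Cfsg.Agent.S0796
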