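import Cfsg.Statements.S0797
import Cfsg.Agent.Geom.OmegaIndex

set_option autoImplicit false
open Cfsg

namespace Cfsg.Agent.S0797

theorem aux0 : Nat.card {s : Finset (ℤˣ × ℤˣ) // 1 ∈ s ∧ (∀ a ∈ s, ∀ b ∈ s, a * b ∈ s) ∧
    (∀ a ∈ s, a⁻¹ ∈ s) ∧ s.card = 2} = 3 := by
  let _ : DecidablePred fun s : Finset (ℤˣ × ℤˣ) => 1 ∈ s ∧ (∀ a ∈ s, ∀ b ∈ s, a * b ∈ s) ∧
      (∀ a ∈ s, a⁻¹ ∈ s) ∧ s.card = 2 := fun s =>
    @instDecidableAnd _ _ _ (@instDecidableAnd _ _ Finset.decidableDforallFinset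
      (@instDecidableAnd _ _ Finset.decidableDforallFinset _))
  rw [Nat.card_eq_fintype_card]
  decide

theorem aux : Nat.card {K : Subgroup (ℤˣ × ℤˣ) // K.index = 2} = 3 := by
  classical
  have h : ∀ K : Subgroup (ℤˣ × ℤˣ), K.index = 2 ↔ Nat.card K = 2 := fun K => by
    have := K.card_mul_index
    rw [show Nat.card (ℤˣ × ℤˣ) = 4 by simp] at this
    constructor <;> intro h <;> rw [h] at this <;> omega
  let e : {K : Subgroup (ℤˣ × ℤˣ) // K.index = 2} ≃
      {s : Finset (ℤˣ × ℤˣ) // 1 ∈ s ∧ (∀ a ∈ s, ∀ b ∈ s, a * b ∈ s) ∧ (∀ a ∈ s, a⁻¹ ∈ s) ∧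
        s.card = 2} :=
    { toFun := fun K => ⟨(K.1 : Set (ℤˣ × ℤˣ)).toFinset, by simp,
        fun a ha b hb => by simp only [Set.mem_toFinset] at *; exact mul_mem ha hb,
        fun a ha => by simpa using ha, by
          rw [← Set.ncard_eq_toFinset_card']; exact (h _).1 K.2⟩
      invFun := fun s => ⟨⟨⟨⟨s.1, fun ha hb => s.2.2.1 _ ha _ hb⟩, s.2.1⟩,
        fun ha => s.2.2.2.1 _ ha⟩, (h _).2 ((Nat.card_eq_finsetCard s.1).trans s.2.2.2.2)⟩
      left_inv := fun K => by ext; simp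
      right_inv := fun s => by ext; simp }
  rw [Nat.card_congr e, aux0]

/-- O^ε_2m(q) ≅ Ω.2² for q odd: if F is finite of odd characteristic, n ≥ 2 is even and Q has non-degenerate polar form on F^n, the isometry group of Q has exactly three subgroups of index 2. -/
theorem result {F : Type*} [Field F] [Fintype F] (h2 : (2 : F) ≠ 0) {n : ℕ} (hn : 2 ≤ n) (heven : Even n) (Q : QuadraticForm F (Fin n → F)) (hQ : (QuadraticMap.polarBilin Q).Nondegenerate) : Nat.card {H : Subgroup ↥(Cfsg.isometryGroup F ⇑Q) // H.index = 2} = 3 := by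
  obtain ⟨Θ, h3, h4, -⟩ := CF.Geom.exists_surjective_ker_eq_commutator_odd hQ h2 (by simpa using hn)
  let f := Θ.comp (CF.Geom.oEquiv Q).toMonoidHom
  have hf : Function.Surjective f := h3.comp (CF.Geom.oEquiv Q).surjective
  have h5 : ∀ H : Subgroup (Cfsg.isometryGroup F Q), H.index = 2 → f.ker ≤ H := fun H hH g hg => by
    have := Subgroup.normal_of_index_eq_two hH
    have h6 : g ∈ commutator _ :=
      (CF.Geom.mem_commutator_iff_of_equiv (CF.Geom.oEquiv Q) g).2 (h4 ▸ hg)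
    refine Subgroup.Normal.quotient_commutative_iff_commutator_le.1 ?_ h6
    have : Fact (Nat.Prime 2) := ⟨Nat.prime_two⟩
    have := isCyclic_of_prime_card (α := _ ⧸ H) hH
    infer_instance
  rw [← aux]
  refine Nat.card_congr ⟨fun H => ⟨H.1.map f, by rw [Subgroup.index_map_eq _ hf (h5 _ H.2), H.2]⟩,
    fun K => ⟨K.1.comap f, by rw [Subgroup.index_comap_of_surjective _ hf, K.2]⟩,
    fun H => Subtype.ext (Subgroup.comap_map_eq_self (h5 _ H.2)),
    fun K => Subtype.ext (Subgroup.map_comap_eq_self_of_surjective hf _)⟩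

end Cfsg.Agent.S0797
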