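import Cfsg.Statements.S0798
import Cfsg.Agent.Geom.Families

set_option autoImplicit false
open Cfsg

namespace Cfsg.Agent.S0798

open CF.Geom QuadraticMap Module

section
variable {F V : Type*} [Field F] [AddCommGroup V] [Module F V] {Q : QuadraticForm F V}

theorem exists_quad_eq_not_perp [Finite F] [FiniteDimensional F V] (h2 : (2 : F) ≠ 0)
    (hQ : (polarBilin Q).Nondegenerate) (hn : 2 ≤ finrank F V)
    (h : 3 ≤ finrank F V ∨ ∃ a : F, a ≠ 0 ∧ a ^ 2 ≠ 1) {z : V} (hz : z ≠ 0) {c : F} (hc : c ≠ 0) :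
    ∃ w, Q w = c ∧ polar Q z w ≠ 0 := by
  have hP := isWittPair_quad Q hQ
  by_cases hz0 : Q z = 0
  · obtain ⟨f, hf, hzf⟩ := hP.exists_hyperbolic hz (by simpa using hz0)
    rw [map_zero] at hf
    rw [polarBilin_apply_apply] at hzf
    exact ⟨c • z + f, by simp [quad_add, quad_smul, hz0, hf, hzf],
      by simp [polar_self', hz0, hzf]⟩
  obtain ⟨w, hw⟩ := exists_quad_eq hQ hn hc
  by_cases hzw : polar Q z w ≠ 0
  · exact ⟨w, hw, hzw⟩
  push Not at hzw
  by_cases h3 : ∃ l : F, l ≠ 0 ∧ Q z + l ^ 2 * c ≠ 0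
  · obtain ⟨l, hl, h3⟩ := h3
    have h4 : Q (z + l • w) = Q z + l ^ 2 * c := by simp [quad_add, quad_smul, hzw, hw]
    refine ⟨(oRefl Q (z + l • w)).1 w, (OG_map _ _).trans hw, ?_⟩
    rw [oRefl_apply, h4]
    simp [hzw, polar_self', hw, h3, h2, hl, hc, hz0]
  push Not at h3
  have h4 := h3 1 one_ne_zero
  rcases h with h | ⟨a, ha, ha2⟩
  · have h5 : Disjoint (F ∙ z) (perp (polarBilin Q) (F ∙ z)) :=
      IsWittPair.disjoint_singleton (by simp [polar_self', h2, hz0])
    have h6 := hP.finrank_perp (F ∙ z)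
    rw [finrank_span_singleton hz] at h6
    obtain ⟨y, hy, h7⟩ := exists_quad_eq_mem (hP.disjoint_perp_perp h5) (by omega)
      (mul_ne_zero h2 hc)
    have h8 : polar Q z y = 0 := mem_perp_singleton.1 hy
    exact ⟨z + y, by rw [quad_add, h7, h8]; linear_combination h4,
      by simp [h8, polar_self', h2, hz0]⟩
  · exact absurd (mul_right_cancel₀ hc (by linear_combination h3 a ha - h4)) ha2

theorem eq_one_of_fix [FiniteDimensional F V] (h2 : (2 : F) ≠ 0)
    (hQ : (polarBilin Q).Nondegenerate) (hn : finrank F V = 2) {g : OG Q} {x : V} (hx : Q x ≠ 0)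
    (hg : g.1 x = x) (hd : g ∈ SOG Q) : g = 1 := by
  have hP := isWittPair_quad Q hQ
  have hx0 : x ≠ 0 := by rintro rfl; simp at hx
  have h5 : Disjoint (F ∙ x) (perp (polarBilin Q) (F ∙ x)) :=
    IsWittPair.disjoint_singleton (by simp [polar_self', h2, hx])
  have h6 := hP.finrank_perp (F ∙ x)
  rw [finrank_span_singleton hx0] at h6
  obtain ⟨y, hy, hy0⟩ := exists_nonsingular_mem (hP.disjoint_perp_perp h5)
    (fun h => by rw [h, finrank_bot] at h6; omega)
  have hy1 : y ≠ 0 := by rintro rfl; simp at hy0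
  have h7 : (F ∙ y) = perp (polarBilin Q) (F ∙ x) := Submodule.eq_of_le_of_finrank_le
    ((Submodule.span_singleton_le_iff_mem _ _).2 hy) (by rw [finrank_span_singleton hy1]; omega)
  have h8 : polar Q x y = 0 := mem_perp_singleton.1 hy
  obtain ⟨l, hl⟩ : ∃ l : F, l • y = g.1 y := Submodule.mem_span_singleton.1 (by
    rw [h7, mem_perp_singleton, polarBilin_apply_apply, ← h8, ← OG_polar g x y, hg])
  have h9 : ∀ a b : OG Q, a.1 x = b.1 x → a.1 y = b.1 y → a = b := fun a b ha hb => by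
    ext v
    have : v ∈ (F ∙ x) ⊔ (F ∙ y) := by rw [h7, (hP.isCompl_perp h5).sup_eq_top]; trivial
    obtain ⟨_, h10, _, h11, rfl⟩ := Submodule.mem_sup.1 this
    obtain ⟨s, rfl⟩ := Submodule.mem_span_singleton.1 h10
    obtain ⟨t, rfl⟩ := Submodule.mem_span_singleton.1 h11
    simp [ha, hb]
  have h10 := OG_map g y
  rw [← hl, quad_smul, mul_left_eq_self₀, or_iff_left hy0] at h10
  rcases sq_eq_one_iff_of_ne_zero' h10 with rfl | rfl
  · exact h9 _ _ hg (by simpa using hl.symm)
  · rw [h9 g (oRefl Q y) (by rw [hg, oRefl_of_polar_eq_zero (by rwa [polar_comm])])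
      (by rw [oRefl_self hy0, ← hl]; simp), mem_SOG, det_oRefl hy0] at hd
    exact absurd (by linear_combination -hd) h2

theorem mul_self_eq_one [FiniteDimensional F V] (h2 : (2 : F) ≠ 0)
    (hQ : (polarBilin Q).Nondegenerate) (hn : finrank F V = 2) {g : OG Q} {x : V} (hx : Q x ≠ 0)
    (hd : LinearMap.det (g.1 : V →ₗ[F] V) = -1) : g * g = 1 := by
  have hdm : ∀ a b : OG Q, LinearMap.det ((a * b).1 : V →ₗ[F] V) =
      LinearMap.det (a.1 : V →ₗ[F] V) * LinearMap.det (b.1 : V →ₗ[F] V) := fun a b =>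
    LinearMap.det_comp _ _
  by_cases h : Q (x - g.1 x) ≠ 0
  · have := eq_one_of_fix h2 hQ hn hx (g := oRefl Q (x - g.1 x) * g)
      (oRefl_sub_apply (OG_map g x).symm h) (by rw [mem_SOG, hdm, det_oRefl h, hd]; simp)
    rw [← inv_eq_of_mul_eq_one_right this, oRefl_inv, oRefl_mul_self]
  · have h3 : Q (x - (oNeg Q * g).1 x) ≠ 0 := fun h3 => by
      rw [not_ne_iff, quad_sub, OG_map] at h
      rw [quad_sub, OG_map, show (oNeg Q * g).1 x = -g.1 x from rfl, polar_neg_right] at h3
      exact hx (mul_left_cancel₀ (mul_ne_zero h2 h2) (by linear_combination h + h3))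
    have := eq_one_of_fix h2 hQ hn hx (g := oRefl Q (x - (oNeg Q * g).1 x) * (oNeg Q * g))
      (oRefl_sub_apply (OG_map _ x).symm h3) (by
        rw [mem_SOG, hdm, hdm, det_oRefl h3, hd, det_of_scalar (c := -1) (by simp), hn]; simp)
    have h4 : oNeg Q * g * (oNeg Q * g) = 1 := by
      rw [← inv_eq_of_mul_eq_one_right this, oRefl_inv, oRefl_mul_self]
    rw [← h4]; ext v; simp

theorem main [Fintype F] [FiniteDimensional F V] (h2 : (2 : F) ≠ 0)
    (hQ : (polarBilin Q).Nondegenerate) (hn : 2 ≤ finrank F V) (he : Even (finrank F V))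
    (h43 : ¬ (finrank F V = 4 ∧ Fintype.card F = 3)) {c : F} (hc : c ≠ 0) :
    (Subgroup.closure {g : OG Q | ∃ (v : V) (t : F), t ≠ 0 ∧ Q v = c * t ^ 2 ∧
      g = oRefl Q v}).index = 2 := by
  have hP := isWittPair_quad Q hQ
  have htop := reflSub_eq_top_of_two_ne_zero hQ h2
  set K := Subgroup.closure {g : OG Q | ∃ (v : V) (t : F), t ≠ 0 ∧ Q v = c * t ^ 2 ∧ g = oRefl Q v}
  have hK : ∀ v, Q v = c → oRefl Q v ∈ K := fun v hv =>
    Subgroup.subset_closure ⟨v, 1, one_ne_zero, by simpa using hv, rfl⟩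
  obtain ⟨w, hw⟩ := exists_quad_eq hQ hn hc
  have hw0 : Q w ≠ 0 := hw ▸ hc
  have h1 : commutator (OG Q) ≤ K := by
    by_cases hn2 : finrank F V = 2
    · refine commutator_le_of_sq_mem htop K fun u v hu hv => ?_
      have h3 := mul_self_eq_one h2 hQ hn2 hu (g := oRefl Q w * (oRefl Q u * oRefl Q v))
        (by simp [det_oRefl, hu, hv, hw0])
      have h4 := K.mul_mem (hK ((oRefl Q u * oRefl Q v).1 w) ((OG_map _ _).trans hw)) (hK w hw)
      have h5 := oRefl_mul_self (Q := Q) w
      rw [← conj_oRefl] at h4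
      generalize oRefl Q u * oRefl Q v = ρ at h3 h4 ⊢
      generalize oRefl Q w = r at h3 h4 h5
      rwa [show ρ⁻¹ = r * ρ * r from inv_eq_of_mul_eq_one_left (by rw [mul_assoc, h3]),
        show ρ * r * (r * ρ * r) * r = ρ * (r * r) * ρ * (r * r) by simp only [mul_assoc], h5,
        mul_one, mul_one, ← pow_two] at h4
    have h4 : 4 ≤ finrank F V := by obtain ⟨k, hk⟩ := he; omega
    rw [commutator_eq_eichlerSub_of_finite hQ (Or.inl (exists_ne_zero_ne_one_of_two_ne_zero h2))
      (by omega), Subgroup.closure_le]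
    rintro _ ⟨u, x, hu, hx, rfl⟩
    by_cases hu0 : u = 0
    · subst hu0; rw [eichler_zero_left]; exact one_mem _
    obtain ⟨f, hf, huf⟩ := hP.exists_hyperbolic hu0 (by simpa using hu)
    rw [map_zero] at hf
    rw [polarBilin_apply_apply] at huf
    let S : Submodule F V :=
      { carrier := {y | ∃ hy : polar Q u y = 0, ∀ a : F, eichler hu (w := a • y) (by simp [hy]) ∈ K}
        add_mem' := fun {y z} ⟨hy, h5⟩ ⟨hz, h6⟩ => ⟨by simp [hy, hz], fun a => by
          have := K.mul_mem (h5 a) (h6 a)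
          rw [← eichler_add] at this
          simpa only [smul_add] using this⟩
        zero_mem' := ⟨by simp, fun a => by simp only [smul_zero, eichler_zero, one_mem]⟩
        smul_mem' := fun a y ⟨hy, h5⟩ => ⟨by simp [hy], fun b => by
          simpa only [smul_smul] using h5 (b * a)⟩ }
    have hd := hP.disjoint_hyperbolic (e := u) (f := f) (by simp [polar_self', hu])
      (by simp [polar_self', hf]) (by simp [huf])
    have hr := hP.finrank_perp (Submodule.span F {u, f})
    rw [IsWittPair.finrank_span_hyperbolic (B := polarBilin Q) (by simp [polar_self', hu])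
      (by simp [huf])] at hr
    have hZ := nondegenerate_comp_subtype (hP.disjoint_perp_perp hd)
    set Z := perp (polarBilin Q) (Submodule.span F {u, f})
    have h5 : S.comap Z.subtype = ⊤ := by
      by_contra h5
      obtain ⟨z, hz, hz0⟩ := Submodule.exists_mem_ne_zero_of_ne_bot
        (p := perp (polarBilin (Q.comp Z.subtype)) (S.comap Z.subtype)) fun h => h5
          ((isWittPair_quad _ hZ).perp_injective (h.trans (isWittPair_quad _ hZ).perp_top.symm))
      obtain ⟨y, h6, h7⟩ := exists_quad_eq_not_perp h2 hZ (by omega) (by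
        by_cases h6 : finrank F V = 4
        · refine Or.inr (exists_sq_ne_one (Or.inl ?_))
          have := odd_card_of_two_ne_zero h2
          have : 1 < Fintype.card F := Fintype.one_lt_card
          rw [Nat.card_eq_fintype_card, Nat.odd_iff] at *
          omega
        · left; omega) hz0 hc
      refine h7 ((polar_comm _ _ _).trans (mem_perp.1 hz y ⟨(mem_perp_pair.1 y.2).1, fun a => ?_⟩))
      by_cases ha : a = 0
      · simp only [ha, zero_smul, eichler_zero, one_mem]
      have h8 : Q (a • (y : V)) = c * a ^ 2 := by rw [quad_smul, ← h6, mul_comm]; rfl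
      rw [eichler_eq_oRefl_mul _ _ (h8 ▸ mul_ne_zero hc (pow_ne_zero _ ha))]
      refine K.mul_mem (Subgroup.subset_closure ⟨_, a, ha, ?_, rfl⟩)
        (Subgroup.subset_closure ⟨_, a, ha, h8, rfl⟩)
      have h9 : polar Q u (Z.subtype y) = 0 := (mem_perp_pair.1 y.2).1
      rw [quad_sub, quad_smul _ _ u, hu, polar_smul_right, polar_comm, polar_smul_right, h9]
      simpa using h8
    obtain ⟨y, h6, h7, h8⟩ := hyp_decomp hu hf huf x
    have h9 : x ∈ S := by
      rw [h6, hx, zero_smul, add_zero]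
      refine S.add_mem (S.smul_mem _ ⟨by simp [polar_self', hu], fun a => ?_⟩)
        (h5.ge (Submodule.mem_top (x := (⟨y, mem_perp_pair.2 ⟨h7, h8⟩⟩ : Z))))
      rw [eichler_smul_self]; exact one_mem _
    simpa only [one_smul, SetLike.mem_coe] using h9.2 1
  obtain ⟨Θ, h3, h4, h5, -⟩ := exists_surjective_ker_eq_commutator_odd hQ h2 hn
  have h6 : K.map Θ = Subgroup.zpowers (-1, sqSign c) := by
    rw [MonoidHom.map_closure, Subgroup.zpowers_eq_closure]
    congr 1
    ext a
    refine ⟨?_, fun h => ⟨_, ⟨w, 1, one_ne_zero, by simpa using hw, rfl⟩, by rw [h5 w hw0, hw, h]⟩⟩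
    rintro ⟨_, ⟨v, t, ht, hv, rfl⟩, rfl⟩
    rw [h5 v (hv ▸ mul_ne_zero hc (pow_ne_zero _ ht)), hv, sqSign_mul _ _ hc (pow_ne_zero _ ht),
      sqSign_eq_one_iff.2 (IsSquare.sq t), mul_one]
    rfl
  rw [← Subgroup.index_map_eq K h3 (h4 ▸ h1), h6]
  have h7 := (Subgroup.zpowers ((-1, sqSign c) : ℤˣ × ℤˣ)).card_mul_index
  rw [Nat.card_zpowers, orderOf_eq_prime (p := 2) (by ext <;> simp [pow_two]) (by simp),
    show Nat.card (ℤˣ × ℤˣ) = 4 by simp] at h7
  omega

end

/-- For q odd, n ≥ 2 even, Q with non-degenerate polar form (n, |F|) ≠ (4, 3), and a fixed c ≠ 0: the subgroup of the isometry group generated by the reflections r_v with Q(v) ∈ c·(F^×)² has index 2. -/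
theorem result {F : Type*} [Field F] [Fintype F] (h2 : (2 : F) ≠ 0) {n : ℕ} (hn : 2 ≤ n) (heven : Even n) (Q : QuadraticForm F (Fin n → F)) (hQ : (QuadraticMap.polarBilin Q).Nondegenerate) (h43 : ¬ (n = 4 ∧ Fintype.card F = 3)) (c : F) (hc : c ≠ 0) : (Subgroup.closure {g : ↥(Cfsg.isometryGroup F ⇑Q) | ∃ (v : Fin n → F) (t : F), t ≠ 0 ∧ Q v = c * t ^ 2 ∧ ((g : Matrix.GeneralLinearGroup (Fin n) F) : Matrix (Fin n) (Fin n) F) = Cfsg.reflectionMatrix ⇑Q v}).index = 2 := by
  refine Eq.trans ?_ (main h2 hQ (by simpa using hn) (by simpa using heven) (by simpa using h43) hc)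
  rw [← Subgroup.index_comap_of_surjective _ (f := (oEquiv Q).toMonoidHom) (oEquiv Q).surjective]
  congr 1
  ext g
  exact mem_closure_iff_of_equiv (oEquiv Q) (fun g => by simp only [Set.mem_ofPred_eq,
    oEquiv_eq_oRefl_iff]) g

end Cfsg.Agent.S0798
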