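import Cfsg.Statements.S0802
import Cfsg.Agent.Classical.SmallIso

set_option autoImplicit false
open Cfsg

namespace Cfsg.Agent.S0802

/-- PSL_2(p^n) has a subgroup isomorphic to A_4 if and only if it is not the case that p = 2 and n is odd. -/
theorem result {F : Type*} [Field F] [Fintype F] (p n : ℕ) [Fact p.Prime] [CharP F p] (hF : Fintype.card F = p ^ n) : (∃ H : Subgroup (Matrix.ProjectiveSpecialLinearGroup (Fin 2) F), Nonempty (H ≃* alternatingGroup (Fin 4))) ↔ ¬ (p = 2 ∧ Odd n) := by
  open CF.Classical in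
  rw [← Nat.card_eq_fintype_card] at hF
  constructor
  · rintro ⟨H, ⟨e⟩⟩ ⟨rfl, hn⟩
    have h2 : (2 : F) = 0 := CharP.cast_eq_zero F 2
    obtain ⟨x, y, h, -⟩ := exists_isTri_A4 ⟨(equivMapToPGL H).symm.trans e⟩
    have h1 := tau_of_orderOf_eq_three h.2.2
    obtain ⟨e, a, b, c, hd, e1, -, e2, e3⟩ := exists_normal_form h.tau_left h.tau_right
      h.right_ne_one (by rw [h1]; exact one_ne_zero)
    rw [h1] at e2 e3
    have h3 : b ^ 2 + b * c + c ^ 2 = 0 := by
      obtain rfl : a = b - c - 1 := by linear_combination -e2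
      linear_combination -e3 + (b * c + b - c - 1) * h2
    have hc : c ≠ 0 := by
      rintro rfl
      obtain rfl : b = 0 := by simpa using h3
      have h4 := pgl_eq_one_iff (h := hd).2 ⟨rfl, rfl, by linear_combination a * h2⟩
      rw [← e1, conj_eq_one_iff] at h4
      simpa [h4] using h.1
    have hb : b / c ≠ 0 := by
      rw [div_ne_zero_iff, and_iff_left hc]
      rintro rfl
      exact hc (by simpa using h3)
    have h4 : orderOf (Units.mk0 _ hb) = 3 := by
      refine orderOf_eq_prime (Units.ext ?_) fun h => hc ?_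
      · simp only [Units.val_pow_eq_pow_val, Units.val_mk0, Units.val_one]
        field_simp
        linear_combination (b - c) * h3
      · have h5 : b = c := by simpa [div_eq_one_iff_eq hc] using congrArg Units.val h
        exact pow_eq_zero_iff two_ne_zero |>.1 (by rw [h5] at h3; linear_combination h3 - c ^ 2 * h2)
    have h5 := orderOf_dvd_natCard (Units.mk0 _ hb)
    rw [h4, Nat.card_units, hF] at h5
    obtain ⟨m, rfl⟩ := hn
    have h6 : 2 ^ (2 * m + 1) % 3 = 2 := by
      rw [pow_succ, pow_mul, Nat.mul_mod, Nat.pow_mod]; simp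
    generalize 2 ^ (2 * m + 1) = N at h5 h6
    omega
  · intro h
    obtain ⟨S, h1, h2⟩ := exists_A4_le_psl (F := F) (by
      by_cases hp : p = 2
      · subst hp
        obtain ⟨m, rfl⟩ := Nat.not_odd_iff_even.1 fun h1 => h ⟨rfl, h1⟩
        obtain ⟨u, hu⟩ := exists_prime_orderOf_dvd_card' (G := Fˣ) 3 (by
          rw [Nat.card_units, hF, ← two_mul, pow_mul]
          simpa using Nat.sub_dvd_pow_sub_pow 4 1 m)
        have h3 : (u : F) ^ 3 = 1 := by rw [← hu, ← Units.val_pow_eq_pow_val, pow_orderOf_eq_one]; rfl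
        have h4 : (u : F) - 1 ≠ 0 := fun h => by
          rw [show u = 1 from Units.ext (sub_eq_zero.1 h), orderOf_one] at hu
          exact absurd hu (by norm_num)
        exact Or.inr ⟨-u, mul_left_cancel₀ h4 (by linear_combination h3)⟩
      · exact Or.inl (two_ne_zero_of_char_ne_two F p hp))
    exact exists_subgroup_PSL_equiv h1 h2

end Cfsg.Agent.S0802
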