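import Cfsg.Statements.S0803
import Cfsg.Agent.Classical.SmallIso

set_option autoImplicit false
open Cfsg

namespace Cfsg.Agent.S0803

/-- PSL_2(q) has a subgroup isomorphic to S_4 iff q² ≡ 1 (mod 16). -/
theorem result {F : Type*} [Field F] [Fintype F] {q : ℕ} (hF : Fintype.card F = q) : (∃ H : Subgroup (Matrix.ProjectiveSpecialLinearGroup (Fin 2) F), Nonempty (H ≃* Equiv.Perm (Fin 4))) ↔ q ^ 2 % 16 = 1 := by
  open CF.Classical in
  have key : IsSquare (2 : F) ∧ (2 : F) ≠ 0 ↔ q ^ 2 % 16 = 1 := by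
    rw [FiniteField.isSquare_two_iff, hF]
    have h1 : (2 : F) ≠ 0 ↔ q % 2 = 1 := by
      rw [← Nat.odd_iff, ← hF, ← Nat.card_eq_fintype_card]
      exact ⟨odd_card_of_two_ne_zero, two_ne_zero_of_odd_card⟩
    rw [h1, Nat.pow_mod]
    have h2 : q % 8 = q % 16 % 8 := by omega
    have h3 : q % 2 = q % 16 % 2 := by omega
    rw [h2, h3]
    have h4 : q % 16 < 16 := Nat.mod_lt _ (by norm_num)
    generalize q % 16 = r at h4 ⊢
    revert r; decide
  rw [← key]
  constructor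
  · rintro ⟨H, ⟨e⟩⟩
    obtain ⟨x, y, h, h1⟩ := exists_isTri_S4 ⟨(equivMapToPGL H).symm.trans e⟩
    refine isSquare_two_of_orderOf_eq_four (map_toPGL_le_psl H ?_) h.2.2
    rw [← h1]
    exact mul_mem (Subgroup.subset_closure (by simp)) (Subgroup.subset_closure (by simp))
  · rintro ⟨h1, h2⟩
    obtain ⟨S, h3, h4⟩ := exists_S4 h2
    exact exists_subgroup_PSL_equiv (h3.2 h1) h4

end Cfsg.Agent.S0803
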