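import Cfsg.Statements.S0805
import Cfsg.Agent.Classical.Subfields

set_option autoImplicit false
open Cfsg

namespace Cfsg.Agent.S0805

/-- Subfield subgroups: let F be a finite field of odd order q and K a finite field with |K|^m = q, m ≥ 1. Then PSL_2(F) has a subgroup isomorphic to PSL_2(K), and has a subgroup isomorphic to PGL_2(K) if and only if m is even. -/
theorem result {F K : Type*} [Field F] [Fintype F] [Field K] [Fintype K] {q : ℕ} (hF : Fintype.card F = q) (hodd : Odd q) (m : ℕ) (hm : 1 ≤ m) (hK : Fintype.card K ^ m = q) : (∃ H : Subgroup (Matrix.ProjectiveSpecialLinearGroup (Fin 2) F), Nonempty (H ≃* Matrix.ProjectiveSpecialLinearGroup (Fin 2) K)) ∧ ((∃ H : Subgroup (Matrix.ProjectiveSpecialLinearGroup (Fin 2) F), Nonempty (H ≃* Matrix.ProjGenLinGroup (Fin 2) K)) ↔ Even m) := by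
  open CF.Classical MatrixGroups in
  rw [← Nat.card_eq_fintype_card] at hF hK
  subst hF
  have h2 := two_ne_zero_of_odd_card hodd
  obtain ⟨K', ⟨e⟩⟩ := exists_subfield_equiv hK
  have hK' : Nat.card K' ^ m = Nat.card F := by rw [← Nat.card_congr e.toEquiv, hK]
  refine ⟨exists_subgroup_PSL_equiv (map_subPGL_psl_le K' 1) ⟨(((psl K').equivMapOfInjective _
    (subPGL_injective K' 1)).symm.trans (pslEquiv K').symm).trans (pslCongr _ e.symm)⟩, ?_,
    fun h => exists_subgroup_PSL_equiv (range_subPGL_le_psl h2 K' 1 hK' h)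
      ⟨(MonoidHom.ofInjective (subPGL_injective K' 1)).symm.trans (pglCongr _ e.symm)⟩⟩
  rintro ⟨H, ⟨f⟩⟩
  by_contra hm'
  obtain ⟨r, rfl⟩ := Nat.not_even_iff_odd.1 hm'
  have hq : Odd (Nat.card K) := (Nat.odd_pow_iff (by omega)).1 (hK ▸ hodd)
  have L := isL2_PGL K (AlgebraicClosure K)
  have L' := isL2_PSL F (AlgebraicClosure F)
  obtain ⟨p, hp⟩ := CharP.exists F
  have key : ∀ x y : OnePoint (AlgebraicClosure K), x ≠ y → ∀ n, Nat.card (torus PGL(2, K) x y) = n →
      Even n → n * 2 ∣ Nat.card F - 1 ∨ n * 2 ∣ Nat.card F + 1 := fun x y hxy n hn hn' => by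
    obtain ⟨g, hg⟩ := (Subgroup.isCyclic_iff_exists_zpowers_eq_top _).1
      (isCyclic_torus (H := PGL(2, K)) hxy)
    have h3 : orderOf ((f.symm g : H) : PSL(2, F)) = n := by
      rw [Subgroup.orderOf_coe, MulEquiv.orderOf_eq, ← Nat.card_zpowers, hg, hn]
    have h4 := L'.orderOf_cases p ((f.symm g : H) : PSL(2, F))
    rw [h3, index_range_pslToPGL, gcd_two_of_odd hodd, ← orderOf_dvd_iff_pow_eq_one, h3] at h4
    refine h4.resolve_left fun h5 => h2 ?_
    obtain rfl := (Nat.prime_dvd_prime_iff_eq Nat.prime_two (CharP.char_is_prime F p)).1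
      (hn'.two_dvd.trans h5)
    exact CharP.cast_eq_zero F 2
  have h3 := Finite.one_lt_card (α := K)
  have hF1 : 1 ≤ Nat.card F := Nat.card_pos
  have h4 : ∀ n : ℕ, Nat.card K ^ 2 ≡ 1 [MOD n] → Nat.card F ≡ Nat.card K [MOD n] := fun n h => by
    rw [← hK, pow_succ, pow_mul]
    simpa using (h.pow r).mul_right (Nat.card K)
  rcases (by have := Nat.odd_iff.1 hq; omega : Nat.card K % 4 = 1 ∨ Nat.card K % 4 = 3) with h5 | h5
  · obtain ⟨s, hs⟩ : ∃ s, Nat.card K = 4 * (s + 1) + 1 := ⟨Nat.card K / 4 - 1, by omega⟩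
    have h6 := L.card_torus_ratPt (OnePoint.infty_ne_coe (0 : K))
    rw [index_range_id, mul_one] at h6
    have h7 := key _ _ (ratPt_injective.ne (OnePoint.infty_ne_coe (0 : K))) _ h6 ⟨2 * (s + 1), by omega⟩
    have h8 := h4 ((Nat.card K - 1) * 2) ((Nat.modEq_iff_dvd' (Nat.one_le_pow _ _ (by omega))).2
      ⟨2 * (s + 1) + 1, by
        rw [hs, Nat.add_sub_cancel, Nat.sub_eq_iff_eq_add (Nat.one_le_pow _ _ (by omega))]
        ring⟩).symm
    rcases h7 with h7 | h7
    · have h9 := ((Nat.modEq_iff_dvd' hF1).2 h7).trans h8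
      have := Nat.le_of_dvd (by omega) ((Nat.modEq_iff_dvd' h3.le).1 h9)
      omega
    · have h9 := ((Nat.modEq_zero_iff_dvd.2 h7).symm.trans (h8.add_right 1)).symm
      have := Nat.le_of_dvd (by omega) (Nat.modEq_zero_iff_dvd.1 h9)
      omega
  · obtain ⟨s, hs⟩ : ∃ s, Nat.card K = 4 * s + 3 := ⟨Nat.card K / 4, by omega⟩
    obtain ⟨x, y, hxy, -, -, h6⟩ := L.exists_nonsplit_torus
    rw [index_range_id, mul_one] at h6
    have h7 := key _ _ hxy _ h6 ⟨2 * (s + 1), by omega⟩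
    have h8 := h4 ((Nat.card K + 1) * 2) ((Nat.modEq_iff_dvd' (Nat.one_le_pow _ _ (by omega))).2
      ⟨2 * s + 1, by
        rw [hs, Nat.sub_eq_iff_eq_add (Nat.one_le_pow _ _ (by omega))]
        ring⟩).symm
    rcases h7 with h7 | h7
    · have h9 := ((Nat.modEq_iff_dvd' hF1).2 h7).trans h8
      have := Nat.le_of_dvd (by omega) ((Nat.modEq_iff_dvd' h3.le).1 h9)
      omega
    · have h9 := ((Nat.modEq_zero_iff_dvd.2 h7).symm.trans (h8.add_right 1)).symm
      have := Nat.le_of_dvd (by omega) (Nat.modEq_zero_iff_dvd.1 h9)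
      omega

end Cfsg.Agent.S0805
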