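import Cfsg.Statements.S0807
import Cfsg.Agent.Classical.Subfields

set_option autoImplicit false
open Cfsg

namespace Cfsg.Agent.S0807

/-- For q odd, twelve times the number of Klein four-subgroups of PSL_2(q) equals the order of PSL_2(q). -/
theorem result {F : Type*} [Field F] [Fintype F] {q : ℕ} (hF : Fintype.card F = q) (hodd : Odd q) : 12 * Nat.card {V : Subgroup (Matrix.ProjectiveSpecialLinearGroup (Fin 2) F) // IsKleinFour V} = Nat.card (Matrix.ProjectiveSpecialLinearGroup (Fin 2) F) := by
  open CF.Classical MatrixGroups in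
  rw [← Nat.card_eq_fintype_card] at hF
  subst hF
  have h2 := two_ne_zero_of_odd_card hodd
  have L := isL2_PSL F F
  obtain ⟨S, -, hS⟩ := exists_S4 h2
  obtain ⟨V, h3, h4, rfl⟩ := exists_eq_normalizer_four h2 hS
  have h5 := ncard_conj_subgroup V
  have h6 := (Subgroup.normalizer (V : Set PGL(2, F))).index_mul_card
  rw [← h5, Nat.card_congr hS.some.toEquiv, card_S4, ← (psl F).index_mul_card, index_psl_of_odd h2,
    card_psl] at h6
  have h7 : {W : Subgroup PGL(2, F) | ∃ c, W = V.map (MulAut.conj c).toMonoidHom} =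
      Subgroup.map Matrix.ProjectiveSpecialLinearGroup.toPGL '' {W | IsKleinFour W} := by
    ext W
    constructor
    · rintro ⟨c, rfl⟩
      obtain ⟨W, hW⟩ := exists_map_toPGL_eq (map_conj_le_psl_iff (c := c).2 h4)
      exact ⟨W, isKleinFour_of_map L.inj (hW ▸ isKleinFour_map h3 (MulAut.conj c).injective), hW⟩
    · rintro ⟨W, hW, rfl⟩
      exact exists_conj_four h2 h3 (isKleinFour_map hW L.inj) h4 (map_toPGL_le_psl W)
  rw [h7, Set.ncard_image_of_injective _ (Subgroup.map_injective L.inj)] at h6
  change _ * Set.ncard {W : Subgroup PSL(2, F) | IsKleinFour W} = _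
  omega

end Cfsg.Agent.S0807
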