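import Cfsg.Statements.S0808
import Cfsg.Agent.Classical.Subfields

set_option autoImplicit false
open Cfsg

namespace Cfsg.Agent.S0808

/-- Conjugacy classes of four-groups in PSL_2(q), q odd: if q ≡ 3 or 5 (mod 8) all Klein four-subgroups are conjugate; if q ≡ 1 or 7 (mod 8) there are two Klein four-subgroups which are not conjugate, and every Klein four-subgroup is conjugate to one of them. -/
theorem result {F : Type*} [Field F] [Fintype F] {q : ℕ} (hF : Fintype.card F = q) (hodd : Odd q) : ((q % 8 = 3 ∨ q % 8 = 5) → ∀ V W : Subgroup (Matrix.ProjectiveSpecialLinearGroup (Fin 2) F), IsKleinFour V → IsKleinFour W → ∃ g : Matrix.ProjectiveSpecialLinearGroup (Fin 2) F, W = V.map (MulAut.conj g).toMonoidHom) ∧ ((q % 8 = 1 ∨ q % 8 = 7) → ∃ V₁ V₂ : Subgroup (Matrix.ProjectiveSpecialLinearGroup (Fin 2) F), IsKleinFour V₁ ∧ IsKleinFour V₂ ∧ (¬ ∃ g : Matrix.ProjectiveSpecialLinearGroup (Fin 2) F, V₂ = V₁.map (MulAut.conj g).toMonoidHom) ∧ ∀ W : Subgroup (Matrix.ProjectiveSpecialLinearGroup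 (Fin 2) F), IsKleinFour W → (∃ g : Matrix.ProjectiveSpecialLinearGroup (Fin 2) F, W = V₁.map (MulAut.conj g).toMonoidHom) ∨ (∃ g : Matrix.ProjectiveSpecialLinearGroup (Fin 2) F, W = V₂.map (MulAut.conj g).toMonoidHom)) := by
  open CF.Classical MatrixGroups in
  rw [← Nat.card_eq_fintype_card] at hF
  subst hF
  have h2 := two_ne_zero_of_odd_card hodd
  have L := isL2_PSL F F
  have hi := index_psl_of_odd h2
  have key : ∀ (V W : Subgroup PSL(2, F)) (c : PGL(2, F)), c ∈ psl F →
      W.map Matrix.ProjectiveSpecialLinearGroup.toPGL =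
      (V.map Matrix.ProjectiveSpecialLinearGroup.toPGL).map (MulAut.conj c).toMonoidHom →
      ∃ g, W = V.map (MulAut.conj g).toMonoidHom := fun V W c hc h => by
    obtain ⟨g, rfl⟩ := L.psl_le hc
    exact ⟨g, Subgroup.map_injective L.inj (by rw [map_map_conj, h])⟩
  constructor
  · intro h V W hV hW
    have hV' := isKleinFour_map hV L.inj
    obtain ⟨c, hc⟩ := exists_conj_four h2 hV' (isKleinFour_map hW L.inj) (map_toPGL_le_psl V)
      (map_toPGL_le_psl W)
    by_cases h3 : c ∈ psl F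
    · exact key V W c h3 hc
    obtain ⟨d, hd, hd'⟩ := SetLike.not_le_iff_exists.1 fun h4 => absurd ((isSquare_two_iff_card h2).1
      ((S4_le_psl_iff h2 (normalizer_four_equiv h2 hV' (map_toPGL_le_psl V))).1 h4)) (by omega)
    refine key V W (c * d) ((Subgroup.mul_mem_iff_of_index_two hi).2 (iff_of_false h3 hd')) ?_
    rw [← map_conj_map_conj, map_conj_eq_iff.2 hd, hc]
  · intro h
    obtain ⟨S, -, hS⟩ := exists_S4 h2
    obtain ⟨V, h3, h4, rfl⟩ := exists_eq_normalizer_four h2 hS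
    have h5 := (S4_le_psl_iff h2 hS).2 ((isSquare_two_iff_card h2).2 h)
    obtain ⟨c, -, hc⟩ := SetLike.not_le_iff_exists.1 fun h6 : ⊤ ≤ psl F => by
      rw [top_le_iff.1 h6, Subgroup.index_top] at hi; omega
    obtain ⟨V₂, h6⟩ := exists_map_toPGL_eq (map_conj_le_psl_iff (c := c).2 h4)
    obtain ⟨V₁, rfl⟩ := exists_map_toPGL_eq h4
    refine ⟨V₁, V₂, isKleinFour_of_map L.inj h3, isKleinFour_of_map L.inj
      (h6 ▸ isKleinFour_map h3 (MulAut.conj c).injective), ?_, fun W hW => ?_⟩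
    · rintro ⟨g, rfl⟩
      rw [map_map_conj] at h6
      have h7 := congrArg (Subgroup.map (MulAut.conj c⁻¹).toMonoidHom) h6
      rw [map_conj_map_conj, map_conj_map_conj, inv_mul_cancel, map_conj_one, map_conj_eq_iff] at h7
      exact hc (by simpa using mul_mem (range_pslToPGL.le ⟨g, rfl⟩) (inv_mem (h5 h7)))
    · obtain ⟨d, hd⟩ := exists_conj_four h2 h3 (isKleinFour_map hW L.inj) h4 (map_toPGL_le_psl W)
      by_cases h7 : d ∈ psl F
      · exact Or.inl (key _ _ d h7 hd)
      · refine Or.inr (key _ _ (d * c⁻¹) ((Subgroup.mul_mem_iff_of_index_two hi).2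
          (iff_of_false h7 (by simpa using hc))) ?_)
        rw [h6, map_conj_map_conj, inv_mul_cancel_right, hd]

end Cfsg.Agent.S0808
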