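import Cfsg.Statements.S0809
import Cfsg.Agent.Classical.Subfields

set_option autoImplicit false
open Cfsg

namespace Cfsg.Agent.S0809

open CF.Classical Subgroup MatrixGroups in
theorem aux {F : Type*} [Field F] [Finite F] (h2 : (2 : F) ≠ 0) (A : Subgroup SL(2, F))
    (hA : Nat.card A = 4) : ∃ t : PSL(2, F), orderOf t = 2 ∧ A = (zpowers t).comap (slToPSL F) := by
  obtain ⟨⟨z, hz⟩, h1⟩ := exists_prime_orderOf_dvd_card' (G := A) 2 (by rw [hA]; norm_num)
  obtain rfl : z = -1 := ((SL2_mul_self_eq_one_iff h2).1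
    (congrArg Subtype.val (CF.Invol.mul_self_of_orderOf h1))).resolve_left
    fun h => CF.Invol.ne_one_of_orderOf h1 (Subtype.ext h)
  have h3 : (slToPSL F).ker ≤ A := fun g hg => by
    rcases slToPSL_eq_one_iff.1 hg with rfl | rfl
    exacts [one_mem _, hz]
  have h4 := card_eq_card_inf_ker_mul (slToPSL F) A
  rw [inf_eq_right.2 h3, hA, ker_slToPSL, card_center_SL, Fintype.card_fin,
    gcd_two_of_odd (odd_card_of_two_ne_zero h2)] at h4
  have h5 : Nat.card (A.map (slToPSL F)) = 2 := by omega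
  obtain ⟨t, ht⟩ := (Subgroup.isCyclic_iff_exists_zpowers_eq_top _).1 (isCyclic_of_prime_card h5)
  exact ⟨t, by rw [← Nat.card_zpowers, ht, h5], by rw [ht, comap_map_eq_self h3]⟩


/-- In SL_2(q), q odd: any two subgroups of order 4 are conjugate, and the normaliser of a subgroup of order 4 has order 2(q − 1) if q ≡ 1 (mod 4) and 2(q + 1) if q ≡ 3 (mod 4); consequently all involutions of PSL_2(q) are conjugate. -/
theorem result {F : Type*} [Field F] [Fintype F] {q : ℕ} (hF : Fintype.card F = q) (hodd : Odd q) (A : Subgroup (Matrix.SpecialLinearGroup (Fin 2) F)) (hA : Nat.card A = 4) : (∀ B : Subgroup (Matrix.SpecialLinearGroup (Fin 2) F), Nat.card B = 4 → ∃ g : Matrix.SpecialLinearGroup (Fin 2) F, B = A.map (MulAut.conj g).toMonoidHom) ∧ (q % 4 = 1 → Nat.card ↥(Subgroup.normalizer (A : Set (Matrix.SpecialLinearGroup (Fin 2) F))) = 2 * (q - 1)) ∧ (q % 4 = 3 → Nat.card ↥(Subgroup.normalizer (A : Set (Matrix.SpecialLinearGroup (Fin 2) F))) = 2 * (q + 1))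 ∧ (∀ x y : Matrix.ProjectiveSpecialLinearGroup (Fin 2) F, orderOf x = 2 → orderOf y = 2 → IsConj x y) := by
  open CF.Classical MatrixGroups in
  rw [← Nat.card_eq_fintype_card] at hF
  subst hF
  have h2 := two_ne_zero_of_odd_card hodd
  have L := isL2_PSL F (AlgebraicClosure F)
  have := L.finite
  obtain ⟨t, ht, rfl⟩ := aux h2 A hA
  obtain ⟨x, y, hxy, h3⟩ := L.exists_torus_of_mul_self h2 (CF.Invol.mul_self_of_orderOf ht)
  have h4 := CF.Invol.ne_one_of_orderOf ht
  obtain ⟨⟨s, h5, h6⟩, h7⟩ := L.torus_cases hxy fun h => h4 ((Subgroup.eq_bot_iff_forall _).1 h t h3)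
  have h8 : Nat.card (Subgroup.normalizer
      (((Subgroup.zpowers t).comap (slToPSL F) : Subgroup SL(2, F)) : Set SL(2, F))) =
      2 * (Nat.card (torus PSL(2, F) x y) * 2) := by
    rw [← Subgroup.comap_normalizer_eq_of_surjective _ slToPSL_surjective,
      normalizer_eq_pairStab hxy (by simpa using h4) (Subgroup.zpowers_le.2 h3),
      card_comap_of_surjective slToPSL_surjective, card_pairStab hxy h5 h6, ker_slToPSL,
      card_center_SL, Fintype.card_fin, gcd_two_of_odd hodd, mul_comm _ 2]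
  have h9 : 2 ∣ Nat.card (torus PSL(2, F) x y) := ht.symm.dvd.trans (Subgroup.orderOf_dvd_natCard _ h3)
  rw [index_range_pslToPGL, gcd_two_of_odd hodd] at h7
  have h10 := Finite.one_lt_card (α := F)
  refine ⟨fun B hB => ?_, fun h => ?_, fun h => ?_, fun x y => isConj_invol_PSL h2⟩
  · obtain ⟨t', ht', rfl⟩ := aux h2 B hB
    obtain ⟨c, rfl⟩ := isConj_iff.1 (isConj_invol_PSL h2 ht ht')
    obtain ⟨c, rfl⟩ := slToPSL_surjective c
    refine ⟨c, Subgroup.ext fun g => ?_⟩
    rw [Subgroup.mem_map_equiv, Subgroup.mem_comap, Subgroup.mem_comap, MulAut.conj_symm_apply,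
      map_mul, map_mul, map_inv, ← MulAut.conj_symm_apply, ← Subgroup.mem_map_equiv,
      MonoidHom.map_zpowers]
    rfl
  · rw [h8]
    rcases h7 with ⟨-, h7⟩ | ⟨-, -, h7⟩ <;> omega
  · rw [h8]
    rcases h7 with ⟨-, h7⟩ | ⟨-, -, h7⟩ <;> omega

end Cfsg.Agent.S0809
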