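import Cfsg.Statements.S0828
import Cfsg.Agent.Geom.Levi

set_option autoImplicit false
open Cfsg

namespace Cfsg.Agent.S0828

/-- The symplectic generalised quadrangle over a field with q elements: the number of 2-dimensional subspaces of F^4 on which the symplectic form vanishes is (q + 1)(q² + 1), and every non-zero vector lies in exactly q + 1 of them. -/
theorem result {F : Type*} [Field F] [Fintype F] {q : ℕ} (hF : Fintype.card F = q) : Nat.card {W : Submodule F (Fin 2 ⊕ Fin 2 → F) // Module.finrank F W = 2 ∧ ∀ u ∈ W, ∀ v ∈ W, Cfsg.sympForm 2 F u v = 0} = (q + 1) * (q ^ 2 + 1) ∧ ∀ v : Fin 2 ⊕ Fin 2 → F, v ≠ 0 → Nat.card {W : Submodule F (Fin 2 ⊕ Fin 2 → F) // Module.finrank F W = 2 ∧ v ∈ W ∧ ∀ u ∈ W, ∀ w ∈ W, Cfsg.sympForm 2 F u w = 0} = q + 1 := by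
  subst hF
  have hP := CF.Geom.isWittPair_symp (F := F) 2
  have hq : 1 < Fintype.card F := Fintype.one_lt_card
  have hperp : ∀ W : Submodule F (Fin 2 ⊕ Fin 2 → F), (∀ u ∈ W, ∀ v ∈ W, Cfsg.sympForm 2 F u v = 0) ↔
      W ≤ CF.Geom.perp (CF.Geom.sympBilin 2 F) W := fun W =>
    ⟨fun h v hv => CF.Geom.mem_perp.2 fun u hu => by rw [CF.Geom.sympBilin_apply]; exact h u hu v hv,
      fun h u hu v hv => by rw [← CF.Geom.sympBilin_apply]; exact CF.Geom.mem_perp.1 (h hv) u hu⟩
  constructor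
  · obtain ⟨m, e, f, hf, hm⟩ := CF.Geom.exists_symp_frame (CF.Geom.sympBilin_nondegenerate (F := F) 2)
      (CF.Geom.sympBilin_isAlt 2)
    obtain rfl : m = 2 := by simp at hm; omega
    have hU' : Submodule.span F (Set.range e) ≤
        CF.Geom.perp (CF.Geom.sympBilin 2 F) (Submodule.span F (Set.range e)) :=
      Submodule.span_le.2 (by rintro _ ⟨i, rfl⟩; exact CF.Geom.mem_perp_range.2 fun j => hf.ee j i)
    have hk : Module.finrank F (Submodule.span F (Set.range e)) = 2 := by
      rw [finrank_span_eq_card (hf.linearIndependent_left hP)]; simp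
    have h1 := hP.card_eq_mul_totally_singular (fun _ _ => rfl) hU' hk
    obtain ⟨X, h3, h4, h5⟩ := hP.card_parabolic (CF.Geom.slideCard_alt _) (fun _ _ => rfl) hU' hk
    have h6 : Module.finrank F X = 2 * 0 := by
      rw [Module.finrank_fintype_fun_eq_card, Fintype.card_sum, Fintype.card_fin] at h4; omega
    rw [CF.Geom.card_SpG (hP.restrict h3).nondegenerate
      (fun x => CF.Geom.sympBilin_isAlt 2 (x : Fin 2 ⊕ Fin 2 → F)) h6, h6] at h5
    rw [hP.card_stabSet_totally_singular (fun _ _ => rfl) hU' hk, h5,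
      CF.Geom.card_SpG (CF.Geom.sympBilin_nondegenerate 2) (CF.Geom.sympBilin_isAlt 2) (m := 2)
        (by simp), Nat.card_eq_fintype_card (α := F)] at h1
    simp only [hperp]
    simp only [implies_true, true_and] at h1
    obtain ⟨r, hr⟩ : ∃ r, Fintype.card F = r + 1 := ⟨Fintype.card F - 1, by omega⟩
    have h7 : (r + 1) ^ 2 - 1 = r * (r + 2) := Nat.sub_eq_of_eq_add (by ring)
    have h8 : (r + 1) ^ 2 - (r + 1) = r * (r + 1) := Nat.sub_eq_of_eq_add (by ring)
    have h9 : (r + 1) ^ 4 - 1 = r * (r + 2) * ((r + 1) ^ 2 + 1) := Nat.sub_eq_of_eq_add (by ring)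
    simp only [hr, Finset.prod_range_succ, Fin.prod_univ_two, Finset.prod_range_zero, Fin.val_zero,
      Fin.val_one, pow_zero, pow_one, Nat.reduceAdd, Nat.reduceMul, h7, h8, h9] at h1
    have hr0 : 0 < r := by omega
    refine Nat.eq_of_mul_eq_mul_right (by positivity) (h1.symm.trans ?_)
    rw [hr]; norm_num; ring
  · intro v hv
    have h1 := hP.finrank_perp (F ∙ v)
    rw [finrank_span_singleton hv] at h1
    have h2 : (F ∙ v) ≤ CF.Geom.perp (CF.Geom.sympBilin 2 F) (F ∙ v) :=
      (Submodule.span_singleton_le_iff_mem _ _).2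
        (CF.Geom.mem_perp_singleton.2 (CF.Geom.sympBilin_isAlt 2 v))
    have h3 := CF.Geom.card_eq_mul_of_fibers (n := Nat.card F ^ 2 - Nat.card F ^ 1)
      (A := {w // w ∈ CF.Geom.perp (CF.Geom.sympBilin 2 F) (F ∙ v) ∧ w ∉ (F ∙ v)})
      (B := {W : Submodule F (Fin 2 ⊕ Fin 2 → F) // Module.finrank F W = 2 ∧ v ∈ W ∧
        ∀ u ∈ W, ∀ w ∈ W, Cfsg.sympForm 2 F u w = 0})
      (fun w => ⟨(F ∙ v) ⊔ F ∙ w.1, by
        rw [Submodule.finrank_sup_span_singleton w.2.2, finrank_span_singleton hv],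
        Submodule.mem_sup_left (Submodule.mem_span_singleton_self v), (hperp _).2 (by
          rw [CF.Geom.perp_sup]
          refine sup_le (le_inf h2 (hP.le_perp_comm.1 ?_)) (le_inf ?_ ?_)
          · exact (Submodule.span_singleton_le_iff_mem _ _).2 w.2.1
          · exact (Submodule.span_singleton_le_iff_mem _ _).2 w.2.1
          · exact (Submodule.span_singleton_le_iff_mem _ _).2
              (CF.Geom.mem_perp_singleton.2 (CF.Geom.sympBilin_isAlt 2 _)))⟩)
      (fun W => by
        have h4 := (Submodule.span_singleton_le_iff_mem _ _).2 W.2.2.1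
        have h5 := CF.Geom.card_mem_notMem h4
        rw [W.2.1, finrank_span_singleton hv] at h5
        rw [← h5]
        refine Nat.card_congr ⟨fun w => ⟨w.1.1, ?_, w.1.2.2⟩, fun w => ⟨⟨w.1,
          CF.Geom.perp_anti h4 ((hperp _).1 W.2.2.2 w.2.1), w.2.2⟩, Subtype.ext
            (CF.Geom.eq_of_le_of_finrank_le_succ h4
              (by rw [W.2.1, finrank_span_singleton hv]) w.2.1 w.2.2)⟩, fun _ => rfl, fun _ => rfl⟩
        exact (congrArg Subtype.val w.2).le
          (Submodule.mem_sup_right (Submodule.mem_span_singleton_self _)))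
    rw [CF.Geom.card_mem_notMem h2, finrank_span_singleton hv,
      show Module.finrank F (CF.Geom.perp (CF.Geom.sympBilin 2 F) (F ∙ v)) = 3 by
        simp at h1; omega, Nat.card_eq_fintype_card (α := F)] at h3
    obtain ⟨r, hr⟩ : ∃ r, Fintype.card F = r + 1 := ⟨Fintype.card F - 1, by omega⟩
    have h8 : (r + 1) ^ 2 - (r + 1) ^ 1 = r * (r + 1) := Nat.sub_eq_of_eq_add (by ring)
    have h9 : (r + 1) ^ 3 - (r + 1) ^ 1 = (r + 1 + 1) * (r * (r + 1)) :=
      Nat.sub_eq_of_eq_add (by ring)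
    have hr0 : 0 < r := by omega
    rw [hr, h8, h9] at h3
    rw [hr]
    exact Nat.eq_of_mul_eq_mul_right (by positivity) h3.symm

end Cfsg.Agent.S0828
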