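import Cfsg.Statements.S0829
import Cfsg.Agent.Geom.Levi

set_option autoImplicit false
open Cfsg

namespace Cfsg.Agent.S0829

/-- The unitary quadrangle of PSU_4(q): with |F| = q², the number of 2-dimensional subspaces of F^4 on which the Hermitian form Σ x_i y_i^q vanishes is (q + 1)(q³ + 1). -/
theorem result {F : Type*} [Field F] [Fintype F] {q : ℕ} (hF : Fintype.card F = q ^ 2) : Nat.card {W : Submodule F (Fin 4 → F) // Module.finrank F W = 2 ∧ ∀ u ∈ W, ∀ v ∈ W, Cfsg.hermForm 4 F q u v = 0} = (q + 1) * (q ^ 3 + 1) := by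
  obtain ⟨σ, h1, h2, h3⟩ := CF.Geom.exists_conj hF
  have hH := CF.Geom.isHerm_hermSesq (ι := Fin 4) h2 h3
  have hB := CF.Geom.hermSesq_nondegenerate (ι := Fin 4) σ
  have hP := hH.wittPair hB
  have hq := CF.Geom.two_le_of_card_eq_sq hF
  have hperp : ∀ W : Submodule F (Fin 4 → F), (∀ u ∈ W, ∀ v ∈ W, Cfsg.hermForm 4 F q u v = 0) ↔
      (∀ u ∈ W, CF.Geom.hermSesq (Fin 4) σ u u = CF.Geom.hermSesq (Fin 4) σ 0 0) ∧
      W ≤ CF.Geom.perp (CF.Geom.hermSesq (Fin 4) σ) W := fun W => by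
    simp only [CF.Geom.hermForm_eq h1]
    exact ⟨fun h => ⟨fun u hu => by rw [h u hu u hu]; simp,
      fun v hv => CF.Geom.mem_perp.2 fun u hu => h v hv u hu⟩,
      fun h u hu v hv => CF.Geom.mem_perp.1 (h.2 hu) v hv⟩
  obtain ⟨m, e, f, hf, -, hm, hm'⟩ := CF.Geom.exists_witt_decomp_herm hH hB
  obtain rfl : m = 2 := by simp at hm hm'; omega
  have hU' : Submodule.span F (Set.range e) ≤
      CF.Geom.perp (CF.Geom.hermSesq (Fin 4) σ) (Submodule.span F (Set.range e)) :=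
    Submodule.span_le.2 (by rintro _ ⟨i, rfl⟩; exact CF.Geom.mem_perp_range.2 fun j => hf.ee j i)
  have hU : ∀ u ∈ Submodule.span F (Set.range e),
      CF.Geom.hermSesq (Fin 4) σ u u = CF.Geom.hermSesq (Fin 4) σ 0 0 :=
    fun u hu => by rw [CF.Geom.mem_perp.1 (hU' hu) u hu]; simp
  have hk : Module.finrank F (Submodule.span F (Set.range e)) = 2 := by
    rw [finrank_span_eq_card (hf.linearIndependent_left hP)]; simp
  have h4 := hP.card_eq_mul_totally_singular hU hU' hk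
  obtain ⟨X, h5, h6, h7⟩ := hP.card_parabolic (CF.Geom.slideCard_herm hF h1 hH) hU hU' hk
  have h8 : Module.finrank F X = 0 := by
    rw [Module.finrank_fintype_fun_eq_card, Fintype.card_fin] at h6; omega
  rw [show CF.Geom.Isom _ (fun x : X => CF.Geom.hermSesq (Fin 4) σ x x) = CF.Geom.UG _ from rfl,
    CF.Geom.card_UG hF h1 0 (hH.restrict X) (hP.restrict h5).nondegenerate h8, h8] at h7
  rw [hP.card_stabSet_totally_singular hU hU' hk, h7, CF.Geom.card_UG hF h1 4 hH hB (by simp),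
    Nat.card_eq_fintype_card (α := F), hF] at h4
  simp only [hperp]
  generalize Nat.card {W : Submodule F (Fin 4 → F) // _} = N at h4 ⊢
  obtain ⟨r, rfl⟩ : ∃ r, q = r + 1 := ⟨q - 1, by omega⟩
  have h9 : (r + 1) ^ 2 - 1 = r * (r + 2) := Nat.sub_eq_of_eq_add (by ring)
  have h10 : ((r + 1) ^ 2) ^ 2 - (r + 1) ^ 2 = r * (r + 2) * (r + 1) ^ 2 :=
    Nat.sub_eq_of_eq_add (by ring)
  have h11 : ((r + 1) ^ 2) ^ 2 - 1 = r * (r + 2) * ((r + 1) ^ 2 + 1) :=
    Nat.sub_eq_of_eq_add (by ring)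
  have h12 : (r + 1) ^ 4 - 1 = r * (r + 2) * ((r + 1) ^ 2 + 1) := Nat.sub_eq_of_eq_add (by ring)
  simp only [Finset.prod_range_succ, Fin.prod_univ_two, Finset.prod_range_zero, Fin.val_zero,
    Fin.val_one, pow_zero, pow_one, Nat.reduceAdd, Nat.reduceMul, h10, h11] at h4
  norm_num [h9, h12, show ¬ Even 3 by decide, show Even 4 by decide] at h4
  have hr0 : 0 < r := by omega
  refine Nat.eq_of_mul_eq_mul_right (by positivity) (h4.symm.trans ?_)
  ring

end Cfsg.Agent.S0829
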