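import Cfsg.Statements.S0831
import Cfsg.Agent.Geom.Families

set_option autoImplicit false
open Cfsg

namespace Cfsg.Agent.S0831

/-- The two families of maximal totally singular subspaces of the hyperbolic quadric: for the form Σ x_i y_i on F^(2m), m ≥ 1, and m-dimensional subspaces U, W, X on which it vanishes, the parities of m − dim(U ∩ W), m − dim(W ∩ X) and m − dim(U ∩ X) sum to an even number (so 'even codimension of the intersection' is an equivalence relation), and there exist two such subspaces meeting in codimension 1 (so there are exactly two classes). -/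
theorem result {F : Type*} [Field F] (m : ℕ) (hm : 1 ≤ m) : (∀ U W X : Submodule F (Fin m ⊕ Fin m → F), (Module.finrank F U = m ∧ ∀ w ∈ U, Cfsg.quadFormPlus m F w = 0) → (Module.finrank F W = m ∧ ∀ w ∈ W, Cfsg.quadFormPlus m F w = 0) → (Module.finrank F X = m ∧ ∀ w ∈ X, Cfsg.quadFormPlus m F w = 0) → Even ((m - Module.finrank F ↥(U ⊓ W)) + (m - Module.finrank F ↥(W ⊓ X)) + (m - Module.finrank F ↥(U ⊓ X)))) ∧ ∃ U W : Submodule F (Fin m ⊕ Fin m → F), (Module.finrank F U = m ∧ ∀ w ∈ U, Cfsg.quadFormPlus m F w = 0) ∧ (Module.finrank F W = m ∧ ∀ w ∈ W, Cfsg.quadFormPlus m F w = 0) ∧ Module.finrank F ↥(U ⊓ W) + 1 = m := by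
  have hQ := CF.Geom.qPlus_nondegenerate (F := F) m
  refine ⟨fun U W X hU hW hX => ?_, ?_⟩
  · have := (CF.Geom.maxTS_qPlus_iff.2 hU).even_add hQ (CF.Geom.maxTS_qPlus_iff.2 hW)
      (CF.Geom.maxTS_qPlus_iff.2 hX)
    rwa [hU.1] at this
  · have : Nonempty (Fin m) := ⟨⟨0, hm⟩⟩
    obtain ⟨v, hv⟩ := CF.Geom.exists_nonsingular hQ
    have hU := CF.Geom.maxTS_ker_inr (F := F) m
    exact ⟨_, _, CF.Geom.maxTS_qPlus_iff.1 hU, CF.Geom.maxTS_qPlus_iff.1 (hU.map (CF.Geom.oRefl _ v)),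
      (hU.finrank_inf_map_oRefl hQ hv).trans (CF.Geom.maxTS_qPlus_iff.1 hU).1⟩

end Cfsg.Agent.S0831
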