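import Cfsg.Statements.S0833
import Cfsg.Agent.Geom.Tensor

set_option autoImplicit false
open Cfsg

namespace Cfsg.Agent.S0833

/-- If B₁, B₂ are non-degenerate alternating forms on U (dim 2k) and W (dim 2l), then B₁ ⊗ B₂ on U ⊗ W is symmetric, non-degenerate, and vanishes identically on some subspace of dimension 2kl (half of dim U ⊗ W). -/
theorem result {F U W : Type*} [Field F] [Fintype F] [AddCommGroup U] [Module F U] [FiniteDimensional F U] [AddCommGroup W] [Module F W] [FiniteDimensional F W] (B₁ : LinearMap.BilinForm F U) (B₂ : LinearMap.BilinForm F W) (h₁ : B₁.Nondegenerate) (h₂ : B₂.Nondegenerate) (hA₁ : B₁.IsAlt) (hA₂ : B₂.IsAlt) (k l : ℕ) (hU : Module.finrank F U = 2 * k) (hW : Module.finrank F W = 2 * l) : (B₁.tmul B₂).IsSymm ∧ (B₁.tmul B₂).Nondegenerate ∧ (∃ X : Submodule F (TensorProduct F U W), Module.finrank F X = 2 * k * l ∧ ∀ x ∈ X, ∀ y ∈ X, (B₁.tmul B₂) x y = 0) := by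
  refine ⟨CF.Geom.linSymm (CF.Geom.tmul_isSymm_of_mul fun x y x' y' => ?_),
    CF.Geom.tmul_nondegenerate h₁ h₂, ?_⟩
  · rw [← hA₁.neg_eq x x', ← hA₂.neg_eq y y']; ring
  obtain ⟨m, e, f, h1, h3⟩ := CF.Geom.exists_symp_frame h₁ hA₁
  obtain rfl : m = k := by omega
  obtain ⟨b, hb⟩ := h1.exists_basis' (CF.Geom.isWittPair_alt B₁ h₁ hA₁) (by simpa using h3)
  let c := Module.finBasisOfFinrankEq F W hW
  let v : Fin m × Fin (2 * l) → TensorProduct F U W := fun p => b.tensorProduct c (.inl p.1, p.2)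
  have hv : LinearIndependent F v := (b.tensorProduct c).linearIndependent.comp _
    (fun p q h => by simp only [Prod.mk.injEq, Sum.inl.injEq] at h; exact Prod.ext h.1 h.2)
  refine ⟨Submodule.span F (Set.range v), ?_, fun x hx y hy => ?_⟩
  · rw [finrank_span_eq_card hv]; simp; ring
  · exact CF.Geom.mem_perp.1 (CF.Geom.IsWittPair.span_le_perp_span (B := B₁.tmul B₂) (e := v)
      (fun i j => by simp [v, hb, h1.ee]) hy) x hx

end Cfsg.Agent.S0833
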