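import Cfsg.Statements.S0837
import Cfsg.Agent.Geom.Stab
import Cfsg.Agent.Geom.UElem

set_option autoImplicit false
open Cfsg

namespace Cfsg.Agent.S0837

/-- If W ≤ F^n (|F| = q²) is a k-dimensional subspace on which the Hermitian form Σ x_i y_i^q is non-degenerate, then the stabiliser of W in GU_n(q) is isomorphic to GU_k(q) × GU_(n−k)(q). -/
theorem result {F : Type*} [Field F] [Fintype F] {q : ℕ} (hF : Fintype.card F = q ^ 2) (n k : ℕ) (hk : k ≤ n) (W : Submodule F (Fin n → F)) (hWk : Module.finrank F W = k) (hW : ∀ u ∈ W, (∀ v ∈ W, Cfsg.hermForm n F q u v = 0) → u = 0) : Nonempty (↥((Cfsg.stabilizing (Cfsg.glToMat (Fin n) F) (W : Set (Fin n → F))).subgroupOf (Cfsg.GU n F q)) ≃* ↥(Cfsg.GU k F q) × ↥(Cfsg.GU (n - k) F q)) := by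
  obtain ⟨σ, h1, h2, h3⟩ := CF.Geom.exists_conj hF
  have hH := CF.Geom.isHerm_hermSesq (ι := Fin n) h2 h3
  have hP := CF.Geom.isWittPair_hermSesq (ι := Fin n) h2 h3
  have hd : Disjoint W (CF.Geom.perp (CF.Geom.hermSesq (Fin n) σ) W) := by
    rw [Submodule.disjoint_def]
    intro u hu hu'
    exact hW u hu fun v hv => by
      rw [CF.Geom.hermForm_eq h1]; exact CF.Geom.mem_perp.1 hu' v hv
  obtain ⟨e⟩ := hP.nonempty_stabEquiv hd
  have h4 := hP.finrank_perp W
  obtain ⟨a, ha⟩ := CF.Geom.exists_equiv_hermSesq h2 h3 (hH.restrict W).symm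
    (hP.restrict hd).nondegenerate hWk
  obtain ⟨b, hb⟩ := CF.Geom.exists_equiv_hermSesq h2 h3 (hH.restrict _).symm
    (hP.restrict (hP.disjoint_perp_perp hd)).nondegenerate (n := n - k) (by simp at h4; omega)
  exact ⟨(CF.Geom.stabilizingSubEquiv (Cfsg.glToMat (Fin n) F) _ (CF.Geom.guEquiv n h1)
    (fun _ _ => rfl) _).trans (e.trans (MulEquiv.prodCongr
      ((CF.Geom.isomCongr a ha fun x => ha x x).trans (CF.Geom.guEquiv k h1).symm)
      ((CF.Geom.isomCongr b hb fun x => hb x x).trans (CF.Geom.guEquiv (n - k) h1).symm)))⟩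

end Cfsg.Agent.S0837
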