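import Cfsg.Statements.S0839


set_option autoImplicit false
open Cfsg

namespace Cfsg.Agent.S0839

/-- Every transvection t ∈ SL_(n+2)(F) (rank(t − 1) = 1, (t − 1)² = 0) is conjugate in SL_(n+2)(F) to 1 + v·e_0ᵀ for some column vector v with v_0 = 0 (the group A of matrices that are the identity except in the first column below the diagonal); the dimension is written n + 2 ≥ 2. -/
theorem result {F : Type*} [Field F] (n : ℕ) (t : Matrix.SpecialLinearGroup (Fin (n + 2)) F) (ht : Cfsg.IsTransvection (t : Matrix (Fin (n + 2)) (Fin (n + 2)) F)) : ∃ (g : Matrix.SpecialLinearGroup (Fin (n + 2)) F) (v : Fin (n + 2) → F), v 0 = 0 ∧ ((g⁻¹ * t * g : Matrix.SpecialLinearGroup (Fin (n + 2)) F) : Matrix (Fin (n + 2)) (Fin (n + 2)) F) = 1 + Matrix.vecMulVec v (Pi.single 0 1) := by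
  open Matrix in
  obtain ⟨h1, h2⟩ := ht
  generalize hN : (t : Matrix (Fin (n + 2)) (Fin (n + 2)) F) - 1 = N at h1 h2
  obtain ⟨⟨u, hu⟩, h3, h4⟩ := finrank_eq_one_iff'.1 h1
  choose φ hφ using fun j => h4 ⟨_, Pi.single j 1, rfl⟩
  have h5 : N = vecMulVec u φ := by
    ext i j
    simpa [vecMulVec_apply, mul_comm] using (congrFun (congrArg Subtype.val (hφ j)) i).symm
  have h6 : u ≠ 0 := fun e => h3 (Subtype.ext e)
  have h7 : φ ≠ 0 := fun e => by simp [h5, e] at h1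
  obtain ⟨g, hg⟩ := MulAction.exists_smul_eq (SpecialLinearGroup (Fin (n + 2)) F)
    (Projectivization.mk F φ h7) (Projectivization.mk F (Pi.single 0 1) (by simp))
  obtain ⟨c, hc⟩ := (Projectivization.mk_eq_mk_iff' _ _ _ _ _).1 hg
  replace hc : c • Pi.single 0 1 = g.1 *ᵥ φ := hc
  have e1 : g.transpose⁻¹.1 * g.1ᵀ = 1 := congrArg Subtype.val (inv_mul_cancel g.transpose)
  refine ⟨g.transpose, c • (g.transpose)⁻¹.1 *ᵥ u, ?_, ?_⟩
  · have h8 : φ ⬝ᵥ u = 0 := by
      rw [h5, vecMulVec_mul_vecMulVec] at h2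
      simpa [h6, h7] using h2
    have h9 : (c • Pi.single 0 1) ⬝ᵥ ((g.transpose)⁻¹.1 *ᵥ u) = 0 := by
      rw [hc, ← vecMul_transpose, ← dotProduct_mulVec, mulVec_mulVec, mul_eq_one_comm.1 e1, one_mulVec, h8]
    simpa using h9
  · change g.transpose⁻¹.1 * t.1 * g.1ᵀ = _
    rw [sub_eq_iff_eq_add'.1 hN, mul_add, add_mul, mul_one, e1, h5, mul_vecMulVec, vecMulVec_mul,
      vecMul_transpose, ← hc, vecMulVec_smul, smul_vecMulVec]

end Cfsg.Agent.S0839
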