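import Cfsg.Statements.S0842
import Cfsg.Agent.Char.BSBig

set_option autoImplicit false
open Cfsg

namespace Cfsg.Agent.S0842

/-- Suppose a Sylow 2-subgroup S of the finite group G is generalized quaternion of order at least 16, and let D be the commutator subgroup of S, C its centralizer and N its normalizer in G. Then there is a subgroup K of odd order, contained in C and normalized by N, with K ⊔ S = N and K ⊔ (S ⊓ C) = C, and C has index 2 in N. -/
theorem result {G : Type*} [Group G] [Finite G] (S : Sylow 2 G) (n : ℕ) (e : (S : Subgroup G) ≃* QuaternionGroup (2 ^ (n + 2))) (D : Subgroup G) (hD : D = ⁅(S : Subgroup G), (S : Subgroup G)⁆) : ∃ K : Subgroup G, Odd (Nat.card K) ∧ K ≤ Subgroup.centralizer (D : Set G) ∧ Subgroup.normalizer (D : Set G) ≤ Subgroup.normalizer (K : Set G) ∧ K ⊔ (S : Subgroup G) = Subgroup.normalizer (D : Set G) ∧ K ⊔ ((S : Subgroup G) ⊓ Subgroup.centralizer (D : Set G)) = Subgroup.centralizer (D : Set G) ∧ ((Subgroup.centralizer (D : Set G)).subgroupOf (Subgroup.normalizer (D : Set G))).index =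 2 := by
  obtain ⟨a, b, h⟩ := CF.Char.exists_qSetup e
  have hm : 2 ≤ n + 2 := by omega
  rw [h.commutator_eq] at hD
  subst hD
  have h1 := (h.isSylowIn_centralizer hm).sup_pRes
  refine ⟨CF.Transfer.pRes 2 (Subgroup.centralizer (Subgroup.zpowers (a ^ 2) : Set G)),
    h.odd_card_K hm, CF.Transfer.pRes_le _, (CF.Transfer.normalizer_le_normalizer_centralizer _).trans
      (CF.Transfer.normalizer_le_normalizer_pRes _), le_antisymm (sup_le ((CF.Transfer.pRes_le _).trans
        (Subgroup.centralizer_le_normalizer _)) (h.le_normalizer_zpowers_pow 2)) fun g hg => ?_,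
    by rw [h.inf_centralizer_D hm, sup_comm, h1], h.relIndex_centralizer hm⟩
  obtain ⟨c, hc, s, hs, rfl⟩ := h.exists_mul_of_mem_normalizer hg
  rw [← h1] at hc
  exact Subgroup.mul_mem _ (sup_le (h.zpowers_le.trans le_sup_right) le_sup_left hc)
    (Subgroup.mem_sup_right hs)

end Cfsg.Agent.S0842
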