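import Cfsg.Statements.S0848
import Cfsg.Agent.GW.App

set_option autoImplicit false
open Cfsg

namespace Cfsg.Agent.S0848

open CF.GW CF.Invol CF.Transfer Subgroup

/-- If a finite group equals its own commutator subgroup and contains an involution whose centralizer is isomorphic to the dihedral group of order 8, then the group has order 168 or 360. -/
theorem result {G : Type*} [Group G] [Finite G] (hperf : commutator G = ⊤) (t : G) (ht : orderOf t = 2) (e : Subgroup.centralizer ({t} : Set G) ≃* DihedralGroup 4) : Nat.card G = 168 ∨ Nat.card G = 360 := by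
  have hG : ∀ H : Subgroup G, H.index ≠ 2 := fun H h => by
    haveI := normal_of_index_eq_two h
    have h1 : commutator G ≤ H := by
      haveI : Fact (Nat.card (G ⧸ H)).Prime := ⟨by rw [← index_eq_card, h]; exact Nat.prime_two⟩
      haveI := isCyclic_of_prime_card (α := G ⧸ H) rfl
      letI := IsCyclic.commGroup (α := G ⧸ H)
      rw [← QuotientGroup.ker_mk' H]
      exact Abelianization.commutator_subset_ker _
    rw [hperf, top_le_iff] at h1
    rw [h1, index_top] at h
    omega
  obtain ⟨a, b, h, hz, hS⟩ := exists_dh_centralizer (n := 2) ht le_rfl e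
  obtain ⟨Q, D, hb, h1⟩ := bsw_of_centralizer_eq h hS (by rw [hz]) hG
  have h2 := hb.card
  rw [hb.card_Q] at h2
  rcases h1 with h1 | h1
  · right; rw [h2, h1]; rfl
  · left; rw [h2, show Nat.card D = 3 by omega]

end Cfsg.Agent.S0848
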