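import Cfsg.Statements.S0849
import Cfsg.Agent.Clifford.Frob

set_option autoImplicit false
open Cfsg

namespace Cfsg.Agent.S0849

/-- Let H be a subgroup of a finite group G and S a subset of H that is mapped to itself under conjugation by H, is disjoint from its conjugate by any element outside H, and is closed under inverses. Let φ be a class function of H vanishing on H away from S, and let u, v be involutions of G. Then the sum of the induced function of φ over all products a * b with a conjugate to u and b conjugate to v equals the index of H times the sum of φ (a * b) over such pairs with a and b in H. -/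
theorem result {G : Type*} [Group G] [Fintype G] (H : Subgroup G) (S : Set G) (hSH : S ⊆ H) (hHS : ∀ h ∈ H, ∀ s ∈ S, h * s * h⁻¹ ∈ S) (hTI : ∀ g : G, g ∉ H → ∀ s ∈ S, g * s * g⁻¹ ∉ S) (hinv : ∀ s ∈ S, s⁻¹ ∈ S) (φ : H → ℂ) (hφ : Cfsg.IsClassFunction H φ) (hφS : ∀ x : H, (x : G) ∉ S → φ x = 0) (u v : G) (hu : orderOf u = 2) (hv : orderOf v = 2) : ∑ᶠ p ∈ {p : G × G | IsConj u p.1 ∧ IsConj v p.2}, Cfsg.indFun H φ (p.1 * p.2) = (H.index : ℂ) * ∑ᶠ p ∈ {p : H × H | IsConj u (p.1 : G) ∧ IsConj v (p.2 : G)}, φ (p.1 * p.2) := by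
  classical
  rw [finsum_mem_eq_toFinset_sum, finsum_mem_eq_toFinset_sum]
  set T := {p : G × G | IsConj u p.1 ∧ IsConj v p.2}.toFinset with hT
  have h1 : ∀ x : G, ∑ p ∈ T, Cfsg.extendByZero H φ (x * (p.1 * p.2) * x⁻¹) =
      ∑ p ∈ T, Cfsg.extendByZero H φ (p.1 * p.2) := fun x => by
    have key : ∀ a b : G, IsConj a b ↔ IsConj a (x * b * x⁻¹) := fun a b =>
      ⟨fun h => h.trans (isConj_iff.2 ⟨x, rfl⟩), fun h => h.trans (isConj_iff.2 ⟨x, rfl⟩).symm⟩
    refine Finset.sum_equiv (Equiv.prodCongr (MulAut.conj x).toEquiv (MulAut.conj x).toEquiv)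
      (fun p => ?_) fun p _ => ?_
    · simp only [hT, Set.mem_toFinset]
      exact and_congr (key _ _) (key _ _)
    · congr 1; simp [mul_assoc]
  have h2 : ∑ p ∈ T, Cfsg.extendByZero H φ (p.1 * p.2) =
      ∑ p ∈ {p : H × H | IsConj u (p.1 : G) ∧ IsConj v (p.2 : G)}.toFinset, φ (p.1 * p.2) := by
    symm
    refine Finset.sum_bij_ne_zero (fun p _ _ => ((p.1 : G), (p.2 : G))) (fun p hp _ => ?_)
      (fun a _ _ b _ _ h => Prod.ext (Subtype.ext (congrArg Prod.fst h))
        (Subtype.ext (congrArg Prod.snd h))) (fun p hp h0 => ?_) (fun p _ _ => ?_)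
    · simp only [hT, Set.mem_toFinset] at hp ⊢; exact hp
    · simp only [hT, Set.mem_toFinset] at hp
      have h3 : p.1 * p.2 ∈ H := by
        by_contra h; exact h0 (CF.Clifford.extendByZero_of_not_mem H φ h)
      rw [CF.Clifford.extendByZero_of_mem H φ h3] at h0
      have h4 : p.1 * p.2 ∈ S := by
        by_contra h; exact h0 (hφS _ h)
      have sq : ∀ a b : G, orderOf a = 2 → IsConj a b → b * b = 1 := by
        intro a b ha hab
        obtain ⟨x, rfl⟩ := isConj_iff.1 hab
        rw [← sq, conj_pow, ← ha, pow_orderOf_eq_one]; simp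
      have h5 : p.1 ∈ H := by
        by_contra h
        refine hTI _ h _ h4 ?_
        have : p.1 * (p.1 * p.2) * p.1⁻¹ = (p.1 * p.2)⁻¹ := by
          rw [← mul_assoc, sq u _ hu hp.1, one_mul, mul_inv_rev,
            ← eq_inv_of_mul_eq_one_left (sq v _ hv hp.2)]
        rw [this]; exact hinv _ h4
      have h6 : p.2 ∈ H := (H.mul_mem_cancel_left h5).1 h3
      exact ⟨(⟨_, h5⟩, ⟨_, h6⟩), Set.mem_toFinset.2 hp, h0, rfl⟩
    · exact (CF.Clifford.extendByZero_of_mem H φ (p.1 * p.2).2).symm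
  simp only [CF.Char.indFun_apply', ← Finset.mul_sum]
  rw [Finset.sum_comm]
  simp only [h1, Finset.sum_const, Finset.card_univ, nsmul_eq_mul]
  rw [h2, CF.Char.index_eq_div_complex, Nat.card_eq_fintype_card (α := G), mul_assoc]

end Cfsg.Agent.S0849
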