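import Cfsg.Statements.S0851
import Cfsg.Agent.Clifford.Frob

set_option autoImplicit false
open Cfsg

namespace Cfsg.Agent.S0851

theorem aux {G : Type*} [Group G] [Finite G] (K N : Subgroup G) [(K.subgroupOf N).Normal]
    (hC : ∀ g : N, g ∉ K.subgroupOf N → K.subgroupOf N ⊓ Subgroup.centralizer {g} = ⊥)
    (hab : ∀ a ∈ K, ∀ b ∈ K, a * b = b * a) {χ : N → ℂ} (hχ : Cfsg.IsIrrCharacter N χ)
    (hK : ¬ K.subgroupOf N ≤ CF.Char.charKer χ) : χ 1 = (K.subgroupOf N).index := by
  have := Fintype.ofFinite N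
  obtain ⟨τ, hτ, -, h⟩ := CF.Clifford.exists_eq_indFun_of_fpf (K.subgroupOf N) hC hχ hK
  rw [h, CF.Char.indFun_one, CF.Char.irr_one_eq_one_of_comm
    (fun a b => Subtype.ext (Subtype.ext (hab _ a.2 _ b.2))) hτ, mul_one]

/-- Let K be a subgroup of the finite group G that meets each conjugate by an element outside its normalizer N trivially, is properly contained in N, and contains the centralizer of each of its non-identity elements (a T.I. subgroup with Frobenius normalizer). Suppose K is abelian, let e be the index of K in N, and call an irreducible character of N relevant when it takes at some element of K a value different from its degree. Then either there is exactly one relevant character and K is an elementary abelian p-group of order e + 1 for some prime p, or there are a sign ε and an injective map f from the relevant characters to the irreducible characters of G such that inducing χ - ξ to G gives ε (f χ - f ξ) for all relevant χ and ξ. -/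
theorem result {G : Type*} [Group G] [Fintype G] (K : Subgroup G) (hTI : ∀ g : G, g ∉ Subgroup.normalizer (K : Set G) → ∀ k ∈ K, g * k * g⁻¹ ∈ K → k = 1) (hlt : K < Subgroup.normalizer (K : Set G)) (hC : ∀ k ∈ K, k ≠ 1 → Subgroup.centralizer ({k} : Set G) ≤ K) (hab : ∀ a ∈ K, ∀ b ∈ K, a * b = b * a) : (Nat.card {χ : Cfsg.IrrCharacter (Subgroup.normalizer (K : Set G)) // ∃ k : Subgroup.normalizer (K : Set G), (k : G) ∈ K ∧ (χ : ↥(Subgroup.normalizer (K : Set G)) → ℂ) k ≠ (χ : ↥(Subgroup.normalizer (K : Set G)) → ℂ) 1} = 1 ∧ ∃ p : ℕ, p.Prime ∧ Cfsg.IsElementaryAbelian p K ∧ Nat.card K = (K.subgroupOf (Subgroup.normalizer (K : Set G))).index + 1) ∨ ∃ (ε : ℂ) (f : {χ : Cfsg.IrrCharacter (Subgroup.normalizer (K : Set G)) // ∃ k : Subgroup.normalizer (K : Set G), (k : G) ∈ K ∧ (χ : ↥(Subgroup.normalizer (K : Set G)) → ℂ) k ≠ (χ : ↥(Subgroup.normalizer (K : Set G)) → ℂ) 1} → Cfsg.IrrCharacter G), (ε = 1 ∨ ε = -1) ∧ Function.Injective f ∧ ∀ χ ξ, Cfsg.indFun (Subgroup.normalizer (K : Set G)) ((χ.1 : ↥(Subgroup.normalizer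 (K : Set G)) → ℂ) - (ξ.1 : ↥(Subgroup.normalizer (K : Set G)) → ℂ)) = ε • ((f χ : G → ℂ) - (f ξ : G → ℂ)) := by
  right
  refine CF.Clifford.exists_exceptional hTI hC _ (fun χ => χ.1.2)
    (fun a b h => Subtype.ext (Subtype.ext h))
    (fun χ => (CF.Clifford.not_le_charKer_iff _ (CF.Char.irr_isCharacter χ.1.2)).2 χ.2)
    fun a b => ?_
  rw [aux K _ (CF.Clifford.fpf_subgroupOf_normalizer hC) hab a.1.2
      ((CF.Clifford.not_le_charKer_iff _ (CF.Char.irr_isCharacter a.1.2)).2 a.2),
    aux K _ (CF.Clifford.fpf_subgroupOf_normalizer hC) hab b.1.2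
      ((CF.Clifford.not_le_charKer_iff _ (CF.Char.irr_isCharacter b.1.2)).2 b.2)]

end Cfsg.Agent.S0851
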