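import Cfsg.Statements.S0856
import Cfsg.Agent.Clifford.Gallagher

set_option autoImplicit false
open Cfsg

namespace Cfsg.Agent.S0856

/-- Let N be a normal subgroup of the finite group G and φ, ϑ irreducible characters of N that are invariant under conjugation by G, such that the pointwise product φ * ϑ is irreducible and ϑ is the restriction of an irreducible character χ of G. Then multiplication by χ is a bijection from the set of irreducible characters of G having nonzero inner product with the function induced from φ onto the set of those having nonzero inner product with the function induced from φ * ϑ. -/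
theorem result {G : Type*} [Group G] [Fintype G] (N : Subgroup G) [hN : N.Normal] (φ ϑ : N → ℂ) (hφ : Cfsg.IsIrrCharacter N φ) (hϑ : Cfsg.IsIrrCharacter N ϑ) (hφinv : ∀ (g : G) (n : N), φ ⟨g * n * g⁻¹, hN.conj_mem (n : G) n.2 g⟩ = φ n) (hϑinv : ∀ (g : G) (n : N), ϑ ⟨g * n * g⁻¹, hN.conj_mem (n : G) n.2 g⟩ = ϑ n) (hprod : Cfsg.IsIrrCharacter N (φ * ϑ)) (χ : G → ℂ) (hχ : Cfsg.IsIrrCharacter G χ) (hext : ∀ n : N, χ n = ϑ n) : Set.BijOn (fun β : G → ℂ => β * χ) {β : G → ℂ | Cfsg.IsIrrCharacter G β ∧ Cfsg.classInner (Cfsg.indFun N φ) β ≠ 0} {ψ : G → ℂ | Cfsg.IsIrrCharacter G ψ ∧ Cfsg.classInner (Cfsg.indFun N (φ * ϑ)) ψ ≠ 0} := by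
  classical
  let E := CF.Clifford.NormalEmb.sub N
  have key : ∀ (α : N → ℂ) (ψ : G → ℂ), IsIrrCharacter G ψ →
      (classInner (indFun N α) ψ ≠ 0 ↔ classInner (fun n => ψ (E.ι n)) α ≠ 0) := by
    intro α ψ hψ
    rw [CF.Char.inner_indFun_left N α (CF.Char.irr_isClassFunction hψ),
      CF.Clifford.inner_irr_ne_zero_comm]
    rfl
  have hχ' := CF.Char.irr_isCharacter hχ
  refine ⟨?_, ?_, ?_⟩
  · rintro β ⟨hβ, h1⟩
    rw [key _ _ hβ] at h1
    have h2 := E.gallagher_irr hφ hφinv hprod hχ' hext hβ h1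
    refine ⟨h2, ?_⟩
    rw [key _ _ h2, E.gallagher_over hφ hφinv hprod hext hβ h1]
    exact h1
  · rintro β ⟨hβ, h1⟩ γ ⟨hγ, h2⟩ h
    exact E.gallagher_inj hφ hφinv hprod hχ' hext hβ hγ ((key _ _ hβ).mp h1) ((key _ _ hγ).mp h2) h
  · rintro ψ ⟨hψ, h1⟩
    obtain ⟨β, hβ, h2, h3⟩ := E.gallagher_surj hφ hφinv hprod hχ' hext hψ ((key _ _ hψ).mp h1)
    exact ⟨β, ⟨hβ, (key _ _ hβ).mpr h2⟩, h3⟩

end Cfsg.Agent.S0856
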