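import Cfsg.Statements.S0861
import Cfsg.Agent.Clifford.Small
import Cfsg.Agent.Coprime.SemiReg

set_option autoImplicit false
open Cfsg

namespace Cfsg.Agent.S0861

/-- Let P be a normal abelian Sylow p-subgroup of the finite group G and suppose some element g of P has centralizer exactly P. Then the number of irreducible characters of G is at most the order of P, and if equality holds then G / P is abelian (the commutator subgroup lies in P). -/
theorem result {G : Type*} [Group G] [Finite G] (p : ℕ) [Fact p.Prime] (P : Sylow p G) [(P : Subgroup G).Normal] (hab : ∀ a ∈ P, ∀ b ∈ P, a * b = b * a) (g : G) (hg : g ∈ P) (hC : Subgroup.centralizer ({g} : Set G) = P) : Nat.card (Cfsg.IrrCharacter G) ≤ Nat.card P ∧ (Nat.card (Cfsg.IrrCharacter G) = Nat.card P → commutator G ≤ P) := by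
  classical
  have hp : p.Prime := Fact.out
  have := Fintype.ofFinite G
  let S := Finset.univ.filter fun x : G => Subgroup.zpowers x = Subgroup.zpowers g
  have hS : ∀ x, x ∈ S ↔ Subgroup.zpowers x = Subgroup.zpowers g := fun x => by simp [S]
  have hSP : ∀ x ∈ S, x ∈ (P : Subgroup G) := fun x hx =>
    Subgroup.zpowers_le.2 hg ((hS x).1 hx ▸ Subgroup.mem_zpowers x)
  have hb : ∀ χ : Cfsg.IrrCharacter G, (S.card : ℝ) ≤ ∑ x ∈ S, ‖(χ : G → ℂ) x‖ ^ 2 := fun χ => by
    refine CF.Char.card_le_sum_norm_sq (CF.Char.gen_of_irr χ.2) S (fun m hm x hx => ?_)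
      fun x hx h0 => ?_
    · rw [hS, ← (hS x).1 hx]
      exact le_antisymm (Subgroup.zpowers_le.2 (Subgroup.npow_mem_zpowers x m))
        (Subgroup.zpowers_le.2 (mem_zpowers_pow_iff.2 (by
          rw [Nat.gcd_comm]; exact (hm.coprime_dvd_right (orderOf_dvd_natCard x)).symm)))
    · obtain ⟨d, -, hd⟩ := CF.Char.irr_one_eq_nat χ.2
      obtain ⟨k, hk⟩ := P.isPGroup' ⟨x, hSP x hx⟩
      have h1 := CF.Clifford.dvd_of_gen_eq_zero (CF.Char.gen_of_irr χ.2) hp
        (congrArg Subtype.val hk) h0 (d := d) (by simpa using hd)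
      exact P.not_dvd_index ((Int.natCast_dvd_natCast.1 h1).trans
        (CF.Clifford.irr_one_dvd_index_of_normal_comm _ hab χ.2 hd))
  have hsum : ∑ χ : Cfsg.IrrCharacter G, ∑ x ∈ S, ‖(χ : G → ℂ) x‖ ^ 2 = S.card * Nat.card P := by
    rw [Finset.sum_comm, Finset.sum_congr rfl (g := fun _ => (Nat.card P : ℝ)), Finset.sum_const,
      nsmul_eq_mul]
    intro x hx
    rw [CF.Char.sum_irr_norm_sq, ← CF.Coprime.centralizer_zpowers_eq, (hS x).1 hx,
      CF.Coprime.centralizer_zpowers_eq, hC]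
  have hpos : (0 : ℝ) < S.card := by
    exact_mod_cast Finset.card_pos.2 ⟨g, (hS g).2 rfl⟩
  have hconst : ∑ _χ : Cfsg.IrrCharacter G, (S.card : ℝ) =
      S.card * Nat.card (Cfsg.IrrCharacter G) := by
    rw [Finset.sum_const, Finset.card_univ, nsmul_eq_mul, Nat.card_eq_fintype_card, mul_comm]
  constructor
  · have := Finset.sum_le_sum fun χ (_ : χ ∈ Finset.univ) => hb χ
    rw [hsum, hconst] at this
    exact_mod_cast le_of_mul_le_mul_left this hpos
  · intro h x hx
    by_contra hxP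
    obtain ⟨χ, hχ, h1, h2⟩ := CF.Char.exists_irr_le_charKer_not_mem (P : Subgroup G) hxP
    have h3 := (Finset.sum_eq_sum_iff_of_le fun χ (_ : χ ∈ Finset.univ) => hb χ).1
      (by rw [hsum, hconst, h]) ⟨χ, hχ⟩ (Finset.mem_univ _)
    obtain ⟨d, hd0, hd⟩ := CF.Char.irr_one_eq_nat hχ
    rw [Finset.sum_congr rfl (g := fun _ => (d : ℝ) ^ 2) (fun y hy => by
      change ‖χ y‖ ^ 2 = _
      rw [(CF.Char.mem_charKer_iff (CF.Char.irr_isCharacter hχ)).1 (h1 (hSP y hy)), hd]; simp),
      Finset.sum_const, nsmul_eq_mul] at h3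
    have h4 : (d : ℝ) ^ 2 = 1 := by
      apply mul_left_cancel₀ hpos.ne'; rw [← h3, mul_one]
    have h5 : d = 1 := by
      have : d ^ 2 = 1 := by exact_mod_cast h4
      nlinarith
    exact h2 ((CF.Char.irr_one_eq_one_iff hχ).1 (by rw [hd, h5]; simp) hx)

end Cfsg.Agent.S0861
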