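import Cfsg.Statements.S0875
import Cfsg.Agent.Clifford.BrauerApp

set_option autoImplicit false
open Cfsg

namespace Cfsg.Agent.S0875

/-- Let G be a finite group of order m * n with m and n coprime, and g an element whose order is coprime to m. Every x in G factors uniquely as x = u * v with u, v commuting, the order of u coprime to n and the order of v coprime to m; let ϑ be the function on G equal to n at those x whose factor v is conjugate to g and equal to 0 elsewhere. Then ϑ is a linear combination of the irreducible characters of G with algebraic-integer coefficients. -/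
theorem result {G : Type*} [Group G] [Fintype G] (m n : ℕ) (hmn : Nat.card G = m * n) (hcop : Nat.Coprime m n) (g : G) (hg : Nat.Coprime (orderOf g) m) (ϑ : G → ℂ) (hϑ1 : ∀ x : G, (∃ v : G, IsConj v g ∧ (∃ u : G, x = u * v ∧ Commute u v ∧ Nat.Coprime (orderOf u) n ∧ Nat.Coprime (orderOf v) m)) → ϑ x = n) (hϑ0 : ∀ x : G, (¬ ∃ v : G, IsConj v g ∧ (∃ u : G, x = u * v ∧ Commute u v ∧ Nat.Coprime (orderOf u) n ∧ Nat.Coprime (orderOf v) m)) → ϑ x = 0) : ∃ c : Cfsg.IrrCharacter G → ℂ, (∀ χ, c χ ∈ Cfsg.AlgInt) ∧ ϑ = ∑ᶠ χ : Cfsg.IrrCharacter G, c χ • (χ : G → ℂ) := by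
  classical
  obtain ⟨k, hk, hm⟩ := CF.Clifford.exists_pow_exp hcop
  have he : ϑ = fun x => if IsConj g (x ^ k) then (n : ℂ) else 0 := by
    ext x
    have hdiv : ∀ y : G, orderOf y ∣ m * n := fun y => hmn ▸ orderOf_dvd_natCard y
    split_ifs with h
    · obtain ⟨u, v, -, -, huv, hc, hu, hv⟩ := CF.Clifford.exists_coprime_split x hcop (hdiv x)
      have := CF.Clifford.mul_pow_eq_right hc (orderOf_dvd_iff_pow_eq_one.1 hu)
        (orderOf_dvd_iff_pow_eq_one.1 hv) hk hm
      rw [huv] at this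
      exact hϑ1 x ⟨v, (this ▸ h).symm, u, huv.symm, hc, hcop.coprime_dvd_left hu,
        hcop.symm.coprime_dvd_left hv⟩
    · refine hϑ0 x ?_
      rintro ⟨v, hv, u, rfl, hc, h1, h2⟩
      apply h
      rw [CF.Clifford.mul_pow_eq_right hc
        (orderOf_dvd_iff_pow_eq_one.1 (h1.dvd_of_dvd_mul_right (hdiv u)))
        (orderOf_dvd_iff_pow_eq_one.1 (h2.dvd_of_dvd_mul_left (hdiv v))) hk hm]
      exact hv.symm
  refine ⟨fun χ => Cfsg.classInner ϑ χ, fun χ => ?_, ?_⟩
  · rw [he]
    exact CF.Clifford.isIntegral_inner_section hcop hmn.dvd hk hm g (CF.Char.gen_of_irr χ.2)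
  · rw [finsum_eq_sum_of_fintype]
    refine CF.Char.classFun_eq_sum ?_
    rw [he]
    intro x y
    have : IsConj g (y * x ^ k * y⁻¹) ↔ IsConj g (x ^ k) :=
      ⟨fun h => h.trans (isConj_iff.2 ⟨y, rfl⟩).symm, fun h => h.trans (isConj_iff.2 ⟨y, rfl⟩)⟩
    simp only [conj_pow, this]

end Cfsg.Agent.S0875
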