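import Cfsg.Statements.S0876
import Cfsg.Agent.Clifford.BrauerApp
import Cfsg.Agent.BlockB.PPart

set_option autoImplicit false
open Cfsg

namespace Cfsg.Agent.S0876

/-- Let G be a finite group, p a prime and M a maximal ideal of the ring of algebraic integers containing p. Let x, y be elements with p-parts a and b (so a⁻¹ * x and b⁻¹ * y are their p-regular parts). Then a⁻¹ * x and b⁻¹ * y are conjugate in G if and only if, for every irreducible character χ, the difference χ x - χ y lies in the local ideal at M. -/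
theorem result {G : Type*} [Group G] [Finite G] (p : ℕ) (M : Ideal Cfsg.AlgInt) (hM : Cfsg.IsPModular p M) (x y a b : G) (ha : Cfsg.IsPPart p x a) (hb : Cfsg.IsPPart p y b) : IsConj (a⁻¹ * x) (b⁻¹ * y) ↔ ∀ χ : Cfsg.IrrCharacter G, Cfsg.MemLocalIdeal M ((χ : G → ℂ) x - (χ : G → ℂ) y) := by
  classical
  have := Fintype.ofFinite G
  have hp := hM.1
  obtain ⟨u, rfl, hau, ha1, hu⟩ := ha
  obtain ⟨w, rfl, hbw, hb1, hw⟩ := hb
  rw [inv_mul_cancel_left, inv_mul_cancel_left]
  have hint : ∀ χ : Cfsg.IrrCharacter G,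
      IsIntegral ℤ ((χ : G → ℂ) (a * u) - (χ : G → ℂ) (b * w)) := fun χ =>
    (CF.Char.char_isIntegral (CF.Char.irr_isCharacter χ.2) _).sub
      (CF.Char.char_isIntegral (CF.Char.irr_isCharacter χ.2) _)
  simp only [fun χ => CF.BlockB.memLocalIdeal_iff_of_isIntegral hM (hint χ)]
  constructor
  · intro h χ
    have h1 := CF.BlockB.v_char_mul_sub_lt_one hM (CF.Char.irr_isCharacter χ.2) hau ha1
    have h2 := CF.BlockB.v_char_mul_sub_lt_one hM (CF.Char.irr_isCharacter χ.2) hbw hb1
    rw [CF.Char.classFun_of_isConj (CF.Char.irr_isClassFunction χ.2) h] at h1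
    exact CF.BlockB.v_sub_lt_one_trans h1 (CF.BlockB.v_sub_lt_one_symm h2)
  · intro h
    by_contra hne
    obtain ⟨e, n, hn, hG⟩ :=
      Nat.exists_eq_pow_mul_and_not_dvd (Nat.card_pos (α := G)).ne' p hp.ne_one
    have hcop : (p ^ e).Coprime n := ((Nat.Prime.coprime_iff_not_dvd hp).2 hn).pow_left e
    obtain ⟨k, hk, hm⟩ := CF.Clifford.exists_pow_exp hcop
    have key : ∀ a u : G, Commute a u → (∃ k, orderOf a = p ^ k) → ¬ p ∣ orderOf u →
        (a * u) ^ k = u := by
      rintro a u hc ⟨j, hj⟩ hu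
      refine CF.Clifford.mul_pow_eq_right hc (orderOf_dvd_iff_pow_eq_one.1 ?_)
        (orderOf_dvd_iff_pow_eq_one.1 ?_) hk hm
      · exact (hj ▸ ((Nat.Prime.coprime_iff_not_dvd hp).2 hn).pow_left j :
          (orderOf a).Coprime n).dvd_of_dvd_mul_right (hG ▸ orderOf_dvd_natCard a)
      · exact (((Nat.Prime.coprime_iff_not_dvd hp).2 hu).symm.pow_right e).dvd_of_dvd_mul_left
          (hG ▸ orderOf_dvd_natCard u)
    let F : G → ℂ := fun x => if IsConj u (x ^ k) then (n : ℂ) else 0
    have hF : Cfsg.IsClassFunction G F := fun x y => by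
      have : IsConj u (y * x ^ k * y⁻¹) ↔ IsConj u (x ^ k) :=
        ⟨fun h => h.trans (isConj_iff.2 ⟨y, rfl⟩).symm, fun h => h.trans (isConj_iff.2 ⟨y, rfl⟩)⟩
      simp only [F, conj_pow, this]
    have h1 : F (a * u) - F (b * w) = n := by
      simp only [F, key a u hau ha1 hu, key b w hbw hb1 hw]
      rw [if_pos (IsConj.refl u), if_neg hne, sub_zero]
    rw [CF.Char.classFun_apply_eq_sum hF, CF.Char.classFun_apply_eq_sum hF (b * w),
      ← Finset.sum_sub_distrib] at h1
    apply hn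
    rw [← CF.BlockB.v_natCast_lt_one_iff hM, ← h1]
    refine CF.BlockB.v_sum_lt_one fun χ _ => ?_
    rw [← mul_sub]
    exact CF.BlockB.v_mul_lt_one_right (CF.BlockB.v_le_one_of_isIntegral M
      (CF.Clifford.isIntegral_inner_section hcop hG.dvd hk hm u (CF.Char.gen_of_irr χ.2))) (h χ)

end Cfsg.Agent.S0876
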