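import Cfsg.Statements.S0879
import Cfsg.Agent.Perm.Zass2

set_option autoImplicit false
open Cfsg

namespace Cfsg.Agent.S0879

/-- Let G be a Zassenhaus group on the finite set Ω and E the stabilizer of two distinct points a, b. Then an element outside the normalizer of E conjugates no non-identity element of E into E, and E has index 2 in its normalizer. -/
theorem result {G Ω : Type*} [Group G] [Finite G] [MulAction G Ω] [Fintype Ω] (hZ : Cfsg.IsZassenhausGroup G Ω) {a b : Ω} (hab : a ≠ b) : (∀ g : G, g ∉ Subgroup.normalizer ((MulAction.stabilizer G a ⊓ MulAction.stabilizer G b : Subgroup G) : Set G) → ∀ x ∈ (MulAction.stabilizer G a ⊓ MulAction.stabilizer G b : Subgroup G), g * x * g⁻¹ ∈ (MulAction.stabilizer G a ⊓ MulAction.stabilizer G b : Subgroup G) → x = 1) ∧ ((MulAction.stabilizer G a ⊓ MulAction.stabilizer G b : Subgroup G).subgroupOf (Subgroup.normalizer ((MulAction.stabilizer G a ⊓ MulAction.stabilizer G b : Subgroup G) : Set G))).index = 2 := by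
  constructor
  · intro g hg x hx h
    by_contra hx1
    exact hg ((CF.Perm.Zass.mem_normalizer_stab2 hZ hab).2
      ((CF.Perm.Zass.three hZ).fix_or_swap hab hx hx1 h))
  · obtain ⟨s, h1, h2⟩ := CF.Perm.twoTrans_iff.1 hZ.2.1 a b b a hab hab.symm
    rw [Subgroup.index_eq_two_iff]
    refine ⟨⟨s, (CF.Perm.Zass.mem_normalizer_stab2 hZ hab).2 (Or.inr ⟨h1, h2⟩)⟩, ?_⟩
    rintro ⟨g, hg⟩
    simp only [Subgroup.mem_subgroupOf, Subgroup.coe_mul, Subgroup.mem_inf,
      MulAction.mem_stabilizer_iff, mul_smul, h1, h2]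
    rcases (CF.Perm.Zass.mem_normalizer_stab2 hZ hab).1 hg with h | h
    · right
      exact ⟨h, fun h' => hab (h'.1.symm.trans h.2)⟩
    · left
      exact ⟨⟨h.2, h.1⟩, fun h' => hab (h'.1.symm.trans h.1)⟩

end Cfsg.Agent.S0879
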