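import Cfsg.Statements.S0882
import Cfsg.Agent.Perm.ZassInv

set_option autoImplicit false
open Cfsg

namespace Cfsg.Agent.S0882

/-- Let G be a finite simple Zassenhaus group on Ω with n = h + 1 points whose two-point stabilizer E has odd order e with 2e < h - 1. Then any two involutions of G are conjugate, and the number of involutions is e * (h + 1) if h is even and e * h if h is odd. -/
theorem result {G Ω : Type*} [Group G] [Finite G] [MulAction G Ω] [Fintype Ω] (hZ : Cfsg.IsZassenhausGroup G Ω) {a b : Ω} (hab : a ≠ b) [IsSimpleGroup G] (h e : ℕ) (hh : Fintype.card Ω = h + 1) (he : Nat.card ↥(MulAction.stabilizer G a ⊓ MulAction.stabilizer G b : Subgroup G) = e) (hodd : Odd e) (hlt : 2 * e < h - 1) : (∀ x y : G, orderOf x = 2 → orderOf y = 2 → IsConj x y) ∧ Nat.card {x : G // orderOf x = 2} = (if Even h then e * (h + 1) else e * h) := by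
  subst he
  have I := CF.Perm.Zass.zInv hZ hab hodd
  have : Nonempty Ω := ⟨a⟩
  rw [← Nat.card_eq_fintype_card] at hh
  refine ⟨fun x y hx hy => I.isConj_invol hx hy, ?_⟩
  split_ifs with h1
  · rw [(I.card_invol_of_odd (hh ▸ h1.add_one) hab).1, hh, mul_comm]
  · rw [I.card_invol_of_even (hh ▸ (Nat.not_even_iff_odd.1 h1).add_one) hab, hh, mul_comm]; rfl

end Cfsg.Agent.S0882
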