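import Cfsg.Statements.S0891
import Cfsg.Agent.Recog.DCEx

set_option autoImplicit false
open Cfsg

namespace Cfsg.Agent.S0891

/-- For every n ≥ 4 there are a finite group Γ and a central element z of Γ of order 2 lying in the commutator subgroup of Γ such that the quotient of Γ by the (normal) subgroup generated by z is isomorphic to the alternating group on n letters. -/
theorem result (n : ℕ) (hn : 4 ≤ n) : ∃ (Γ : Type) (_ : Group Γ) (_ : Finite Γ) (z : Γ) (hz : z ∈ Subgroup.center Γ), orderOf z = 2 ∧ z ∈ commutator Γ ∧ ∃ _ : (Subgroup.zpowers z).Normal, Nonempty (Γ ⧸ Subgroup.zpowers z ≃* alternatingGroup (Fin n)) := by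
  obtain ⟨H, _, π, t, D⟩ := CF.Recog.exists_dc_fin hn
  have hz : t ∈ Subgroup.center H := Subgroup.mem_center_iff.2 D.cen
  have hN : (Subgroup.zpowers t).Normal := D.ker_toAlt ▸ inferInstance
  refine ⟨H, inferInstance, D.finite, t, hz, D.orderOf_t, D.mem_commutator
    (a := ⟨0, by omega⟩) (b := ⟨1, by omega⟩) (c := ⟨2, by omega⟩) (d := ⟨3, by omega⟩) (by simp), hN,
    ⟨(QuotientGroup.quotientMulEquivOfEq D.ker_toAlt.symm).trans
      (QuotientGroup.quotientKerEquivOfSurjective _ D.toAlt_surj)⟩⟩

end Cfsg.Agent.S0891
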