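import Cfsg.Statements.S0893
import Cfsg.Agent.Clifford.Small

set_option autoImplicit false
open Cfsg

namespace Cfsg.Agent.S0893

/-- Let P be an extraspecial p-group of order p ^ (2 * n + 1), A an abelian subgroup of order p ^ (n + 1), and λ a character of A of degree 1 that is not identically 1 on the elements of A lying in the centre of P. Then the function induced from λ to P is an irreducible character of P and vanishes at every element outside the centre. -/
theorem result {P : Type*} [Group P] [Fintype P] (p n : ℕ) [Fact p.Prime] (hP : Cfsg.IsExtraspecial p P) (hcard : Nat.card P = p ^ (2 * n + 1)) (A : Subgroup P) (hab : ∀ a ∈ A, ∀ b ∈ A, a * b = b * a) (hA : Nat.card A = p ^ (n + 1)) (lam : A → ℂ) (hlam : Cfsg.IsCharacter A lam ∧ lam 1 = 1) (hZ : ∃ a : A, (a : P) ∈ Subgroup.center P ∧ lam a ≠ 1) : Cfsg.IsIrrCharacter P (Cfsg.indFun A lam) ∧ ∀ x : P, x ∉ Subgroup.center P → Cfsg.indFun A lam x = 0 := by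
  classical
  have hp : p.Prime := Fact.out
  obtain ⟨⟨-, -, hc⟩, hZc⟩ := hP
  obtain ⟨a, ha, ha1⟩ := hZ
  have hl := CF.Char.irr_of_one_eq_one hlam.1 hlam.2
  obtain ⟨χ, hχ, h1⟩ := CF.Char.exists_irr_over A hl
  have h2 : ¬ Subgroup.center P ≤ CF.Char.charKer χ := fun h => by
    have := CF.Char.charKer_le_of_inner_ne_zero
      (CF.Char.char_restrict (CF.Char.irr_isCharacter hχ) A) hl h1
      (x := a) (by rw [CF.Char.charKer_restrict (CF.Char.irr_isCharacter hχ)]; exact h ha)
    rw [CF.Char.mem_charKer_iff hlam.1, hlam.2] at this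
    exact ha1 this
  have h3 : ∀ x, x ∉ Subgroup.center P → χ x = 0 := fun x hx =>
    CF.Clifford.irr_eq_zero_of_not_mem_center hχ hc.le
      (hc ▸ CF.Clifford.inf_charKer_eq_bot_of_prime (hZc ▸ hp) h2) hx
  have h4 := CF.Clifford.irr_one_sq_eq_index hχ _ (CF.Char.center_le_charCenter hχ) h3
  have h5 : (Subgroup.center P).index = (p ^ n) ^ 2 := by
    apply Nat.eq_of_mul_eq_mul_left hp.pos
    rw [← hZc, Subgroup.card_mul_index, hZc, hcard]; ring
  have h6 : A.index = p ^ n := by
    apply Nat.eq_of_mul_eq_mul_left (pow_pos hp.pos (n + 1))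
    rw [← hA, Subgroup.card_mul_index, hA, hcard]; ring
  obtain ⟨d, -, hd⟩ := CF.Char.irr_one_eq_nat hχ
  have h7 : d = p ^ n := by
    rw [hd, h5] at h4
    exact Nat.pow_left_injective two_ne_zero (by exact_mod_cast h4)
  have h8 : Cfsg.indFun A lam = χ := CF.Char.eq_of_inner_ne_zero_of_one_eq
    (CF.Char.char_indFun A hlam.1) hχ (by
      rwa [CF.Char.inner_indFun_left A lam (CF.Char.irr_isClassFunction hχ),
        CF.Clifford.inner_irr_ne_zero_comm])
    (by rw [CF.Char.indFun_one, hlam.2, hd, h6, h7, mul_one])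
  rw [h8]
  exact ⟨hχ, h3⟩

end Cfsg.Agent.S0893
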