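import Cfsg.Statements.S0898
import Cfsg.Agent.PLocal.FTB

set_option autoImplicit false
open Cfsg

namespace Cfsg.Agent.S0898

/-- Let H be an abelian subgroup of the finite group G meeting the centre of G trivially, such that for every non-central g the centralizer of g has nontrivial intersection with at most one conjugate of H. Let χ be an irreducible character of G with χ h ≠ χ 1 for some h in H, and let c be the inner product of the restriction of χ to H with the principal character. Then χ(1)² > (order of H)·c²; and if in addition χ 1 ≠ 1 and no proper normal subgroup of G contains H, then (1 + χ 1)² > order of H (both sides read as real numbers). -/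
theorem result {G : Type*} [Group G] [Fintype G] (H : Subgroup G) [Fintype H] (hab : ∀ a ∈ H, ∀ b ∈ H, a * b = b * a) (hZ : H ⊓ Subgroup.center G = ⊥) (hone : ∀ g : G, g ∉ Subgroup.center G → ∀ a b : G, Subgroup.centralizer ({g} : Set G) ⊓ H.map (MulAut.conj a).toMonoidHom ≠ ⊥ → Subgroup.centralizer ({g} : Set G) ⊓ H.map (MulAut.conj b).toMonoidHom ≠ ⊥ → H.map (MulAut.conj a).toMonoidHom = H.map (MulAut.conj b).toMonoidHom) (χ : G → ℂ) (hχ : Cfsg.IsIrrCharacter G χ) (hker : ∃ h ∈ H, χ h ≠ χ 1) : (χ 1).re ^ 2 > (Nat.card H : ℝ) * (Cfsg.classInner (fun h : H => χ h) (fun _ => 1)).re ^ 2 ∧ (χ 1 ≠ 1 → (∀ M : Subgroup G, M.Normal → H ≤ M → M = ⊤) → (1 + (χ 1).re) ^ 2 > (Nat.card H : ℝ)) := by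
  have hy : CF.FTB.Hyp H := ⟨hZ, fun g x hg h hh k hk h1 k1 e1 e2 => by
    have := hone g hg 1 x ((Subgroup.ne_bot_iff_exists_ne_one).2 ⟨⟨h,
      Subgroup.mem_centralizer_singleton_iff.2 e1.symm, h, hh, by simp⟩, fun e => h1 (congrArg Subtype.val e)⟩)
      ((Subgroup.ne_bot_iff_exists_ne_one).2 ⟨⟨x * k * x⁻¹,
        Subgroup.mem_centralizer_singleton_iff.2 e2.symm, k, hk, rfl⟩, fun e => k1 (conj_eq_one_iff.1 (congrArg Subtype.val e))⟩)
    refine Subgroup.mem_normalizer_iff.2 fun y => ⟨fun hy => ?_, fun hy => ?_⟩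
    · obtain ⟨z, hz, e⟩ := this.ge ⟨y, hy, rfl⟩
      exact (show z = x * y * x⁻¹ by simpa using e) ▸ hz
    · obtain ⟨z, hz, e⟩ := this.le ⟨_, hy, rfl⟩
      exact (show z = y by simpa using e) ▸ hz⟩
  obtain ⟨d, -, hd⟩ := CF.Char.irr_one_eq_nat hχ
  refine ⟨?_, fun h1 hM => ?_⟩
  · have := hy.lt hab hχ hker
    obtain ⟨a, ha⟩ := CF.Char.inner_char_eq_nat (CF.Char.char_restrict (CF.Char.irr_isCharacter hχ) H)
      CF.Char.char_const_one
    rw [ha, hd] at this ⊢
    simpa using this
  · have := hy.card_lt hab hM hχ hd (by rintro rfl; exact h1 (by simpa using hd))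
    rw [hd, Complex.natCast_re]
    exact_mod_cast this

end Cfsg.Agent.S0898
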