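import Cfsg.Statements.S0900
import Cfsg.Agent.Clifford.Gallagher

set_option autoImplicit false
open Cfsg

namespace Cfsg.Agent.S0900

/-- Let N be a normal subgroup of the finite group G, χ an irreducible character of G and ϑ an irreducible character of N having nonzero inner product with the restriction of χ. Consider: (a) the restriction of χ to N is e • ϑ for a natural number e with e ^ 2 equal to the index of N; (b) χ vanishes outside N and ϑ is invariant under conjugation by G; (c) ϑ is invariant and every irreducible character of G having nonzero inner product with the function induced from ϑ equals χ. Then (a) ↔ (b) and (a) ↔ (c). -/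
theorem result {G : Type*} [Group G] [Fintype G] (N : Subgroup G) [hN : N.Normal] [Fintype N] (χ : G → ℂ) (hχ : Cfsg.IsIrrCharacter G χ) (ϑ : N → ℂ) (hϑ : Cfsg.IsIrrCharacter N ϑ) (hcon : Cfsg.classInner (fun n : N => χ n) ϑ ≠ 0) : ((∃ e : ℕ, (fun n : N => χ n) = (e : ℂ) • ϑ ∧ e ^ 2 = N.index) ↔ ((∀ g : G, g ∉ N → χ g = 0) ∧ ∀ (g : G) (n : N), ϑ ⟨g * n * g⁻¹, hN.conj_mem (n : G) n.2 g⟩ = ϑ n)) ∧ ((∃ e : ℕ, (fun n : N => χ n) = (e : ℂ) • ϑ ∧ e ^ 2 = N.index) ↔ (∀ (g : G) (n : N), ϑ ⟨g * n * g⁻¹, hN.conj_mem (n : G) n.2 g⟩ = ϑ n ∧ ∀ ψ : G → ℂ, Cfsg.IsIrrCharacter G ψ → Cfsg.classInner (Cfsg.indFun N ϑ) ψ ≠ 0 → ψ = χ)) := by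
  classical
  let E := CF.Clifford.NormalEmb.sub N
  have key : ∀ (ψ : G → ℂ), IsIrrCharacter G ψ →
      (classInner (indFun N ϑ) ψ ≠ 0 ↔ classInner (fun n => ψ (E.ι n)) ϑ ≠ 0) := by
    intro ψ hψ
    rw [CF.Char.inner_indFun_left N ϑ (CF.Char.irr_isClassFunction hψ),
      CF.Clifford.inner_irr_ne_zero_comm]
    rfl
  have hidx : E.index = N.index := CF.Clifford.NormalEmb.index_sub N
  have hr : E.ι.range = N := Subgroup.range_subtype N
  have hinv : ∀ e : ℕ, (fun n : N => χ n) = (e : ℂ) • ϑ → e ^ 2 = N.index → E.Invariant ϑ := by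
    intro e he h2
    refine E.invariant_of_res_eq_smul (CF.Char.irr_isClassFunction hχ) ?_ he
    have : N.index ≠ 0 := Subgroup.index_ne_zero_of_finite
    rw [← h2] at this
    exact_mod_cast (pow_ne_zero_iff two_ne_zero).mp this
  constructor
  · constructor
    · rintro ⟨e, he, h2⟩
      refine ⟨?_, hinv e he h2⟩
      rw [← hr]
      exact (E.fullyRamified_iff_vanish hχ hϑ he).mp (hidx ▸ h2)
    · rintro ⟨h1, h2⟩
      obtain ⟨e, -, he⟩ := E.exists_nat_res_eq_of_invariant hχ hϑ h2 hcon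
      exact ⟨e, he, hidx ▸ (E.fullyRamified_iff_vanish hχ hϑ he).mpr (by rw [hr]; exact h1)⟩
  · constructor
    · rintro ⟨e, he, h2⟩ g n
      exact ⟨hinv e he h2 g n, fun ψ hψ h =>
        (E.fullyRamified_iff_unique hχ hϑ he).mp (hidx ▸ h2) ψ hψ ((key ψ hψ).mp h)⟩
    · intro h
      obtain ⟨e, -, he⟩ := E.exists_nat_res_eq_of_invariant hχ hϑ (fun g n => (h g n).1) hcon
      exact ⟨e, he, hidx ▸ (E.fullyRamified_iff_unique hχ hϑ he).mpr fun ψ hψ h1 =>
        (h 1 1).2 ψ hψ ((key ψ hψ).mpr h1)⟩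

end Cfsg.Agent.S0900
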