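import Cfsg.Statements.S0901
import Mathlib.Algebra.Algebra.ZMod
import Mathlib.FieldTheory.Finite.Basic
import Mathlib.RingTheory.RootsOfUnity.Complex
import Mathlib.RingTheory.Polynomial.Cyclotomic.Basic
import Cfsg.Agent.BlockB.Val
-- import your own Cfsg.Agent.* helpers here

set_option autoImplicit false
open Cfsg

namespace Cfsg.Agent.S0901

/-- Let M be a maximal ideal of the ring of algebraic integers containing the prime p, and let U be the set of complex roots of unity of order prime to p. Then reduction modulo M is injective on U, and every algebraic integer not in M is congruent modulo M to an element of U (so U maps bijectively onto the nonzero residues). -/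
theorem result (p : ℕ) [Fact p.Prime] (M : Ideal Cfsg.AlgInt) (hM : Cfsg.IsPModular p M) : (∀ ε₁ ε₂ : Cfsg.AlgInt, (∃ m : ℕ, ¬ p ∣ m ∧ (ε₁ : ℂ) ^ m = 1) → (∃ m : ℕ, ¬ p ∣ m ∧ (ε₂ : ℂ) ^ m = 1) → ε₁ - ε₂ ∈ M → ε₁ = ε₂) ∧ (∀ a : Cfsg.AlgInt, a ∉ M → ∃ ε : Cfsg.AlgInt, (∃ m : ℕ, ¬ p ∣ m ∧ (ε : ℂ) ^ m = 1) ∧ a - ε ∈ M) := by
  have hp := hM.1
  refine ⟨fun ε₁ ε₂ ⟨m, hm, h1⟩ ⟨n, hn, h2⟩ h => ?_, fun a ha => ?_⟩
  · have hn0 : n ≠ 0 := by rintro rfl; exact hn (dvd_zero p)
    have h3 : (ε₂ : ℂ) ≠ 0 := by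
      intro h; rw [h, zero_pow hn0] at h2; exact zero_ne_one h2
    refine Subtype.ext ((div_eq_one_iff_eq h3).1 (CF.BlockB.eq_one_of_v_sub_one_lt_one hM
      (hp.prime.not_dvd_mul hm hn) ?_ ?_))
    · rw [div_pow, pow_mul, h1, mul_comm, pow_mul, h2, one_pow, one_pow, div_one]
    · rw [div_sub_one h3, map_div₀, CF.BlockB.v_eq_one_of_pow_eq_one hn0 h2, div_one]
      exact CF.BlockB.v_lt_one_of_mem hM.2.1.ne_top h
  · have := CF.BlockB.charP_k hM
    letI : Algebra (ZMod p) (CF.BlockB.k M) := ZMod.algebra _ p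
    have h1 := CF.BlockB.v_algInt_le_one M a
    have h2 : IsIntegral (ZMod p) (CF.BlockB.resC M a) := by
      refine IsIntegral.map_of_comp_eq (Int.castRingHom (ZMod p)) (RingHom.id (CF.BlockB.k M))
        (Subsingleton.elim _ _) (a := CF.BlockB.resC M a) ?_
      rw [CF.BlockB.resC_of_le h1]
      refine IsIntegral.map_of_comp_eq (RingHom.id ℤ) (CF.BlockB.res M) (Subsingleton.elim _ _) ?_
      exact (isIntegral_algHom_iff (CF.BlockB.O M).subtype.toIntAlgHom Subtype.val_injective).1 a.2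
    have h3 := (CF.BlockB.resC_ne_zero_iff h1).2 ((CF.BlockB.v_algInt_eq_one_iff hM.2.1 a).2 ha)
    set x := CF.BlockB.resC M a with hx
    have := IntermediateField.adjoin.finiteDimensional h2
    have : Finite (IntermediateField.adjoin (ZMod p) {x}) := Module.finite_of_finite (ZMod p)
    have := Fintype.ofFinite (IntermediateField.adjoin (ZMod p) {x})
    have : CharP (IntermediateField.adjoin (ZMod p) {x}) p :=
      charP_of_injective_algebraMap (algebraMap (ZMod p) _).injective p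
    obtain ⟨n, -, hn⟩ := FiniteField.card (IntermediateField.adjoin (ZMod p) {x}) p
    have h4 := congrArg Subtype.val (FiniteField.pow_card_sub_one_eq_one
      (IntermediateField.AdjoinSimple.gen (ZMod p) x) fun h => h3 (congrArg Subtype.val h))
    rw [hn] at h4
    set m := p ^ (n : ℕ) - 1
    have hm : ¬ p ∣ m := fun h => hp.not_dvd_one ((Nat.dvd_sub_iff_right
      (Nat.one_le_pow _ _ hp.pos) (dvd_pow_self p n.ne_zero)).1 h)
    have hm0 : m ≠ 0 := by rintro h; exact hm (h ▸ dvd_zero p)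
    have h5 : CF.BlockB.v M ((a : ℂ) ^ m - 1) < 1 := by
      rw [← CF.BlockB.resC_eq_iff (by rw [map_pow]; exact pow_le_one' h1 m) (by simp),
        CF.BlockB.resC_pow h1, CF.BlockB.resC_one]
      exact h4
    have hζ := Complex.isPrimitiveRoot_exp m hm0
    have h6 := congrArg (Polynomial.eval (a : ℂ))
      (Polynomial.X_pow_sub_one_eq_prod (Nat.pos_of_ne_zero hm0) hζ)
    simp only [Polynomial.eval_sub, Polynomial.eval_pow, Polynomial.eval_X, Polynomial.eval_one,
      Polynomial.eval_prod, Polynomial.eval_C] at h6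
    by_contra! h7
    refine h5.ne (h6 ▸ CF.BlockB.v_prod_eq_one fun z hz => ?_)
    have h8 := (Polynomial.mem_nthRootsFinset (Nat.pos_of_ne_zero hm0) _).1 hz
    exact (CF.BlockB.v_algInt_eq_one_iff hM.2.1
      (a - ⟨z, IsIntegral.of_pow (Nat.pos_of_ne_zero hm0) (h8 ▸ isIntegral_one)⟩)).2
      (h7 _ ⟨m, hm, h8⟩)

end Cfsg.Agent.S0901
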