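import Cfsg.Statements.S0902
import Cfsg.Agent.BlockB.Height
-- import your own Cfsg.Agent.* helpers here

set_option autoImplicit false
open Cfsg

namespace Cfsg.Agent.S0902

/-- If two irreducible characters of a finite group lie in the same block relative to one maximal ideal M of the algebraic integers containing the prime p, then at every element the difference of their central characters is an algebraic integer lying in every maximal ideal containing p; in particular they lie in the same block relative to any such ideal. -/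
theorem result {G : Type*} [Group G] [Finite G] (p : ℕ) [Fact p.Prime] (M : Ideal Cfsg.AlgInt) (hM : Cfsg.IsPModular p M) (χ ψ : Cfsg.IrrCharacter G) (h : Cfsg.SameBlock M (χ : G → ℂ) (ψ : G → ℂ)) (M' : Ideal Cfsg.AlgInt) (hM' : Cfsg.IsPModular p M') (g : G) : ∃ r : Cfsg.AlgInt, r ∈ M' ∧ (r : ℂ) = Cfsg.centralChar (χ : G → ℂ) g - Cfsg.centralChar (ψ : G → ℂ) g := by
  have := Fintype.ofFinite G
  have hB := CF.BlockB.isPBlock_blockOf (M := M) χ
  obtain ⟨θ, h1, h2⟩ := CF.BlockB.exists_height_zero (p := p) (CF.BlockB.block_nonempty hM hB)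
  have hB' := CF.BlockB.isPBlock_blockOf (M := M') θ
  have key : ∀ ξ ∈ blockOf M (χ : G → ℂ), ξ ∈ blockOf M' (θ : G → ℂ) := fun ξ hξ => by
    by_contra h3
    exact CF.BlockB.inner_reg_ne_zero_of_height_zero hM hB h1 hξ h2
      (CF.BlockB.inner_reg_eq_zero' hM' (CF.BlockB.nrm_eSet_le_one hM' hB')
        (CF.BlockB.mem_blockOf_self hM' θ) h3)
  refine ⟨⟨_, (CF.BlockB.centralChar_isIntegral' χ.2 g).sub
    (CF.BlockB.centralChar_isIntegral' ψ.2 g)⟩, ?_, rfl⟩
  exact (CF.BlockB.v_algInt_lt_one_iff hM'.2.1 _).1 ((CF.BlockB.sameBlock_iff hM' χ.2 ψ.2).1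
    (CF.BlockB.sameBlock_of_mem hM' hB' (key χ (CF.BlockB.mem_blockOf_self hM χ)) (key ψ h)) g)

end Cfsg.Agent.S0902
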