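import Cfsg.Statements.S0905
import Cfsg.Agent.Block.Nilp
import Cfsg.Agent.Solv.Cores

set_option autoImplicit false
open Cfsg

namespace Cfsg.Agent.S0905

open CF.Block

/-- Let F be a field of characteristic p and let g be an element of the finite group G no conjugate of which centralizes O_p(G). Then the class sum of g is a nilpotent element of the group algebra F[G]. -/
theorem result {G : Type*} [Group G] [Finite G] (p : ℕ) [Fact p.Prime] (F : Type*) [Field F] [CharP F p] (g : G) (hg : ∀ x : G, IsConj g x → x ∉ Subgroup.centralizer (Cfsg.pCore p G : Set G)) : IsNilpotent (∑ᶠ x ∈ ConjClasses.carrier (ConjClasses.mk g), MonoidAlgebra.single x (1 : F) : MonoidAlgebra F G) := by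
  have h1 : (∑ᶠ x ∈ ConjClasses.carrier (ConjClasses.mk g), MonoidAlgebra.single x (1 : F) : MonoidAlgebra F G) = clsum F ⊤ g := by
    rw [clsum, setSum_eq_finsum]
    have : ConjClasses.carrier (ConjClasses.mk g) = ccl ⊤ g := by
      ext x
      rw [mem_ccl_top, ConjClasses.mem_carrier_iff_mk_eq, ConjClasses.mk_eq_mk_iff_isConj,
        isConj_comm]
    rw [this]
  rw [h1]
  refine isNilpotent_of_Br_eq_zero (p := p) (P := pCore p G) CF.Solv.pCore_isPGroup ?_
    (fix_anti le_top (clsum_mem_fix ⊤ g)) ?_
  · rw [Subgroup.normalizer_eq_top]; exact mem_sub_top _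
  · by_contra h
    obtain ⟨y, hy, hyc⟩ := Br_clsum_ne_zero_iff.1 h
    exact hg y (mem_ccl_top.1 hy) hyc

end Cfsg.Agent.S0905
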