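import Cfsg.Statements.S0911
import Cfsg.Agent.Block.Red

set_option autoImplicit false
open Cfsg

namespace Cfsg.Agent.S0911

open CF.Block

/-- The min–max Theorem for defect classes. Let B be a block of the finite group G relative to a maximal ideal M of the algebraic integers containing the prime p, let g represent a defect class of B and let D be a Sylow p-subgroup of the centralizer of g (viewed in G). For any h: (a) if the idempotent coefficient of B at h is a local integer outside the local ideal, then some conjugate of D contains a Sylow p-subgroup of the centralizer of h; (b) if the central character of some member of B at h is outside the local ideal, then some conjugate of D is contained in a Sylow p-subgroup of the centralizer of h. -/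
theorem result {G : Type*} [Group G] [Finite G] (p : ℕ) [Fact p.Prime] (M : Ideal Cfsg.AlgInt) (hM : Cfsg.IsPModular p M) (B : Set (Cfsg.IrrCharacter G)) (hB : Cfsg.IsPBlock M B) (g : G) (hg : Cfsg.IsDefectClass M B g) (D : Sylow p (Subgroup.centralizer ({g} : Set G))) (h : G) : (Cfsg.MemLocalRing M (Cfsg.blockCoeff B h) → ¬ Cfsg.MemLocalIdeal M (Cfsg.blockCoeff B h) → ∃ (x : G) (Q : Sylow p (Subgroup.centralizer ({h} : Set G))), (Q : Subgroup (Subgroup.centralizer ({h} : Set G))).map (Subgroup.centralizer ({h} : Set G)).subtype ≤ ((D : Subgroup (Subgroup.centralizer ({g} : Set G))).map (Subgroup.centralizer ({g} : Set G)).subtype).map (MulAut.conj x).toMonoidHom) ∧ ((∃ χ ∈ B, ¬ Cfsg.MemLocalIdeal M (Cfsg.centralChar (χ : G → ℂ) h)) → ∃ (x : G) (Q : Sylow p (Subgroup.centralizer ({h} : Set G))), ((D : Subgroup (Subgroup.centralizer ({g} : Set G))).map (Subgroup.centralizer ({g} : Set G)).subtype).map (MulAut.conj x).toMonoidHom ≤ (Q : Subgroup (Subgroup.centralizer ({h} : Set G))).map (Subgroup.centralizer ({h} : Set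 G)).subtype) := by
  have := CF.BlockB.charP_k hM
  have he := isBlk_eb hM hB
  rw [isDefectClass_iff hM hB] at hg
  have hD : IsDefGrp p ⊤ (eb M B) _ :=
    hg.isDefGrp he (by rw [inf_top_eq]; exact isSyl_map_subtype D)
  constructor
  · intro _ hh
    obtain ⟨Q⟩ : Nonempty (Sylow p (Subgroup.centralizer ({h} : Set G))) := inferInstance
    have hQ := isSyl_map_subtype Q
    obtain ⟨x, -, hx⟩ := hD.exists_le_cjs he hQ.isP le_top (Br_ne_zero_iff.2
      ⟨h, le_centralizer_singleton_iff.1 hQ.le, (coeff_eb_ne_zero_iff hM hB h).2 hh⟩)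
    exact ⟨x, Q, hx⟩
  · rintro ⟨χ, hχ, hh⟩
    obtain ⟨y, hy, hyD⟩ := Br_clsum_ne_zero_iff.1 (hD.Br_ne_zero_of_lam he
      (clsum_mem_Zc (Subgroup.mem_top h)) ((lam_eb_clsum_ne_zero_iff hM hB hχ h).2 hh))
    obtain ⟨x, -, rfl⟩ := hy
    rw [← le_centralizer_singleton_iff, centralizer_singleton_conj, le_cjs_iff] at hyD
    obtain ⟨Q, hQ, hle⟩ := exists_isSyl_ge (isPGroup_cjs x⁻¹ hD.isP) hyD
    obtain ⟨S, rfl⟩ := isSyl_iff.1 hQ
    exact ⟨x⁻¹, S, hle⟩

end Cfsg.Agent.S0911
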