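import Cfsg.Statements.S0915
import Cfsg.Agent.Block.Extra
import Cfsg.Agent.Solv.PiSep

set_option autoImplicit false
open Cfsg

namespace Cfsg.Agent.S0915

open CF.Block

/-- Let G be a finite p-solvable group with trivial largest normal subgroup of order prime to p. Then any two irreducible characters of G lie in the same block relative to every maximal ideal M of the algebraic integers containing p: G has a single p-block. -/
theorem result {G : Type*} [Group G] [Finite G] (p : ℕ) [Fact p.Prime] (M : Ideal Cfsg.AlgInt) (hM : Cfsg.IsPModular p M) (hsolv : Cfsg.IsPSolvable p G) (hcore : Cfsg.pPrimeCore p G = ⊥) (χ ψ : Cfsg.IrrCharacter G) : Cfsg.SameBlock M (χ : G → ℂ) (ψ : G → ℂ) := by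
  have := CF.BlockB.charP_k hM
  have key : ∀ χ : IrrCharacter G, eb M (blockOf M (χ : G → ℂ)) = 1 := fun χ => by
    have h := isBlk_eb hM (CF.BlockB.isPBlock_blockOf (M := M) χ)
    exact (regSupp hM).eq_one h CF.Solv.pCore_isPGroup (sub_mono
      (CF.Solv.centralizer_pCore_le_of_isPSolvable hsolv hcore)
      (h.mem_sub_centralizer CF.Solv.pCore_isPGroup le_top (le_normalizer_of_normal' _ _)))
  exact (mem_iff_eb_blockOf hM (CF.BlockB.isPBlock_blockOf χ) (χ := ψ)).2
    ((key ψ).trans (key χ).symm)

end Cfsg.Agent.S0915
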