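import Cfsg.Statements.S0918
import Cfsg.Agent.Block.Red

set_option autoImplicit false
open Cfsg

namespace Cfsg.Agent.S0918

open CF.Block

/-- Let P be a p-subgroup of the finite group G and H a subgroup with P·C_G(P) ≤ H ≤ N_G(P); let b be a block of H and B a block of G relative to a maximal ideal M of the algebraic integers containing p. Then b induces B if and only if, for every g ∈ G, every ξ ∈ b and every χ ∈ B, the central character of χ at g is congruent modulo the local ideal at M to the sum of ξ h / ξ 1 over the elements h of H conjugate in G to g and centralizing P. -/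
theorem result {G : Type*} [Group G] [Finite G] (p : ℕ) [Fact p.Prime] (M : Ideal Cfsg.AlgInt) (hM : Cfsg.IsPModular p M) (P H : Subgroup G) (hP : IsPGroup p P) (hPH : P ≤ H) (hCH : Subgroup.centralizer (P : Set G) ≤ H) (hHN : H ≤ Subgroup.normalizer (P : Set G)) (b : Set (Cfsg.IrrCharacter H)) (hb : Cfsg.IsPBlock M b) (B : Set (Cfsg.IrrCharacter G)) (hB : Cfsg.IsPBlock M B) : Cfsg.IsInducedBlock M H b B ↔ ∀ ξ ∈ b, ∀ χ ∈ B, ∀ g : G, Cfsg.MemLocalIdeal M (Cfsg.brauerCentralChar P H (ξ : H → ℂ) g - Cfsg.centralChar (χ : G → ℂ) g) := by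
  have := CF.BlockB.charP_k hM
  have hS : BrSetup p P H ⊤ := BrSetup.of_le hP hPH le_top (inf_le_left.trans hCH) hHN
  have key : ∀ ξ ∈ b, ∀ χ ∈ B, ∀ g : G,
      MemLocalIdeal M (brauerCentralChar P H (ξ : H → ℂ) g - centralChar (χ : G → ℂ) g) ↔
      (lam (ebs M H b) (trunc (H : Set G) (clsum (CF.BlockB.k M) ⊤ g)) : CF.BlockB.k M) =
        lam (eb M B) (clsum (CF.BlockB.k M) ⊤ g) := by
    intro ξ hξ χ hχ g
    have h1 : ∀ (R : Type) [CommRing R], setSum R ((Subgroup.centralizer (P : Set G) : Set G) ∩ ccl ⊤ g) =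
        Br P (clsum R ⊤ g) := fun R _ => (trunc_setSum _ _).symm
    have h2 : setSum ℂ ((Subgroup.centralizer (P : Set G) : Set G) ∩ ccl ⊤ g) ∈ fix ℂ H := by
      rw [h1]; exact Br_mem_fix hHN (fix_anti le_top (clsum_mem_fix ⊤ g))
    have h3 : brauerCentralChar P H (ξ : H → ℂ) g = CF.BlockB.omega (ξ : H → ℂ) (CF.BlockB.trunc H
        (setSum ℂ ((Subgroup.centralizer (P : Set G) : Set G) ∩ ccl ⊤ g))) := by
      rw [omega_trunc_setSum, brauerCentralChar]
      simp only [Set.mem_inter_iff, mem_ccl_top, SetLike.mem_coe, and_comm]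
    rw [h3, memLocalIdeal_sub_iff hM (isIntegral_omega_trunc_setSum ξ h2)
      (CF.BlockB.centralChar_isIntegral' χ.2 g), lam_eb_clsum hM hB hχ,
      ← lam_ebs hM hb hξ h2 (nrm_setSum_le _), red_setSum, h1,
      hS.lam_trunc (isBlk_ebs hM hb) (clsum_mem_Zc (Subgroup.mem_top g)),
      trunc_of_mem_sub (sub_mono hCH (Br_mem_sub _ _))]
  rw [isInducedBlock_iff hM hb hB]
  constructor
  · intro h ξ hξ χ hχ g
    exact (key ξ hξ χ hχ g).2 (h.eq _ (clsum_mem_Zc (Subgroup.mem_top g)))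
  · intro h
    obtain ⟨χ, hχ⟩ := CF.BlockB.block_nonempty hM hB
    obtain ⟨ξ, hξ⟩ := CF.BlockB.block_nonempty hM hb
    exact induces_of_clsum le_top (isBlk_ebs hM hb) (isBlk_eb hM hB) fun g _ =>
      (key ξ hξ χ hχ g).1 (h ξ hξ χ hχ g)

end Cfsg.Agent.S0918
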