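import Cfsg.Statements.S0926
import Cfsg.Agent.BlockB.Section
-- import your own Cfsg.Agent.* helpers here

set_option autoImplicit false
open Cfsg

namespace Cfsg.Agent.S0926

/-- Let B be a block of the finite group G with defect group D (relative to a maximal ideal M of the algebraic integers containing p), let χ ∈ B have height zero, and let x be a p-element. Then some conjugate of x lies in D if and only if χ does not vanish on the whole p-section of x (the elements whose p-part is conjugate to x). -/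
theorem result {G : Type*} [Group G] [Finite G] (p : ℕ) [Fact p.Prime] (M : Ideal Cfsg.AlgInt) (hM : Cfsg.IsPModular p M) (B : Set (Cfsg.IrrCharacter G)) (hB : Cfsg.IsPBlock M B) (D : Subgroup G) (hD : Cfsg.IsDefectGroup p M B D) (χ : Cfsg.IrrCharacter G) (hχ : χ ∈ B) (h0 : Cfsg.blockHeight p B (χ : G → ℂ) = 0) (x : G) (hx : ∃ k : ℕ, orderOf x = p ^ k) : (∃ g : G, g * x * g⁻¹ ∈ D) ↔ ∃ u : G, (∃ z : G, Cfsg.IsPPart p u z ∧ IsConj x z) ∧ (χ : G → ℂ) u ≠ 0 := by
  constructor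
  · rintro ⟨g, hg⟩
    obtain ⟨y, hy, hy', h⟩ := CF.BlockB.exists_ne_zero_of_mem_defectGroup hM hB hD hχ h0 hg
    have hx' := CF.BlockB.exists_orderOf_of_mem hM.1 (CF.BlockB.IsDefectGroup.isPGroup hD) hg
    refine ⟨g * x * g⁻¹ * y, ⟨g * x * g⁻¹, ⟨y, rfl, (CF.BlockB.mem_Cen.1 hy).symm, hx', hy'⟩,
      isConj_iff.2 ⟨g, rfl⟩⟩, fun h' => ?_⟩
    rw [h', map_zero] at h
    exact zero_ne_one h
  · rintro ⟨u, ⟨z, hz, hxz⟩, h⟩
    obtain ⟨c, hc⟩ := CF.BlockB.exists_conj_mem_of_ne_zero hM hB hD hχ h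
    obtain ⟨g, rfl⟩ := isConj_iff.1 hxz
    rw [← CF.BlockB.eq_pPart_of_isPPart hM.1 hz] at hc
    exact ⟨c * g, by simpa [mul_assoc] using hc⟩

end Cfsg.Agent.S0926
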