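import Cfsg.Statements.S0929
import Cfsg.Agent.Block.Extra

set_option autoImplicit false
open Cfsg

namespace Cfsg.Agent.S0929

open CF.Block

/-- Let B be a block of the finite group G with defect group P (relative to a maximal ideal M of the algebraic integers containing p), and let g be an element at which the central character of some member of B is not in the local ideal at M. Then some conjugate x of g centralizes P and has its p-part in the centre of P. -/
theorem result {G : Type*} [Group G] [Finite G] (p : ℕ) [Fact p.Prime] (M : Ideal Cfsg.AlgInt) (hM : Cfsg.IsPModular p M) (B : Set (Cfsg.IrrCharacter G)) (hB : Cfsg.IsPBlock M B) (P : Subgroup G) (hP : Cfsg.IsDefectGroup p M B P) (g : G) (hg : ∃ χ ∈ B, ¬ Cfsg.MemLocalIdeal M (Cfsg.centralChar (χ : G → ℂ) g)) : ∃ x : G, IsConj g x ∧ x ∈ Subgroup.centralizer (P : Set G) ∧ ∀ z : G, Cfsg.IsPPart p x z → z ∈ P ∧ ∀ w ∈ P, z * w = w * z := by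
  obtain ⟨χ, hχ, h⟩ := hg
  obtain ⟨x, h1, h2, h3⟩ := ((isDefectGroup_iff hM hB P).1 hP).exists_mem_ccl hM (isBlk_eb hM hB)
    (clsum_mem_Zc (x := g) trivial) ((lam_eb_clsum_ne_zero_iff hM hB hχ g).2 h)
  refine ⟨x, mem_ccl_top.1 (mem_of_coeff_setSum_ne_zero h1), h2, fun z hz => ?_⟩
  rw [CF.BlockB.eq_pPart_of_isPPart hM.1 hz]
  exact ⟨h3, fun w hw => (CF.BlockB.commute_pPart_of_commute (h2 w hw)).symm⟩

end Cfsg.Agent.S0929
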