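import Cfsg.Statements.S0938
import Cfsg.Agent.Char.PB

set_option autoImplicit false
open Cfsg

namespace Cfsg.Agent.S0938

/-- Let B be a block of the finite group G relative to a maximal ideal M of the algebraic integers containing the prime p, and let χ ∈ B. Then the kernel of B (the set of g with ψ g = ψ 1 for all ψ ∈ B) is a normal subgroup of order prime to p contained in the kernel of χ, and it contains every normal subgroup of order prime to p on which χ takes the value χ(1); that is, it is O_p' of the kernel of χ. -/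
theorem result {G : Type*} [Group G] [Finite G] (p : ℕ) [Fact p.Prime] (M : Ideal Cfsg.AlgInt) (hM : Cfsg.IsPModular p M) (B : Set (Cfsg.IrrCharacter G)) (hB : Cfsg.IsPBlock M B) (χ : Cfsg.IrrCharacter G) (hχ : χ ∈ B) : ∃ K : Subgroup G, K.Normal ∧ (K : Set G) = Cfsg.blockKer B ∧ ¬ p ∣ Nat.card K ∧ (∀ g ∈ K, (χ : G → ℂ) g = (χ : G → ℂ) 1) ∧ ∀ N : Subgroup G, N.Normal → ¬ p ∣ Nat.card N → (∀ g ∈ N, (χ : G → ℂ) g = (χ : G → ℂ) 1) → N ≤ K := by
  classical
  have := Fintype.ofFinite G
  have hK : ∀ g, g ∈ (⨅ ψ ∈ B, CF.Char.charKer (ψ : G → ℂ)) ↔ g ∈ Cfsg.blockKer B := fun g => by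
    simp only [Subgroup.mem_iInf, Cfsg.blockKer, Set.mem_setOf_eq]
    exact forall₂_congr fun ψ _ => CF.Char.mem_charKer_iff (CF.Char.irr_isCharacter ψ.2)
  refine ⟨⨅ ψ ∈ B, CF.Char.charKer (ψ : G → ℂ), ?_, Set.ext hK, ?_, fun g hg => (hK g).1 hg χ hχ,
    fun N hN hp hle => ?_⟩
  · refine ⟨fun n hn g => ?_⟩
    simp only [Subgroup.mem_iInf] at hn ⊢
    exact fun ψ hψ => (CF.Char.charKer_normal (CF.Char.irr_isClassFunction ψ.2)).conj_mem _
      (hn ψ hψ) g
  · intro hp
    obtain ⟨x, hx⟩ := exists_prime_orderOf_dvd_card' p hp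
    have h1 := CF.BlockB.weak_block_orth hM hB (x := (1 : G)) (y := x)
      (by simpa using hM.1.ne_one) (by rw [Subgroup.orderOf_coe, hx])
    rw [Finset.sum_congr rfl fun ψ hψ => by rw [(hK x).1 x.2 ψ (Finset.mem_filter.1 hψ).2],
      CF.Char.sum_mul_conj_eq_sum_norm_sq, Complex.ofReal_eq_zero,
      Finset.sum_eq_zero_iff_of_nonneg fun _ _ => by positivity] at h1
    have := h1 χ (by simpa using hχ)
    exact CF.Char.irr_one_ne_zero χ.2 (by simpa using this)
  · refine le_iInf₂ fun ψ hψ => ?_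
    set e : MonoidAlgebra ℂ G := CF.BlockB.ofFun fun g => if g ∈ N then 1 else 0 with he
    have heZ : e ∈ CF.BlockB.Z ℂ G := CF.BlockB.ofFun_mem_Z fun g h => by
      simp only [hN.mem_comm_iff (a := h * g), inv_mul_cancel_left]
    have he1 : CF.BlockB.nrm M e ≤ 1 := CF.BlockB.nrm_ofFun_le fun g => by split_ifs <;> simp
    have hev : ∀ θ : G → ℂ, CF.BlockB.ev θ e = ∑ n : N, θ n := fun θ => by
      rw [he, CF.BlockB.ev_ofFun, ← Finset.sum_subtype (Finset.univ.filter (· ∈ N)) (by simp),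
        Finset.sum_filter]
      exact Finset.sum_congr rfl fun g _ => by split_ifs <;> simp
    have h1 := CF.BlockB.v_omega_sub_lt_one hM χ.2 ψ.2
      (CF.BlockB.sameBlock_of_mem hM hB hχ hψ) heZ he1
    refine CF.Char.le_charKer_of_sum_ne_zero ψ.2 N fun h0 => ?_
    rw [CF.BlockB.omega_apply, CF.BlockB.omega_apply, hev, hev, h0,
      Finset.sum_congr rfl fun (n : N) _ => hle n n.2] at h1
    simp only [Finset.sum_const, Finset.card_univ, nsmul_eq_mul, zero_div, sub_zero] at h1
    rw [mul_div_cancel_right₀ _ (CF.Char.irr_one_ne_zero χ.2),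
      CF.BlockB.v_natCast_lt_one_iff hM, ← Nat.card_eq_fintype_card] at h1
    exact hp h1

end Cfsg.Agent.S0938
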