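import Cfsg.Statements.S0940
import Cfsg.Agent.Char.PB
import Cfsg.Agent.BlockB.Second
import Cfsg.Agent.Clifford.BrauerApp

set_option autoImplicit false
open Cfsg

namespace Cfsg.Agent.S0940

/-- Let G be a finite group and M a maximal ideal of the algebraic integers containing the prime p. For every p-regular g, the idempotent coefficient of the principal block at g (the inverse of the group order times the sum over χ in the principal block of χ 1 * conj (χ g)) is congruent modulo the local ideal at M to N / R, where N is the number of pairs (x, y) with x of p-power order, y of order prime to p and x * y = g, and R is the number of elements of G of order prime to p. -/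
theorem result {G : Type*} [Group G] [Finite G] (p : ℕ) [Fact p.Prime] (M : Ideal Cfsg.AlgInt) (hM : Cfsg.IsPModular p M) (g : G) (hg : ¬ p ∣ orderOf g) : Cfsg.MemLocalIdeal M (Cfsg.blockCoeff (Cfsg.principalBlock M G) g - (Nat.card {xy : G × G // (∃ k : ℕ, orderOf xy.1 = p ^ k) ∧ ¬ p ∣ orderOf xy.2 ∧ xy.1 * xy.2 = g} : ℂ) / (Nat.card {y : G // ¬ p ∣ orderOf y} : ℂ)) := by
  open CF.BlockB CF.Char MonoidAlgebra Cfsg in
  classical
  have := Fintype.ofFinite G
  have hp : p.Prime := Fact.out
  set r := Nat.card {y : G // ¬ p ∣ orderOf y}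
  have hr : v M (r : ℂ) = 1 := (v_natCast_eq_one_iff hM r).2 (not_dvd_card_pRegular hp G)
  have r0 : (r : ℂ) ≠ 0 := fun e => by simp [e] at hr
  let u : G → ℂ := fun x => if ∃ k : ℕ, orderOf x = p ^ k then 1 else 0
  have hu : IsClassFunction G u := fun g h => by simp only [u, orderOf_conj']
  have hc : ∀ χ : IrrCharacter G, v M (classInner u χ) ≤ 1 := fun χ => by
    obtain ⟨a, n, hn, e⟩ := Nat.exists_eq_pow_mul_and_not_dvd (Nat.card_pos (α := G)).ne' p hp.ne_one
    have cop : (p ^ a).Coprime n := ((Nat.Prime.coprime_iff_not_dvd hp).2 hn).pow_left a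
    obtain ⟨k, h1, h2⟩ := Nat.chineseRemainder cop 0 1
    have h1 := (Nat.modEq_zero_iff_dvd.1 h1)
    have := v_le_one_of_isIntegral M (CF.Clifford.isIntegral_inner_section cop e.dvd h2 h1 1
      (gen_of_irr χ.2))
    have e2 : (fun x : G => if IsConj 1 (x ^ k) then (n : ℂ) else 0) = (n : ℂ) • u := by
      funext x
      have : x ^ k = 1 ↔ ∃ k : ℕ, orderOf x = p ^ k := by
        rw [← orderOf_dvd_iff_pow_eq_one]
        refine ⟨fun h => ?_, fun ⟨j, hj⟩ => Dvd.dvd.trans (hj ▸
          (Nat.Coprime.dvd_of_dvd_mul_right (((Nat.Prime.coprime_iff_not_dvd hp).2 hn).pow_left j)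
            (hj ▸ e ▸ orderOf_dvd_natCard x))) h1⟩
        have c : (orderOf x).Coprime n := Nat.Coprime.coprime_dvd_left h
          ((Nat.coprime_of_mul_modEq_one 1 (by simpa using h2)))
        obtain ⟨j, -, hj⟩ := (Nat.dvd_prime_pow hp).1
          (c.dvd_of_dvd_mul_right (e ▸ orderOf_dvd_natCard x))
        exact ⟨j, hj⟩
      simp only [isConj_one_right, this, u, Pi.smul_apply, smul_eq_mul, mul_ite, mul_one, mul_zero]
    rwa [e2, CF.Char.inner_smul_left, map_mul, (v_natCast_eq_one_iff hM n).2 hn, one_mul] at this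
  have key : ∀ z ∈ Z ℂ G, ev u (z * single g⁻¹ 1) =
      ∑ χ : IrrCharacter G, classInner u χ * omega (χ : G → ℂ) z * (χ : G → ℂ) g⁻¹ := fun z hz => by
    conv_lhs => rw [classFun_eq_sum hu, ev_sum_fun]
    simp only [ev_smul_fun, ev_central_mul (Subtype.prop _) hz, ev_single, one_mul, mul_assoc]
  have e1 : ev u (eSet (principalBlock M G) * single g⁻¹ 1) = blockCoeff (principalBlock M G) g := by
    rw [ev_eSet_mul_single hu, blockPart_eq_sum, blockCoeff_eq, Finset.sum_eq_single 1]
    · simp [u, irr_conj_one (Subtype.prop _), irr_inv (Subtype.prop _), mul_comm,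
        show ∃ k, 1 = p ^ k from ⟨0, by simp⟩]
    · intro x _ hx
      by_cases h : ∃ k : ℕ, orderOf x = p ^ k
      · obtain ⟨k, hk⟩ := h
        rw [weak_block_orth hM isPBlock_principalBlock (by rwa [orderOf_inv])
          (hk ▸ dvd_pow_self p fun e => hx (orderOf_eq_one_iff.1 (by simpa [e] using hk))), mul_zero]
      · simp [u, h]
    · simp
  have e2 : ev u (regSum p G * single g⁻¹ 1) = Nat.card {xy : G × G //
      (∃ k : ℕ, orderOf xy.1 = p ^ k) ∧ ¬ p ∣ orderOf xy.2 ∧ xy.1 * xy.2 = g} := by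
    rw [Nat.card_congr (β := {y : G // ¬ p ∣ orderOf y ∧ ∃ k : ℕ, orderOf (y * g⁻¹) = p ^ k})
      ⟨fun x => ⟨x.1.2, x.2.2.1, by simpa [← x.2.2.2] using x.2.1⟩,
        fun y => ⟨(g * y.1⁻¹, y.1), by simpa [← orderOf_inv (y.1 * g⁻¹)] using y.2.2, y.2.1, by simp⟩,
        fun ⟨⟨a, b⟩, _, _, h⟩ => by ext <;> simp [← h], fun y => rfl⟩, Nat.card_eq_fintype_card,
      Fintype.card_subtype, ev_mul_single, Finset.card_filter]
    push_cast
    refine Finset.sum_congr rfl fun y _ => ?_
    simp only [regSum, coeff_ofFun, reg_apply, u]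
    split_ifs <;> simp_all
  have e3 : omega (fun _ : G => (1 : ℂ)) (regSum p G) = r := by
    simp only [omega_eq_sum, regSum, coeff_ofFun, reg_apply, r, Nat.card_eq_fintype_card,
      Fintype.card_subtype, Finset.card_filter]
    push_cast
    refine Finset.sum_congr rfl fun y _ => by split_ifs <;> simp_all
  rw [memLocalIdeal_iff hM ((blockCoeff_isAlgebraic _ _).sub (by
    rw [div_eq_mul_inv]; exact (isAlgebraic_natCast _).mul (isAlgebraic_natCast _).inv)),
    ← e1, ← e2, ← mul_div_cancel_left₀ (ev u _) r0, ← sub_div, map_div₀, hr, div_one,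
    key _ (eSet_mem_Z _), key _ regSum_mem_Z, Finset.mul_sum, ← Finset.sum_sub_distrib]
  refine v_sum_lt_one fun χ _ => ?_
  by_cases h : χ ∈ principalBlock M G
  · rw [omega_eSet_of_mem h, show ∀ a b c d : ℂ, a * (b * 1 * c) - b * d * c = b * (a - d) * c by
      intros; ring, ← e3]
    exact v_mul_lt_one_left (v_mul_lt_one_right (hc χ) (v_omega_sub_lt_one hM (oneIrr G).2 χ.2 h
      regSum_mem_Z nrm_regSum_le)) (v_irr_le_one χ _)
  · simp [omega_eSet_of_notMem h, omega_regSum_of_notMem hM h]

end Cfsg.Agent.S0940
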