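import Cfsg.Statements.S0941
import Cfsg.Agent.Block.Fus
import Cfsg.Agent.Char.Kernel

set_option autoImplicit false
open Cfsg

namespace Cfsg.Agent.S0941

/-- Let P be a normal p-subgroup of the finite group G such that the index of C_G(P) is a power of p, and fix a maximal ideal M of the algebraic integers containing p. Then (i) two irreducible characters of G ⧸ P lie in the same block if and only if their inflations to G do, and (ii) every block of G contains the inflation of some irreducible character of G ⧸ P; so inflation induces a bijection between the blocks of G ⧸ P and the blocks of G. -/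
theorem result {G : Type*} [Group G] [Finite G] (p : ℕ) [Fact p.Prime] (M : Ideal Cfsg.AlgInt) (hM : Cfsg.IsPModular p M) (P : Subgroup G) [P.Normal] (hP : IsPGroup p P) (hC : ∃ k : ℕ, (Subgroup.centralizer (P : Set G)).index = p ^ k) : (∀ χ ψ : Cfsg.IrrCharacter (G ⧸ P), Cfsg.SameBlock M (χ : G ⧸ P → ℂ) (ψ : G ⧸ P → ℂ) ↔ Cfsg.SameBlock M ((χ : G ⧸ P → ℂ) ∘ QuotientGroup.mk) ((ψ : G ⧸ P → ℂ) ∘ QuotientGroup.mk)) ∧ ∀ B : Set (Cfsg.IrrCharacter G), Cfsg.IsPBlock M B → ∃ χ : Cfsg.IrrCharacter (G ⧸ P), ∃ θ ∈ B, (θ : G → ℂ) = (χ : G ⧸ P → ℂ) ∘ QuotientGroup.mk := by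
  open CF.Block CF.BlockB in
  have := charP_k hM
  have hs := QuotientGroup.mk'_surjective P
  have key : ∀ B, Cfsg.IsPBlock M B → IsBlk ⊤ (gmap (QuotientGroup.mk' P) (eb M B)) := fun B hB => by
    have := (isBlk_eb hM hB).gmap_of_centralizes (regSupp hM) (QuotientGroup.mk' P)
      (by rwa [QuotientGroup.ker_mk']) le_top fun x _ hx => by
        obtain ⟨k, hk⟩ := hC
        rw [QuotientGroup.ker_mk']
        exact (Subgroup.zpowers_le.2 (Subgroup.pow_index_mem _ x)) (mem_zpowers_pow_iff.2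
          (hk ▸ ((Nat.Prime.coprime_iff_not_dvd Fact.out).2 hx).pow_left k))
    rwa [Subgroup.map_top_of_surjective _ hs] at this
  have iff := fun B (hB : Cfsg.IsPBlock M B) b (hb : Cfsg.IsPBlock M b) χ (hχ : χ ∈ b) =>
    mem_iff_gmap_mul_ne_zero hM hs hb hB hχ (ψ := ⟨_, CF.Char.irr_inflate P χ.2⟩) rfl
  refine ⟨fun χ ψ => ?_, fun B hB => ?_⟩
  · have hB := isPBlock_blockOf (M := M) ⟨_, CF.Char.irr_inflate P χ.2⟩
    have a := (iff _ hB _ (isPBlock_blockOf χ) χ (mem_blockOf_self hM χ)).1 (mem_blockOf_self hM _)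
    refine ⟨fun h => (iff _ hB _ (isPBlock_blockOf χ) ψ h).2 a, fun h => ?_⟩
    have b := (iff _ hB _ (isPBlock_blockOf ψ) ψ (mem_blockOf_self hM ψ)).1 h
    exact (eb_inj hM (isPBlock_blockOf χ) (isPBlock_blockOf ψ)
      (((key _ hB).eq_of_mul_ne_zero (isBlk_eb hM (isPBlock_blockOf χ)) a).symm.trans
        ((key _ hB).eq_of_mul_ne_zero (isBlk_eb hM (isPBlock_blockOf ψ)) b))).ge
          (mem_blockOf_self hM ψ)
  · obtain ⟨b, hb, e⟩ := exists_eb_eq hM (key B hB)
    obtain ⟨χ, hχ⟩ := block_nonempty hM hb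
    exact ⟨χ, _, (iff B hB b hb χ hχ).2 (by rw [e, (key B hB).idem]; exact (key B hB).ne), rfl⟩

end Cfsg.Agent.S0941
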