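import Cfsg.Statements.S0944
import Cfsg.Agent.BlockB.GA
import Cfsg.Agent.Char.Basic

set_option autoImplicit false
open Cfsg

namespace Cfsg.Agent.S0944

/-- Let χ be an irreducible character of the finite group G and u an involution. Then χ u is a rational integer n with n ≡ χ 1 (mod 2). -/
theorem result {G : Type*} [Group G] [Finite G] (χ : Cfsg.IrrCharacter G) (u : G) (hu : orderOf u = 2) : ∃ n : ℤ, (χ : G → ℂ) u = (n : ℂ) ∧ (2 : ℤ) ∣ (Cfsg.charDegree (χ : G → ℂ) : ℤ) - n := by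
  obtain ⟨n, ω, h1, h2, h3⟩ := CF.Char.char_exists_roots (CF.Char.irr_isCharacter χ.2) u
  have h4 : ∀ i, ∃ m : ℤ, ω i = (m : ℂ) ∧ (2 : ℤ) ∣ 1 - m := by
    intro i
    have := h2 i
    rw [hu, pow_two, mul_self_eq_one_iff] at this
    rcases this with h | h
    · exact ⟨1, by simp [h], by simp⟩
    · exact ⟨-1, by simp [h], by simp⟩
  choose m hm hm2 using h4
  refine ⟨∑ i, m i, ?_, ?_⟩
  · have := h3 1
    simpa [hm] using this
  · rw [CF.BlockB.charDegree_of_eq h1]
    have : (n : ℤ) - ∑ i, m i = ∑ i : Fin n, (1 - m i) := by simp [Finset.sum_sub_distrib]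
    rw [this]
    exact Finset.dvd_sum fun i _ => hm2 i

end Cfsg.Agent.S0944
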