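import Cfsg.Statements.S0946
import Cfsg.Agent.Char.Homocyclic

set_option autoImplicit false
open Cfsg

namespace Cfsg.Agent.S0946

open CF.Char

/-- Let P be a Sylow 2-subgroup of the finite group G isomorphic to Z/2^m × Z/2^m with m ≥ 1. Then either P has a normal complement in G, or all involutions of G are conjugate. -/
theorem result {G : Type*} [Group G] [Finite G] (P : Sylow 2 G) (m : ℕ) (hm : 1 ≤ m) (e : (P : Subgroup G) ≃* Multiplicative (ZMod (2 ^ m) × ZMod (2 ^ m))) : (∃ N : Subgroup G, N.Normal ∧ Subgroup.IsComplement' N (P : Subgroup G)) ∨ ∀ s t : G, orderOf s = 2 → orderOf t = 2 → IsConj s t := by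
  classical
  have : NeZero (2 ^ m) := ⟨pow_ne_zero _ two_ne_zero⟩
  obtain ⟨V, h⟩ := exists_abTwo P (dvd_pow_self 2 (by omega)) e
  rcases h.relIndex_cases with h1 | h3
  · exact Or.inl ⟨_, inferInstance, MonoidHom.ker_transferSylow_isComplement' P
      (Subgroup.relIndex_eq_one.1 h1)⟩
  right
  obtain ⟨σ, h1, h2⟩ := h.exists_sigma h3
  have key : ∀ u v : (P : Subgroup G), orderOf (u : G) = 2 → orderOf (v : G) = 2 →
      IsConj (u : G) v := by
    intro u v hu hv
    have hk := h.klein
    have hmem : ∀ w : (P : Subgroup G), w * w = 1 → (w : G) ∈ V := fun w hw =>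
      (h.mem w).2 ⟨w.2, congrArg Subtype.val hw⟩
    have hu1 : u ≠ 1 := by rintro rfl; simp at hu
    have hv1 : v ≠ 1 := by rintro rfl; simp at hv
    have hu2 : u * u = 1 := Subtype.ext (by
      have := pow_orderOf_eq_one (u : G); rwa [hu, sq] at this)
    have hv2 : v * v = 1 := Subtype.ext (by
      have := pow_orderOf_eq_one (v : G); rwa [hv, sq] at this)
    have h3 : σ u * σ u = 1 := by rw [← map_mul, hu2, map_one]
    have h4 : σ (σ u) * σ (σ u) = 1 := by rw [← map_mul, h3, map_one]
    rw [h2]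
    by_contra hne
    push Not at hne
    obtain ⟨n1, n2, n3⟩ := hne
    have := Fintype.ofFinite V
    have a1 : σ u ≠ 1 := by simpa using hu1
    have a2 : σ (σ u) ≠ 1 := by simpa using hu1
    have a3 := (h1 u hu1).1
    have a4 := (h1 u hu1).2
    have a5 : σ (σ u) ≠ σ u := (h1 _ a1).1
    have m1 := hmem u hu2
    have m2 := hmem _ h3
    have m3 := hmem _ h4
    have m4 := hmem v hv2
    have m0 := hmem 1 (mul_one 1)
    generalize σ (σ u) = y at *
    generalize σ u = x at *
    have hsub : (({1, u, x, y, v} : Finset (P : Subgroup G)).image Subtype.val : Set G) ⊆ V := by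
      intro w hw
      simp only [Finset.coe_image, Finset.coe_insert, Finset.coe_singleton, Set.mem_image,
        Set.mem_insert_iff, Set.mem_singleton_iff] at hw
      obtain ⟨w, rfl | rfl | rfl | rfl | rfl, rfl⟩ := hw <;> assumption
    have h5 := Set.ncard_le_ncard hsub (Set.toFinite _)
    rw [Set.ncard_coe_finset, Finset.card_image_of_injective _ Subtype.val_injective,
      Finset.card_insert_of_notMem (by simp [hu1.symm, a1.symm, a2.symm, hv1.symm]),
      Finset.card_insert_of_notMem (by simp [a3.symm, a4.symm, n1.symm]),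
      Finset.card_insert_of_notMem (by simp [a5.symm, n2.symm]),
      Finset.card_pair n3.symm, ← Nat.card_coe_set_eq] at h5
    have h6 := hk.card_four
    change Nat.card (V : Set G) = 4 at h6
    omega
  intro s t hs ht
  have hp : ∀ x : G, orderOf x = 2 → ∃ c : G, c * x * c⁻¹ ∈ (P : Subgroup G) := by
    intro x hx
    have h5 : IsPGroup 2 (Subgroup.zpowers x) := IsPGroup.of_card (n := 1) (by
      rw [Nat.card_zpowers, hx, pow_one])
    obtain ⟨Q, hQ⟩ := h5.exists_le_sylow
    obtain ⟨c, rfl⟩ := MulAction.exists_smul_eq G Q P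
    exact ⟨c, Subgroup.smul_mem_pointwise_smul _ _ _ (hQ (Subgroup.mem_zpowers x))⟩
  obtain ⟨c, hc⟩ := hp s hs
  obtain ⟨d, hd⟩ := hp t ht
  have := key ⟨_, hc⟩ ⟨_, hd⟩ ((CF.BlockB.orderOf_conj' _ _).trans hs)
    ((CF.BlockB.orderOf_conj' _ _).trans ht)
  exact (isConj_iff.2 ⟨c, rfl⟩).trans (this.trans (isConj_iff.2 ⟨d, rfl⟩).symm)

end Cfsg.Agent.S0946
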