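import Cfsg.Statements.S0948
import Cfsg.Agent.Char.Klein

set_option autoImplicit false
open Cfsg

namespace Cfsg.Agent.S0948

/-- Let the finite group G have a Sylow 2-subgroup P that is a Klein four-group, suppose all involutions of G are conjugate, and fix a maximal ideal M of the algebraic integers containing 2. Then the principal block consists of exactly four irreducible characters, the principal character and ζ₂, ζ₃, ζ₄, and there is a sign ε such that for every involution z: ζ₂ z = 1, ζ₃ z = ε, ζ₄ z = -1; moreover ζ₂ 1 ≡ 1, ζ₃ 1 ≡ ε, ζ₄ 1 ≡ -1 (mod 4), and 1 + ζ₂ y + ε ζ₃ y - ζ₄ y = 0 for every y of odd order. -/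
theorem result {G : Type*} [Group G] [Finite G] (M : Ideal Cfsg.AlgInt) (hM : Cfsg.IsPModular 2 M) (P : Sylow 2 G) (hP : IsKleinFour (P : Subgroup G)) (hone : ∀ s t : G, orderOf s = 2 → orderOf t = 2 → IsConj s t) : ∃ ζ₂ ζ₃ ζ₄ : Cfsg.IrrCharacter G, ∃ ε : ℤ, (ε = 1 ∨ ε = -1) ∧ (ζ₂ : G → ℂ) ≠ (fun _ => 1) ∧ (ζ₃ : G → ℂ) ≠ (fun _ => 1) ∧ ζ₂ ≠ ζ₃ ∧ ζ₂ ≠ ζ₄ ∧ ζ₃ ≠ ζ₄ ∧ Cfsg.principalBlock M G = {χ : Cfsg.IrrCharacter G | (χ : G → ℂ) = (fun _ => 1) ∨ χ = ζ₂ ∨ χ = ζ₃ ∨ χ = ζ₄} ∧ (∀ z : G, orderOf z = 2 → (ζ₂ : G → ℂ) z = 1 ∧ (ζ₃ : G → ℂ) z = (ε : ℂ) ∧ (ζ₄ : G → ℂ) z = -1) ∧ (4 : ℤ) ∣ (Cfsg.charDegree (ζ₂ : G → ℂ) : ℤ) - 1 ∧ (4 : ℤ) ∣ (Cfsg.charDegree (ζ₃ : G → ℂ) : ℤ) - ε ∧ (4 : ℤ) ∣ (Cfsg.charDegree (ζ₄ : G → ℂ) : ℤ) + 1 ∧ ∀ y : G, Odd (orderOf y) → 1 + (ζ₂ : G → ℂ) y + (ε : ℂ) * (ζ₃ : G → ℂ) y - (ζ₄ : G → ℂ) y = 0 := by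
  obtain ⟨a, b, c, ε, hε, ha, hb, -, hab, hac, hbc, hB, hv, ho⟩ := CF.Char.klein_pb hM P hP hone
  have hd : ∀ (χ : IrrCharacter G) (n : ℤ), (∀ g : G, 2 ∣ orderOf g → (χ : G → ℂ) g = n) →
      (4 : ℤ) ∣ (charDegree (χ : G → ℂ) : ℤ) - n := fun χ n h => by
    have := CF.Char.card_dvd_sub_of_const (P := (P : Subgroup G)) (CF.Char.gen_of_irr χ.2)
      (d := charDegree (χ : G → ℂ)) (by simp [CF.BlockB.irr_charDegree_eq])
      fun u hu h1 => h u (CF.Invol.klein_orderOf hP hu h1).symm.dvd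
    rwa [(CF.Invol.isKleinFour_iff.1 hP).1] at this
  refine ⟨a, b, c, ε, hε, fun e => ha (Subtype.ext e), fun e => hb (Subtype.ext e), hab, hac, hbc,
    Set.ext fun χ => (hB χ).trans (or_congr_left Subtype.ext_iff), fun z hz => hv z hz.symm.dvd,
    hd a 1 fun g hg => by simpa using (hv g hg).1, hd b ε fun g hg => (hv g hg).2.1, ?_,
    fun y hy => ho y (by rwa [← even_iff_two_dvd, Nat.not_even_iff_odd])⟩
  simpa using hd c (-1) fun g hg => by simpa using (hv g hg).2.2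

end Cfsg.Agent.S0948
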