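import Cfsg.Statements.S0950
import Cfsg.Agent.Char.Q8a

set_option autoImplicit false
open Cfsg

namespace Cfsg.Agent.S0950

open CF.Char Subgroup

/-- Let S be a Sylow 2-subgroup of the finite group G that is isomorphic to the quaternion group of order 8, and suppose S has no normal complement in G. Then any two subgroups of order 4 of S are conjugate by an element of the normalizer of S. -/
theorem result {G : Type*} [Group G] [Finite G] (S : Sylow 2 G) (e : (S : Subgroup G) ≃* QuaternionGroup 2) (hnc : ∀ N : Subgroup G, N.Normal → ¬ Subgroup.IsComplement' N (S : Subgroup G)) (A B : Subgroup G) (hA : A ≤ S) (hB : B ≤ S) (hA4 : Nat.card A = 4) (hB4 : Nat.card B = 4) : ∃ n ∈ Subgroup.normalizer ((S : Subgroup G) : Set G), B = A.map (MulAut.conj n).toMonoidHom := by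
  have hn : ¬ Cfsg.HasNormalPComplement 2 G := by
    rintro ⟨Q, N, hN, h⟩
    obtain ⟨c, rfl⟩ := MulAction.exists_smul_eq G Q S
    refine hnc N hN ?_
    refine isComplement'_of_coprime ?_ ?_
    · rw [← h.card_mul_card]
      congr 1
      exact (Sylow.card_eq_multiplicity _).trans (Sylow.card_eq_multiplicity _).symm
    · rw [Sylow.card_eq_multiplicity, ← h.index_eq_card]
      exact ((Nat.Prime.coprime_iff_not_dvd Nat.prime_two).2 Q.not_dvd_index).symm.pow_right _
  obtain ⟨a, b, h⟩ := exists_qSetup (S := (S : Subgroup G)) (m := 1) e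
  obtain ⟨Q, hQ, q, g, hq, hq2, ⟨k, hk⟩, hg, hc⟩ := CF.Transfer.exists_qElt_not_centralize hn S
  have ho : Odd (orderOf g) := hk ▸ (hq.odd_of_ne_two hq2).pow
  obtain rfl : Q = S := (h.isCyclic_or_eq hQ).resolve_left fun _ =>
    hc (mem_centralizer_of_odd_of_isCyclic (S.isPGroup'.to_le hQ) hg ho)
  have hgen : ∀ A : Subgroup G, A ≤ S → Nat.card A = 4 → ∃ x, orderOf x = 4 ∧ A = zpowers x := by
    intro A hA hA4
    have : IsCyclic A := (h.isCyclic_or_eq hA).resolve_right fun h1 => by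
      rw [h1, h.card_eq] at hA4
      norm_num at hA4
    obtain ⟨x, rfl⟩ := (Subgroup.isCyclic_iff_exists_zpowers_eq_top A).1 this
    exact ⟨x, by rwa [Nat.card_zpowers] at hA4, rfl⟩
  obtain ⟨x, hx, rfl⟩ := hgen A hA hA4
  obtain ⟨y, hy, rfl⟩ := hgen B hB hB4
  have hxS : x ∈ (S : Subgroup G) := hA (mem_zpowers x)
  have hyS : y ∈ (S : Subgroup G) := hB (mem_zpowers y)
  have fin : ∀ n ∈ normalizer ((S : Subgroup G) : Set G), y ∈ zpowers (n * x * n⁻¹) →
      ∃ n ∈ normalizer ((S : Subgroup G) : Set G),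
        zpowers y = (zpowers x).map (MulAut.conj n).toMonoidHom := by
    intro n hn h1
    refine ⟨n, hn, ?_⟩
    rw [MonoidHom.map_zpowers]
    refine eq_of_le_of_card_ge (zpowers_le.2 h1) ?_
    rw [Nat.card_zpowers, Nat.card_zpowers, hy, ← hx]
    exact (CF.BlockB.orderOf_conj' _ _).le
  by_cases h0 : y ∈ zpowers x
  · exact fin 1 (one_mem _) (by simpa using h0)
  obtain ⟨c, h1⟩ := h.exists_of_orderOf hxS hx
  have hx' := (mem_normalizer_iff.1 hg x).1 hxS
  have h2 := h1.replace hx' (h1.conj_notMem_zpowers hg ho hc)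
  have hgg : g * g ∈ normalizer ((S : Subgroup G) : Set G) := mul_mem hg hg
  have hx'' := (mem_normalizer_iff.1 hgg x).1 hxS
  have hcc : g * g ∉ centralizer ((S : Subgroup G) : Set G) := fun h3 => hc (by
    obtain ⟨r, hr⟩ := ho
    have : g = (g * g) ^ (r + 1) := by
      rw [← sq, ← pow_mul, show 2 * (r + 1) = orderOf g + 1 by omega, pow_succ,
        pow_orderOf_eq_one, one_mul]
    rw [this]
    exact pow_mem h3 _)
  have hoo : Odd (orderOf (g * g)) := ho.of_dvd_nat (by rw [← sq]; exact orderOf_pow_dvd 2)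
  have h3 := h1.conj_notMem_zpowers hgg hoo hcc
  have h4 := h2.swap.conj_notMem_zpowers hg ho hc
  have even : ∀ w ∈ (S : Subgroup G), w ∉ zpowers x → ∀ i : ℤ, w * x ^ (2 * i) ∈ zpowers w := by
    intro w hw hw' i
    have h5 := h1.sq_eq hw hw'
    rw [pow_one] at h5
    rw [zpow_mul, show x ^ (2 : ℤ) = w * w by rw [h5]; norm_cast]
    exact mul_mem (mem_zpowers w) (zpow_mem (mul_mem (mem_zpowers w) (mem_zpowers w)) _)
  obtain ⟨i, hi⟩ := h2.exists_eq hyS h0
  obtain ⟨j, hj⟩ := h2.exists_eq hx'' h3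
  rcases Int.even_or_odd' i with ⟨i, rfl | rfl⟩
  · exact fin g hg (hi ▸ even _ hx' h2.notMem i)
  rcases Int.even_or_odd' j with ⟨j, rfl | rfl⟩
  · exfalso
    refine h4 ?_
    rw [show g * (g * x * g⁻¹) * g⁻¹ = g * g * x * (g * g)⁻¹ by group, hj]
    exact even _ hx' h2.notMem j
  refine fin (g * g) hgg ?_
  have h6 := even _ hx'' h3 (i - j)
  convert h6 using 1
  rw [hi, hj, mul_assoc _ (x ^ (2 * j + 1)), ← zpow_add]
  congr 2
  ring

end Cfsg.Agent.S0950
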