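import Cfsg.Statements.S0953
import Cfsg.Agent.Block.Count
import Cfsg.Agent.Invol.Dihedral

set_option autoImplicit false
open Cfsg

namespace Cfsg.Agent.S0953

open CF.Block CF MonoidAlgebra Subgroup Cfsg
open CF.BlockB (v k resC Cen pPart)

theorem card_blocks_of_normal {G : Type*} [Group G] [Finite G] {p : ℕ} {M : Ideal AlgInt}
    (hM : IsPModular p M) {P : Subgroup G} (hP : IsSyl p P ⊤) [hN : P.Normal] :
    Nat.card {B : Set (IrrCharacter G) // IsPBlock M B} = Nat.card {C : ConjClasses G //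
      ∀ n, ConjClasses.mk n = C → ¬ p ∣ orderOf n ∧ n ∈ centralizer (P : Set G)} := by
  classical
  have := Fact.mk hM.1
  have := BlockB.charP_k hM
  have hc : ∀ {x y : G}, IsConj x y → x ∈ centralizer (P : Set G) → y ∈ centralizer (P : Set G) :=
    fun h hx => by
      obtain ⟨c, rfl⟩ := isConj_iff.1 h
      exact Subgroup.Normal.conj_mem inferInstance _ hx c
  refine le_antisymm (card_blocks_le hM (fun _ h => h) fun B B' hB hB' y h _ n hn => ?_) ?_
  · have h1 := (ConjClasses.mk_eq_mk_iff_isConj.1 hn).symm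
    exact ⟨Invol.orderOf_eq_of_isConj h1 ▸ not_dvd_of_coeff hM hB' h, hc h1 (mem_of_coeff_ne_zero
      ((isBlk_eb hM hB').mem_sub_centralizer hP.isP le_top (normalizer_eq_top P).ge) h)⟩
  have := Fintype.ofFinite (ConjClasses G)
  set ι := {C : ConjClasses G //
      ∀ n, ConjClasses.mk n = C → ¬ p ∣ orderOf n ∧ n ∈ centralizer (P : Set G)}
  choose x hx using fun C : ι => ConjClasses.mk_surjective C.1
  have h1 := fun C : ι => C.2 _ (hx C)
  obtain ⟨B, hB, hB', -⟩ := exists_blocks_of_sep hM x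
    (fun i j h => Subtype.ext (by rw [← hx i, ← hx j, ConjClasses.mk_eq_mk_iff_isConj.2 h]))
    (d := (Nat.card G).factorization p) (fun i => le_antisymm (cdef_le _) (by
      have h2 := card_dvd_of_le (le_centralizer_singleton_iff.2 (h1 i).2)
      rwa [hP.card_eq, card_top, hM.1.pow_dvd_iff_le_factorization Nat.card_pos.ne'] at h2))
    fun i j g c hg hc' hn => by
      have h3 : c * g⁻¹ ∈ P := by
        obtain ⟨d, -, hd⟩ := hP.exists_le_cjs (BlockB.isPGroup_zpowers hn) le_top
        exact cjs_eq_of_normal d P ▸ hd (mem_zpowers _)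
      have h4 := BlockB.pPart_mul_of_commute hM.1 (y := g) (hc hg (h1 i).2 _ h3) hn
        (Invol.orderOf_eq_of_isConj hg ▸ (h1 i).1)
      rw [inv_mul_cancel_right, BlockB.pPart_of_pRegular hM.1
        (Invol.orderOf_eq_of_isConj hc' ▸ (h1 j).1)] at h4
      exact mul_inv_eq_one.1 h4.symm
  have := (BlockB.finite_blocks M G).to_subtype
  exact Nat.card_le_card_of_injective (fun i => ⟨B i, (hB' i).1⟩)
    fun i j h => hB (congrArg Subtype.val h)

/-- Let P be a Sylow p-subgroup of the finite group G with normalizer N, and fix a maximal ideal M of the algebraic integers containing p. The number of blocks of G having P as a defect group equals the number of conjugacy classes of N consisting of elements of order prime to p that centralize P. -/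
theorem result {G : Type*} [Group G] [Finite G] (p : ℕ) [Fact p.Prime] (M : Ideal Cfsg.AlgInt) (hM : Cfsg.IsPModular p M) (P : Sylow p G) : Nat.card {B : Set (Cfsg.IrrCharacter G) // Cfsg.IsPBlock M B ∧ Cfsg.IsDefectGroup p M B (P : Subgroup G)} = Nat.card {C : ConjClasses (Subgroup.normalizer ((P : Subgroup G) : Set G)) // ∀ n : Subgroup.normalizer ((P : Subgroup G) : Set G), ConjClasses.mk n = C → ¬ p ∣ orderOf n ∧ (n : G) ∈ Subgroup.centralizer ((P : Subgroup G) : Set G)} := by
  have := BlockB.charP_k hM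
  set N := normalizer ((P : Subgroup G) : Set G) with hN
  have hPN : (P : Subgroup G) ≤ N := le_normalizer
  have hS : IsSyl p ((P : Subgroup G).subgroupOf N) ⊤ := by
    rw [← isSyl_map N.subtype_injective, map_top_subtype, map_subgroupOf_subtype hPN]
    exact (isSyl_sylow P).of_le hPN le_top
  have h1 := card_blocks_of_normal hM hS
  have h2 : ∀ n : N, n ∈ centralizer ((P : Subgroup G).subgroupOf N : Set N) ↔
      (n : G) ∈ centralizer ((P : Subgroup G) : Set G) := fun n => by
    rw [← mem_centralizer_map_iff N.subtype_injective, map_subgroupOf_subtype hPN]; rfl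
  simp only [h2] at h1
  rw [← h1]
  have h3 : ∀ b : {b : Set (IrrCharacter N) // IsPBlock M b}, ∃ B, IsPBlock M B ∧
      IsDefGrp p ⊤ (eb M B) P ∧ Br P (eb M B) = ebs M N b.1 := fun b => by
    have hb := isBlk_ebs hM b.2
    obtain ⟨D, hD⟩ := hb.exists_isDefGrp
    obtain rfl : (P : Subgroup G) = D := (isSyl_sylow P).max D hD.isP
      (hD.normal_le hb P.2 hPN le_rfl) le_top ▸ rfl
    obtain ⟨E, h4, h5, h6⟩ := exists_global_of_defGrp (L := ⊤) (by rwa [inf_top_eq])
      (by rwa [inf_top_eq])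
    obtain ⟨B, hB, rfl⟩ := exists_eb_eq hM h4.blk'
    exact ⟨B, hB, h5, h6⟩
  choose f hf using h3
  symm
  refine Nat.card_congr (Equiv.ofBijective
    (fun b => ⟨f b, (hf b).1, (isDefectGroup_iff hM (hf b).1 _).2 (hf b).2.1⟩)
    ⟨fun b c h => Subtype.ext (ebs_inj hM b.2 c.2 ?_), fun B => ?_⟩)
  · rw [← (hf b).2.2, ← (hf c).2.2, show f b = f c from congrArg Subtype.val h]
  · have h4 := ((isDefectGroup_iff hM B.2.1 _).1 B.2.2).isBlk_Br (isBlk_eb hM B.2.1)
    rw [inf_top_eq] at h4
    obtain ⟨b, hb, h5⟩ := exists_ebs_eq hM h4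
    refine ⟨⟨b, hb⟩, Subtype.ext (eb_inj hM (hf _).1 B.2.1 (IsDefGrp.eq_of_Br_mul_ne_zero P.2 le_top
      (isBlk_eb hM (hf _).1) (isBlk_eb hM B.2.1) ?_))⟩
    rw [(hf _).2.2, h5, h4.idem]
    exact h4.ne

end Cfsg.Agent.S0953
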