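import Cfsg.Statements.S0954
import Cfsg.Agent.Block.Extra

set_option autoImplicit false
open Cfsg

namespace Cfsg.Agent.S0954

open CF.Block

/-- Let N be a normal subgroup of the finite group G of order prime to p and of p-power index (a normal p-complement), and fix a maximal ideal M of the algebraic integers containing p. Then two irreducible characters χ, ψ of G lie in the same block if and only if some irreducible character of N has nonzero inner product with both the restriction of χ and the restriction of ψ. -/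
theorem result {G : Type*} [Group G] [Fintype G] (p : ℕ) [Fact p.Prime] (M : Ideal Cfsg.AlgInt) (hM : Cfsg.IsPModular p M) (N : Subgroup G) [N.Normal] [Fintype N] (hN : ¬ p ∣ Nat.card N) (hidx : ∃ k : ℕ, N.index = p ^ k) (χ ψ : Cfsg.IrrCharacter G) : Cfsg.SameBlock M (χ : G → ℂ) (ψ : G → ℂ) ↔ ∃ θ : Cfsg.IrrCharacter N, Cfsg.classInner (fun n : N => (χ : G → ℂ) n) (θ : N → ℂ) ≠ 0 ∧ Cfsg.classInner (fun n : N => (ψ : G → ℂ) n) (θ : N → ℂ) ≠ 0 := by
  obtain ⟨θ, hθ, h⟩ := CF.Char.exists_irr_under N χ.2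
  have hχ := CF.BlockB.isPBlock_blockOf (M := M) χ
  have hχ' := CF.BlockB.mem_blockOf_self hM χ
  constructor
  · intro h1
    obtain ⟨θ', h2, h3⟩ := exists_under_of_covers hM hχ (CF.BlockB.isPBlock_blockOf _)
      (covers_blockOf hM hχ hχ' (θ := ⟨θ, hθ⟩) h) (χ := ψ) h1
    rw [blockOf_eq_singleton_of_not_dvd hM hN, Set.mem_singleton_iff] at h2
    exact ⟨θ', h2 ▸ h, h3⟩
  · rintro ⟨θ', h1, h2⟩
    have key : ∀ χ : IrrCharacter G, classInner (fun n : N => (χ : G → ℂ) n) (θ' : N → ℂ) ≠ 0 →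
        eb M (blockOf M (χ : G → ℂ)) = orb ⊤ (ebs M N (blockOf M (θ' : N → ℂ))) := fun χ h =>
      (regSupp hM).eq_orb (mem_of_index_eq_pow hidx) (isBlk_eb hM (CF.BlockB.isPBlock_blockOf χ))
        (isBlk_ebs hM (CF.BlockB.isPBlock_blockOf θ')) (le_normalizer_of_normal' _ _) le_top
        (covers_blockOf hM (CF.BlockB.isPBlock_blockOf χ) (CF.BlockB.mem_blockOf_self hM χ) h)
    exact (mem_iff_eb_blockOf hM hχ (χ := ψ)).2 ((key ψ h2).trans (key χ h1).symm)

end Cfsg.Agent.S0954
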