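import Cfsg.Statements.S0957
import Cfsg.Agent.Block.Conj

set_option autoImplicit false
open Cfsg

namespace Cfsg.Agent.S0957

open CF.Block

theorem dvd_card_of_dvd_index {Γ X : Type*} [Group Γ] [MulAction Γ X] [Finite X] {n : ℕ}
    (h : ∀ x : X, n ∣ (MulAction.stabilizer Γ x).index) : n ∣ Nat.card X := by
  classical
  have := Fintype.ofFinite (MulAction.orbitRel.Quotient Γ X)
  rw [Nat.card_congr (MulAction.selfEquivSigmaOrbits Γ X), Nat.card_sigma]
  refine Finset.dvd_sum fun q _ => ?_
  rw [Nat.card_coe_set_eq, ← MulAction.index_stabilizer]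
  exact h _

/-- Let P be a Sylow p-subgroup of the finite group G, let g, h ∈ G and let p ^ d be the order of a Sylow p-subgroup of the centralizer of g. Then the number of pairs (y, z) with y conjugate to g, z conjugate to h and z * y⁻¹ ∈ P is divisible by the order of P divided by p ^ d. -/
theorem result {G : Type*} [Group G] [Finite G] (p : ℕ) [Fact p.Prime] (P : Sylow p G) (g h : G) (S : Sylow p (Subgroup.centralizer ({g} : Set G))) : Nat.card P / Nat.card S ∣ Nat.card {yz : G × G // IsConj g yz.1 ∧ IsConj h yz.2 ∧ yz.2 * yz.1⁻¹ ∈ (P : Subgroup G)} := by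
  let X := {yz : G × G // IsConj g yz.1 ∧ IsConj h yz.2 ∧ yz.2 * yz.1⁻¹ ∈ (P : Subgroup G)}
  let _ : MulAction (P : Subgroup G) X :=
    { smul := fun u x => ⟨((u : G) * x.1.1 * (u : G)⁻¹, (u : G) * x.1.2 * (u : G)⁻¹),
        x.2.1.trans (isConj_iff.2 ⟨u, rfl⟩), x.2.2.1.trans (isConj_iff.2 ⟨u, rfl⟩), by
          have := (P : Subgroup G).mul_mem ((P : Subgroup G).mul_mem u.2 x.2.2.2)
            ((P : Subgroup G).inv_mem u.2)
          convert this using 1
          group⟩
      one_smul := fun x => Subtype.ext (by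
        change (((1 : (P : Subgroup G)) : G) * x.1.1 * ((1 : (P : Subgroup G)) : G)⁻¹,
          ((1 : (P : Subgroup G)) : G) * x.1.2 * ((1 : (P : Subgroup G)) : G)⁻¹) = _
        simp)
      mul_smul := fun a b x => Subtype.ext (by
        change (((a * b : (P : Subgroup G)) : G) * x.1.1 * ((a * b : (P : Subgroup G)) : G)⁻¹,
          ((a * b : (P : Subgroup G)) : G) * x.1.2 * ((a * b : (P : Subgroup G)) : G)⁻¹) =
          ((a : G) * ((b : G) * x.1.1 * (b : G)⁻¹) * (a : G)⁻¹,
            (a : G) * ((b : G) * x.1.2 * (b : G)⁻¹) * (a : G)⁻¹)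
        simp [mul_assoc]) }
  refine dvd_card_of_dvd_index (Γ := (P : Subgroup G)) (X := X) fun x => ?_
  obtain ⟨c, hc⟩ := isConj_iff.1 x.2.1
  set T := MulAction.stabilizer (P : Subgroup G) x
  have hT : IsPGroup p (T.map (P : Subgroup G).subtype) := (P.isPGroup'.to_subgroup T).map _
  have h1 : T.map (P : Subgroup G).subtype ≤ cjs c (Subgroup.centralizer ({g} : Set G)) := by
    rw [← centralizer_singleton_conj, hc]
    rintro _ ⟨u, hu, rfl⟩
    have : (u : G) * x.1.1 * (u : G)⁻¹ = x.1.1 := congrArg (fun y : X => y.1.1) hu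
    rw [Subgroup.mem_centralizer_iff]
    rintro _ rfl
    rw [mul_inv_eq_iff_eq_mul] at this
    exact this.symm
  have h2 := ((isSyl_map_subtype S).cjs c).card_le hT h1
  rw [card_cjs, Subgroup.card_map_of_injective (Subgroup.subtype_injective _),
    Subgroup.card_map_of_injective (Subgroup.subtype_injective _)] at h2
  obtain ⟨a, ha⟩ := (P.isPGroup'.to_subgroup T).exists_card_eq
  obtain ⟨b, hb⟩ := S.isPGroup'.exists_card_eq
  obtain ⟨d, hd⟩ := P.isPGroup'.exists_card_eq
  obtain ⟨e, he⟩ := (P.isPGroup'.index T)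
  have h3 := T.card_mul_index
  have hp := (Fact.out : p.Prime)
  change Nat.card (P : Subgroup G) / Nat.card (S : Subgroup (Subgroup.centralizer ({g} : Set G))) ∣ _
  rw [ha, hb] at h2
  rw [ha, he, hd, ← pow_add] at h3
  have h4 := Nat.pow_right_injective hp.two_le h3
  have h5 := (Nat.pow_le_pow_iff_right hp.one_lt).1 h2
  rw [hb, hd, he]
  by_cases hbd : b ≤ d
  · rw [Nat.pow_div hbd hp.pos]
    exact pow_dvd_pow _ (by omega)
  · exfalso
    have h6 := (isSyl_sylow P).card_le (isSyl_map_subtype S).isP le_top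
    rw [Subgroup.card_map_of_injective (Subgroup.subtype_injective _), hb, hd] at h6
    exact hbd ((Nat.pow_le_pow_iff_right hp.one_lt).1 h6)

end Cfsg.Agent.S0957
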