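import Cfsg.Statements.S0958
import Cfsg.Agent.Block.Red

set_option autoImplicit false
open Cfsg

namespace Cfsg.Agent.S0958

open CF.Block

/-- Let P be a p-subgroup of the finite group G and H a subgroup with P ⊔ C_G(P) ≤ H ≤ N_G(P); fix a maximal ideal M of the algebraic integers containing p. Then a block B of G is induced by some block of H if and only if some conjugate of P is contained in a defect group of B. -/
theorem result {G : Type*} [Group G] [Finite G] (p : ℕ) [Fact p.Prime] (M : Ideal Cfsg.AlgInt) (hM : Cfsg.IsPModular p M) (P H : Subgroup G) (hP : IsPGroup p P) (hPH : P ⊔ Subgroup.centralizer (P : Set G) ≤ H) (hHN : H ≤ Subgroup.normalizer (P : Set G)) (B : Set (Cfsg.IrrCharacter G)) (hB : Cfsg.IsPBlock M B) : (∃ b : Set (Cfsg.IrrCharacter H), Cfsg.IsInducedBlock M H b B) ↔ ∃ D : Subgroup G, Cfsg.IsDefectGroup p M B D ∧ ∃ x : G, P.map (MulAut.conj x).toMonoidHom ≤ D := by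
  have := CF.BlockB.charP_k hM
  have hS : BrSetup p P H ⊤ := BrSetup.of_le hP (le_sup_left.trans hPH) le_top
    (inf_le_left.trans (le_sup_right.trans hPH)) hHN
  have h1 := hS.exists_induces_iff (isBlk_eb hM hB)
  constructor
  · rintro ⟨b, hb⟩
    obtain ⟨D, hD, hPD⟩ := exists_isDefGrp_ge hP le_top (h1.1 ⟨_, IsInducedBlock.induces hM hb⟩)
    exact ⟨D, (isDefectGroup_iff hM hB D).2 hD, 1, (cjs_one P).le.trans hPD⟩
  · rintro ⟨D, hD, x, hx⟩
    rw [isDefectGroup_iff hM hB] at hD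
    obtain ⟨e, he⟩ := h1.2 ((hD.Br_ne_zero_iff (isBlk_eb hM hB) hP le_top).2
      ⟨x⁻¹, trivial, cjs_le_iff.1 hx⟩)
    obtain ⟨b, hb, -⟩ := exists_isInducedBlock_of_induces' hM hB he
    exact ⟨b, hb⟩

end Cfsg.Agent.S0958
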