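import Cfsg.Statements.S0959
import Cfsg.Agent.Block.Red

set_option autoImplicit false
open Cfsg

namespace Cfsg.Agent.S0959

open CF.Block

/-- Let B be a block of the finite group G with defect group D (relative to a maximal ideal M of the algebraic integers containing the prime p), and let P be a p-subgroup. Then there is an element g whose idempotent coefficient for B is a local integer outside the local ideal at M and which has a conjugate centralizing P, if and only if some conjugate of P is contained in D. -/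
theorem result {G : Type*} [Group G] [Finite G] (p : ℕ) [Fact p.Prime] (M : Ideal Cfsg.AlgInt) (hM : Cfsg.IsPModular p M) (B : Set (Cfsg.IrrCharacter G)) (hB : Cfsg.IsPBlock M B) (D : Subgroup G) (hD : Cfsg.IsDefectGroup p M B D) (P : Subgroup G) (hP : IsPGroup p P) : (∃ g : G, Cfsg.MemLocalRing M (Cfsg.blockCoeff B g) ∧ ¬ Cfsg.MemLocalIdeal M (Cfsg.blockCoeff B g) ∧ ∃ c : G, IsConj g c ∧ c ∈ Subgroup.centralizer (P : Set G)) ↔ ∃ x : G, P.map (MulAut.conj x).toMonoidHom ≤ D := by
  have := CF.BlockB.charP_k hM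
  rw [isDefectGroup_iff hM hB] at hD
  have h1 := hD.Br_ne_zero_iff (isBlk_eb hM hB) hP le_top
  constructor
  · rintro ⟨g, -, hg, c, hc, hcP⟩
    obtain ⟨x, -, hx⟩ := h1.1 (Br_ne_zero_iff.2 ⟨c, hcP, by
      rw [coeff_eq_of_mem_ccl (isBlk_eb hM hB).mem_fix (mem_ccl_top.2 hc)]
      exact (coeff_eb_ne_zero_iff hM hB g).2 hg⟩)
    exact ⟨x⁻¹, le_cjs_iff.1 hx⟩
  · rintro ⟨x, hx⟩
    obtain ⟨c, hcP, hc⟩ := Br_ne_zero_iff.1 (h1.2 ⟨x⁻¹, trivial, cjs_le_iff.1 hx⟩)
    exact ⟨c, (CF.BlockB.memLocalRing_blockCoeff_iff hM B c).2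
      (CF.BlockB.v_blockCoeff_le_one hM hB c), (coeff_eb_ne_zero_iff hM hB c).1 hc, c,
      IsConj.refl c, hcP⟩

end Cfsg.Agent.S0959
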