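import Cfsg.Statements.S0965
import Cfsg.Agent.Block.Extra

set_option autoImplicit false
open Cfsg

namespace Cfsg.Agent.S0965

open CF.Block

/-- Let N be a normal subgroup of the finite group G and let B, b be blocks of G and of N relative to a maximal ideal M of the algebraic integers containing the prime p. Then some χ ∈ B has a constituent in b on restriction to N if and only if, for all χ ∈ B, θ ∈ b and n ∈ N, the central character of χ at n is congruent modulo the local ideal at M to the sum of θ m / θ 1 over the elements m ∈ N conjugate in G to n. -/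
theorem result {G : Type*} [Group G] [Fintype G] (p : ℕ) [Fact p.Prime] (M : Ideal Cfsg.AlgInt) (hM : Cfsg.IsPModular p M) (N : Subgroup G) [N.Normal] [Fintype N] (B : Set (Cfsg.IrrCharacter G)) (hB : Cfsg.IsPBlock M B) (b : Set (Cfsg.IrrCharacter N)) (hb : Cfsg.IsPBlock M b) : (∃ χ ∈ B, ∃ θ ∈ b, Cfsg.classInner (fun n : N => (χ : G → ℂ) n) (θ : N → ℂ) ≠ 0) ↔ ∀ χ ∈ B, ∀ θ ∈ b, ∀ n : N, Cfsg.MemLocalIdeal M (Cfsg.centralChar (χ : G → ℂ) (n : G) - Cfsg.inducedCentralChar N (θ : N → ℂ) (n : G)) := by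
  rw [covers_iff hM hB hb, (isBlk_eb hM hB).covers_iff_lam (isBlk_ebs hM hb)
    (le_normalizer_of_normal' _ _) le_top]
  have key : ∀ χ ∈ B, ∀ θ ∈ b, ∀ n : N, MemLocalIdeal M (centralChar (χ : G → ℂ) (n : G) -
      inducedCentralChar N (θ : N → ℂ) (n : G)) ↔
      (lam (eb M B) (clsum (CF.BlockB.k M) ⊤ (n : G)) : CF.BlockB.k M) =
        lam (ebs M N b) (clsum (CF.BlockB.k M) ⊤ (n : G)) := fun χ hχ θ hθ n => by
    rw [memLocalIdeal_sub_iff hM (CF.BlockB.centralChar_isIntegral' χ.2 _)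
      (CF.BlockB.inducedCentralChar_isIntegral N θ _), lam_eb_clsum hM hB hχ,
      lam_ebs_clsum_top hM hb hθ]
  obtain ⟨χ₀, hχ₀⟩ := CF.BlockB.block_nonempty hM hB
  obtain ⟨θ₀, hθ₀⟩ := CF.BlockB.block_nonempty hM hb
  exact ⟨fun h χ hχ θ hθ n => (key χ hχ θ hθ n).2 (h n n.2),
    fun h x hx => (key χ₀ hχ₀ θ₀ hθ₀ ⟨x, hx⟩).1 (h χ₀ hχ₀ θ₀ hθ₀ ⟨x, hx⟩)⟩

end Cfsg.Agent.S0965
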