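import Cfsg.Statements.S0966
import Cfsg.Agent.Block.CoverRed

set_option autoImplicit false
open Cfsg

namespace Cfsg.Agent.S0966

open CF.Block

/-- Let N be a normal subgroup of p-power index in the finite group G and b a block of N relative to a maximal ideal M of the algebraic integers containing p. Then there is exactly one block B of G containing a character whose restriction to N has a constituent in b. -/
theorem result {G : Type*} [Group G] [Fintype G] (p : ℕ) [Fact p.Prime] (M : Ideal Cfsg.AlgInt) (hM : Cfsg.IsPModular p M) (N : Subgroup G) [N.Normal] [Fintype N] (hidx : ∃ k : ℕ, N.index = p ^ k) (b : Set (Cfsg.IrrCharacter N)) (hb : Cfsg.IsPBlock M b) : ∃! B : Set (Cfsg.IrrCharacter G), Cfsg.IsPBlock M B ∧ ∃ χ ∈ B, ∃ θ ∈ b, Cfsg.classInner (fun n : N => (χ : G → ℂ) n) (θ : N → ℂ) ≠ 0 := by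
  have hb' := isBlk_ebs hM hb
  obtain ⟨B, hB, h⟩ := exists_eb_eq hM ((regSupp hM).isBlk_orb (mem_of_index_eq_pow hidx) hb'
    (le_normalizer_of_normal' _ _) le_top)
  refine ⟨B, ⟨hB, (covers_iff hM hB hb).2 ?_⟩, fun B' h' => eb_inj hM h'.1 hB ?_⟩
  · rw [h, hb'.orb_mul (le_normalizer_of_normal' _ _)]; exact hb'.ne
  · rw [h]
    exact (regSupp hM).eq_orb (mem_of_index_eq_pow hidx) (isBlk_eb hM h'.1) hb'
      (le_normalizer_of_normal' _ _) le_top ((covers_iff hM h'.1 hb).1 h'.2)

end Cfsg.Agent.S0966
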