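import Cfsg.Statements.S0968
import Cfsg.Agent.BlockB.Central
-- import your own Cfsg.Agent.* helpers here

set_option autoImplicit false
open Cfsg

namespace Cfsg.Agent.S0968

/-- Let P be a p-subgroup of the finite group G with P ⊔ C_G(P) = G, and let B be a block with defect group P relative to a maximal ideal M of the algebraic integers containing p. Then there is exactly one θ ∈ B with θ x = θ 1 for all x ∈ P; for this θ the exponent of p in θ(1) equals the exponent of p in the index of P; and the number of members of B equals the number of conjugacy classes of P. -/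
theorem result {G : Type*} [Group G] [Finite G] (p : ℕ) [Fact p.Prime] (M : Ideal Cfsg.AlgInt) (hM : Cfsg.IsPModular p M) (P : Subgroup G) (hP : IsPGroup p P) (hG : P ⊔ Subgroup.centralizer (P : Set G) = ⊤) (B : Set (Cfsg.IrrCharacter G)) (hB : Cfsg.IsPBlock M B) (hD : Cfsg.IsDefectGroup p M B P) : (∃! θ : Cfsg.IrrCharacter G, θ ∈ B ∧ ∀ x ∈ P, (θ : G → ℂ) x = (θ : G → ℂ) 1) ∧ (∀ θ ∈ B, (∀ x ∈ P, (θ : G → ℂ) x = (θ : G → ℂ) 1) → (Cfsg.charDegree (θ : G → ℂ)).factorization p = P.index.factorization p) ∧ Nat.card B = Nat.card (ConjClasses P) := by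
  have hp := hM.1
  obtain ⟨θ, hθ, hker, h⟩ := CF.BlockB.exists_canon hM hB hD hG
  have hk : ∀ ψ : Cfsg.IrrCharacter G, (∀ x ∈ P, (ψ : G → ℂ) x = (ψ : G → ℂ) 1) ↔
      P ≤ CF.Char.charKer (ψ : G → ℂ) := fun ψ =>
    forall₂_congr fun x _ => (CF.Char.mem_charKer_iff (CF.Char.irr_isCharacter ψ.2)).symm
  have hB' := CF.BlockB.block_eq_blockOf hM hB hθ
  refine ⟨⟨θ, ⟨hθ, (hk θ).2 hker⟩, fun ψ ⟨hψ, hψP⟩ => ?_⟩,
    fun ψ hψ hψP => (CF.BlockB.canon_of_defectGroup hM hB hD hG hψ ((hk ψ).1 hψP)).deg, ?_⟩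
  · have key : ∀ ξ ∈ B, (∀ x ∈ P, (ξ : G → ℂ) x = (ξ : G → ℂ) 1) →
        (ξ : G → ℂ) = CF.BlockB.tw p P (fun _ => 1) θ := by
      intro ξ hξ hξP
      obtain ⟨ζ, e⟩ := (h.mem_iff hM).1 (hB' ▸ hξ)
      rw [e, CF.Char.irr_eq_one_of_charKer_eq_top ζ.2]
      refine eq_top_iff.2 fun u _ => (CF.Char.mem_charKer_iff (CF.Char.irr_isCharacter ζ.2)).2 ?_
      have := hξP u u.2
      rw [e, CF.BlockB.tw_coe hp _ _ u (CF.BlockB.exists_orderOf_of_mem hp hP u.2),
        CF.BlockB.tw_one hp] at this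
      exact mul_right_cancel₀ (CF.Char.irr_one_ne_zero θ.2) this
    exact Subtype.ext ((key ψ hψ hψP).trans (key θ hθ ((hk θ).2 hker)).symm)
  · rw [hB', h.card_block hM, CF.Char.card_irr]

end Cfsg.Agent.S0968
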