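import Cfsg.Statements.S0970
import Cfsg.Agent.Block.Extra

set_option autoImplicit false
open Cfsg

namespace Cfsg.Agent.S0970

open CF.Block

/-- Let N be a normal subgroup of the finite group G and fix a maximal ideal M of the algebraic integers containing the prime p. Let b be a block of N that is invariant under conjugation by G, and B a block of G covering b (some χ ∈ B has a constituent in b) whose defect is at least that of every block covering b. If P is a defect group of B, then p does not divide the index of P ⊔ N, the subgroup P ∩ N of N is a defect group of b, and the defect of B equals the defect of b plus the exponent of p in the index of N. -/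
theorem result {G : Type*} [Group G] [Fintype G] (p : ℕ) [Fact p.Prime] (M : Ideal Cfsg.AlgInt) (hM : Cfsg.IsPModular p M) (N : Subgroup G) [hN : N.Normal] [Fintype N] (b : Set (Cfsg.IrrCharacter N)) (hb : Cfsg.IsPBlock M b) (hinv : ∀ g : G, ∀ θ ∈ b, ∀ θ' : Cfsg.IrrCharacter N, (∀ n : N, (θ' : N → ℂ) n = (θ : N → ℂ) ⟨g * n * g⁻¹, hN.conj_mem n n.2 g⟩) → θ' ∈ b) (B : Set (Cfsg.IrrCharacter G)) (hB : Cfsg.IsPBlock M B) (hcov : ∃ χ ∈ B, ∃ θ ∈ b, Cfsg.classInner (fun n : N => (χ : G → ℂ) n) (θ : N → ℂ) ≠ 0) (hmax : ∀ B' : Set (Cfsg.IrrCharacter G), Cfsg.IsPBlock M B' → (∃ χ ∈ B', ∃ θ ∈ b, Cfsg.classInner (fun n : N => (χ : G → ℂ) n) (θ : N → ℂ) ≠ 0) → Cfsg.blockDefect p B' ≤ Cfsg.blockDefect p B) (P : Subgroup G) (hP : Cfsg.IsDefectGroup p M B P) : ¬ p ∣ (P ⊔ N).index ∧ Cfsg.IsDefectGroup p M b ((P ⊓ N).subgroupOf N) ∧ Cfsg.blockDefect p B = Cfsg.blockDefect p b + N.index.factorization p := by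
  have := CF.BlockB.charP_k hM
  have hb' := isBlk_ebs hM hb
  have hB' := isBlk_eb hM hB
  have hn := le_normalizer_of_normal' (⊤ : Subgroup G) N
  have hst : ebs M N b ∈ fix (CF.BlockB.k M) ⊤ := fun g _ => (stabA_iff hM hb g).1 (hinv g)
  have hP' := (isDefectGroup_iff hM hB P).1 hP
  rw [covers_iff hM hB hb] at hcov
  have h1 := hP'.inf_of_stable hB' hb' hn le_top hcov hst
  obtain ⟨E, R, hE, h2, hR, h3⟩ := hb'.exists_cover_fong (p := p) hn le_top hst
  obtain ⟨B₁, hB₁, rfl⟩ := exists_eb_eq hM hE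
  have h4 := not_dvd_relIndex_sup_of_card_le hP'.isP hR.isP le_top le_top le_top hn
    (hR.card_inf hE hb' hn le_top h2 h1).ge (by
      rw [hR.card_eq_pow hM hB₁, hP'.card_eq_pow hM hB]
      exact Nat.pow_le_pow_right hM.1.pos (hmax B₁ hB₁ ((covers_iff hM hB₁ hb).2 h2))) h3
  rw [Subgroup.relIndex_top_right] at h4
  refine ⟨h4, (isDefectGroup_iff_subgroupOf hM hb inf_le_right).2 h1, ?_⟩
  obtain ⟨n, h5⟩ := exists_relIndex_eq_pow hP'.isP N
  have h6 := card_inf_mul_relIndex P N
  rw [h1.card_eq_pow_sub hM hb, hP'.card_eq_pow hM hB, h5, ← pow_add] at h6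
  rw [← Nat.pow_right_injective hM.1.two_le h6,
    ← Subgroup.relIndex_mul_index (le_sup_right : N ≤ P ⊔ N),
    relIndex_sup_of_norm (le_normalizer_of_normal' P N), h5,
    Nat.factorization_mul (pow_pos hM.1.pos n).ne' Subgroup.index_ne_zero_of_finite,
    Finsupp.add_apply, Nat.factorization_eq_zero_of_not_dvd h4, hM.1.factorization_pow]
  simp

end Cfsg.Agent.S0970
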