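import Cfsg.Statements.S0972
import Cfsg.Agent.Block.Deg

set_option autoImplicit false
open Cfsg

namespace Cfsg.Agent.S0972

open CF.Block CF Subgroup

/-- Let B be a block of the finite group G (relative to a maximal ideal M of the algebraic integers containing the prime p) with a defect group P that is normal in G. Then P is commutative if and only if every member of B has height zero. -/
theorem result {G : Type*} [Group G] [Finite G] (p : ℕ) [Fact p.Prime] (M : Ideal Cfsg.AlgInt) (hM : Cfsg.IsPModular p M) (B : Set (Cfsg.IrrCharacter G)) (hB : Cfsg.IsPBlock M B) (P : Subgroup G) [P.Normal] (hP : Cfsg.IsDefectGroup p M B P) : (∀ a ∈ P, ∀ c ∈ P, a * c = c * a) ↔ ∀ χ ∈ B, Cfsg.blockHeight p B (χ : G → ℂ) = 0 := by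
  obtain ⟨c, h1, h2⟩ := exists_deg_of_normal_defGrp hM hB ((isDefectGroup_iff hM hB P).1 hP)
  have hPp := BlockB.IsDefectGroup.isPGroup hP
  have hne := BlockB.block_nonempty hM hB
  have hmin : BlockB.minExp p B = c := by
    apply le_antisymm
    · obtain ⟨χ, hχ, h⟩ := h2 (Char.oneIrr P)
      have := BlockB.minExp_le (p := p) hχ
      rw [h, BlockB.Ord.deg_of_eq (χ := (Char.oneIrr P : P → ℂ)) (n := 1) (by simp)] at this
      simpa using this
    · obtain ⟨χ, hχ, h⟩ := BlockB.exists_minExp_eq (p := p) hne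
      obtain ⟨ζ, hζ⟩ := h1 χ hχ
      omega
  constructor
  · intro h χ hχ
    obtain ⟨ζ, hζ⟩ := h1 χ hχ
    have h3 := Clifford.comm_iff_irr_one.1 (fun a b : P => Subtype.ext (h a a.2 b b.2)) _ ζ.2
    rw [BlockB.height_zero_iff hχ, hζ, hmin,
      BlockB.Ord.deg_of_eq (χ := (ζ : P → ℂ)) (n := 1) (by simpa using h3)]
    simp
  · intro h a ha b hb
    refine congrArg Subtype.val (comm_of_not_dvd_deg hPp (fun ζ hd => ?_) ⟨a, ha⟩ ⟨b, hb⟩)
    obtain ⟨χ, hχ, h3⟩ := h2 ζ
    have h4 := (BlockB.height_zero_iff hχ).1 (h χ hχ)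
    have h5 := (Fact.out : p.Prime).factorization_pos_of_dvd
      (BlockB.Ord.irr_deg_pos ζ.2).ne' hd
    omega

end Cfsg.Agent.S0972
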