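import Cfsg.Statements.S0973
import Cfsg.Agent.Block.Extra

set_option autoImplicit false
open Cfsg

namespace Cfsg.Agent.S0973

open CF.Block

/-- Let B be a block of the finite group G with defect group P (relative to a maximal ideal M of the algebraic integers containing p), and let L = P ⊔ C_G(P). Then (i) some block b of L with defect group P (viewed in L) induces B, and (ii) if b and b' are blocks of L both inducing B, there is n ∈ N_G(P) carrying b to b': for every θ ∈ b there is θ' ∈ b' with θ' x = θ (n x n⁻¹) for all x ∈ L. -/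
theorem result {G : Type*} [Group G] [Finite G] (p : ℕ) [Fact p.Prime] (M : Ideal Cfsg.AlgInt) (hM : Cfsg.IsPModular p M) (B : Set (Cfsg.IrrCharacter G)) (hB : Cfsg.IsPBlock M B) (P : Subgroup G) (hP : Cfsg.IsDefectGroup p M B P) : (∃ b : Set (Cfsg.IrrCharacter ↥(P ⊔ Subgroup.centralizer (P : Set G))), Cfsg.IsDefectGroup p M b (P.subgroupOf (P ⊔ Subgroup.centralizer (P : Set G))) ∧ Cfsg.IsInducedBlock M (P ⊔ Subgroup.centralizer (P : Set G)) b B) ∧ ∀ b b' : Set (Cfsg.IrrCharacter ↥(P ⊔ Subgroup.centralizer (P : Set G))), Cfsg.IsInducedBlock M (P ⊔ Subgroup.centralizer (P : Set G)) b B → Cfsg.IsInducedBlock M (P ⊔ Subgroup.centralizer (P : Set G)) b' B → ∃ n ∈ Subgroup.normalizer (P : Set G), ∀ θ ∈ b, ∃ θ' ∈ b', ∀ x : ↥(P ⊔ Subgroup.centralizer (P : Set G)), ∀ hx : n * (x : G) * n⁻¹ ∈ P ⊔ Subgroup.centralizer (P : Set G), (θ' : ↥(P ⊔ Subgroup.centralizer (P : Set G)) → ℂ) x = (θ : ↥(P ⊔ Subgroup.centralizer (P : Set G)) → ℂ) ⟨n * (x : G) * n⁻¹,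 hx⟩ := by
  have := CF.BlockB.charP_k hM
  have hP' := (isDefectGroup_iff hM hB P).1 hP
  refine ⟨?_, fun b b' h h' => ?_⟩
  · obtain ⟨e, he⟩ := hP'.exists_maxPair (isBlk_eb hM hB)
    have h1 := sup_le he.bpair.pair.le_stab he.bpair.pair.Cz_le_stab
    have h2 := he.bpair.induces_of_le le_sup_left le_sup_right h1
    have h3 := he.isDefGrp_of_le le_sup_left h1
    rw [Cz_top] at h2 h3
    obtain ⟨b, hind, rfl⟩ := exists_isInducedBlock_of_induces' hM hB h2
    exact ⟨b, (isDefectGroup_iff_subgroupOf hM hind.1 le_sup_left).2 h3, hind⟩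
  · obtain ⟨x, hx, h1⟩ := (Induces.bPair_of_sup (by rw [Cz_top]; exact IsInducedBlock.induces hM h)
      hP'.isP).conj_of_isDefGrp
      (Induces.bPair_of_sup (by rw [Cz_top]; exact IsInducedBlock.induces hM h') hP'.isP) hP'
    have h2 := (cjs_eq_of_mem_normalizer (normalizer_inf_le_normalizer_sup _ _
      ⟨hx.1, normalizer_le_normalizer_centralizer P hx.1⟩)).symm
    refine ⟨x⁻¹, inv_mem hx.1, fun θ hθ => ⟨cjIrr x h2 θ,
      (cjIrr_mem_iff hM x h2 h.1 h'.1 hθ).2 h1.symm, fun y hy => ?_⟩⟩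
    rw [cjIrr_apply]
    simp only [inv_inv]

end Cfsg.Agent.S0973
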