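import Cfsg.Statements.S0985
import Cfsg.Agent.Small.Count

set_option autoImplicit false
open Cfsg

namespace Cfsg.Agent.S0985

/-- If the number of Sylow p-subgroups of a finite group is not congruent to 1 modulo p^k, then there are two distinct Sylow p-subgroups P and R such that the index of P ∩ R in P is at most p^(k-1). -/
theorem result {G : Type*} [Group G] [Finite G] (p k : ℕ) [Fact p.Prime] (h : ¬ Nat.card (Sylow p G) ≡ 1 [MOD p ^ k]) : ∃ P R : Sylow p G, P ≠ R ∧ ((R : Subgroup G).subgroupOf (P : Subgroup G)).index ≤ p ^ (k - 1) := by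
  obtain ⟨P⟩ : Nonempty (Sylow p G) := inferInstance
  obtain ⟨R, hR, j, hj, hi⟩ := CF.Small.exists_sylow_index_le P k h
  refine ⟨P, R, hR, ?_⟩
  rw [hi]
  exact Nat.pow_le_pow_right (Fact.out : p.Prime).pos (by omega)

end Cfsg.Agent.S0985
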