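import Cfsg.Statements.S0986
import Cfsg.Agent.Small.Count

set_option autoImplicit false
open Cfsg

namespace Cfsg.Agent.S0986

open CF.Small Subgroup CF

theorem card_lt_of_lt {G : Type*} [Group G] [Finite G] {D R : Subgroup G} (h : D < R) :
    Nat.card D < Nat.card R :=
  lt_of_not_ge fun e => h.ne (eq_of_le_of_card_ge h.le e)

theorem exists_lt {G : Type*} [Group G] [Finite G] {p : ℕ} [Fact p.Prime] {D R : Subgroup G}
    (hR : IsPGroup p R) (h : D < R) : D < R ⊓ normalizer (D : Set G) := by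
  have := hR.isNilpotent
  have h1 := normalizerCondition_of_isNilpotent (D.subgroupOf R)
    (lt_top_iff_ne_top.2 fun e => h.not_ge (subgroupOf_eq_top.1 e))
  rw [← subgroupOf_normalizer_eq h.le] at h1
  obtain ⟨x, hx, hx'⟩ := SetLike.exists_of_lt h1
  exact lt_of_le_of_ne (le_inf h.le le_normalizer) fun e => hx' (e.ge ⟨x.2, hx⟩)

/-- Let P and Q be distinct Sylow p-subgroups of a finite group G chosen so that the order of P ∩ Q is as large as possible among intersections of two distinct Sylow p-subgroups, and let N be the normalizer of P ∩ Q. Then N has more than one Sylow p-subgroup, any two distinct Sylow p-subgroups of N intersect exactly in P ∩ Q, and each Sylow p-subgroup of N lies in exactly one Sylow p-subgroup of G. -/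
theorem result {G : Type*} [Group G] [Finite G] (p : ℕ) [Fact p.Prime] (P Q : Sylow p G) (hPQ : P ≠ Q) (hmax : ∀ P' Q' : Sylow p G, P' ≠ Q' → Nat.card ↥((P' : Subgroup G) ⊓ (Q' : Subgroup G)) ≤ Nat.card ↥((P : Subgroup G) ⊓ (Q : Subgroup G))) : 1 < Nat.card (Sylow p ↥(Subgroup.normalizer (((P : Subgroup G) ⊓ (Q : Subgroup G) : Subgroup G) : Set G))) ∧ (∀ S T : Sylow p ↥(Subgroup.normalizer (((P : Subgroup G) ⊓ (Q : Subgroup G) : Subgroup G) : Set G)), S ≠ T → (S : Subgroup _) ⊓ (T : Subgroup _) = ((P : Subgroup G) ⊓ (Q : Subgroup G)).subgroupOf (Subgroup.normalizer (((P : Subgroup G) ⊓ (Q : Subgroup G) : Subgroup G) : Set G))) ∧ ∀ S : Sylow p ↥(Subgroup.normalizer (((P : Subgroup G) ⊓ (Q : Subgroup G) : Subgroup G) : Set G)), ∃! T : Sylow p G, (S : Subgroup _).map (Subgroup.normalizer (((P : Subgroup G) ⊓ (Q : Subgroup G) : Subgroup G) : Set G)).subtype ≤ (T : Subgroup G) := by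
  set D := (P : Subgroup G) ⊓ (Q : Subgroup G) with hD
  set N := normalizer (D : Set G)
  have key : ∀ (E : Subgroup G) (A B : Sylow p G), D < E → E ≤ A → E ≤ B → A = B :=
    fun E A B h hA hB => by_contra fun e => (hmax A B e).not_gt
      (lt_of_lt_of_le (card_lt_of_lt h) (card_le_of_le (le_inf hA hB)))
  have hDN : D ≤ N := le_normalizer
  have hp : IsPGroup p D := P.isPGroup'.to_le inf_le_left
  have hle : ∀ S : Sylow p N, D.subgroupOf N ≤ S := fun S =>
    IsPGroup.le_sylow_of_normal (N := D.subgroupOf N) hp.comap_subtype S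
  have hne : ∀ {A B : Sylow p G}, A ≠ B → (A : Subgroup G) ⊓ B < A := fun {A B} h =>
    lt_of_le_of_ne inf_le_left fun e => h (Sylow.ext (A.3 B.2 (inf_eq_left.1 e)).symm)
  have h1 : D < (P : Subgroup G) ⊓ N := exists_lt P.isPGroup' (hne hPQ)
  have h2 := exists_lt Q.isPGroup' (show D < Q by rw [hD, inf_comm]; exact hne hPQ.symm)
  obtain ⟨S₁, hS₁⟩ := (P.isPGroup'.comap_subtype (K := N)).exists_le_sylow
  obtain ⟨S₂, hS₂⟩ := (Q.isPGroup'.comap_subtype (K := N)).exists_le_sylow
  have hlt : ∀ S : Sylow p N, D < (S : Subgroup N).map N.subtype := fun S => by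
    refine lt_of_le_of_ne (fun x hx => ⟨⟨x, hDN hx⟩, hle S hx, rfl⟩) fun e => (card_lt_of_lt h1).not_ge ?_
    rw [congrArg (fun H : Subgroup G => Nat.card H) e, card_map_of_injective N.subtype_injective, card_sylow_eq_card_sylow S S₁,
      ← card_map_of_injective N.subtype_injective]
    exact card_le_of_le fun x hx => ⟨⟨x, hx.2⟩, hS₁ hx.1, rfl⟩
  have huniq : ∀ S : Sylow p N, ∃! T : Sylow p G, (S : Subgroup N).map N.subtype ≤ T := fun S => by
    obtain ⟨T, hT⟩ := (S.isPGroup'.map N.subtype).exists_le_sylow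
    exact ⟨T, hT, fun T' hT' => key _ _ _ (hlt S) hT' hT⟩
  refine ⟨Finite.one_lt_card_iff_nontrivial.2 ⟨S₁, S₂, fun e => hPQ ?_⟩, fun S T hST => ?_, huniq⟩
  · obtain ⟨T, hT, -⟩ := huniq S₁
    exact (key _ _ _ h1 inf_le_left fun x hx => hT ⟨⟨x, hx.2⟩, hS₁ hx.1, rfl⟩).trans
      (key _ _ _ h2 inf_le_left fun x hx => hT ⟨⟨x, hx.2⟩, e ▸ hS₂ hx.1, rfl⟩).symm
  · refine (eq_of_le_of_not_lt (le_inf (hle S) (hle T)) fun h => hST ?_).symm
    obtain ⟨A, hA, -⟩ := huniq S
    obtain ⟨B, hB, -⟩ := huniq T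
    obtain rfl : A = B := key (((S : Subgroup N) ⊓ T).map N.subtype) _ _ (by
      rw [← map_subgroupOf_eq_of_le hDN]
      exact (map_lt_map_iff_of_injective N.subtype_injective).2 h)
      ((map_mono inf_le_left).trans hA) ((map_mono inf_le_right).trans hB)
    exact Sylow.ext ((S.3 (A.isPGroup'.comap_subtype) (map_le_iff_le_comap.1 hA)).symm.trans
      (T.3 (A.isPGroup'.comap_subtype) (map_le_iff_le_comap.1 hB)))

end Cfsg.Agent.S0986
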