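import Cfsg.Statements.S0987
import Cfsg.Agent.Small.Auto
import Cfsg.Agent.Solv.Cores

set_option autoImplicit false
open Cfsg

namespace Cfsg.Agent.S0987

open CF.Small Subgroup CF

/-- If a finite group has order pqr for primes p < q < r, then its Sylow r-subgroups are normal. -/
theorem result {G : Type*} [Group G] [Finite G] (p q r : ℕ) (hp : p.Prime) (hq : q.Prime) [Fact r.Prime] (hpq : p < q) (hqr : q < r) (hG : Nat.card G = p * q * r) (R : Sylow r G) : (R : Subgroup G).Normal := by
  have hr : r.Prime := Fact.out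
  have := Fact.mk hp
  obtain ⟨P⟩ : Nonempty (Sylow p G) := inferInstance
  have h0 : ¬ r ∣ q := Nat.not_dvd_of_pos_of_lt hq.pos hqr
  have h1 : Nat.card (P : Subgroup G) = p ^ 1 := card_sylow_eq P (m := q * r) (by rw [hG]; ring)
    fun h => ((Nat.Prime.dvd_mul hp).1 h).elim
      (fun h => hpq.ne ((Nat.prime_dvd_prime_iff_eq hp hq).1 h))
      fun h => (hpq.trans hqr).ne ((Nat.prime_dvd_prime_iff_eq hp hr).1 h)
  have h2 : (Nat.card G).minFac = p := by
    have h3 := Nat.minFac_prime (n := Nat.card G) (by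
      rw [hG]; exact fun h => hr.one_lt.ne' (Nat.eq_one_of_mul_eq_one_left h))
    have h4 := Nat.minFac_le_of_dvd hp.two_le (show p ∣ Nat.card G from ⟨q * r, by rw [hG]; ring⟩)
    have h5 : (Nat.card G).minFac ∣ p * q * r := hG ▸ Nat.minFac_dvd _
    rcases (Nat.Prime.dvd_mul h3).1 h5 with h | h
    · rcases (Nat.Prime.dvd_mul h3).1 h with h | h
      · exact (Nat.prime_dvd_prime_iff_eq h3 hp).1 h
      · have := (Nat.prime_dvd_prime_iff_eq h3 hq).1 h; omega
    · have := (Nat.prime_dvd_prime_iff_eq h3 hr).1 h; omega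
  obtain ⟨M, hM, h3⟩ : ∃ M : Subgroup G, M.Normal ∧ M.IsComplement' P :=
    ⟨_, inferInstance, IsCyclic.isComplement' h2 (isCyclic_of_card_prime (by rw [h1, pow_one]))⟩
  have h4 : Nat.card M = r ^ 1 * q := Nat.eq_of_mul_eq_mul_right hp.pos (by
    have := h3.card_mul
    rw [h1, pow_one, hG] at this
    rw [this]; ring)
  obtain ⟨Q⟩ : Nonempty (Sylow r M) := inferInstance
  have h5 : Nat.card (Sylow r M) = 1 :=
    ((Nat.dvd_prime hq).1 (card_sylow_dvd h4 h0)).resolve_right fun h => by
      have := card_sylow_modEq_one r M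
      rw [h] at this
      exact hq.one_lt.ne' (Nat.ModEq.eq_of_lt_of_lt this hqr hr.one_lt)
  have := (Nat.card_eq_one_iff_unique.1 h5).1
  have := Q.characteristic_of_subsingleton
  have h6 : (Q : Subgroup M).map M.subtype = R := eq_of_le_of_card_ge
    ((Solv.le_pCore (Q.isPGroup'.map _)).trans (Solv.pCore_le_sylow R)) (by
      rw [card_map_of_injective M.subtype_injective, card_sylow_eq Q h4 h0,
        card_sylow_eq R (a := 1) (m := p * q) (by rw [hG]; ring) fun h =>
          ((Nat.Prime.dvd_mul hr).1 h).elim (Nat.not_dvd_of_pos_of_lt hp.pos (hpq.trans hqr)) h0])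
  exact h6 ▸ inferInstance

end Cfsg.Agent.S0987
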