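import Cfsg.Statements.S0996
import Cfsg.Agent.Small.Br5

set_option autoImplicit false
open Cfsg

namespace Cfsg.Agent.S0996

open CF.Small Subgroup

/-- Let G be a finite perfect group containing an element z of prime order p whose centralizer is the cyclic group it generates, and suppose the number 1 + n * p of Sylow p-subgroups satisfies n < (p + 3) / 2. Then p > 3 and G is isomorphic to the projective special linear group of dimension 2 over the field with p elements, or p - 1 is a power of 2 and G is isomorphic to that group over the field with p - 1 elements. -/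
theorem result {G : Type*} [Group G] [Finite G] (hperf : commutator G = ⊤) (p : ℕ) [Fact p.Prime] (z : G) (hz : orderOf z = p) (hC : Subgroup.centralizer ({z} : Set G) = Subgroup.zpowers z) (hn : 2 * Nat.card (Sylow p G) < (p + 1) * (p + 2)) : (∃ (F : Type) (_ : Field F) (_ : Fintype F), Fintype.card F = p ∧ 3 < p ∧ Nonempty (G ≃* Matrix.ProjectiveSpecialLinearGroup (Fin 2) F)) ∨ (∃ (m : ℕ) (F : Type) (_ : Field F) (_ : Fintype F), Fintype.card F = 2 ^ m ∧ p = 2 ^ m + 1 ∧ 3 < p ∧ Nonempty (G ≃* Matrix.ProjectiveSpecialLinearGroup (Fin 2) F)) := by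
  have hp : p.Prime := Fact.out
  have h1 : Nat.card (zpowers z) = p := by rw [Nat.card_zpowers, hz]
  obtain ⟨P, hP⟩ := (IsPGroup.of_card (G := zpowers z) (n := 1) (by rw [h1, pow_one])).exists_le_sylow
  have h2 : zpowers z = P := by
    refine le_antisymm hP ?_
    have : Nontrivial (P : Subgroup G) := (nontrivial_iff_ne_bot _).2 fun h => by
      rw [h, le_bot_iff, zpowers_eq_bot] at hP
      exact hp.one_lt.ne (by simpa [hP] using hz)
    have := P.isPGroup'.center_nontrivial
    obtain ⟨⟨⟨c, hc⟩, hc'⟩, hc1⟩ := exists_ne (1 : center (P : Subgroup G))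
    have h3 : c ∈ zpowers z := hC ▸ mem_centralizer_singleton_iff.2
      (congrArg Subtype.val (mem_center_iff.1 hc' ⟨z, hP (mem_zpowers z)⟩)).symm
    obtain ⟨k, hk⟩ := mem_zpowers_of_orderOf_dvd (mem_zpowers z) h3 (by
      rw [((Nat.dvd_prime hp).1 ((orderOf_dvd_of_mem_zpowers h3).trans hz.dvd)).resolve_left fun e =>
        hc1 (Subtype.ext (Subtype.ext (orderOf_eq_one_iff.1 e))), hz])
    intro g hg
    rw [← hC, mem_centralizer_singleton_iff, ← hk]
    exact Commute.zpow_right (congrArg Subtype.val (mem_center_iff.1 hc' ⟨g, hg⟩)) k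
  obtain ⟨S, hS⟩ := exists_pset_sylow P (by rw [← h2, h1])
  have h3 : S.C = S.P := by
    rw [PSet.C, PSet.P, hS, ← h2, centralizer_zpowers, hC]
  obtain ⟨n, hn'⟩ := S.exists_index_N
  refine (S.concl_of_K hperf (card_eq_one.1 (Nat.eq_of_mul_eq_mul_left hp.pos ?_)) hn' fun h => ?_).psl
  · rw [← S.card_C, h3, S.card_P, mul_one]
  · have := Nat.mul_le_mul_right p (h.le hp.one_le)
    rw [← S.index_N, hn'] at hn
    nlinarith

end Cfsg.Agent.S0996
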