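import Cfsg.Statements.S0999
import Cfsg.Agent.Small.Br5

set_option autoImplicit false
open Cfsg

namespace Cfsg.Agent.S0999

open CF.Small

/-- Let G be a non-cyclic finite simple group and p a prime divisor of its order with p^3 > |G|. Then p > 3 and G is isomorphic to the projective special linear group of dimension 2 over the field with p elements, or p - 1 is a power of 2 and G is isomorphic to that group over the field with p - 1 elements. -/
theorem result {G : Type*} [Group G] [Finite G] [IsSimpleGroup G] (hG : ¬ IsCyclic G) (p : ℕ) (hp : p.Prime) (hdvd : p ∣ Nat.card G) (hbig : Nat.card G < p ^ 3) : (∃ (F : Type) (_ : Field F) (_ : Fintype F), Fintype.card F = p ∧ 3 < p ∧ Nonempty (G ≃* Matrix.ProjectiveSpecialLinearGroup (Fin 2) F)) ∨ (∃ (m : ℕ) (F : Type) (_ : Field F) (_ : Fintype F), Fintype.card F = 2 ^ m ∧ p = 2 ^ m + 1 ∧ 3 < p ∧ Nonempty (G ≃* Matrix.ProjectiveSpecialLinearGroup (Fin 2) F)) := by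
  have := Fact.mk hp
  have h := not_comm_of_not_isCyclic hG
  obtain ⟨P⟩ : Nonempty (Sylow p G) := inferInstance
  refine (concl_of_lt (commutator_eq_top h) hdvd hbig P (fun h1 => normalizer_sylow_ne_top h hdvd P
    (Subgroup.normalizer_eq_top_iff.2 h1)) fun N hN h2 => ?_).psl
  rcases hN.eq_bot_or_eq_top with rfl | rfl
  · simp at h2
  · exact hG (isCyclic_of_prime_card (p := 2) (by simpa using h2))

end Cfsg.Agent.S0999
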