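import Cfsg.Statements.S1002
import Cfsg.Agent.Small.Sv4

set_option autoImplicit false
open Cfsg

namespace Cfsg.Agent.S1002

/-- No finite simple group has order 1004913 = 3^3 * 7 * 13 * 409. -/
theorem result {G : Type*} [Group G] [Finite G] [IsSimpleGroup G] : Nat.card G ≠ 1004913 := by
  intro h
  have : Fact (Nat.Prime 409) := ⟨by norm_num⟩
  have hG : ¬ IsMulCommutative G := CF.Small.not_comm_of_not_prime (by rw [h]; norm_num)
  rcases (CF.Small.concl_of_simple (p := 409) hG (by rw [h]; norm_num)
    (by rw [h]; norm_num)).card with e | ⟨m, e, e'⟩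
  · omega
  · rw [show 2 ^ m = 408 by omega] at e'
    omega

end Cfsg.Agent.S1002
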