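import Cfsg.Statements.S1008
import Cfsg.Agent.Small.O168

set_option autoImplicit false
open Cfsg

namespace Cfsg.Agent.S1008

open CF.Small CF.Small.O168 CF.Transfer Subgroup

/-- In a simple group of order 168 every maximal subgroup is either isomorphic to the symmetric group of degree 4 or non-abelian of order 21; the maximal subgroups of order 21 form one conjugacy class and those isomorphic to the symmetric group of degree 4 form exactly two conjugacy classes. -/
theorem result {G : Type*} [Group G] [Finite G] [IsSimpleGroup G] (h : Nat.card G = 168) : (∀ M : Subgroup G, IsCoatom M → Nonempty (↥M ≃* Equiv.Perm (Fin 4)) ∨ (Nat.card ↥M = 21 ∧ ¬ IsMulCommutative ↥M)) ∧ (∀ M M' : Subgroup G, IsCoatom M → IsCoatom M' → Nat.card ↥M = 21 → Nat.card ↥M' = 21 → ∃ g : G, M' = M.map (MulAut.conj g).toMonoidHom) ∧ ∃ M₁ M₂ : Subgroup G, IsCoatom M₁ ∧ IsCoatom M₂ ∧ Nonempty (↥M₁ ≃* Equiv.Perm (Fin 4)) ∧ Nonempty (↥M₂ ≃* Equiv.Perm (Fin 4)) ∧ (∀ g : G, M₂ ≠ M₁.map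 (MulAut.conj g).toMonoidHom) ∧ ∀ M : Subgroup G, IsCoatom M → Nonempty (↥M ≃* Equiv.Perm (Fin 4)) → ∃ g : G, M = M₁.map (MulAut.conj g).toMonoidHom ∨ M = M₂.map (MulAut.conj g).toMonoidHom := by
  obtain ⟨T⟩ : Nonempty (Sylow 2 G) := inferInstance
  obtain ⟨U, W, h1, h2, h3, h4, h5, h6⟩ := exists_pair h T
  refine ⟨fun M hM => (coatom h hM).imp_right ?_, fun M M' hM hM' e e' => ?_, _, _,
    coatom_S4 h (norm_four h h3), coatom_S4 h (norm_four h h4), norm_four h h3, norm_four h h4,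
    fun g e => h5 g (eq_of_norm_eq h (CF.Invol.klein_cj h3 g) h4 ((normalizer_cj g U).trans e.symm)),
    fun M _ hM => ?_⟩
  · rintro ⟨P, rfl⟩
    refine ⟨card_norm7 h P, fun e => ?_⟩
    obtain ⟨z, h7, h8, -⟩ := exists_generator_sylow P
      (card_sylow_eq P (a := 1) (m := 24) h (by norm_num))
    have := card_le_of_le (K := centralizer {z}) fun g hg => mem_centralizer_singleton_iff.2
      (congrArg Subtype.val (e.is_comm.comm ⟨g, hg⟩ ⟨z, le_normalizer h7⟩))
    rw [card_norm7 h, cent_of h (by omega)] at this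
    omega
  · obtain ⟨P, rfl⟩ := (coatom h hM).resolve_left fun e₁ => by have := card_S4 h e₁; omega
    obtain ⟨Q, rfl⟩ := (coatom h hM').resolve_left fun e₁ => by have := card_S4 h e₁; omega
    obtain ⟨g, rfl⟩ := MulAction.exists_smul_eq G P Q
    exact ⟨g, normalizer_cj g P⟩
  · obtain ⟨V, hV, rfl⟩ := exists_four h hM
    obtain ⟨g, -, hg⟩ := (isSylowIn_top T).exists_cj_le (CF.Invol.klein_isPGroup hV) le_top
    refine ⟨g⁻¹, (h6 _ hg (CF.Invol.klein_cj hV g)).imp (fun e => ?_) fun e => ?_⟩ <;>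
      rw [cj_eq_iff.1 e, normalizer_cj, cj_def]

end Cfsg.Agent.S1008
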