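import Cfsg.Statements.S1010
import Cfsg.Agent.Small.SC
import Cfsg.Agent.Small.Sv2
import Cfsg.Agent.Fgs3.SylProd
import Cfsg.Agent.Fgs3.SylCount
import Cfsg.Agent.S0496

set_option autoImplicit false
open Cfsg

namespace Cfsg.Agent.S1010

open CF.Small CF.Fgs3 Subgroup MulAction CF.PF

instance : Fact (Nat.Prime 5) := ⟨by norm_num⟩

theorem card_five {G : Type*} [Group G] [Finite G] [IsSimpleGroup G] (hG : ¬ IsMulCommutative G)
    (h : Nat.card (Sylow 5 G) = 21) (P : Sylow 5 G) : Nat.card (P : Subgroup G) = 5 := by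
  classical
  have h1 : ∀ P Q : Sylow 5 G, P ≠ Q →
      5 * Nat.card ((P : Subgroup G) ⊓ Q : Subgroup G) = Nat.card (Q : Subgroup G) := by
    intro P Q e
    obtain ⟨k, hk, hk'⟩ := relIndex_sylow_eq_pow e.symm
    have h1 := relIndex_sylow_lt e.symm
    rw [h, hk'] at h1
    obtain rfl : k = 1 := by
      by_contra h2
      have := Nat.pow_le_pow_right (n := 5) (by norm_num) (show 2 ≤ k by omega)
      omega
    have h3 := relIndex_mul_card (inf_le_right (a := (P : Subgroup G)) (b := (Q : Subgroup G)))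
    rwa [inf_relIndex_right, hk', pow_one] at h3
  have h2 : ∀ {A B C D : Sylow 5 G}, A ≠ B → C ≠ D → (A : Subgroup G) ⊓ B ≤ C →
      (A : Subgroup G) ⊓ B ≤ D → (A : Subgroup G) ⊓ B = (C : Subgroup G) ⊓ D :=
    fun {A B C D} e e' a b => eq_of_le_of_card_ge (le_inf a b) (by
      have := h1 A B e
      have := h1 C D e'
      have := card_sylow_eq_card_sylow B D
      omega)
  let L : Sylow 5 G → Sylow 5 G → Set (Sylow 5 G) := fun A B => {R | (A : Subgroup G) ⊓ B ≤ R}
  have h3 : ∀ A B, A ≠ B → 6 ≤ (L A B).ncard := fun A B e => by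
    have h4 : (L A B).ncard ≡ 1 [MOD 5] := ncard_sylow_ge_modEq (A.isPGroup'.to_le inf_le_left)
    have h5 := Set.ncard_le_ncard (s := {A, B}) (t := L A B) (by
      rintro R (rfl | rfl)
      exacts [Set.mem_setOf.2 inf_le_left, Set.mem_setOf.2 inf_le_right])
    rw [Set.ncard_pair e] at h5
    unfold Nat.ModEq at h4
    omega
  obtain ⟨Q, hQ⟩ := exists_sylow_ne P (by omega)
  by_cases h4 : ∀ R, R ∈ L Q P
  · have h5 : (Q : Subgroup G) ⊓ P ≤ pCore 5 G := by
      rw [CF.Solv.pCore_eq_iInf_sylow]; exact le_iInf h4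
    have h6 : pCore 5 G = ⊥ := (inferInstance : (pCore 5 G).Normal).eq_bot_or_eq_top.resolve_right
      (pgroup_ne_top hG CF.Solv.pCore_isPGroup)
    rw [← h1 Q P hQ, le_bot_iff.1 (h5.trans h6.le), card_bot]
  push Not at h4
  obtain ⟨x, hx⟩ := h4
  have h5 : ∀ y ∈ L Q P, x ≠ y := fun y hy e => hx (e ▸ hy)
  have := Fintype.ofFinite (Sylow 5 G)
  have h6 := Finset.card_le_card (Finset.subset_univ ((L Q P).toFinset.biUnion
    fun y => (L x y).toFinset.erase x))
  rw [Finset.card_biUnion, Finset.card_univ, ← Nat.card_eq_fintype_card, h] at h6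
  · have h7 := Finset.card_nsmul_le_sum (L Q P).toFinset (fun y => ((L x y).toFinset.erase x).card) 5
      fun y hy => by
        have := h3 x y (h5 y (Set.mem_toFinset.1 hy))
        rw [Finset.card_erase_of_mem (Set.mem_toFinset.2 (show x ∈ L x y from Set.mem_setOf.2 inf_le_left)), ← Set.ncard_eq_toFinset_card']
        omega
    have := h3 Q P hQ
    rw [← Set.ncard_eq_toFinset_card', smul_eq_mul] at h7
    omega
  · intro y hy y' hy' e
    simp only [Set.coe_toFinset] at hy hy'
    refine Finset.disjoint_left.2 fun w hw hw' => hx ?_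
    simp only [Finset.mem_erase, Set.mem_toFinset] at hw hw'
    have e1 := h2 (h5 y hy) hw.1.symm inf_le_left hw.2
    have e2 := h2 (h5 y' hy') hw.1.symm inf_le_left hw'.2
    have e3 := h2 (h5 y hy) e inf_le_right ((e1.trans e2.symm).le.trans inf_le_right)
    exact ((h2 hQ e hy hy').trans e3.symm).le.trans inf_le_left

theorem simple {G : Type*} [Group G] [Finite G] [IsSimpleGroup G] :
    Nat.card (Sylow 5 G) ≠ 21 := fun h => by
  obtain ⟨P⟩ : Nonempty (Sylow 5 G) := inferInstance
  have hG : ¬ IsMulCommutative G := fun e => by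
    have : (P : Subgroup G).Normal := inferInstance
    rw [P.card_eq_index_normalizer, show normalizer (P : Set G) = ⊤ from normalizer_eq_top_iff.2 this,
      index_top] at h
    omega
  obtain ⟨S, -⟩ := exists_pset_sylow P (card_five hG h P)
  obtain ⟨B, hB⟩ := S.exists_pblk
  have h1 := B.fi_ne_one (commutator_eq_top hG) hB
  have h2 : S.fi ∣ 4 := PSet.fi_dvd
  have h3 := Nat.le_of_dvd (by norm_num) h2
  have h4 := S.index_N.trans h
  by_cases hK : S.K = ⊥
  · have h5 := PSet.card_eq' hK
    have := Cfsg.Agent.S0496.result (G := G) hG (by rw [h5, h4]; omega)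
    rw [h5, h4] at this
    generalize S.fi = f at *
    interval_cases f <;> simp_all
  have h5 := B.dvd_one_sub hB (q := 7) fun χ hχ e => by
    have a1 := B.two_mul_lt hG (B.mem_all.2 (.inl hχ)) e hK
    have a2 := B.pX_dvd' hχ
    have a3 := (B.pX_modEq hχ).eq
    have a4 := B.ε_sign χ hχ
    rw [h4] at a2
    have a5 := Nat.le_of_dvd (by norm_num) a2
    generalize charDegree χ = d at *
    interval_cases d <;> omega
  have a1 := B.two_mul_lt hG (B.mem_all.2 (.inr (B.ex_mem_Y one_ne_zero)))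
    (B.ex_ne_triv hB (B.ex_mem_Y one_ne_zero)) hK
  have a2 := B.px_dvd
  have a3 := B.px_modEq.eq
  have a4 := B.δ_sign
  rw [h4] at a2
  have a5 := Nat.le_of_dvd (by have := PSet.fi_pos (S := S); positivity) a2
  change 2 * 5 < B.x at a1
  generalize B.x = x at *
  generalize S.fi = f at *
  have a6 : x ≤ 84 := by omega
  interval_cases f <;> interval_cases x <;> omega

/-- No finite group has exactly twenty-one Sylow 5-subgroups. -/
theorem result {G : Type*} [Group G] [Finite G] : Nat.card (Sylow 5 G) ≠ 21 := by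
  exact (sylow_prod_induction (p := 5) (fun n => n % 5 = 1 ∧ n ≠ 21) (by simp)
    (fun a b h h' => ⟨by simp [Nat.mul_mod, h.1, h'.1], fun e => by
      have := Nat.le_of_dvd (by norm_num) (Dvd.intro _ e)
      interval_cases a <;> omega⟩)
    (fun m h h' => ⟨h', by rintro rfl; exact absurd h (by decide +kernel)⟩) G
    fun S _ _ _ _ => ⟨card_sylow_modEq_one 5 S, simple⟩).2

end Cfsg.Agent.S1010
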