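import Cfsg.Statements.S1014
import Cfsg.Agent.Small.ZassSylow

set_option autoImplicit false
open Cfsg

namespace Cfsg.Agent.S1014

/-- No finite simple group has order 1104 = 2^4 * 3 * 23. -/
theorem result {G : Type*} [Group G] [Finite G] [IsSimpleGroup G] : Nat.card G ≠ 1104 := by
  intro h
  have : Fact (Nat.Prime 23) := ⟨by norm_num⟩
  have hG : ¬ IsMulCommutative G := CF.Small.not_comm_of_not_prime (by rw [h]; norm_num)
  have hn := CF.Small.card_sylow_mem hG h 23 0 48 (by norm_num) (by norm_num) [23 + 1]
    (by decide +kernel)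
  obtain ⟨P⟩ : Nonempty (Sylow 23 G) := inferInstance
  obtain ⟨e, he1, he2⟩ := CF.Small.card_of_card_sylow_eq_succ hG P
    (CF.Small.card_sylow_eq P (a := 1) (m := 48) h (by norm_num)) (by simpa using hn)
  obtain rfl : e = 2 := by omega
  norm_num at he2

end Cfsg.Agent.S1014
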