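import Cfsg.Statements.S1016
import Cfsg.Agent.Small.Sv3

set_option autoImplicit false
open Cfsg

namespace Cfsg.Agent.S1016

/-- No finite simple group has order 1440 = 2^5 * 3^2 * 5. -/
theorem result {G : Type*} [Group G] [Finite G] [IsSimpleGroup G] : Nat.card G ≠ 1440 := by
  exact CF.Small.card_ne_of_test [2, 3, 5] 80 (by norm_num) (by norm_num) (by norm_num) (by decide +kernel)

end Cfsg.Agent.S1016
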