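import Cfsg.Statements.S1018
import Cfsg.Agent.Small.SC

set_option autoImplicit false
open Cfsg

namespace Cfsg.Agent.S1018

open CF.Small Subgroup CF MulAction

/-- Let P be a Sylow p-subgroup of order p of a finite group G, and consider the action of G on the left cosets of the normalizer N of P. Then every element of order p fixes exactly one coset, and an element of N that does not centralize P fixes at most as many cosets as there are orbits of P. -/
theorem result {G : Type*} [Group G] [Finite G] (p : ℕ) [Fact p.Prime] (P : Sylow p G) (hP : Nat.card ↥(P : Subgroup G) = p) : (∀ y : G, orderOf y = p → Nat.card (MulAction.fixedBy (G ⧸ Subgroup.normalizer ((P : Subgroup G) : Set G)) y) = 1) ∧ ∀ x : G, x ∈ Subgroup.normalizer ((P : Subgroup G) : Set G) → x ∉ Subgroup.centralizer ((P : Subgroup G) : Set G) → Nat.card (MulAction.fixedBy (G ⧸ Subgroup.normalizer ((P : Subgroup G) : Set G)) x) ≤ Nat.card (MulAction.orbitRel.Quotient ↥(P : Subgroup G) (G ⧸ Subgroup.normalizer ((P : Subgroup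 G) : Set G))) := by
  obtain ⟨S, hS⟩ := exists_pset_sylow P hP
  have h0 : ∀ y : G, y ^ p = 1 → y ∈ S.N → y ∈ S.P := fun y hy h => by
    rw [PSet.P, hS]
    rw [PSet.N, PSet.P, hS] at h
    exact mem_sylow_of_smul_eq (k := 1) (by rwa [pow_one]) (Sylow.smul_eq_iff_mem_normalizer.2 h)
  rw [← hS]
  refine ⟨fun y hy => ?_, fun x hx hx' => ?_⟩
  · have h2 : y ^ p = 1 := by rw [← hy, pow_orderOf_eq_one]
    obtain ⟨g, hg⟩ := S.exists_conj_mem_P (x := y) (k := 1) (by rwa [pow_one])
    have h1 : g * y * g⁻¹ ≠ 1 := fun e => (Fact.out : p.Prime).one_lt.ne (by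
      simpa [conj_eq_one_iff.1 e] using hy)
    refine Nat.card_eq_one_iff_exists.2 ⟨⟨(g⁻¹ : G), (mem_fixedBy_quotient_mk _ _ _).2
      (by simpa using S.P_le_N hg)⟩, fun ⟨t, ht⟩ => Subtype.ext ?_⟩
    obtain ⟨t, rfl⟩ := QuotientGroup.mk_surjective t
    rw [mem_fixedBy_quotient_mk] at ht
    refine QuotientGroup.eq.2 (S.mem_N_of_conj hg h1 ?_)
    simpa [mul_assoc] using h0 _ (by simpa [h2] using conj_pow (i := p) (a := t⁻¹) (b := y)) ht
  · refine Nat.card_le_card_of_injective (fun a => Quotient.mk'' a.1) fun ⟨a, ha⟩ ⟨b, hb⟩ h => ?_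
    obtain ⟨⟨u, hu⟩, rfl⟩ := orbitRel_apply.1 (Quotient.exact' h)
    refine Subtype.ext ?_
    obtain ⟨i, rfl⟩ := S.mem_P_iff.1 hu
    rcases eq_or_ne i 0 with rfl | hi
    · exact (congrArg (· • b) S.zp_zero).trans (one_smul G b)
    have h1 : S.zp (-i + S.act x * i) ∈ stabilizer G b := by
      rw [S.zp_add, S.zp_neg, ← S.conj_zp hx, mem_stabilizer_iff, mul_smul, mul_smul, mul_smul,
        inv_smul_eq_iff.2 (show b = x • b from hb.symm), show x • S.zp i • b = S.zp i • b from ha,
        inv_smul_smul]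
    refine zpowers_le.2 h1 ((S.zpowers_zp fun e => hx' ((S.act_eq_one_iff hx).1
      (mul_right_cancel₀ hi ?_))).ge hu)
    linear_combination e

end Cfsg.Agent.S1018
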