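import Cfsg.Statements.S1026
import Cfsg.Agent.Chev.All

set_option autoImplicit false
open Cfsg

namespace Cfsg.Agent.S1026

/-- Every element of `U` has a unique expression `∏_{r ∈ Φ⁺} x_r(t_r)`, the product over the positive roots in increasing index order (the coefficient family `t`, supported on the positive roots, exists and is unique); and conversely every such ordered product is the matrix of an element of `U`. -/
theorem result {F : Type*} [Field F] (D : Cfsg.Lie.ChevalleyDatum) (hD : D ∈ [Cfsg.Lie.chevG2, Cfsg.Lie.chevB2, Cfsg.Lie.chevD4, Cfsg.Lie.chevF4, Cfsg.Lie.chevE6, Cfsg.Lie.chevE7, Cfsg.Lie.chevE8]) :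
    (∀ g : GL D.Idx F, g ∈ D.posUnipotent F →
      ∃! t : ℕ → F, (∀ r, ¬ D.IsPosRoot r → t r = 0) ∧
        (g : Matrix D.Idx D.Idx F) = D.wordMat F (D.posRoots.map fun r => (r, t r))) ∧
    (∀ t : ℕ → F, ∃ g : GL D.Idx F, g ∈ D.posUnipotent F ∧
      (g : Matrix D.Idx D.Idx F) = D.wordMat F (D.posRoots.map fun r => (r, t r))) := by
  obtain ⟨C, L⟩ := CF.Chev.exists_link hD
  let P : List (Fin D.nroots) := (List.finRange D.nroots).filter fun r => decide (C.Pos r)
  have hP : ∀ r, r ∈ P ↔ r ∈ {r | C.Pos r} := fun r => by simp [P]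
  have hnd : P.Nodup := (List.nodup_finRange _).filter _
  have e1 : D.posRoots = P.map Fin.val := by
    rw [Cfsg.Lie.ChevalleyDatum.posRoots, ← List.map_coe_finRange_eq_range, List.filter_map]
    congr 1
    exact List.filter_congr fun r _ => by simp [L.isPosRoot_iff]
  have e2 : ∀ t : ℕ → F, D.wordMat F (D.posRoots.map fun r => (r, t r)) =
      ((C.adSt F).prodL P (fun r => t r) : GL D.Idx F) := fun t => by
    rw [CF.Chev.PreSt.prodL_eq_word, ← L.wordMat_eq_word, e1, List.map_map, List.map_map]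
    rfl
  rw [L.posUnipotent_eq]
  refine ⟨fun g hg => ?_, fun t =>
    ⟨_, (C.adSt F).prodL_mem_U (fun r hr => (hP r).1 hr) _, (e2 t).symm⟩⟩
  obtain ⟨t, ht, rfl⟩ := (C.adSt F).exists_prodL C.closed_pos C.isNil_pos hP hnd hg
  refine ⟨fun r => if h : r < D.nroots then t ⟨r, h⟩ else 0, ⟨fun r hr => ?_, ?_⟩, ?_⟩
  · beta_reduce
    by_cases h : r < D.nroots
    · rw [dif_pos h]
      exact ht _ fun h' => hr ((L.isPosRoot_iff ⟨r, h⟩).2 h')
    · rw [dif_neg h]
  · rw [e2]; simp
  · rintro t' ⟨h1, h2⟩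
    rw [e2, Units.val_inj] at h2
    have := CF.Chev.StRep.faithful_adSt.prodL_inj (C.isNil_pos.mono fun r hr => (hP r).1 hr) hnd h2
    ext r
    by_cases h : D.IsPosRoot r
    · rw [dif_pos h.1]
      exact (this ⟨r, h.1⟩ ((hP _).2 ((L.isPosRoot_iff ⟨r, h.1⟩).1 h))).symm
    · rw [h1 r h]
      by_cases h' : r < D.nroots
      · rw [dif_pos h', ht _ fun h'' => h ((L.isPosRoot_iff ⟨r, h'⟩).2 h'')]
      · rw [dif_neg h']

end Cfsg.Agent.S1026
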