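import Cfsg.Statements.S1033
import Cfsg.Agent.Chev.All

set_option autoImplicit false
open Cfsg

namespace Cfsg.Agent.S1033

/-- `h_p(c)` (for a fundamental root `p = p_{i+1}` and `c ≠ 0`) is diagonal: it fixes each `h_{p_j}` and scales `e_s` by `c^{A_{p,s}}`. -/
theorem result {F : Type*} [Field F] (D : Cfsg.Lie.ChevalleyDatum) (hD : D ∈ [Cfsg.Lie.chevG2, Cfsg.Lie.chevB2, Cfsg.Lie.chevD4, Cfsg.Lie.chevF4, Cfsg.Lie.chevE6, Cfsg.Lie.chevE7, Cfsg.Lie.chevE8]) (i : ℕ) (hi : i < D.rank) (c : F) (hc : c ≠ 0) :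
    D.hMat F (D.simple i) c = Matrix.diagonal (Sum.elim (fun _ => (1 : F)) (fun s : Fin D.nroots => c ^ (D.cartan i s))) := by
  obtain ⟨C, L⟩ := CF.Chev.exists_link hD
  lift i to Fin D.rank using hi
  lift c to Fˣ using hc.isUnit
  rw [L.simple_eq, L.hMat_eq, C.hM_eq, CF.Chev.LieBasis.TM]
  congr 1
  ext (a | a)
  · simp
  · simp [L.cartan_eq_A, CF.Chev.RootSys.A_def]

end Cfsg.Agent.S1033
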