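import Cfsg.Statements.S1034
import Cfsg.Agent.Chev.All

set_option autoImplicit false
open Cfsg

namespace Cfsg.Agent.S1034

/-- Every element of `H` is a product `h_{p_1}(c_1) ⋯ h_{p_l}(c_l)` over the fundamental roots, with non-zero `c_i`. -/
theorem result {F : Type*} [Field F] (D : Cfsg.Lie.ChevalleyDatum) (hD : D ∈ [Cfsg.Lie.chevG2, Cfsg.Lie.chevB2, Cfsg.Lie.chevD4, Cfsg.Lie.chevF4, Cfsg.Lie.chevE6, Cfsg.Lie.chevE7, Cfsg.Lie.chevE8]) (g : GL D.Idx F) (hg : g ∈ D.diagonalSubgroup F) :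
    ∃ c : ℕ → F, (∀ i < D.rank, c i ≠ 0) ∧
      (g : Matrix D.Idx D.Idx F) = D.wordMat F ((List.range D.rank).flatMap fun i => D.hWord (D.simple i) (c i)) := by
  obtain ⟨C, L⟩ := CF.Chev.exists_link hD
  rw [L.diagonalSubgroup_eq, ← CF.Chev.StRep.r3_adSt.range_tor] at hg
  obtain ⟨c, rfl⟩ := hg
  refine ⟨fun i => if h : i < D.rank then (c ⟨i, h⟩ : F) else 1, fun i hi => by simp [hi], ?_⟩
  have key : ∀ l : List (Fin D.rank), D.wordMat F ((l.map Fin.val).flatMap fun i =>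
      D.hWord (D.simple i) (if h : i < D.rank then (c ⟨i, h⟩ : F) else 1)) =
      C.TM (l.map fun i => CF.Chev.cochar (C.sp i) (c i)).prod := fun l => by
    induction l with
    | nil => simp [Cfsg.Lie.ChevalleyDatum.wordMat]
    | cons i l ih =>
      rw [List.map_cons, List.flatMap_cons, CF.Chev.IsLink.wordMat_append, ih, List.map_cons,
        List.prod_cons, C.TM_mul, dif_pos i.2, ← C.cor_simple, ← C.hM_eq, ← L.hMat_eq, L.simple_eq]
      rfl
  rw [← List.map_coe_finRange_eq_range, key, CF.Chev.StRep.adSt_tor]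
  exact congrArg C.TM (Fin.prod_univ_def fun i => CF.Chev.cochar (C.sp i) (c i))

end Cfsg.Agent.S1034
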