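import Cfsg.Statements.S1035
import Cfsg.Agent.Chev.Types

set_option autoImplicit false
open Cfsg

namespace Cfsg.Agent.S1035

theorem aux {F : Type*} [Field F] [Fintype F] {D : Cfsg.Lie.ChevalleyDatum}
    {C : CF.Chev.ChevBasis (Fin D.rank) (Fin D.nroots)} (L : CF.Chev.IsLink D C.toLieBasis)
    {m d : ℕ} (h : C.Cen m d) : Nat.gcd d (Fintype.card F - 1) ^ m *
      Nat.card (D.diagonalSubgroup F) = (Fintype.card F - 1) ^ D.rank := by
  rw [L.diagonalSubgroup_eq]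
  simpa using CF.Chev.StRep.card_H_adSt (K := F) h

/-- `d · |H| = (q - 1)^rank` over a field with `q` elements, with `d = 1` (G₂, F₄, E₈), `gcd(3, q-1)` (E₆), `gcd(2, q-1)` (E₇, B₂), `gcd(2, q-1)²` (D₄). -/
theorem result {F : Type*} [Field F] [Fintype F] {q : ℕ} (hq : Fintype.card F = q)
    (p : Cfsg.Lie.ChevalleyDatum × ℕ)
    (hp : p ∈ [(Cfsg.Lie.chevG2, 1), (Cfsg.Lie.chevF4, 1), (Cfsg.Lie.chevE8, 1), (Cfsg.Lie.chevE6, Nat.gcd 3 (q - 1)),
      (Cfsg.Lie.chevE7, Nat.gcd 2 (q - 1)), (Cfsg.Lie.chevB2, Nat.gcd 2 (q - 1)), (Cfsg.Lie.chevD4, Nat.gcd 2 (q - 1) ^ 2)]) :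
    p.2 * Nat.card (p.1.diagonalSubgroup F) = (q - 1) ^ p.1.rank := by
  subst hq
  simp only [List.mem_cons, List.not_mem_nil, or_false] at hp
  rcases hp with rfl | rfl | rfl | rfl | rfl | rfl | rfl
  · simpa using aux CF.Chev.linkG2 CF.Chev.cenG2
  · simpa using aux CF.Chev.linkF4 CF.Chev.cenF4
  · simpa using aux CF.Chev.linkE8 CF.Chev.cenE8
  · simpa using aux CF.Chev.linkE6 CF.Chev.cenE6
  · simpa using aux CF.Chev.linkE7 CF.Chev.cenE7
  · simpa using aux CF.Chev.linkB2 CF.Chev.cenB2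
  · simpa using aux CF.Chev.linkD4 CF.Chev.cenD4

end Cfsg.Agent.S1035
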