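import Cfsg.Statements.S1039
import Cfsg.Agent.Chev.Types

set_option autoImplicit false
open Cfsg

namespace Cfsg.Agent.S1039

theorem aux (F : Type*) [Field F] {D : Cfsg.Lie.ChevalleyDatum}
    {C : CF.Chev.ChevBasis (Fin D.rank) (Fin D.nroots)} (L : CF.Chev.IsLink D C.toLieBasis)
    (M : CoxeterMatrix (Fin D.rank)) (hM : ∀ i j, orderOf (C.wp [i, j]) = M i j) :
    ∃ φ : ↥(D.monomialSubgroup F) →* M.Group, Function.Surjective φ ∧
      φ.ker = (D.diagonalSubgroup F).subgroupOf (D.monomialSubgroup F) ∧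
      ∀ (i : Fin D.rank) (g : ↥(D.monomialSubgroup F)),
        ((g : GL D.Idx F) : Matrix D.Idx D.Idx F) = D.nMat F (D.simple i) 1 → φ g = M.simple i := by
  rw [L.monomialSubgroup_eq, L.diagonalSubgroup_eq]
  obtain ⟨φ, h1, h2, h3⟩ := CF.Chev.StRep.exists_N_hom_coxeter (K := F)
    CF.Chev.StRep.faithful_adSt M hM
  exact ⟨φ, h1, h2, fun i g hg => h3 i g ((L.val_eq_ns_iff F).1 hg)⟩

/-- `N/H ≅ W`: there is a surjective homomorphism from `N` onto the Coxeter group of the type (Mathlib's Coxeter matrix G₂, B₂, F₄, E₆, E₇, E₈, nodes numbered as the fundamental roots) with kernel `H`, mapping each `n_{p_i}` to the `i`-th simple reflection. -/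
theorem result {F : Type*} [Field F]
    (p : Cfsg.Lie.ChevalleyDatum × (Σ n : ℕ, CoxeterMatrix (Fin n)))
    (hp : p ∈ [(Cfsg.Lie.chevG2, ⟨2, CoxeterMatrix.G₂⟩), (Cfsg.Lie.chevB2, ⟨2, CoxeterMatrix.B 2⟩), (Cfsg.Lie.chevD4, ⟨4, Cfsg.Lie.coxeterD4⟩), (Cfsg.Lie.chevF4, ⟨4, CoxeterMatrix.F₄⟩),
      (Cfsg.Lie.chevE6, ⟨6, CoxeterMatrix.E₆⟩), (Cfsg.Lie.chevE7, ⟨7, CoxeterMatrix.E₇⟩), (Cfsg.Lie.chevE8, ⟨8, CoxeterMatrix.E₈⟩)]) :
    ∃ φ : ↥(p.1.monomialSubgroup F) →* p.2.2.Group, Function.Surjective φ ∧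
      φ.ker = (p.1.diagonalSubgroup F).subgroupOf (p.1.monomialSubgroup F) ∧
      ∀ (i : Fin p.2.1) (g : ↥(p.1.monomialSubgroup F)),
        ((g : GL p.1.Idx F) : Matrix p.1.Idx p.1.Idx F) = p.1.nMat F (p.1.simple i) 1 → φ g = p.2.2.simple i := by
  simp only [List.mem_cons, List.not_mem_nil, or_false] at hp
  rcases hp with rfl | rfl | rfl | rfl | rfl | rfl | rfl
  · exact aux F CF.Chev.linkG2 _ CF.Chev.coxG2
  · exact aux F CF.Chev.linkB2 _ CF.Chev.coxB2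
  · exact aux F CF.Chev.linkD4 _ CF.Chev.coxD4
  · exact aux F CF.Chev.linkF4 _ CF.Chev.coxF4
  · exact aux F CF.Chev.linkE6 _ CF.Chev.coxE6
  · exact aux F CF.Chev.linkE7 _ CF.Chev.coxE7
  · exact aux F CF.Chev.linkE8 _ CF.Chev.coxE8

end Cfsg.Agent.S1039
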