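import Cfsg.Statements.S1044
import Cfsg.Agent.Chev.All

set_option autoImplicit false
open Cfsg

namespace Cfsg.Agent.S1044

/-- For a fundamental root `p` the set `B ∪ B n_p B` is (the carrier of) a subgroup of the general linear group. -/
theorem result {F : Type*} [Field F] (D : Cfsg.Lie.ChevalleyDatum) (hD : D ∈ [Cfsg.Lie.chevG2, Cfsg.Lie.chevB2, Cfsg.Lie.chevD4, Cfsg.Lie.chevF4, Cfsg.Lie.chevE6, Cfsg.Lie.chevE7, Cfsg.Lie.chevE8]) (i : ℕ) (hi : i < D.rank) (n : GL D.Idx F)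
    (hn : (n : Matrix D.Idx D.Idx F) = D.nMat F (D.simple i) 1) :
    ∃ P : Subgroup (GL D.Idx F), (P : Set (GL D.Idx F)) =
      (D.borelSubgroup F : Set (GL D.Idx F)) ∪ DoubleCoset.doubleCoset n (D.borelSubgroup F : Set (GL D.Idx F)) (D.borelSubgroup F) := by
  obtain ⟨C, L⟩ := CF.Chev.exists_link hD
  lift i to Fin D.rank using hi
  obtain rfl := (L.val_eq_ns_iff F).1 hn
  rw [L.borelSubgroup_eq]
  refine ⟨(C.adSt F).PJ {i}, Set.ext fun g => ?_⟩
  rw [SetLike.mem_coe, CF.Chev.StRep.mem_PJ_singleton, Set.mem_union,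
    CF.Chev.StRep.mem_cell_iff_doubleCoset (CF.Chev.StRep.nW_ns i), SetLike.mem_coe]

end Cfsg.Agent.S1044
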