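import Cfsg.Statements.S1045
import Cfsg.Agent.Chev.All

set_option autoImplicit false
open Cfsg

namespace Cfsg.Agent.S1045

/-- For a fundamental root `p`, the subgroup `U_p` generated by the `X_s`, `s` positive and `s ≠ p`, is normalised by `X_p` and `X_{-p}`, and `U = U_p ⊔ X_p`. -/
theorem result {F : Type*} [Field F] (D : Cfsg.Lie.ChevalleyDatum) (hD : D ∈ [Cfsg.Lie.chevG2, Cfsg.Lie.chevB2, Cfsg.Lie.chevD4, Cfsg.Lie.chevF4, Cfsg.Lie.chevE6, Cfsg.Lie.chevE7, Cfsg.Lie.chevE8]) (i : ℕ) (hi : i < D.rank) :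
    D.rootSubgroup F (D.simple i) ⊔ D.rootSubgroup F (D.neg (D.simple i)) ≤
        Subgroup.normalizer (Subgroup.closure {g : GL D.Idx F | ∃ (s : ℕ) (t : F), D.IsPosRoot s ∧ s ≠ D.simple i ∧
          (g : Matrix D.Idx D.Idx F) = D.x F s t} : Set (GL D.Idx F)) ∧
      Subgroup.closure {g : GL D.Idx F | ∃ (s : ℕ) (t : F), D.IsPosRoot s ∧ s ≠ D.simple i ∧
          (g : Matrix D.Idx D.Idx F) = D.x F s t} ⊔ D.rootSubgroup F (D.simple i) = D.posUnipotent F := by
  obtain ⟨C, L⟩ := CF.Chev.exists_link hD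
  lift i to Fin D.rank using hi
  have e : Subgroup.closure {g : GL D.Idx F | ∃ (s : ℕ) (t : F), D.IsPosRoot s ∧ s ≠ D.simple i ∧
      (g : Matrix D.Idx D.Idx F) = D.x F s t} = (C.adSt F).Ui i := by
    have := L.closure_eq_U F (fun s => D.IsPosRoot s ∧ s ≠ D.simple i) fun _ h => h.1.1
    simp only [and_assoc, L.isPosRoot_iff, L.simple_eq, ne_eq, Fin.val_inj] at this
    simpa only [L.simple_eq, ne_eq] using this
  rw [e, L.simple_eq, L.neg_eq, L.rootSubgroup_eq, L.rootSubgroup_eq, L.posUnipotent_eq]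
  refine ⟨le_trans (sup_le ((C.adSt F).X_le_U (Or.inl (C.pos_simple i)))
    ((C.adSt F).X_le_U (Or.inr rfl))) ((C.adSt F).U_le_normalizer_Ui i), ?_⟩
  rw [← CF.Chev.PreSt.U_singleton, ← CF.Chev.PreSt.U_union]
  congr 1
  ext r
  by_cases h : r = C.simple i
  · simp [h, C.pos_simple]
  · simp [h]

end Cfsg.Agent.S1045
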