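import Cfsg.Statements.S1048
import Cfsg.Agent.Chev.All

set_option autoImplicit false
open Cfsg

namespace Cfsg.Agent.S1048

/-- `U_J ⊴ P_J`, `P_J = U_J L_J` and `U_J ∩ L_J = 1` (Levi decomposition of the standard parabolic subgroup). -/
theorem result {F : Type*} [Field F] (D : Cfsg.Lie.ChevalleyDatum) (hD : D ∈ [Cfsg.Lie.chevG2, Cfsg.Lie.chevB2, Cfsg.Lie.chevD4, Cfsg.Lie.chevF4, Cfsg.Lie.chevE6, Cfsg.Lie.chevE7, Cfsg.Lie.chevE8]) (J : Set ℕ) :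
    D.parabolicSubgroup F J ≤ Subgroup.normalizer (D.unipotentRadical F J : Set (GL D.Idx F)) ∧
      D.unipotentRadical F J ⊔ D.leviSubgroup F J = D.parabolicSubgroup F J ∧
      D.unipotentRadical F J ⊓ D.leviSubgroup F J = ⊥ := by
  obtain ⟨C, L⟩ := CF.Chev.exists_link hD
  rw [L.parabolicSubgroup_eq, L.unipotentRadical_eq, L.leviSubgroup_eq]
  exact ⟨(C.adSt F).PJ_le_normalizer_UJ _, (C.adSt F).UJ_sup_LJ _,
    CF.Chev.StRep.UJ_inf_LJ CF.Chev.StRep.faithful_adSt _⟩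

end Cfsg.Agent.S1048
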