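import Cfsg.Statements.S1053
import Cfsg.Agent.Chev.All

set_option autoImplicit false
open Cfsg

namespace Cfsg.Agent.S1053

/-- There is `n₀ ∈ N` with `n₀ U n₀⁻¹ = V` (a representative of the longest element of the Weyl group). -/
theorem result {F : Type*} [Field F] (D : Cfsg.Lie.ChevalleyDatum) (hD : D ∈ [Cfsg.Lie.chevG2, Cfsg.Lie.chevB2, Cfsg.Lie.chevD4, Cfsg.Lie.chevF4, Cfsg.Lie.chevE6, Cfsg.Lie.chevE7, Cfsg.Lie.chevE8]) :
    ∃ n ∈ D.monomialSubgroup F, (D.posUnipotent F).map (MulAut.conj n).toMonoidHom = D.negUnipotent F := by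
  obtain ⟨C, L⟩ := CF.Chev.exists_link hD
  rw [L.posUnipotent_eq, L.negUnipotent_eq, L.monomialSubgroup_eq]
  obtain ⟨w, hw, hw'⟩ := C.exists_longest
  obtain ⟨n, hn⟩ := (C.adSt F).exists_nW hw
  refine ⟨n, hn.mem_N, ?_⟩
  rw [hn.acts.map_U]
  congr 1
  ext r
  refine ⟨by rintro ⟨s, hs, rfl⟩; exact hw' s hs, fun hr => ⟨w⁻¹ r, ?_, by simp⟩⟩
  by_contra h
  have := hw' _ ((C.pos_neg_iff _).2 h)
  rw [CF.Chev.RootSys.neg_aut hn.mem_Aut, C.pos_neg_iff] at this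
  exact this (by simpa using hr)

end Cfsg.Agent.S1053
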