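import Cfsg.Statements.S1056
import Cfsg.Agent.Chev.All

set_option autoImplicit false
open Cfsg

namespace Cfsg.Agent.S1056

/-- B₂(F) is simple for every field `F` other than the field with two elements. -/
theorem result {F : Type*} [Field F] (hF : ∃ a : F, a ≠ 0 ∧ a ≠ 1) : IsSimpleGroup ↥(Cfsg.Lie.chevB2.group F) ∧ ¬ IsMulCommutative ↥(Cfsg.Lie.chevB2.group F) := by
  have hC := CF.Chev.goodB2
  rw [hC.link.group_eq]
  have := hC.nonempty
  exact ⟨CF.Chev.StRep.isSimpleGroup_ad hC.conn (hC.perf_of_two_lt hF),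
    CF.Chev.StRep.not_isMulCommutative CF.Chev.StRep.faithful_adRes⟩

end Cfsg.Agent.S1056
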