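import Cfsg.Statements.S1078
import Cfsg.Agent.Chev.Univ

set_option autoImplicit false
open Cfsg

namespace Cfsg.Agent.S1078

theorem aux (K : Type*) [Field K] {D : Cfsg.Lie.ChevalleyDatum}
    {C : CF.Chev.ChevBasis (Fin D.rank) (Fin D.nroots)} (h : CF.Chev.Good D C) (hc : C.Cen 0 1) :
    Subgroup.center (D.SteinbergGroup K) = ⊥ :=
  (h.link.r3_stRep K h.noA1).center_eq_bot (h.link.faithful_stRep K h.noA1)
    (h.link.stRep_Gp K h.noA1) (hc.ker_eq_bot K)

/-- For G₂, F₄, E₈ the presented group has trivial centre (the universal and adjoint groups coincide). -/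
theorem result {K : Type*} [Field K] (D : Cfsg.Lie.ChevalleyDatum) (hD : D ∈ [Cfsg.Lie.chevG2, Cfsg.Lie.chevF4, Cfsg.Lie.chevE8]) :
    Subgroup.center (D.SteinbergGroup K) = ⊥ := by
  simp only [List.mem_cons, List.not_mem_nil, or_false] at hD
  rcases hD with rfl | rfl | rfl
  exacts [aux K CF.Chev.goodG2 CF.Chev.cenG2, aux K CF.Chev.goodF4 CF.Chev.cenF4,
    aux K CF.Chev.goodE8 CF.Chev.cenE8]

end Cfsg.Agent.S1078
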