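import Cfsg.Statements.S1079
import Cfsg.Agent.Chev.Univ

set_option autoImplicit false
open Cfsg

namespace Cfsg.Agent.S1079

theorem aux (K : Type*) [Field K] [Fintype K] {D : Cfsg.Lie.ChevalleyDatum}
    {C : CF.Chev.ChevBasis (Fin D.rank) (Fin D.nroots)} (h : CF.Chev.Good D C) {d : ℕ}
    (hc : C.Cen 1 d) (hi : Function.Injective (h.link.r3_stRep K h.noA1).tor) :
    Nat.card (Subgroup.center (D.SteinbergGroup K)) = Nat.gcd d (Fintype.card K - 1) := by
  rw [(h.link.r3_stRep K h.noA1).card_center (h.link.faithful_stRep K h.noA1)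
    (h.link.stRep_Gp K h.noA1) hi hc, pow_one, Nat.card_eq_fintype_card]

/-- `|Z(Ḡ)| = gcd(3, q-1)` for E₆ and `gcd(2, q-1)` for E₇ over a field with `q` elements (the centre is dual to the weight lattice modulo the root lattice). -/
theorem result {K : Type*} [Field K] [Fintype K] {q : ℕ} (hq : Fintype.card K = q)
    (p : Cfsg.Lie.ChevalleyDatum × ℕ) (hp : p ∈ [(Cfsg.Lie.chevE6, 3), (Cfsg.Lie.chevE7, 2)]) :
    Nat.card (Subgroup.center (p.1.SteinbergGroup K)) = Nat.gcd p.2 (q - 1) := by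
  subst hq
  simp only [List.mem_cons, List.not_mem_nil, or_false] at hp
  rcases hp with rfl | rfl
  exacts [aux K CF.Chev.goodE6 CF.Chev.cenE6 (CF.Chev.torE6 K),
    aux K CF.Chev.goodE7 CF.Chev.cenE7 (CF.Chev.torE7 K)]

end Cfsg.Agent.S1079
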