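import Cfsg.Statements.S1081
import Cfsg.Agent.Chev.Univ

set_option autoImplicit false
open Cfsg

namespace Cfsg.Agent.S1081

theorem aux (F : Type*) [Field F] {D : Cfsg.Lie.ChevalleyDatum}
    {C : CF.Chev.ChevBasis (Fin D.rank) (Fin D.nroots)} (h : CF.Chev.Good D C) (l : List ℕ)
    (φ : Fin D.rank → Fin D.rank)
    (hφ : (∀ i j, CF.Chev.carD D (φ i) (φ j) = CF.Chev.carD D i j) ∧ (∀ j, ∃ i, φ i = j) ∧
      ∀ i : Fin D.rank, l.getD i 0 = φ i) :
    ∃ α : ↥(D.group F) ≃* ↥(D.group F), ∀ (g : ↥(D.group F)) (i : ℕ) (t : F), i < D.rank →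
      (((g : GL D.Idx F) : Matrix D.Idx D.Idx F) = D.x F (D.simple i) t →
        ((α g : GL D.Idx F) : Matrix D.Idx D.Idx F) = D.x F (D.simple (l.getD i 0)) t) ∧
      (((g : GL D.Idx F) : Matrix D.Idx D.Idx F) = D.x F (D.neg (D.simple i)) t →
        ((α g : GL D.Idx F) : Matrix D.Idx D.Idx F) =
          D.x F (D.neg (D.simple (l.getD i 0))) t) := by
  obtain ⟨E, hE, α, hα⟩ := h.exists_graph_aut F φ hφ.1 hφ.2.1
  refine ⟨α, fun g i t hi => ?_⟩
  lift i to Fin D.rank using hi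
  simp only [hφ.2.2, h.link.simple_eq, h.link.neg_eq, h.link.eq_gpRep_x_iff]
  constructor
  · rintro rfl
    rw [hα, hE, E.eU_simple, Units.val_one, one_mul]
  · rintro rfl
    rw [hα, E.f_neg, hE, E.eU_neg, E.eU_simple, Units.val_one, one_mul]

/-- Graph automorphisms: for E₆ with ρ = (p₁ p₆)(p₃ p₅) and for D₄ with ρ the 3-cycle on the outer nodes there is a group automorphism sending `x_p(t) ↦ x_{ρ(p)}(t)` and `x_{-p}(t) ↦ x_{-ρ(p)}(t)` for every fundamental root `p`. -/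
theorem result {F : Type*} [Field F] (p : Cfsg.Lie.ChevalleyDatum × List ℕ)
    (hp : p ∈ [(Cfsg.Lie.chevE6, [5, 1, 4, 3, 2, 0]), (Cfsg.Lie.chevD4, [2, 1, 3, 0]), (Cfsg.Lie.chevD4, [3, 1, 0, 2])]) :
    ∃ α : ↥(p.1.group F) ≃* ↥(p.1.group F), ∀ (g : ↥(p.1.group F)) (i : ℕ) (t : F), i < p.1.rank →
      (((g : GL p.1.Idx F) : Matrix p.1.Idx p.1.Idx F) = p.1.x F (p.1.simple i) t →
        ((α g : GL p.1.Idx F) : Matrix p.1.Idx p.1.Idx F) = p.1.x F (p.1.simple (p.2.getD i 0)) t) ∧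
      (((g : GL p.1.Idx F) : Matrix p.1.Idx p.1.Idx F) = p.1.x F (p.1.neg (p.1.simple i)) t →
        ((α g : GL p.1.Idx F) : Matrix p.1.Idx p.1.Idx F) = p.1.x F (p.1.neg (p.1.simple (p.2.getD i 0))) t) := by
  simp only [List.mem_cons, List.not_mem_nil, or_false] at hp
  rcases hp with rfl | rfl | rfl
  · exact aux F CF.Chev.goodE6 _ (![5, 1, 4, 3, 2, 0] : Fin 6 → Fin 6)
      ⟨by decide +kernel, (by decide : ∀ j : Fin 6, ∃ i : Fin 6, _ = j), by decide +kernel⟩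
  · exact aux F CF.Chev.goodD4 _ (![2, 1, 3, 0] : Fin 4 → Fin 4)
      ⟨by decide +kernel, (by decide : ∀ j : Fin 4, ∃ i : Fin 4, _ = j), by decide +kernel⟩
  · exact aux F CF.Chev.goodD4 _ (![3, 1, 0, 2] : Fin 4 → Fin 4)
      ⟨by decide +kernel, (by decide : ∀ j : Fin 4, ∃ i : Fin 4, _ = j), by decide +kernel⟩

end Cfsg.Agent.S1081
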