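import Cfsg.Statements.S1083
import Cfsg.Agent.Chev.ClsOm

set_option autoImplicit false
open Cfsg

namespace Cfsg.Agent.S1083

/-- B₂(F) ≅ PΩ₅(F) for the form `x₀² + x₁y₁ + x₂y₂`, over every field with more than two elements. -/
theorem result {F : Type*} [Field F] (hF : ∃ a : F, a ≠ 0 ∧ a ≠ 1) :
    Nonempty (↥(Cfsg.Lie.chevB2.group F) ≃* Cfsg.POmega F (Cfsg.quadFormOdd 2 F)) := by
  exact CF.Chev.goodB2.nonempty_equiv_quot (CF.Chev.faithful_omRepB le_rfl hF)
    (CF.Chev.omRepB_Gp _ hF) Fin.rev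
    (fun i j => (CF.Chev.cbB_car (n := 2) _ _).trans (by revert i j; decide +kernel))
    Fin.rev_surjective

end Cfsg.Agent.S1083
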