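import Cfsg.Statements.S1092
import Cfsg.Agent.Chev.Types

set_option autoImplicit false
open Cfsg

namespace Cfsg.Agent.S1092

theorem aux {B ι : Type} [Fintype B] [DecidableEq B] [Fintype ι] [DecidableEq ι]
    (R : CF.Chev.RootSys B ι) (M : CoxeterMatrix B) (hM : ∀ i j, orderOf (R.wp [i, j]) = M i j) :
    Nat.card M.Group = Nat.card R.W :=
  let ⟨e, _⟩ := R.exists_coxeterSystem M hM; (Nat.card_congr e.toEquiv).symm

/-- `|W(B₂)| = 8`, `|W(G₂)| = 12`, `|W(D₄)| = 192`, `|W(F₄)| = 1152` for the groups presented by the Coxeter matrices (the product of the degrees of the basic invariants). -/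
theorem result (p : (Σ n : ℕ, CoxeterMatrix (Fin n)) × ℕ)
    (hp : p ∈ [(⟨2, CoxeterMatrix.B 2⟩, 8), (⟨2, CoxeterMatrix.G₂⟩, 12), (⟨4, Cfsg.Lie.coxeterD4⟩, 192), (⟨4, CoxeterMatrix.F₄⟩, 1152)]) :
    Nat.card p.1.2.Group = p.2 := by
  simp only [List.mem_cons, List.not_mem_nil, or_false] at hp
  rcases hp with rfl | rfl | rfl | rfl
  · exact (aux _ _ CF.Chev.coxB2).trans CF.Chev.cardWB2
  · exact (aux _ _ CF.Chev.coxG2).trans CF.Chev.cardWG2
  · exact (aux _ _ CF.Chev.coxD4).trans CF.Chev.cardWD4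
  · exact (aux _ _ CF.Chev.coxF4).trans CF.Chev.cardWF4

end Cfsg.Agent.S1092
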