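import Cfsg.Statements.S1094
import Cfsg.Agent.Chev.Types

set_option autoImplicit false
open Cfsg

namespace Cfsg.Agent.S1094

theorem aux {B ι : Type} [Fintype B] [DecidableEq B] [Fintype ι] [DecidableEq ι]
    (R : CF.Chev.RootSys B ι) (M : CoxeterMatrix B) (hM : ∀ i j, orderOf (R.wp [i, j]) = M i j)
    (l : List B) : orderOf (l.map M.simple).prod = orderOf (R.wp l) := by
  obtain ⟨e, he⟩ := R.exists_coxeterSystem M hM
  rw [← he, MulEquiv.orderOf_eq, ← R.coe_invGen_wp, Subgroup.orderOf_coe]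

/-- The Coxeter element `s₁ s₂ ⋯ s_l` of the Coxeter group of type B₂, G₂, D₄, F₄, E₆, E₇, E₈ has order `h = 2N/l` = 4, 6, 6, 12, 12, 18, 30. -/
theorem result (p : (Σ n : ℕ, CoxeterMatrix (Fin n)) × ℕ)
    (hp : p ∈ [(⟨2, CoxeterMatrix.B 2⟩, 4), (⟨2, CoxeterMatrix.G₂⟩, 6), (⟨4, Cfsg.Lie.coxeterD4⟩, 6), (⟨4, CoxeterMatrix.F₄⟩, 12),
      (⟨6, CoxeterMatrix.E₆⟩, 12), (⟨7, CoxeterMatrix.E₇⟩, 18), (⟨8, CoxeterMatrix.E₈⟩, 30)]) :
    orderOf ((List.finRange p.1.1).map p.1.2.simple).prod = p.2 := by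
  simp only [List.mem_cons, List.not_mem_nil, or_false] at hp
  rcases hp with rfl | rfl | rfl | rfl | rfl | rfl | rfl
  · exact (aux _ _ CF.Chev.coxB2 _).trans CF.Chev.coxEltB2
  · exact (aux _ _ CF.Chev.coxG2 _).trans CF.Chev.coxEltG2
  · exact (aux _ _ CF.Chev.coxD4 _).trans CF.Chev.coxEltD4
  · exact (aux _ _ CF.Chev.coxF4 _).trans CF.Chev.coxEltF4
  · exact (aux _ _ CF.Chev.coxE6 _).trans CF.Chev.coxEltE6
  · exact (aux _ _ CF.Chev.coxE7 _).trans CF.Chev.coxEltE7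
  · exact (aux _ _ CF.Chev.coxE8 _).trans CF.Chev.coxEltE8

end Cfsg.Agent.S1094
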