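import Cfsg.Statements.S1095
import Cfsg.Agent.Chev.All

set_option autoImplicit false
open Cfsg

namespace Cfsg.Agent.S1095

/-- `n_p` (p = p_{i+1} fundamental) is the signed monomial matrix `h_{p_j} ↦ h_{p_j} - A_{p_j,p} h_p`, `e_s ↦ η_s e_{w_p(s)}`, with `η_s = ±1`, `η_p = η_{-p} = -1`, `η_s η_{w_p(s)} = (-1)^{A_{p,s}}`, `η_s η_{-s} = 1`. -/
theorem result {F : Type*} [Field F] (D : Cfsg.Lie.ChevalleyDatum) (hD : D ∈ [Cfsg.Lie.chevG2, Cfsg.Lie.chevB2, Cfsg.Lie.chevD4, Cfsg.Lie.chevF4, Cfsg.Lie.chevE6, Cfsg.Lie.chevE7, Cfsg.Lie.chevE8]) (i : ℕ) (hi : i < D.rank) :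
    ∃ η : ℕ → ℤ, (∀ s < D.nroots, η s = 1 ∨ η s = -1) ∧ η (D.simple i) = -1 ∧ η (D.neg (D.simple i)) = -1 ∧
      (∀ s < D.nroots, η s * η (D.reflectRoot i s) = (-1) ^ (D.cartan i s).natAbs ∧ η s * η (D.neg s) = 1) ∧
      D.nMat F (D.simple i) 1 = Matrix.of (fun (row col : D.Idx) =>
        Sum.elim
          (fun j' : Fin D.rank => Sum.elim
            (fun j : Fin D.rank => (if j' = j then (1 : F) else 0) - (if (j' : ℕ) = i then ((D.cartan j (D.simple i) : ℤ) : F) else 0))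
            (fun _ => (0 : F)) col)
          (fun s' : Fin D.nroots => Sum.elim
            (fun _ => (0 : F))
            (fun s : Fin D.nroots => if (s' : ℕ) = D.reflectRoot i s then ((η s : ℤ) : F) else 0) col)
          row) := by
  obtain ⟨C, L⟩ := CF.Chev.exists_link hD
  lift i to Fin D.rank using hi
  let η : ℕ → ℤ := fun s => if h : s < D.nroots then C.eta (C.simple i) ⟨s, h⟩ else 1
  have hη : ∀ s : Fin D.nroots, η s = C.eta (C.simple i) s := fun s => dif_pos s.2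
  refine ⟨η, fun s hs => ?_, ?_, ?_, fun s hs => ?_, ?_⟩
  · lift s to Fin D.nroots using hs
    rw [hη]; exact C.eta_eq _ _
  · rw [L.simple_eq, hη, C.eta_self]
  · rw [L.simple_eq, L.neg_eq, hη, C.eta_neg_self]
  · lift s to Fin D.nroots using hs
    rw [L.reflectRoot_eq, L.neg_eq, hη, hη, hη, C.eta_mul_eta_neg, ← C.refl_simple,
      C.eta_mul_eta_refl, L.cartan_eq_A]
    refine ⟨?_, rfl⟩
    generalize C.A (C.simple i) s = k
    obtain ⟨n, rfl | rfl⟩ := Int.eq_nat_or_neg k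
    · simp
    · rw [zpow_neg, ← inv_zpow]
      simp
  · rw [L.simple_eq, L.nMat_one]
    ext a (b | b)
    · rw [← CF.Chev.LieBasis.mulVec_bv_apply F (C.nM _ _), C.nM_inl, C.hv_simple]
      rcases a with a | a
      · simp [CF.Chev.LieBasis.bv_apply, ← L.simple_eq, L.cartan_simple, C.vec_simple, C.sp_single,
          Fin.val_inj]
      · simp [CF.Chev.LieBasis.bv_apply]
    · rw [← CF.Chev.LieBasis.mulVec_bv_apply F (C.nM _ _), C.nM_one_root]
      rcases a with a | a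
      · simp [CF.Chev.LieBasis.bv_apply]
      · simp [CF.Chev.LieBasis.bv_apply, L.reflectRoot_eq, hη, Fin.val_inj]

end Cfsg.Agent.S1095
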