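import Cfsg.Statements.S1096
import Cfsg.Agent.Chev.All

set_option autoImplicit false
open Cfsg

namespace Cfsg.Agent.S1096

/-- `n_p h_{p_j}(t) n_p⁻¹ = h_{w_p(p_j)}(t)` for fundamental `p`, `p_j` and `t ≠ 0`, stated as `n_p h_{p_j}(t) = h_{w_p(p_j)}(t) n_p`. -/
theorem result {F : Type*} [Field F] (D : Cfsg.Lie.ChevalleyDatum) (hD : D ∈ [Cfsg.Lie.chevG2, Cfsg.Lie.chevB2, Cfsg.Lie.chevD4, Cfsg.Lie.chevF4, Cfsg.Lie.chevE6, Cfsg.Lie.chevE7, Cfsg.Lie.chevE8]) (i j : ℕ) (hi : i < D.rank) (hj : j < D.rank) (t : F) (ht : t ≠ 0) :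
    D.nMat F (D.simple i) 1 * D.hMat F (D.simple j) t = D.hMat F (D.reflectRoot i (D.simple j)) t * D.nMat F (D.simple i) 1 := by
  obtain ⟨C, L⟩ := CF.Chev.exists_link hD
  lift i to Fin D.rank using hi
  lift j to Fin D.rank using hj
  lift t to Fˣ using ht.isUnit
  rw [L.simple_eq, L.simple_eq, L.reflectRoot_eq, L.nMat_one, L.hMat_eq, L.hMat_eq]
  have := CF.Chev.StRep.r3_adSt.conj_h ((C.adSt F).acts_ns i) (C.simple j) t
  rw [mul_inv_eq_iff_eq_mul] at this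
  exact congrArg Units.val this

end Cfsg.Agent.S1096
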