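import Cfsg.Statements.S1098
import Cfsg.Agent.Chev.Isog

set_option autoImplicit false
open Cfsg

namespace Cfsg.Agent.S1098

theorem aux {D : Cfsg.Lie.ChevalleyDatum} {C : CF.Chev.ChevBasis (Fin D.rank) (Fin D.nroots)}
    (L : CF.Chev.IsLink D C.toLieBasis) {K : Type*} [Field K] {q : ℕ} [Fact q.Prime] [CharP K q]
    [PerfectRing K q] (I : CF.Chev.Isog C q) (l : List (ℕ × ℕ))
    (hl : ∀ i : Fin D.rank, (l.getD i (0, 1)).1 = I.π i ∧ (l.getD i (0, 1)).2 = I.lam (C.simple i)) :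
    ∃ α : ↥(D.group K) ≃* ↥(D.group K), ∀ (g : ↥(D.group K)) (i : ℕ) (t : K), i < D.rank →
      (((g : GL D.Idx K) : Matrix D.Idx D.Idx K) = D.x K (D.simple i) t →
        ((α g : GL D.Idx K) : Matrix D.Idx D.Idx K) =
          D.x K (D.simple (l.getD i (0, 1)).1) (t ^ (l.getD i (0, 1)).2)) ∧
      (((g : GL D.Idx K) : Matrix D.Idx D.Idx K) = D.x K (D.neg (D.simple i)) t →
        ((α g : GL D.Idx K) : Matrix D.Idx D.Idx K) =
          D.x K (D.neg (D.simple (l.getD i (0, 1)).1)) (t ^ (l.getD i (0, 1)).2)) := by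
  obtain ⟨σ, hσ⟩ := I.exists_equiv (L.faithful_gpRep K) (L.gpRep_Gp K) (L.center_group K)
  refine ⟨σ, fun g i t hi => ?_⟩
  lift i to Fin D.rank using hi
  rw [(hl i).1, (hl i).2]
  simp only [L.simple_eq, L.neg_eq, L.eq_gpRep_x_iff]
  constructor <;> rintro rfl
  · rw [hσ, I.f_simple]
  · rw [hσ, I.f_neg, I.f_simple, I.lam_neg]

/-- Graph automorphisms in characteristic 2 (K perfect): for B₂ (a short, b long) `x_a(t) ↦ x_b(t²)`, `x_b(t) ↦ x_a(t)`, and for F₄ (p₁, p₂ short, p₃, p₄ long) `x_{p₁}(t) ↦ x_{p₄}(t²)`, `x_{p₂}(t) ↦ x_{p₃}(t²)`, `x_{p₃}(t) ↦ x_{p₂}(t)`, `x_{p₄}(t) ↦ x_{p₁}(t)`, likewise on the negatives, extend to an automorphism of the group. -/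
theorem result {K : Type*} [Field K] [CharP K 2] (hperf : ∀ x : K, ∃ y : K, y ^ 2 = x)
    (p : Cfsg.Lie.ChevalleyDatum × List (ℕ × ℕ))
    (hp : p ∈ [(Cfsg.Lie.chevB2, [(1, 2), (0, 1)]), (Cfsg.Lie.chevF4, [(3, 2), (2, 2), (1, 1), (0, 1)])]) :
    ∃ α : ↥(p.1.group K) ≃* ↥(p.1.group K), ∀ (g : ↥(p.1.group K)) (i : ℕ) (t : K), i < p.1.rank →
      (((g : GL p.1.Idx K) : Matrix p.1.Idx p.1.Idx K) = p.1.x K (p.1.simple i) t →
        ((α g : GL p.1.Idx K) : Matrix p.1.Idx p.1.Idx K) = p.1.x K (p.1.simple (p.2.getD i (0, 1)).1) (t ^ (p.2.getD i (0, 1)).2)) ∧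
      (((g : GL p.1.Idx K) : Matrix p.1.Idx p.1.Idx K) = p.1.x K (p.1.neg (p.1.simple i)) t →
        ((α g : GL p.1.Idx K) : Matrix p.1.Idx p.1.Idx K) = p.1.x K (p.1.neg (p.1.simple (p.2.getD i (0, 1)).1)) (t ^ (p.2.getD i (0, 1)).2)) := by
  have : PerfectRing K 2 := PerfectRing.ofSurjective K 2 hperf
  simp only [List.mem_cons, List.not_mem_nil, or_false] at hp
  rcases hp with rfl | rfl
  · exact aux CF.Chev.linkB2 CF.Chev.isogB2 _ (by decide +kernel)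
  · exact aux CF.Chev.linkF4 CF.Chev.isogF4 _ (by decide +kernel)

end Cfsg.Agent.S1098
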