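import Cfsg.Statements.S1100
import Cfsg.Agent.Chev.All

set_option autoImplicit false
open Cfsg

namespace Cfsg.Agent.S1100

/-- Canonical form `g = b n_w u` (`b ∈ B`, `u ∈ U_w⁻ = ⟨X_r : r > 0, n_w X_r n_w⁻¹ ≤ V⟩`): such a decomposition exists for every element of the group; the coset `n_w H` is determined by `g`; and for a fixed representative `n_w` the factors `b`, `u` are unique. -/
theorem result {F : Type*} [Field F] (D : Cfsg.Lie.ChevalleyDatum) (hD : D ∈ [Cfsg.Lie.chevG2, Cfsg.Lie.chevB2, Cfsg.Lie.chevD4, Cfsg.Lie.chevF4, Cfsg.Lie.chevE6, Cfsg.Lie.chevE7, Cfsg.Lie.chevE8]) :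
    (∀ g ∈ D.group F, ∃ b ∈ D.borelSubgroup F, ∃ n ∈ D.monomialSubgroup F,
      ∃ u ∈ Subgroup.closure {x : GL D.Idx F | ∃ (r : ℕ) (t : F), D.IsPosRoot r ∧
            (D.rootSubgroup F r).map (MulAut.conj n).toMonoidHom ≤ D.negUnipotent F ∧ (x : Matrix D.Idx D.Idx F) = D.x F r t},
        g = b * n * u) ∧
    (∀ (b b' n n' u u' : GL D.Idx F), b ∈ D.borelSubgroup F → b' ∈ D.borelSubgroup F →
      n ∈ D.monomialSubgroup F → n' ∈ D.monomialSubgroup F →
      u ∈ Subgroup.closure {x : GL D.Idx F | ∃ (r : ℕ) (t : F), D.IsPosRoot r ∧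
            (D.rootSubgroup F r).map (MulAut.conj n).toMonoidHom ≤ D.negUnipotent F ∧ (x : Matrix D.Idx D.Idx F) = D.x F r t} →
      u' ∈ Subgroup.closure {x : GL D.Idx F | ∃ (r : ℕ) (t : F), D.IsPosRoot r ∧
            (D.rootSubgroup F r).map (MulAut.conj n').toMonoidHom ≤ D.negUnipotent F ∧ (x : Matrix D.Idx D.Idx F) = D.x F r t} →
      b * n * u = b' * n' * u' → n⁻¹ * n' ∈ D.diagonalSubgroup F ∧ (n = n' → b = b' ∧ u = u')) := by
  obtain ⟨C, L⟩ := CF.Chev.exists_link hD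
  have hρ : (C.adSt F).Faithful := CF.Chev.StRep.faithful_adSt
  have key : ∀ {n : GL D.Idx F} {w}, (C.adSt F).NW n w →
      Subgroup.closure {x : GL D.Idx F | ∃ (r : ℕ) (t : F), D.IsPosRoot r ∧
        (D.rootSubgroup F r).map (MulAut.conj n).toMonoidHom ≤ D.negUnipotent F ∧
          (x : Matrix D.Idx D.Idx F) = D.x F r t} = (C.adSt F).Uw w := fun {n w} hn => by
    have := L.closure_eq_U F (fun r => D.IsPosRoot r ∧
      (D.rootSubgroup F r).map (MulAut.conj n).toMonoidHom ≤ D.negUnipotent F) fun _ h => h.1.1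
    simp only [and_assoc] at this
    rw [this]
    congr 1
    ext r
    simp only [Set.mem_ofPred_eq, L.isPosRoot_iff, L.rootSubgroup_eq, L.negUnipotent_eq,
      hn.acts.map_X]
    exact and_congr_right fun _ => ⟨fun h => (hρ.x_mem_U_iff C.closed_neg C.isNil_neg
      one_ne_zero).1 (h ((C.adSt F).x_mem_X _ 1)), fun h => (C.adSt F).X_le_U h⟩
  rw [L.group_eq, L.borelSubgroup_eq, L.monomialSubgroup_eq, L.diagonalSubgroup_eq]
  refine ⟨fun g hg => ?_, fun b b' n n' u u' hb hb' hn hn' hu hu' e => ?_⟩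
  · obtain ⟨w, hw, hgw⟩ := CF.Chev.StRep.exists_cell hg
    obtain ⟨n, hn⟩ := (C.adSt F).exists_nW hw
    obtain ⟨b, hb, u, hu, rfl⟩ := hn.mem_cell_iff_sharp.1 hgw
    exact ⟨b, hb, n, hn.mem_N, u, key hn ▸ hu, rfl⟩
  · obtain ⟨w, hw⟩ := CF.Chev.StRep.exists_nW_of_mem_N hn
    obtain ⟨w', hw'⟩ := CF.Chev.StRep.exists_nW_of_mem_N hn'
    rw [key hw] at hu
    rw [key hw'] at hu'
    obtain rfl : w = w' := CF.Chev.StRep.cell_unique hρ
      (hw.mem_cell_iff_sharp.2 ⟨b, hb, u, hu, rfl⟩) (hw'.mem_cell_iff_sharp.2 ⟨b', hb', u', hu', e⟩)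
    refine ⟨hw.inv_mul_mem_H hw', ?_⟩
    rintro rfl
    exact CF.Chev.StRep.sharp_unique hρ hw.acts hb hb' hu hu' e

end Cfsg.Agent.S1100
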