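import Cfsg.Statements.S1127
import Cfsg.Agent.Suz.Invol

set_option autoImplicit false
open Cfsg

namespace Cfsg.Agent.S1127

/-- In the rank-one set-up (`G` finite and doubly transitive on `Ω`, `t` an involution moving `a`, `Q` normal in `G_a` with `G_a = Q D`, `Q ⊓ D = 1` for the two-point stabiliser `D = G_a ⊓ G_{t • a}`, `|Q|` even, `|D|` odd): if `s` is an involution of `G_a` and `r ∈ Q` satisfy `t s t = r⁻¹ t r`, then `C_D(t) = C_D(s)`; moreover `C_D(t) ⊓ C_D(K) = C_D(I ∩ G_a)`, where `K` is the set of elements of `D` inverted by `t` and `I ∩ G_a` the set of involutions of `G_a`. -/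
theorem result {G Ω : Type*} [Group G] [Finite G] [MulAction G Ω] {a : Ω} {t : G} {Q : Subgroup G}
    (hS : Cfsg.IsRankOneSetup G Ω a t Q) :
    (∀ s r : G, s ∈ Cfsg.involutionsIn (MulAction.stabilizer G a : Set G) → r ∈ Q → t * s * t = r⁻¹ * t * r →
        (MulAction.stabilizer G a ⊓ MulAction.stabilizer G (t • a)) ⊓ Subgroup.centralizer {t} = (MulAction.stabilizer G a ⊓ MulAction.stabilizer G (t • a)) ⊓ Subgroup.centralizer {s}) ∧
      (MulAction.stabilizer G a ⊓ MulAction.stabilizer G (t • a)) ⊓ Subgroup.centralizer {t} ⊓ Subgroup.centralizer (Cfsg.invertedBy (MulAction.stabilizer G a ⊓ MulAction.stabilizer G (t • a)) t) =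
        (MulAction.stabilizer G a ⊓ MulAction.stabilizer G (t • a)) ⊓ Subgroup.centralizer (Cfsg.involutionsIn (MulAction.stabilizer G a : Set G)) := by
  refine ⟨fun s r hs hr e => ?_, ?_⟩
  · ext d
    simp only [Subgroup.mem_inf (p := CF.Suz.DD a t), Subgroup.mem_centralizer_singleton_iff]
    refine and_congr_right fun hd => ?_
    rw [eq_comm, CF.Suz.V_comm_iff hS hs hr e hd, eq_comm]
  · ext d
    constructor
    · rintro ⟨⟨hd, h1⟩, h2⟩
      exact ⟨hd, (CF.Suz.W_iff hS hd).1 ⟨(Subgroup.mem_centralizer_singleton_iff.1 h1).symm, h2⟩⟩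
    · rintro ⟨hd, h⟩
      obtain ⟨h1, h2⟩ := (CF.Suz.W_iff hS hd).2 h
      exact ⟨⟨hd, Subgroup.mem_centralizer_singleton_iff.2 h1.symm⟩, h2⟩

end Cfsg.Agent.S1127
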