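import Cfsg.Statements.S1138
import Cfsg.Agent.Suz.Higman3

set_option autoImplicit false
open Cfsg

namespace Cfsg.Agent.S1138

/-- Let `P` be a Suzuki 2-group with `|Z(P)| = q`. Then every square lies in `Z(P)` and `P/Z(P)` is abelian (so elementary abelian), `|P| = q²` or `|P| = q³`, and `P` has exponent 4. -/
theorem result {P : Type*} [Group P] (hP : Cfsg.IsSuzukiTwoGroup P) :
    (∀ x : P, x * x ∈ Subgroup.center P) ∧ (∀ x y : P, x⁻¹ * y⁻¹ * x * y ∈ Subgroup.center P) ∧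
      (Nat.card P = Nat.card (Subgroup.center P) ^ 2 ∨ Nat.card P = Nat.card (Subgroup.center P) ^ 3) ∧
      Monoid.exponent P = 4 := by
  obtain ⟨ξ, h⟩ := CF.Suz.exists_HS hP
  have := hP.1
  obtain ⟨hsq, hZ⟩ := h.main hP.2.2.1
  obtain ⟨x, y, hxy⟩ := hP.2.2.1
  rw [hZ]
  refine ⟨hsq, fun x y => by simpa [commutatorElement_def] using CF.Suz.comm_mem_of_sq (A := h.V) hsq x⁻¹ y⁻¹,
    (h.card_cases hsq).resolve_left fun e => hxy ?_, ?_⟩
  · exact h.central ((Subgroup.eq_top_of_card_eq h.V e.symm).ge (Subgroup.mem_top y)) x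
  · have h1 : Monoid.exponent P ∣ 2 ^ 2 := Monoid.exponent_dvd_of_forall_pow_eq_one fun g => by
      rw [← hsq g, ← pow_two, ← pow_two, ← pow_mul]; rfl
    obtain ⟨k, hk, e⟩ := (Nat.dvd_prime_pow Nat.prime_two).1 h1
    have h2 : k = 2 := by
      by_contra hne
      apply hxy
      apply h.central
      have : Monoid.exponent P ∣ 2 ^ 1 := e ▸ Nat.pow_dvd_pow 2 (by omega)
      simpa [pow_two] using Monoid.exponent_dvd_iff_forall_pow_eq_one.1 this y
    rw [e, h2]; rfl

end Cfsg.Agent.S1138
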