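import Cfsg.Statements.S1139
import Cfsg.Agent.Suz.Higman3

set_option autoImplicit false
open Cfsg

namespace Cfsg.Agent.S1139

/-- A Suzuki 2-group `P` with `|P| = |Z(P)|²` is of type A: for some finite field `F` with `|F| = |Z(P)|` and some field automorphism `φ ≠ 1` of odd order, `P` is isomorphic to the group of lower unitriangular matrices with rows `(1,0,0)`, `(x,1,0)`, `(y, φ x, 1)`. -/
theorem result {P : Type*} [Group P] (hP : Cfsg.IsSuzukiTwoGroup P)
    (hcard : Nat.card P = Nat.card (Subgroup.center P) ^ 2) :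
    ∃ (F : Type) (_ : Field F) (_ : Fintype F) (φ : F ≃+* F), Fintype.card F = Nat.card (Subgroup.center P) ∧
      φ ≠ RingEquiv.refl F ∧ Odd (orderOf φ) ∧ Nonempty (P ≃* Cfsg.suzukiTypeA F (φ : F →+* F)) := by
  obtain ⟨ξ, h⟩ := CF.Suz.exists_HS hP
  have := hP.1
  obtain ⟨-, hZ⟩ := h.main hP.2.2.1
  rw [hZ] at hcard ⊢
  obtain ⟨n, hn2, hn⟩ := h.exists_card_V
  let _ : Fintype (GaloisField 2 n) := Fintype.ofFinite _
  have hF : Fintype.card (GaloisField 2 n) = Nat.card h.V := by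
    rw [← Nat.card_eq_fintype_card, GaloisField.card 2 n (by omega), hn]
  obtain ⟨π, ω, μ, θ, h1, h2, h3, h4, -, h5, -⟩ := h.typeA hP.2.2.1 hcard (hF.trans h.card_V)
  exact ⟨GaloisField 2 n, inferInstance, inferInstance, θ, hF, h3,
    CF.Suz.odd_orderOf_of_isGen h1 h2, CF.Suz.iso_typeA h4 h5⟩

end Cfsg.Agent.S1139
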