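import Cfsg.Statements.S1143
import Cfsg.Agent.Tb.V
import Cfsg.Agent.S0821

set_option autoImplicit false
open Cfsg CF.Tb

namespace Cfsg.Agent.S1143

/-- Tits: a finite simple group with an irreducible (B,N)-pair of rank at least `3` is of Lie type: it satisfies one of the classical predicates or is one of the exceptional groups. -/
theorem result {G : Type*} [Group G] [Finite G] [IsSimpleGroup G]
    (P : Cfsg.BNPair G) (h3 : 3 ≤ P.rank) (hirr : P.Irreducible) :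
    Cfsg.IsPSL G ∨ Cfsg.IsPSp G ∨ Cfsg.IsPSU G ∨ Cfsg.IsPOmegaOdd G ∨ Cfsg.IsPOmegaPlus G ∨ Cfsg.IsPOmegaMinus G ∨
      Cfsg.IsExceptionalLieType G := by
  obtain ⟨n, c, m, f, L, hn, h⟩ := (cx P hirr).classify h3
  have S : Sh n c m := ⟨hn, by omega, by omega, by omega⟩
  obtain ⟨k, rfl⟩ := Nat.exists_eq_add_of_le' (show 1 ≤ n by omega)
  obtain rfl | rfl := S.2.2.2
  · obtain ⟨q, hq, h0⟩ := L.sz3 S (tb P (f 0))
    obtain ⟨K, _, _, rfl⟩ := exists_fld hq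
    obtain rfl | ⟨k, rfl, rfl, hk⟩ | ⟨rfl, rfl⟩ | ⟨rfl, rfl⟩ | ⟨rfl, rfl⟩ : c = k - 1 ∨ (∃ j, k = j + 1 ∧ c = j - 1 ∧ 2 ≤ j) ∨
        k = 5 ∧ c = 2 ∨ k = 6 ∧ c = 3 ∨ k = 7 ∧ c = 4 :=
      (em _).imp_right fun _ => (em (c + 2 = k)).imp (fun _ => ⟨k - 1, by omega⟩) fun _ => by omega
    · exact .inl ⟨K, _, ‹_›, _, by omega, by omega, (mdA K (by omega)).iso _ L S h0 (by omega)⟩
    · exact .inr (.inr (.inr (.inr (.inl ⟨K, _, ‹_›, _, by omega, (mdD K hk).iso _ L S h0 (by omega)⟩))))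
    all_goals refine .inr (.inr (.inr (.inr (.inr (.inr (.inr (.inr ?_)))))))
    exacts [.inl ⟨K, _, ‹_›, (mdE6 K).iso _ L S h0 (by omega)⟩, .inr (.inl ⟨K, _, ‹_›, (mdE7 K).iso _ L S h0 (by omega)⟩),
      .inr (.inr (.inl ⟨K, _, ‹_›, (mdE8 K).iso _ L S h0 (by omega)⟩))]
  obtain ⟨t, s, hs, h0, h1, h2, -⟩ := L.sz4 S (tb P (f 0))
  have h5 := hs.two_le
  obtain rfl | ⟨rfl, rfl⟩ : c = k - 1 ∨ k = 3 ∧ c = 0 := by omega
  · have hk : 2 ≤ k := by omega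
    obtain ⟨K, _, _, hK⟩ := exists_fld hs
    rcases h2 with rfl | rfl | rfl | h2
    · subst hK
      by_cases e : Odd (Fintype.card K)
      · exact ((mdC K hk).iso_or _ (mdB K hk e) (Agent.S0821.result e _ hn) L S h0 h1).elim
          (fun e => .inr (.inl ⟨K, _, ‹_›, _, by omega, by omega, e⟩)) fun e' => .inr (.inr (.inr (.inl ⟨K, _, ‹_›, _, hn, e, e'⟩)))
      · exact .inr (.inl ⟨K, _, ‹_›, _, by omega, by omega, (mdC K hk).iso _ L S h0 fun _ => ⟨h1, fun _ => e⟩⟩)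
    · subst hK
      obtain ⟨b, hb⟩ := exists_aniso K
      exact .inr (.inr (.inr (.inr (.inr (.inl ⟨K, _, ‹_›, k + 2, 1, b, by omega, hb,
        (mdO hk hb).iso _ L S h0 fun _ => ⟨h1, fun e => by nlinarith⟩⟩)))))
    · exact .inr (.inr (.inl ⟨K, _, ‹_›, _, t, hK, by omega, by omega,
        (mdU1 hk hK).iso _ L S h0 fun _ => ⟨h1, fun e => by nlinarith⟩⟩))
    · obtain ⟨q, rfl⟩ : s ∣ t := (Nat.pow_dvd_pow_iff two_ne_zero).1 (h2 ▸ pow_dvd_pow s (by omega))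
      obtain rfl : s = q ^ 2 := Nat.eq_of_mul_eq_mul_left (show 0 < s ^ 2 by positivity) (by linarith)
      rw [← pow_succ] at h0
      exact .inr (.inr (.inl ⟨K, _, ‹_›, _, q, hK, by omega, by omega, (mdU2 hk hK).iso _ L S h0 fun _ => ⟨h1, fun e =>
        absurd (Nat.pow_right_injective (by nlinarith) e) (by omega)⟩⟩))
  obtain ⟨_, _, ht, h6, h7, h8, -⟩ := L.rev.sz4 S (tb P (f 0))
  obtain rfl := add_right_cancel (h1.symm.trans h6)
  obtain rfl := add_right_cancel (h0.symm.trans h7)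
  refine .inr (.inr (.inr (.inr (.inr (.inr (.inr ?_))))))
  have h9 := ht.two_le
  rcases h2 with rfl | rfl | rfl | h2
  · obtain ⟨K, _, _, rfl⟩ := exists_fld hs
    exact .inl ⟨K, _, ‹_›, (mdF4 K).iso_F4 _ L h0 h1⟩
  · obtain ⟨K, _, _, hK⟩ := exists_fld ht
    exact .inr (.inr (.inr (.inr (.inl ⟨K, _, ‹_›, s, hs, hK,
      (md2E6 K hs hK).rev.iso _ L S h0 fun _ => ⟨h1, fun e => by nlinarith⟩⟩))))
  · obtain ⟨K, _, _, hK⟩ := exists_fld hs
    exact .inr (.inr (.inr (.inr (.inl ⟨K, _, ‹_›, t, ht, hK,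
      (md2E6 K ht hK).iso _ L S h0 fun _ => ⟨h1, fun e => by nlinarith⟩⟩))))
  · have h10 : s < t := lt_of_pow_lt_pow_left₀ 2 t.zero_le (h2 ▸ Nat.pow_lt_pow_right h5 (by omega))
    have h11 : t < s ^ 2 := lt_of_pow_lt_pow_left₀ 2 (by positivity) (by
      rw [h2, ← pow_mul]; exact Nat.pow_lt_pow_right h5 (by omega))
    have := Nat.pow_lt_pow_left h10 two_ne_zero
    have := Nat.pow_lt_pow_right h9 (show 2 < 3 by omega)
    have := Nat.le_self_pow two_ne_zero t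
    omega

end Cfsg.Agent.S1143
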