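import Cfsg.Statements.S1148
import Cfsg.Agent.ON.Iso
import Cfsg.Agent.BN.Parabolic
import Mathlib.FieldTheory.Finite.GaloisField

set_option autoImplicit false
open Cfsg

namespace Cfsg.Agent.S1148

open CF.ON MulAction

/-- Let `G` be finite simple with a (B,N)-pair of rank 1, `B = U H` with `U` nilpotent normal in `B`, `H = B ⊓ N`, `U ⊓ H = 1`, where `[G : B] = p^(3n) + 1` for an odd prime `p`, `|U| = p^(3n)` and `H` is cyclic of order `(p^(2n) - 1)/gcd(3, p^n + 1)`. Then `G ≅ PSU₃(p^n)`. -/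
theorem result {G : Type*} [Group G] [Finite G] [IsSimpleGroup G]
    (P : Cfsg.BNPair G) (h1 : P.rank = 1) {p n : ℕ} (hp : p.Prime) (hp2 : p ≠ 2) (hn : 1 ≤ n)
    (U : Subgroup G) (hUB : U ≤ P.B) (hUn : ∀ b ∈ P.B, ∀ u ∈ U, b * u * b⁻¹ ∈ U)
    (hUnil : Group.IsNilpotent U) (hsplit : U ⊔ (P.B ⊓ P.N) = P.B) (hdisj : U ⊓ (P.B ⊓ P.N) = ⊥)
    (hind : P.B.index = p ^ (3 * n) + 1) (hU : Nat.card U = p ^ (3 * n))
    (hHc : IsCyclic ↥(P.B ⊓ P.N))
    (hH : Nat.gcd 3 (p ^ n + 1) * Nat.card ↥(P.B ⊓ P.N) = p ^ (2 * n) - 1) :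
    ∃ (F : Type) (_ : Field F) (_ : Fintype F), Fintype.card F = (p ^ n) ^ 2 ∧
      Nonempty (G ≃* Cfsg.PSU 3 F (p ^ n)) := by
  classical
  obtain ⟨hsub, ⟨i⟩⟩ := Nat.card_eq_one_iff_unique.1 h1
  have hsB : (i : G) ∉ P.B := CF.BN.s_not_mem_B P i.2
  have hall : ∀ g : G, g ∈ P.B ∨ CF.BN.wt P g = (CF.BN.cox P).s i := by
    intro g
    rw [← CF.BN.mem_parW_singleton]
    have : ({i} : Set P.S) = Set.univ := by
      ext j; simp [Subsingleton.elim j i]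
    rw [this, CF.BN.parW_univ]; trivial
  have hle : P.B ⊓ P.N ≤ Subgroup.normalizer (U : Set G) := fun b hb =>
    Subgroup.mem_normalizer_fintype fun u hu => hUn b hb.1 u hu
  have hB : ∀ b ∈ P.B, ∃ u ∈ U, ∃ h ∈ P.B ⊓ P.N, u * h = b := by
    intro b hb
    rw [← hsplit, ← SetLike.mem_coe, Subgroup.coe_mul_of_right_le_normalizer_left _ _ hle] at hb
    exact hb
  have ha : ∀ g : G, g • ((1 : G) : G ⧸ P.B) = (1 : G) ↔ g ∈ P.B := fun g => by
    rw [MulAction.Quotient.smul_mk, QuotientGroup.eq]; simp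
  have ho : ∀ g ∈ P.B ⊓ P.N, g • ((i : G) : G ⧸ P.B) = (i : G) := fun g hg => by
    rw [MulAction.Quotient.smul_mk, QuotientGroup.eq]
    simpa [mul_assoc] using P.conj_mem _ (inv_mem (P.subset i.2)) _ (inv_mem hg)
  have ne : ((i : G) : G ⧸ P.B) ≠ (1 : G) := fun e => hsB (by simpa using QuotientGroup.eq.1 e)
  have trans : ∀ x ≠ ((1 : G) : G ⧸ P.B), ∃ u ∈ U, u • ((i : G) : G ⧸ P.B) = x := fun x hx => by
    obtain ⟨g, rfl⟩ := QuotientGroup.mk_surjective x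
    obtain ⟨b, hb, b', hb', rfl⟩ := CF.BN.wt_eq_wt_iff.1 (((hall g).resolve_left fun h =>
      hx (QuotientGroup.eq.2 (by simpa using h))).trans (CF.BN.wt_s i).symm)
    obtain ⟨u, hu, h, hh, rfl⟩ := hB b hb
    refine ⟨u, hu, ?_⟩
    rw [← ho h hh, ← mul_smul, MulAction.Quotient.smul_mk, QuotientGroup.eq]
    simpa [mul_assoc] using hb'
  have free : ∀ u ∈ U, u • ((i : G) : G ⧸ P.B) = (i : G) → u = 1 := fun u hu e => by
    have h2 := ncard_orbit_mul U ((i : G) : G ⧸ P.B)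
    have h3 := Set.ncard_sdiff_singleton_add_one (Set.mem_univ ((1 : G) : G ⧸ P.B))
    rw [show {y | ∃ g ∈ U, g • ((i : G) : G ⧸ P.B) = y} = Set.univ \ {((1 : G) : G ⧸ P.B)} from
      Set.ext fun y => ⟨fun ⟨g, hg, e⟩ => ⟨trivial, fun e' => ne (smul_left_cancel g
        (e.trans (e'.trans ((ha g).2 (hUB hg)).symm)))⟩, fun h => trans y h.2⟩] at h2
    rw [Set.ncard_univ, ← Subgroup.index, hind, Nat.add_right_cancel_iff] at h3
    rw [h3, hU, mul_eq_left₀ (pow_ne_zero _ hp.ne_zero), Subgroup.card_eq_one] at h2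
    exact h2.le ⟨hu, e⟩
  have hH' : HH G ((1 : G) : G ⧸ P.B) ((i : G) : G ⧸ P.B) = P.B ⊓ P.N :=
    le_antisymm (fun g hg => by
      obtain ⟨u, hu, h, hh, rfl⟩ := hB g ((ha g).1 hg.1)
      rwa [free u hu (by simpa only [mul_smul, ho h hh] using (mem_HH.1 hg).2), one_mul])
      fun g hg => ⟨(ha g).2 hg.1, ho g hg⟩
  have := Fact.mk hp
  let _ := Fintype.ofFinite (GaloisField p (n * 2))
  have hF : Fintype.card (GaloisField p (n * 2)) = (p ^ n) ^ 2 := by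
    rw [← Nat.card_eq_fintype_card, GaloisField.card p _ (by omega), pow_mul]
  exact ⟨_, _, _, hF, onan hp hp2 hn ne (fun u hu => (ha u).2 (hUB hu))
    (fun g hg => hUn g ((ha g).1 hg)) trans free ⟨i, fun e => hsB ((ha _).1 e)⟩
    (by rw [hU, ← pow_mul, mul_comm]) (hH' ▸ hHc) (d := Nat.gcd 3 (p ^ n + 1))
    (Odd.of_dvd_nat (by decide) (Nat.gcd_dvd_left _ _)) (Nat.gcd_dvd_right _ _)
    (by rw [hH', hH, ← pow_mul, mul_comm]) _ hF⟩

end Cfsg.Agent.S1148
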