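import Cfsg.Statements.S1150
import Cfsg.Agent.BN.ReeLink

set_option autoImplicit false
open Cfsg

namespace Cfsg.Agent.S1150

/-- In the small Ree group ²G₂(q), q = 3^(2m+1), realised as G¹ inside the Chevalley group G₂ over the field with q elements (θ the 3^m-th power map), with H¹ = G¹ ∩ H and U¹ = G¹ ∩ U the intersections with the ambient diagonal and positive unipotent subgroups: `H¹` is cyclic. -/
theorem result {K : Type*} [Field K] [Fintype K] {m : ℕ} (hK : Fintype.card K = 3 ^ (2 * m + 1)) :
    IsCyclic ↥(Cfsg.Lie.chevG2.diagonalSubgroup K ⊓ Cfsg.Lie.twistedG2 K (3 ^ m)) := by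
  obtain ⟨T, D, -, h, -⟩ := CF.BN.Ree.exists_ree hK
  have := D.isCyclic_H
  exact isCyclic_of_surjective _ (CF.BN.Ree.infEquiv h).symm.surjective

end Cfsg.Agent.S1150
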