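import Cfsg.Statements.S1151
import Cfsg.Agent.BN.ReeLink

set_option autoImplicit false
open Cfsg

namespace Cfsg.Agent.S1151

/-- In the small Ree group ²G₂(q), q = 3^(2m+1), realised as G¹ inside the Chevalley group G₂ over the field with q elements (θ the 3^m-th power map), with H¹ = G¹ ∩ H and U¹ = G¹ ∩ U the intersections with the ambient diagonal and positive unipotent subgroups: `H¹` has exactly `(q - 1)/2` elements of odd order, and each non-identity one centralises no non-identity element of `U¹`. -/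
theorem result {K : Type*} [Field K] [Fintype K] {m : ℕ} (hK : Fintype.card K = 3 ^ (2 * m + 1)) :
    2 * Nat.card {h : ↥(Cfsg.Lie.chevG2.diagonalSubgroup K ⊓ Cfsg.Lie.twistedG2 K (3 ^ m)) // Odd (orderOf h)} = 3 ^ (2 * m + 1) - 1 ∧
      ∀ h ∈ (Cfsg.Lie.chevG2.diagonalSubgroup K ⊓ Cfsg.Lie.twistedG2 K (3 ^ m)), h ≠ 1 → Odd (orderOf h) →
        (Cfsg.Lie.chevG2.posUnipotent K ⊓ Cfsg.Lie.twistedG2 K (3 ^ m)) ⊓ Subgroup.centralizer {h} = ⊥ := by
  obtain ⟨T, D, hU, h, -⟩ := CF.BN.Ree.exists_ree hK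
  refine ⟨?_, fun g hg h1 h2 => eq_bot_iff.2 fun x hx => ?_⟩
  · rw [← CF.BN.Ree.natCard_eq hK, ← T.card_odd]
    exact congrArg _ (Nat.card_congr (((CF.BN.Ree.infEquiv h).trans D.hEquiv.symm).toEquiv.subtypeEquiv
      fun a => by rw [MulEquiv.toEquiv_eq_coe, MulEquiv.coe_toEquiv, MulEquiv.orderOf_eq]))
  · obtain ⟨t, ht⟩ := h.le (show (⟨g, hg.2⟩ : Cfsg.Lie.twistedG2 K (3 ^ m)) ∈ _ from hg)
    obtain rfl : (D.h t).1 = g := congrArg Subtype.val ht
    refine congrArg Subtype.val (D.eq_one_of_h_conj (t := t) (x := ⟨x, hx.1.2⟩) ?_ ?_ (hU.le hx.1)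
      (Subtype.ext (mul_inv_eq_iff_eq_mul.2 (hx.2 _ rfl))))
    · rintro rfl; exact h1 (by rw [map_one]; rfl)
    · rintro rfl
      rw [Subgroup.orderOf_coe, show D.h (-1) = D.j from rfl, D.orderOf_j] at h2
      exact absurd h2 (by decide)

end Cfsg.Agent.S1151
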