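import Cfsg.Statements.S1167
import Cfsg.Agent.Suz.Zass

set_option autoImplicit false
open Cfsg

namespace Cfsg.Agent.S1167

/-- Let `G` be a finite simple Zassenhaus group on `Ω`, `U` a normal subgroup of `G_a` regular on `Ω` minus `a` which is an abelian 2-group, and `v` an involution with `v • a ≠ a`. Then there is a unique `u₀ ∈ U`, `u₀ ≠ 1`, with `v u₀ v = u₀ v u₀`. -/
theorem result {G Ω : Type*} [Group G] [Finite G] [MulAction G Ω] [Finite Ω]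
    (hZ : Cfsg.IsZassenhausGroup G Ω) [IsSimpleGroup G] {a : Ω}
    (U : Subgroup G) (hUle : U ≤ MulAction.stabilizer G a)
    (hUn : ∀ h ∈ MulAction.stabilizer G a, ∀ u ∈ U, h * u * h⁻¹ ∈ U)
    (hreg : ∀ c d : Ω, c ≠ a → d ≠ a → ∃! u : U, (u : G) • c = d)
    (hU2 : IsPGroup 2 U) (hUab : ∀ u ∈ U, ∀ u' ∈ U, u * u' = u' * u)
    (v : G) (hv1 : v ≠ 1) (hv2 : v * v = 1) (hva : v • a ≠ a) :
    ∃! u₀ : G, u₀ ∈ U ∧ u₀ ≠ 1 ∧ v * u₀ * v = u₀ * v * u₀ := by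
  have Z := CF.Perm.zsetup_of_regular hZ.2.1 (CF.Perm.Zass.three hZ) hva hUle
    (Subgroup.normal_subgroupOf_of_le_normalizer fun h hh => Subgroup.mem_normalizer_iff.mpr
      fun u => ⟨hUn h hh u, fun hu => by simpa [mul_assoc] using hUn _ (inv_mem hh) _ hu⟩) hreg
  obtain ⟨hS, h2, hD⟩ := CF.Suz.zass_setup hZ Z hU2 hv2 hva
  obtain ⟨s, r, h⟩ := CF.Suz.exists_str hS
  obtain rfl := h.eq_of_comm hS h2 (CF.Suz.kcyc_of_D_eq_K hS h2 hD) hU2 hUab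
  refine ⟨r, ⟨h.s_mem, h.s_ne, by rw [h.eq, h.s_inv]⟩, fun u ⟨hu, hu1, e⟩ => ?_⟩
  have h3 : u = (u * v)⁻¹ * v * (u * v) := by
    calc u = (u * v)⁻¹ * (u * v * u) := by group
      _ = _ := by rw [← e]; group
  have h4 : u * u = 1 := by
    rw [h3]
    calc _ = (u * v)⁻¹ * (v * v) * (u * v) := by group
      _ = 1 := by rw [hv2]; group
  exact (CF.Suz.Str.unique hS ⟨hu, hu1, h4, hu, by rw [e, inv_eq_of_mul_eq_one_right h4]⟩ h).1

end Cfsg.Agent.S1167
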