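import Cfsg.Statements.S1176
import Cfsg.Agent.Invol.Four

set_option autoImplicit false
open Cfsg

namespace Cfsg.Agent.S1176

/-- Let x₀ be an involution of the finite group G and D its conjugacy class. Assume (a) for each x ∈ D the subgroup W(x) generated by the members of D commuting with x is a 2-group of nilpotency class at most 2, and (b) the product of two distinct commuting members of D again lies in D. Then for all x, y ∈ D, if xy has even order greater than 2, its order is 4. -/
theorem result {G : Type*} [Group G] [Finite G] (x₀ : G) (hx₀ : orderOf x₀ = 2) (ha : ∀ x : G, IsConj x₀ x → IsPGroup 2 ↥(Subgroup.closure {y : G | IsConj x₀ y ∧ Commute y x}) ∧ ⁅⁅Subgroup.closure {y : G | IsConj x₀ y ∧ Commute y x}, Subgroup.closure {y : G | IsConj x₀ y ∧ Commute y x}⁆, Subgroup.closure {y : G | IsConj x₀ y ∧ Commute y x}⁆ = ⊥) (hb : ∀ x y : G, IsConj x₀ x → IsConj x₀ y → x ≠ y → Commute x y → IsConj x₀ (x * y)) (x y : G) (hx : IsConj x₀ x) (hy : IsConj x₀ y) (heven : Even (orderOf (x * y))) (hgt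 : 2 < orderOf (x * y)) : orderOf (x * y) = 4 := by
  have hx2 : orderOf x = 2 := (CF.Invol.orderOf_eq_of_isConj hx).symm.trans hx₀
  have hy2 : orderOf y = 2 := (CF.Invol.orderOf_eq_of_isConj hy).symm.trans hx₀
  have hxx := CF.Invol.mul_self_of_orderOf hx2
  have hyy := CF.Invol.mul_self_of_orderOf hy2
  have hix := CF.Invol.left_inverts_mul hxx hyy
  have hiy := CF.Invol.right_inverts_mul hxx hyy
  set c := x * y with hc
  set w := c ^ (orderOf c / 2) with hw
  have hw2 : orderOf w = 2 := CF.Invol.orderOf_pow_half heven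
  have hwx : Commute w x := CF.Invol.commute_pow_half_of_inverts hix heven
  have hwy : Commute w y := CF.Invol.commute_pow_half_of_inverts hiy heven
  have key : ∀ v : G, IsConj x₀ v → v * v = 1 → Commute w v → IsConj x₀ (v * w) → IsConj x₀ w := by
    intro v hv hvv hwv h
    have := hb v (v * w) hv h (fun h0 => CF.Invol.ne_one_of_orderOf hw2 (by simpa using h0))
      ((Commute.refl v).mul_right hwv.symm)
    rwa [← mul_assoc, hvv, one_mul] at this
  have hwD : IsConj x₀ w := by
    by_cases h4 : 4 ∣ orderOf c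
    · obtain ⟨k, hk⟩ := h4
      refine key x hx hxx hwx (hx.trans (CF.Invol.isConj_of_eq (g := x * c ^ (k : ℤ)) ?_))
      rw [CF.Invol.mul_zpow_conj_of_inverts hix, hw, hk, show 4 * k / 2 = 2 * k by omega,
        ← zpow_natCast]
      push_cast; rfl
    · obtain ⟨k, hk⟩ := heven
      exact key y hy hyy hwy (hx.trans (CF.Invol.isConj_mul_pow_half hxx hyy (by rw [← hc]; omega)))
  have h1 := (ha w hwD).2
  have hxW : x ∈ Subgroup.closure {y : G | IsConj x₀ y ∧ Commute y w} :=
    Subgroup.subset_closure ⟨hx, hwx.symm⟩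
  have hyW : y ∈ Subgroup.closure {y : G | IsConj x₀ y ∧ Commute y w} :=
    Subgroup.subset_closure ⟨hy, hwy.symm⟩
  have h2 := Subgroup.commutator_mem_commutator (Subgroup.commutator_mem_commutator hxW hyW) hxW
  rw [h1, Subgroup.mem_bot, commutatorElement_def, commutatorElement_def,
    CF.Invol.inv_eq_of_orderOf hy2] at h2
  have h3 : x * y * x⁻¹ * y = c ^ 2 := by rw [CF.Invol.inv_eq_of_orderOf hx2, sq, hc]; group
  rw [h3] at h2
  have h4 : c ^ 4 = 1 := by
    have h5 := CF.Invol.conj_pow_of_inverts hix 2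
    calc c ^ 4 = c ^ 2 * ((c ^ 2)⁻¹)⁻¹ := by group
      _ = c ^ 2 * (x * c ^ 2 * x⁻¹)⁻¹ := by rw [h5]
      _ = 1 := by rw [← h2]; group
  have h5 := orderOf_dvd_of_pow_eq_one h4
  have h6 := Nat.le_of_dvd (by norm_num) h5
  obtain ⟨k, hk⟩ := heven
  omega

end Cfsg.Agent.S1176
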