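import Cfsg.Statements.S1177
import Cfsg.Agent.Invol.Four

set_option autoImplicit false
open Cfsg

namespace Cfsg.Agent.S1177

/-- Let A be a nontrivial elementary abelian 2-subgroup of a finite group G which is a T.I. set (each conjugate of A meets A trivially or equals A) and which does not commute elementwise with any conjugate of A other than A itself. Then for every a ∈ A, a ≠ 1, every conjugate of A contained in C_G(a) is equal to A (A is weakly closed in C_G(a)). -/
theorem result {G : Type*} [Group G] [Finite G] (A : Subgroup G) (hA : Cfsg.IsElementaryAbelian 2 A) (hA1 : A ≠ ⊥) (hTI : ∀ g : G, A.map (MulAut.conj g).toMonoidHom ⊓ A = ⊥ ∨ A.map (MulAut.conj g).toMonoidHom = A) (hb : ∀ g : G, (∀ a ∈ A, ∀ b ∈ A.map (MulAut.conj g).toMonoidHom, a * b = b * a) → A.map (MulAut.conj g).toMonoidHom = A) (a : G) (ha : a ∈ A) (ha1 : a ≠ 1) (g : G) (hg : A.map (MulAut.conj g).toMonoidHom ≤ Subgroup.centralizer ({a} : Set G)) : A.map (MulAut.conj g).toMonoidHom = A := by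
  open CF.Transfer in
  simp only [map_conj_eq_cj] at *
  by_contra hne
  have hBA := (hTI g).resolve_right hne
  have hTI' : ∀ h : G, cj h (cj g A) ⊓ cj g A = ⊥ ∨ cj h (cj g A) = cj g A := by
    intro h
    have h1 : cj h (cj g A) = cj g (cj (g⁻¹ * h * g) A) := by
      rw [cj_cj, cj_cj]; congr 1; group
    rw [h1, ← cj_inf, cj_eq_bot_iff, cj_inj]
    exact hTI _
  have hN : ∀ b ∈ cj g A, b ∈ Subgroup.normalizer (A : Set G) := by
    intro b hb'
    rw [mem_normalizer_iff_cj]
    refine (hTI b).resolve_left fun h0 => ha1 ?_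
    rw [← Subgroup.mem_bot, ← h0]
    refine ⟨mem_cj'.2 ⟨a, ha, CF.Invol.mem_centralizer_singleton_iff_conj.1 (hg hb')⟩, ha⟩
  obtain ⟨a', ha', b', hb', hab⟩ : ∃ a' ∈ A, ∃ b' ∈ cj g A, a' * b' ≠ b' * a' := by
    by_contra hc
    push Not at hc
    exact hne (hb g hc)
  have key : ∀ b ∈ cj g A, Commute b a' → b = 1 := by
    intro b hb1 hc
    by_contra hb0
    have h1 : cj a' (cj g A) = cj g A := (hTI' a').resolve_left fun h0 => hb0 (by
      rw [← Subgroup.mem_bot, ← h0]
      exact ⟨mem_cj'.2 ⟨b, hb1, by rw [← hc.eq, mul_inv_cancel_right]⟩, hb1⟩)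
    have h2 : a' * b' * a'⁻¹ * b'⁻¹ ∈ cj g A ⊓ A := by
      refine Subgroup.mem_inf.2 ⟨mul_mem (h1 ▸ conj_mem_cj hb') (inv_mem hb'), ?_⟩
      have := mul_mem ha' (conj_mem_of_mem_normalizer (hN b' hb') (inv_mem ha'))
      convert this using 1; group
    rw [hBA, Subgroup.mem_bot, mul_inv_eq_one, mul_inv_eq_iff_eq_mul] at h2
    exact hab h2
  let f : cj g A → {x // x ∈ A ∧ x ≠ 1} := fun b => ⟨b * a' * (b : G)⁻¹,
    conj_mem_of_mem_normalizer (hN b b.2) ha', fun h0 => hab (by
      have : a' = 1 := by simpa using h0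
      simp [this])⟩
  have hf : Function.Injective f := by
    intro b c hbc
    have h1 : b * a' * (b : G)⁻¹ = c * a' * (c : G)⁻¹ := congrArg Subtype.val hbc
    have := key _ (mul_mem (inv_mem c.2) b.2) (by
      show (c : G)⁻¹ * b * a' = a' * ((c : G)⁻¹ * b)
      calc (c : G)⁻¹ * b * a' = (c : G)⁻¹ * (b * a' * (b : G)⁻¹) * b := by group
        _ = _ := by rw [h1]; group)
    exact Subtype.ext (inv_mul_eq_one.1 this).symm
  have h1 := Nat.card_le_card_of_injective f hf
  have h2 := CF.Invol.card_subtype_ne_add_one (p := fun x => x ∈ A) A.one_mem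
  rw [card_cj] at h1
  change _ + 1 = Nat.card A at h2
  omega

end Cfsg.Agent.S1177
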