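import Cfsg.Statements.S1178
import Cfsg.Agent.Transfer.Tate

set_option autoImplicit false
open Cfsg

namespace Cfsg.Agent.S1178

/-- Let A be a subgroup of a Sylow 2-subgroup S of the finite group G which is weakly closed in S. If a conjugate g A g⁻¹ commutes elementwise with A, then g A g⁻¹ = A. -/
theorem result {G : Type*} [Group G] [Finite G] (S : Sylow 2 G) (A : Subgroup G) (hW : Cfsg.IsWeaklyClosed A (S : Subgroup G)) (g : G) (hc : ∀ a ∈ A, ∀ b ∈ A.map (MulAut.conj g).toMonoidHom, a * b = b * a) : A.map (MulAut.conj g).toMonoidHom = A := by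
  have hA : IsPGroup 2 A := S.isPGroup'.to_le hW.1
  have h1 : IsPGroup 2 (A ⊔ CF.Transfer.cj g A : Subgroup G) :=
    IsPGroup.to_sup_of_normal_left' hA (CF.Transfer.isPGroup_cj hA g)
      (fun b hb => Subgroup.centralizer_le_normalizer _ (fun a ha => hc a ha b hb))
  have := CF.Transfer.IsWeaklyClosed.eq_of_le_pGroup hW h1 (a := g) (b := 1) le_sup_right
    (by rw [CF.Transfer.cj_one]; exact le_sup_left)
  rwa [CF.Transfer.cj_one] at this

end Cfsg.Agent.S1178
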