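import Cfsg.Statements.S1183
import Cfsg.Agent.Invol.Closure

set_option autoImplicit false
open Cfsg

namespace Cfsg.Agent.S1183

/-- Let z be an isolated involution of the finite group G and C = C_G(z). Then the subgroup of G generated by its elements of odd order is all of G if and only if the subgroup of C generated by its elements of odd order is all of C. -/
theorem result {G : Type*} [Group G] [Finite G] (z : G) (hz : Cfsg.IsIsolatedInvolution z) : Cfsg.pResidual 2 G = ⊤ ↔ Cfsg.pResidual 2 ↥(Subgroup.centralizer ({z} : Set G)) = ⊤ := by
  refine CF.Invol.pResidual_eq_top_iff_of_control ?_ ?_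
  · rw [← even_iff_two_dvd, Nat.not_even_iff_odd]
    exact CF.Invol.isolated_odd_index hz
  · intro g hg _ a ha
    obtain ⟨c, -, h1, h2⟩ := CF.Invol.isolated_exists_conj_centralizer hz (H := ⊤)
      (Subgroup.le_normalizer (Subgroup.mem_top z)) (Subgroup.mem_top a)
    exact ⟨c, CF.Invol.mem_centralizer_singleton_iff_commute.mpr h1, h2 g
      (CF.Invol.mem_centralizer_singleton_iff_commute.mp hg)
      (CF.Invol.mem_centralizer_singleton_iff_commute.mp ha)⟩

end Cfsg.Agent.S1183
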