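import Cfsg.Statements.S1185
import Cfsg.Agent.Invol.Isolated

set_option autoImplicit false
open Cfsg

namespace Cfsg.Agent.S1185

/-- Let z be an isolated involution of the finite group G with centralizer C. Then for every g ∈ G there is exactly one element k in the coset gC that has odd order and is inverted by z. -/
theorem result {G : Type*} [Group G] [Finite G] (z : G) (hz : Cfsg.IsIsolatedInvolution z) (g : G) : ∃! k : G, (Odd (orderOf k) ∧ z * k * z⁻¹ = k⁻¹) ∧ g⁻¹ * k ∈ Subgroup.centralizer ({z} : Set G) := by
  have := CF.Invol.isolated_existsUnique_inverted hz (isConj_iff.mpr ⟨g, rfl⟩)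
  refine (existsUnique_congr fun k => and_congr_right fun _ => ?_).mp this
  rw [CF.Invol.mem_centralizer_singleton_iff_conj]
  constructor
  · intro h
    calc g⁻¹ * k * z * (g⁻¹ * k)⁻¹ = g⁻¹ * (k * z * k⁻¹) * g := by group
      _ = z := by rw [h]; group
  · intro h
    calc k * z * k⁻¹ = g * (g⁻¹ * k * z * (g⁻¹ * k)⁻¹) * g⁻¹ := by group
      _ = _ := by rw [h]

end Cfsg.Agent.S1185
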