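import Cfsg.Statements.S1222
import Cfsg.Agent.Bender.App

set_option autoImplicit false
open Cfsg

namespace Cfsg.Agent.S1222

/-- Let G be a finite simple group with a strongly embedded subgroup H such that H permutes transitively the cosets gH with g ∉ H, and H has a normal subgroup Q acting regularly on those cosets (transitively, with only the identity fixing any of them). Then G is isomorphic to PSL(2,F) with F of characteristic 2 and at least 4 elements, or is simple with the order of a Suzuki group, or is isomorphic to PSU(3) over a field with q² elements, q ≥ 4 a power of 2. -/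
theorem result {G : Type*} [Group G] [Finite G] [IsSimpleGroup G] (H : Subgroup G) (hH : Cfsg.IsStronglyEmbedded H) (Q : Subgroup G) (hQH : Q ≤ H) (hQn : (Q.subgroupOf H).Normal) (htrans : ∀ g₁ g₂ : G, g₁ ∉ H → g₂ ∉ H → ∃ u ∈ Q, g₂⁻¹ * (u * g₁) ∈ H) (hreg : ∀ g : G, g ∉ H → ∀ u ∈ Q, g⁻¹ * (u * g) ∈ H → u = 1) : (∃ (F : Type) (_ : Field F) (_ : Fintype F), CharP F 2 ∧ 4 ≤ Fintype.card F ∧ Nonempty (G ≃* Matrix.ProjectiveSpecialLinearGroup (Fin 2) F)) ∨ Cfsg.IsSuzuki G ∨ (∃ (F : Type) (_ : Field F) (_ : Fintype F) (q : ℕ), Fintype.card F = q ^ 2 ∧ Even q ∧ 4 ≤ q ∧ Nonempty (G ≃* Cfsg.PSU 3 F q)) := by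
  open CF.Bender CF.BG MulAction in
  have h1 := se_oddCore_simple hH
  have := se_faithful hH h1
  obtain ⟨u, hu⟩ := se_sw hH
  obtain ⟨s, hs⟩ := se_ia hH
  have h2 : u ∉ H := fun e => hu.ne (smul_pt.2 e).symm
  refine (setup_bender_simple ((se_quot hH).setup_of (Q := Q) (quot_trans _) hu hs
    (by rw [stab_pt]; exact ⟨hQH, (Subgroup.normal_subgroupOf_iff_le_normalizer hQH).1 hQn⟩)
    (fun b hb => ?_) fun q hq e => hreg u h2 q hq ?_) (se_rank2 hH (h1 ▸ bot_le))).weak
  · obtain ⟨g, rfl⟩ := QuotientGroup.mk_surjective b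
    obtain ⟨q, hq, e⟩ := htrans u g h2 (mk_ne_pt.1 hb)
    exact ⟨q, hq, by rw [smul_pt_eq, CF.Invol.smul_mk_eq_iff, mul_assoc]; exact e⟩
  · rwa [smul_pt_eq, CF.Invol.smul_mk_eq_iff, mul_assoc] at e

end Cfsg.Agent.S1222
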