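import Cfsg.Statements.S1223
import Cfsg.Agent.CIT.More
import Cfsg.Agent.Bender.Final

set_option autoImplicit false
open Cfsg

namespace Cfsg.Agent.S1223

/-- Let H be a strongly embedded subgroup of the finite group G containing no nontrivial normal subgroup of G (so G acts faithfully on the cosets of H), u an involution of G outside H, and j ≠ 1 an element of H ∩ uHu⁻¹ with u j u⁻¹ = j⁻¹. Then C_G(j) has odd order. -/
theorem result {G : Type*} [Group G] [Finite G] (H : Subgroup G) (hH : Cfsg.IsStronglyEmbedded H) (hcore : H.normalCore = ⊥) (u : G) (hu : orderOf u = 2) (huH : u ∉ H) (j : G) (hj : j ∈ (H ⊓ H.map (MulAut.conj u).toMonoidHom)) (hj1 : j ≠ 1) (hinv : u * j * u⁻¹ = j⁻¹) : Odd (Nat.card (Subgroup.centralizer ({j} : Set G))) := by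
  open CF.BG CF.Invol CF.Bender CF.CIT CF.Suz Subgroup in
  have SE := sEmb_of_se hH
  obtain ⟨jH, jH'⟩ := mem_inf_cj.1 hj
  have A : ∀ s ∈ H, orderOf s = 2 → ¬ Commute j s := fun s hs o c =>
    hj1 (SE.inverted_eq huH hu hs o jH H.one_mem hinv (by simp) (by simp [c.eq]))
  have j2 : j * j ≠ 1 := fun e => A j jH (orderOf_eq_two_iff.2 ⟨e, hj1⟩) (Commute.refl j)
  rw [odd_card_iff_no_invol]
  intro v hv o
  have c : Commute v j := mem_centralizer_singleton_iff_commute.1 hv
  have uu := mul_self_of_orderOf hu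
  have vv := mul_self_of_orderOf o
  by_cases r : Rank2 G
  · have hO : oddCore G = ⊥ := le_bot_iff.1 (hcore ▸ normal_le_normalCore.2 (se_oddCore_le hH r))
    obtain ⟨t, Q, hS⟩ := se_setup part2 hH hO
    obtain ⟨S, rfl⟩ := setup_syl hS r
    obtain ⟨b, hb⟩ := invol_fix hS vv
    have ja : j • pt H = pt H := smul_pt.2 jH
    have jb : j • b = b := invol_fix_unique hS (ne_one_of_orderOf o) vv
      (by rw [← mul_smul, c.eq, mul_smul, hb]) hb
    have ju : j • u • pt H = u • pt H := by
      have := smul_pt.2 jH'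
      rwa [mul_smul, mul_smul, inv_smul_eq_iff] at this
    have ua : u • pt H ≠ pt H := fun e => huH (smul_pt.1 e)
    have ba : b ≠ pt H := fun e => A v (smul_pt.1 (e ▸ hb)) o c.symm
    have bu : b ≠ u • pt H := by
      rintro rfl
      refine A (u⁻¹ * v * u) (smul_pt.1 (by rw [mul_smul, mul_smul, hb, inv_smul_smul]))
        (by rw [CF.Invol.orderOf_conj', o]) ?_
      have e : j = u⁻¹ * j⁻¹ * u := by rw [← hinv]; group
      rw [e]
      simpa using c.symm.inv_left.map (MulAut.conj u⁻¹)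
    obtain ⟨q, hq, e⟩ := Q_trans' hS ua ba
    have e2 : j * q * j⁻¹ = q := Q_inj hS (conjQ hS ja hq) hq ua (by
      rw [mul_smul, mul_smul, inv_smul_eq_iff.2 ju.symm, e, jb])
    have q1 : q ≠ 1 := by rintro rfl; exact bu (by rw [← e, one_smul])
    obtain ⟨s, hs, os⟩ := exists_inv ((syl_sylow_top S).pi.le (zpowers_le.2 hq))
      (zpowers_ne_bot.2 q1)
    obtain ⟨k, rfl⟩ := mem_zpowers_iff.1 hs
    exact A _ (smul_pt.1 (Q_fix_a hS (zpow_mem hq k))) os
      (Commute.zpow_right (mul_inv_eq_iff_eq_mul.1 e2) k)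
  · rcases Nat.even_or_odd (orderOf (u * v)) with h | h
    · obtain ⟨z, -, oz, c1, c2⟩ := exists_central_invol uu vv h
      have e := (rank_one_eq r (iv_iff.2 oz) (iv_iff.2 hu) c1).symm.trans
        (rank_one_eq r (iv_iff.2 oz) (iv_iff.2 o) c2)
      subst e
      rw [c.eq, mul_inv_cancel_right] at hinv
      exact j2 (eq_inv_iff_mul_eq_one.1 hinv)
    · refine j2 (mul_self_eq_one_of_odd_inverts h ?_)
      rw [← hinv, mul_assoc u, c.eq]; group

end Cfsg.Agent.S1223
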