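import Cfsg.Statements.S1231
import Cfsg.Agent.Invol.StrEmb

set_option autoImplicit false
open Cfsg

namespace Cfsg.Agent.S1231

/-- Let H be a subgroup of the finite group G, p a prime, k ≥ 1, and P a Sylow p-subgroup of H whose p-rank is at least k. Then N_G(X) ≤ H for every subgroup X of P of p-rank at least k if and only if H ∩ gHg⁻¹ has p-rank less than k for every g ∉ H. -/
theorem result {G : Type*} [Group G] [Finite G] {p : ℕ} [Fact p.Prime] (k : ℕ) (hk : 1 ≤ k) (H : Subgroup G) (P : Sylow p ↥H) (hP : ¬ Cfsg.PRankLE p (k - 1) ↥(P : Subgroup ↥H)) : (∀ X : Subgroup G, X ≤ (P : Subgroup ↥H).map H.subtype → ¬ Cfsg.PRankLE p (k - 1) ↥X → Subgroup.normalizer (X : Set G) ≤ H) ↔ (∀ g : G, g ∉ H → Cfsg.PRankLE p (k - 1) ↥(H ⊓ H.map (MulAut.conj g).toMonoidHom)) := by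
  have hP' := CF.Transfer.isSylowIn_map_sylow P
  rw [CF.Invol.normalizer_le_iff_no_pgroup (fun X => ¬ Cfsg.PRankLE p (k - 1) ↥X)
    (fun X Y hXY hX hY => hX (CF.Invol.prankLE_of_le hXY hY))
    (fun g X hX hY => hX (CF.Invol.prankLE_cj_iff.1 hY)) hP']
  refine forall_congr' fun g => forall_congr' fun hg => ?_
  rw [CF.Transfer.map_conj_eq_cj]
  constructor
  · intro h
    rw [CF.Invol.prankLE_subgroup_iff]
    intro A hA hel
    have := not_not.1 (h A (CF.Loc.isElemAb_isPGroup hel) (hA.trans inf_le_left) (hA.trans inf_le_right))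
    exact CF.Invol.prankLE_subgroup_iff.1 this A le_rfl hel
  · intro h X _ h1 h2
    exact not_not.2 (CF.Invol.prankLE_of_le (le_inf h1 h2) h)

end Cfsg.Agent.S1231
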