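import Cfsg.Statements.S1236
import Cfsg.Agent.CIT.More

set_option autoImplicit false
open Cfsg

namespace Cfsg.Agent.S1236

section
open Subgroup CF.BG CF.Invol
variable {D : Type*} [Group D] [Finite D]

theorem key (p : D → Prop) (z : D) (h1 : ∀ c w, ¬ p c → ¬ p w → p (c * w))
    (h2 : ∀ d w, p d → ¬ p w → Commute d w → d = 1 ∨ d = z)
    (h3 : ∀ d, p d → d * d = 1 → d = 1 ∨ d = z) {V : Subgroup D} (c : Nat.card V = 4)
    (e : ∀ v ∈ V, v * v = 1) : centralizer (V : Set D) ≤ V := by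
  have A : ∀ w, ¬ ∀ v ∈ V, v = 1 ∨ v = w := fun w h => by
    have := Set.ncard_le_ncard (show (V : Set D) ⊆ {1, w} from h)
    have := Set.ncard_insert_le (1 : D) {w}
    rw [Set.ncard_singleton] at this
    have : (V : Set D).ncard = 4 := c
    omega
  obtain ⟨w, hw, pw⟩ : ∃ w ∈ V, ¬ p w := by
    by_contra! h
    exact A z fun v hv => h3 v (h v hv) (e v hv)
  have zV : z ∈ V := by
    by_contra hz
    refine A w fun v hv => ?_
    by_cases pv : p v
    · exact (h3 v pv (e v hv)).imp_right fun h => absurd (h ▸ hv) hz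
    · rcases h3 _ (h1 v w pv pw) (e _ (V.mul_mem hv hw)) with h | h
      · exact Or.inr (mul_right_cancel (h.trans (e w hw).symm))
      · exact absurd (h ▸ V.mul_mem hv hw) hz
  have B : ∀ d, (d = 1 ∨ d = z) → d ∈ V := by rintro _ (rfl | rfl); exacts [V.one_mem, zV]
  intro g hg
  have cg : Commute g w := (mem_centralizer_iff.1 hg w hw).symm
  by_cases pg : p g
  · exact B g (h2 g w pg pw cg)
  · simpa using V.mul_mem (B _ (h2 _ w (h1 g w pg pw) pw (cg.mul_left (Commute.refl w))))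
      (V.inv_mem hw)

theorem dih {m : ℕ} (hm : 2 ≤ m) {V : Subgroup (DihedralGroup m)} (c : Nat.card V = 4)
    (e : ∀ v ∈ V, v * v = 1) : centralizer (V : Set (DihedralGroup m)) ≤ V := by
  have : NeZero m := ⟨by omega⟩
  have A : ∀ j : ZMod m, -j = j → DihedralGroup.r j = 1 ∨
      DihedralGroup.r j = DihedralGroup.r ((m / 2 : ℕ) : ZMod m) := fun j h => by
    rcases (ZMod.neg_eq_self_iff j).1 h with h | h
    · exact Or.inl (h ▸ rfl)
    · right; rw [← ZMod.natCast_zmod_val j]; congr 2; omega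
  refine key (fun d => ∃ j, d = DihedralGroup.r j) (DihedralGroup.r ((m / 2 : ℕ) : ZMod m))
    ?_ ?_ ?_ c e
  · rintro (i | i) (j | j) a b
    exacts [absurd ⟨_, rfl⟩ a, absurd ⟨_, rfl⟩ a, absurd ⟨_, rfl⟩ b, ⟨_, rfl⟩]
  · rintro _ (j | j) ⟨i, rfl⟩ b h
    · exact absurd ⟨_, rfl⟩ b
    · have := h.eq
      simp only [DihedralGroup.r_mul_sr, DihedralGroup.sr_mul_r, DihedralGroup.sr.injEq] at this
      exact A i (by linear_combination this)
  · rintro _ ⟨i, rfl⟩ h
    rw [DihedralGroup.r_mul_r, DihedralGroup.one_def, DihedralGroup.r.injEq] at h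
    exact A i (by linear_combination -h)

theorem qd (h : IsQuasiDihedral D) {V : Subgroup D} (c : Nat.card V = 4)
    (e : ∀ v ∈ V, v * v = 1) : centralizer (V : Set D) ≤ V := by
  obtain ⟨n, a, b, h⟩ := exists_qd_top h
  have M := h.toMX
  have B : ∀ w, (¬ ∃ j, w = a j) → ∃ j, w = b j := fun w hw =>
    ((M.mem w).1 trivial).resolve_left hw
  refine key (fun d => ∃ j, d = a j) (a (zh n)) ?_ ?_ ?_ c e
  · intro c w x y
    obtain ⟨i, rfl⟩ := B c x
    obtain ⟨j, rfl⟩ := B w y
    exact ⟨_, M.bb i j⟩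
  · rintro _ w ⟨i, rfl⟩ y hc
    obtain ⟨j, rfl⟩ := B w y
    rcases M.commute_ab'.1 hc with rfl | rfl
    exacts [Or.inl M.toMc.a_zero, Or.inr rfl]
  · rintro _ ⟨i, rfl⟩ hc
    refine or_iff_not_imp_left.2 fun ne => ?_
    rw [(M.toMc.orderOf_a_eq_two (by have := h.two_le; omega)).1 (orderOf_eq_two_iff.2 ⟨hc, ne⟩)]

end

/-- Let R be a finite group, t a central involution of R such that R ⧸ ⟨t⟩ is dihedral (of order ≥ 4) or quasi-dihedral, and A ≤ R an elementary abelian subgroup of order 8 containing t. Then C_R(A) = A. -/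
theorem result {R : Type*} [Group R] [Finite R] (t : R) (ht : orderOf t = 2) (htz : t ∈ Subgroup.center R) [(Subgroup.zpowers t).Normal] (hq : (∃ m : ℕ, 2 ≤ m ∧ Nonempty (R ⧸ Subgroup.zpowers t ≃* DihedralGroup m)) ∨ Cfsg.IsQuasiDihedral (R ⧸ Subgroup.zpowers t)) (A : Subgroup R) (hA : Cfsg.IsElementaryAbelian 2 A) (hA8 : Nat.card A = 8) (htA : t ∈ A) : Subgroup.centralizer (A : Set R) = A := by
  open CF.BG CF.Invol Subgroup in
  set f := QuotientGroup.mk' (zpowers t)
  have tA : zpowers t ≤ A := zpowers_le.2 htA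
  have c : Nat.card (A.map f) = 4 := by
    have := relIndex_ker A f
    rw [QuotientGroup.ker_mk'] at this
    have h2 := card_mul_relIndex tA
    rw [Nat.card_zpowers, ht, hA8, this] at h2
    omega
  have e : ∀ v ∈ A.map f, v * v = 1 := by
    rintro _ ⟨a, ha, rfl⟩
    rw [← map_mul, ← sq, hA.2 a ha, map_one]
  have k : centralizer ((A.map f : Subgroup _) : Set (R ⧸ zpowers t)) ≤ A.map f := by
    obtain ⟨m, hm, ⟨φ⟩⟩ | hq := hq
    · have := dih hm (V := (A.map f).map φ.toMonoidHom) (by rw [card_map_of_injective φ.injective, c])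
        (by rintro _ ⟨v, hv, rfl⟩; rw [← map_mul, e v hv, map_one])
      intro g hg
      have := this (x := φ g) (by
        rintro _ ⟨v, hv, rfl⟩
        simpa using congrArg φ (hg v hv))
      simpa using this
    · exact qd hq c e
  refine le_antisymm (fun g hg => ?_) fun a ha b hb =>
    congrArg Subtype.val (hA.1.is_comm.comm ⟨b, hb⟩ ⟨a, ha⟩)
  have := k (x := f g) (by rintro _ ⟨a, ha, rfl⟩; rw [← map_mul, hg a ha, map_mul])
  rwa [← mem_comap, comap_map_eq, QuotientGroup.ker_mk', sup_eq_left.2 tA] at this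

end Cfsg.Agent.S1236
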