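import Cfsg.Statements.S1244
import Cfsg.Agent.Invol.Closure

set_option autoImplicit false
open Cfsg

namespace Cfsg.Agent.S1244

/-- Let G be a finite group with no subgroup of index 2 whose Sylow 2-subgroup S is commutative, and let R ≤ S be a subgroup whose 2-rank is exactly one less than the 2-rank r of S. Then every involution of S is conjugate, by an element of N_G(S), to an element of R. -/
theorem result {G : Type*} [Group G] [Finite G] (hG : ∀ H : Subgroup G, H.index ≠ 2) (S : Sylow 2 G) (hS : IsMulCommutative (S : Subgroup G)) (r : ℕ) (hr1 : 1 ≤ r) (hSr : Cfsg.PRankLE 2 r (S : Subgroup G) ∧ ¬ Cfsg.PRankLE 2 (r - 1) (S : Subgroup G)) (R : Subgroup G) (hRS : R ≤ S) (hRr : Cfsg.PRankLE 2 (r - 1) R ∧ (r = 1 ∨ ¬ Cfsg.PRankLE 2 (r - 2) R)) (t : G) (ht : orderOf t = 2) (htS : t ∈ S) : ∃ n ∈ Subgroup.normalizer ((S : Subgroup G) : Set G), n * t * n⁻¹ ∈ R := by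
  by_contra hcon
  push Not at hcon
  have hcomm : ∀ a ∈ (S : Subgroup G), ∀ b ∈ (S : Subgroup G), a * b = b * a := fun a ha b hb =>
    congrArg Subtype.val (hS.is_comm.comm ⟨a, ha⟩ ⟨b, hb⟩)
  have hSC : (S : Subgroup G) ≤ Subgroup.centralizer ((S : Subgroup G) : Set G) :=
    fun a ha b hb => hcomm b hb a ha
  have hconj : ∀ a : G, a * t * a⁻¹ ∈ (S : Subgroup G) → a * t * a⁻¹ ∉ R := by
    intro a ha
    obtain ⟨n, hn, h⟩ := CF.Transfer.exists_normalizer_conj_of_centralizer S (A := {t}) (g := a)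
      (Set.singleton_subset_iff.mpr (hSC htS)) (by rintro _ rfl; exact hSC ha)
    rw [← h t rfl]
    exact hcon n hn
  obtain ⟨A, hAR, hA, hAc⟩ : ∃ A : Subgroup G, A ≤ R ∧ IsElementaryAbelian 2 A ∧
      2 ^ (r - 1) ≤ Nat.card A := by
    rcases hRr.2 with h | h
    · exact ⟨⊥, bot_le, CF.Loc.isElemAb_bot, by simp [h]⟩
    · rw [CF.Invol.prankLE_subgroup_iff] at h
      push Not at h
      obtain ⟨A, h1, h2, h3⟩ := h
      refine ⟨A, h1, h2, ?_⟩
      have := CF.Invol.pow_succ_le_card (CF.Loc.isElemAb_isPGroup h2) h3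
      exact le_trans (Nat.pow_le_pow_right (by norm_num) (by omega)) this
  have key : ∀ a ∈ (S : Subgroup G), ∀ b ∈ (S : Subgroup G), a ^ 2 = 1 → b ^ 2 = 1 → a ∉ R →
      b ∉ R → a * b ∈ R := by
    intro a ha b hb ha2 hb2 haR hbR
    by_contra hab
    have hAS : A ≤ S := hAR.trans hRS
    have hA1S : A ⊔ Subgroup.zpowers a ≤ S := sup_le hAS (Subgroup.zpowers_le.mpr ha)
    have h1 : IsElementaryAbelian 2 (A ⊔ Subgroup.zpowers a) :=
      CF.Loc.isElemAb_sup hA (CF.Invol.isElemAb_zpowers ha2)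
        (hAS.trans (hSC.trans (Subgroup.centralizer_le (Subgroup.zpowers_le.mpr ha))))
    have h2 : IsElementaryAbelian 2 (A ⊔ Subgroup.zpowers a ⊔ Subgroup.zpowers b) :=
      CF.Loc.isElemAb_sup h1 (CF.Invol.isElemAb_zpowers hb2)
        (hA1S.trans (hSC.trans (Subgroup.centralizer_le (Subgroup.zpowers_le.mpr hb))))
    have h3 : A < A ⊔ Subgroup.zpowers a :=
      left_lt_sup.mpr fun h => haR (hAR (h (Subgroup.mem_zpowers a)))
    have h4 : A ⊔ Subgroup.zpowers a < A ⊔ Subgroup.zpowers a ⊔ Subgroup.zpowers b := by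
      refine left_lt_sup.mpr fun h => ?_
      have h5 := h (Subgroup.mem_zpowers b)
      rw [CF.Solv.mem_sup_of_le_normalizer ((hAS.trans (hSC.trans (Subgroup.centralizer_le
        (Subgroup.zpowers_le.mpr ha)))).trans (Subgroup.centralizer_le_normalizer _))] at h5
      obtain ⟨x, hx, _, ⟨k, rfl⟩, rfl⟩ := h5
      have ha2' : a ^ (2 : ℤ) = 1 := by exact_mod_cast ha2
      obtain ⟨m, rfl | rfl⟩ := Int.even_or_odd' k
      · apply hbR
        simpa [zpow_mul, ha2'] using hAR hx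
      · apply hab
        simp only [zpow_add, zpow_mul, ha2', one_zpow, one_mul, zpow_one]
        rw [← hcomm a ha x (hAS hx), ← mul_assoc, ← sq, ha2, one_mul]
        exact hAR hx
    have h5 := CF.Invol.mul_card_le_of_lt (CF.Loc.isElemAb_isPGroup h1) h3
    have h6 := CF.Invol.mul_card_le_of_lt (CF.Loc.isElemAb_isPGroup h2) h4
    have h7 := CF.Invol.prankLE_subgroup_iff.mp hSr.1 _
      (sup_le hA1S (Subgroup.zpowers_le.mpr hb)) h2
    obtain ⟨r, rfl⟩ := Nat.exists_eq_add_of_le' hr1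
    simp only [add_tsub_cancel_right, pow_succ] at h7 hAc
    have : 0 < 2 ^ r := by positivity
    omega
  have ht2 : t ^ 2 = 1 := ht ▸ pow_orderOf_eq_one t
  refine CF.Invol.not_mem_commutator_of_control (p := 2) (H := S) (K := R) ?_ ?_ ?_ htS
    (by simpa using hconj 1 (by rw [one_mul, inv_one, mul_one]; exact htS)) ⟨1, by simpa using ht⟩ ?_
    (CF.Invol.mem_commutator_of_no_index_two hG ⟨1, by simpa using ht⟩)
  · infer_instance
  · intro x hx y hy
    rw [hcomm x hx y hy]; simp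
  · exact (Nat.Prime.coprime_iff_not_dvd Nat.prime_two).mpr S.not_dvd_index
  · intro m a ha
    obtain ⟨m, rfl | rfl⟩ := Nat.even_or_odd' m
    · simp [pow_mul, ht2]
    · simp only [pow_succ, pow_mul, ht2, one_pow, one_mul] at ha ⊢
      refine key _ ha _ (inv_mem htS) (by rw [conj_pow, ht2]; simp) (by rw [inv_pow, ht2]; simp)
        (hconj a ha) ?_
      rw [inv_mem_iff]
      simpa using hconj 1 (by rw [one_mul, inv_one, mul_one]; exact htS)

end Cfsg.Agent.S1244
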