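import Cfsg.Statements.S1246
import Cfsg.Agent.Sig.Bal

set_option autoImplicit false
open Cfsg

namespace Cfsg.Agent.S1246

/-- Let V ≤ U be p-subgroups of the finite group G. If the generalized Fitting subgroup of C_G(V) is a p-group, then so is that of C_G(U). -/
theorem result {G : Type*} [Group G] [Finite G] {p : ℕ} [Fact p.Prime] (U V : Subgroup G) (hVU : V ≤ U) (hU : IsPGroup p U) (hV : IsPGroup p ↥(Cfsg.generalizedFittingSubgroup ↥(Subgroup.centralizer (V : Set G)))) : IsPGroup p ↥(Cfsg.generalizedFittingSubgroup ↥(Subgroup.centralizer (U : Set G))) := by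
  open CF.BG CF.Sig Subgroup in
  have hp : p.Prime := Fact.out
  have E : ∀ X : Subgroup G, IsPGroup p (generalizedFittingSubgroup (𝐂 X)) ↔ CharP p (𝐂 X) :=
    fun X => by rw [charP_iff_fstar hp, fstar_eq_pCore_iff_isPGroup]
  rw [E] at hV ⊢
  have k := piGrp_of_isPGroup hp hU
  induction V using WellFoundedGT.induction with | ind V ih => ?_
  rcases hVU.eq_or_lt with rfl | lt
  · exact hV
  · refine ih _ (k.nil.lt_inf_norm lt) inf_le_left ?_
    have := (CharP.norm_of_cent (H := ⊤) (by rwa [top_inf_eq]) le_top (k.le hVU)).cent hp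
      (P := U ⊓ 𝐍 V) (by rw [top_inf_eq]; exact inf_le_right) k.inf_left
    rwa [top_inf_eq, inf_eq_right.2 ((cent_anti (k.nil.lt_inf_norm lt).le).trans
      (cent_le_norm V))] at this

end Cfsg.Agent.S1246
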