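import Cfsg.Statements.S1247
import Cfsg.Agent.Sig.BMax

set_option autoImplicit false
open Cfsg

namespace Cfsg.Agent.S1247

/-- Let G be a non-abelian finite simple group, A a maximal subgroup, F = F*(A) its generalized Fitting subgroup (viewed in G), and S ≤ F a subgroup subnormal in F with C_F(S) ≤ S. Let B be any subgroup of G containing S. Then (a) for every prime q not dividing |F(A)|, O_q(B) ∩ A = 1; and (b) for every prime p dividing |F(A)|, O_p(B) commutes elementwise with the subgroup of F generated by its elements of order prime to p. -/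
theorem result {G : Type*} [Group G] [Finite G] [IsSimpleGroup G] (hna : ¬ IsMulCommutative G) (A : Subgroup G) (hA : IsCoatom A) (S : Subgroup G) (hSF : S ≤ (Cfsg.generalizedFittingSubgroup ↥A).map A.subtype) (hSsn : (S.subgroupOf ((Cfsg.generalizedFittingSubgroup ↥A).map A.subtype)).IsSubnormal) (hSC : (Cfsg.generalizedFittingSubgroup ↥A).map A.subtype ⊓ Subgroup.centralizer (S : Set G) ≤ S) (B : Subgroup G) (hSB : S ≤ B) : (∀ q : ℕ, q.Prime → ¬ q ∣ Nat.card (Cfsg.fittingSubgroup ↥A) → (Cfsg.pCore q ↥B).map B.subtype ⊓ A = ⊥) ∧ (∀ p : ℕ, p.Prime → p ∣ Nat.card (Cfsg.fittingSubgroup ↥A) → ∀ x ∈ (Cfsg.pCore p ↥B).map B.subtype, ∀ y ∈ (Cfsg.pResidual p ↥(Cfsg.generalizedFittingSubgroup ↥A)).map ((Cfsg.generalizedFittingSubgroup ↥A).subtype) , x * (A.subtype y) = (A.subtype y) * x) := by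
  open CF.BG CF.Sig Subgroup in
  have sn : SubN S A := (subN_of_isSubnormal hSF hSsn).trans (Fst_normal A).subN
  have hSF : S ≤ Fst A := hSF
  have hSC : Fst A ⊓ 𝐂 S ≤ S := hSC
  have lay : Lay A ≤ S := Lay_le_iff.2 fun L hL => (hL.le_or_cent_subN sn).elim id fun c =>
    (le_inf (hL.le_Lay.trans (Lay_le_Fst A)) c).trans hSC
  have ar : Arr A B (S ⊓ 𝐅 A) := by
    refine ⟨inf_le_right, le_inf (le_trans (le_inf (inf_le_left.trans (F_le_Fst A)) ?_) hSC)
      inf_le_left, inf_le_left.trans hSB, lay.trans hSB⟩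
    intro x hx s hs
    have h1 := hSF hs
    rw [Fst_eq, ← SetLike.mem_coe, coe_mul_of_left_le_normalizer_right _ _
      ((Lay_le A).trans (F_normal A).norm)] at h1
    obtain ⟨l, hl, f, hf, rfl⟩ := h1
    have c1 : f * x = x * f := hx.2 f ⟨by simpa using S.mul_mem (S.inv_mem (lay hl)) hs, hf⟩
    have c2 : x * l = l * x := Lay_cent_F A hl x hx.1
    rw [mul_assoc, c1, ← mul_assoc, ← c2, mul_assoc]
  have cF : ♯(𝐅 A) = Nat.card (fittingSubgroup A) := card_map_of_injective A.subtype_injective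
  have m := prim_of_coatom hA
  refine ⟨fun q hq nd => ?_, fun p hp d x hx y hy => ?_⟩
  · rw [map_pCore hq]
    refine ar.inf_eq_bot (by_contra fun ne => nd ?_)
    exact cF ▸ ((O_pi _ _).dvd_card ne).trans (card_dvd_of_le (O_le_F q A))
  · rw [map_pCore hp] at hx
    have h1 : 𝐎 {p} A ≠ ⊥ := (syl_O_F p A).syl_ne_bot hp (cF ▸ d)
    have c : 𝐎 {p}ᶜ (𝐅 A) ≤ 𝐂 (𝐎 {p} B) := by
      refine ((F_nil A).mono (O_le _ _)).le_of_forall fun r _ dr => ?_
      have ne : r ≠ p := fun e => O_pi {p}ᶜ (𝐅 A) r ‹_› dr e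
      refine (le_O_of_le_F ((O_le _ _).trans (O_le _ _)) (O_pi _ _)).trans ?_
      by_cases h0 : 𝐎 {r} A = ⊥
      · exact h0.le.trans bot_le
      have l := (ar.O_le_of_two m ne h0 h1).trans (O_normal {r} A).norm
      have k' := (O_pi {p} B).of_single_ne ne.symm
      have c : 𝐎 {r} (S ⊓ 𝐅 A) ≤ 𝐂 (𝐎 {p} B) := comm_eq_bot.1 (eq_bot_mono
        ((O_pi {r} A).inf_eq_bot k') (le_inf ((commutator_mono (ar.O_le r) le_rfl).trans
          (comm_le_left l)) (comm_le_right (((O_le _ _).trans ar.leN).trans (O_normal _ _).norm))))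
      exact cent_symm ((O_pi _ _).nil.cent_of_cent_cent l (k'.coprime' (O_pi _ _)) (ar.O_le r) c
        ((ar.cent_O r).trans c))
    have n : Lay A ⊔ 𝐎 {p}ᶜ (𝐅 A) ⊴ A := (Lay_normal A).sup ((F_normal A).O _)
    have e : Fst A = (Lay A ⊔ 𝐎 {p}ᶜ (𝐅 A)) ⊔ 𝐎 {p} A := by
      rw [Fst_eq, sup_assoc, sup_comm _ (𝐎 {p} A), ← O_F, (F_dprod {p} A).sup]
    have : (pResidual p (generalizedFittingSubgroup A)).map
        (A.subtype.comp (generalizedFittingSubgroup A).subtype) ≤ 𝐂 (𝐎 {p} B) := by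
      rw [pResidual, MonoidHom.map_closure, closure_le]
      rintro _ ⟨g, hg, rfl⟩
      refine sup_le (ar.Lay_cent m h1) c (PiElt.mem_of_relIndex (π := {p}ᶜ) (L := Fst A)
        (PiElt.map ?_ _) ⟨g, g.2, rfl⟩ ((Fst_le A).trans n.norm) ?_)
      · intro r hr dr e
        exact not_dvd_of_coprime hg hr dr (e ▸ dvd_rfl)
      · rw [e, relIndex_sup_norm' (Or.inl ((O_le _ _).trans n.norm))]
        exact ((O_pi _ _).relIndex _).compl_compl
    obtain ⟨y, hy, rfl⟩ := hy
    exact this ⟨y, hy, rfl⟩ x hx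

end Cfsg.Agent.S1247
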