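import Cfsg.Statements.S1253
import Cfsg.Agent.Invol.ZStarApp

set_option autoImplicit false
open Cfsg

namespace Cfsg.Agent.S1253

/-- Let z be an isolated involution of the finite group G with centralizer C, p an odd prime and P a Sylow p-subgroup of G normalized by z. Then P ∩ C has p-power-free index in C (it is a Sylow p-subgroup of C), and |P : C_P(z)| equals the number of elements x ∈ P with z x z⁻¹ = x⁻¹. -/
theorem result {G : Type*} [Group G] [Finite G] (z : G) (hz : Cfsg.IsIsolatedInvolution z) {p : ℕ} [Fact p.Prime] (hp : p ≠ 2) (P : Sylow p G) (hzP : z ∈ Subgroup.normalizer ((P : Subgroup G) : Set G)) : ¬ p ∣ ((P : Subgroup G) ⊓ Subgroup.centralizer ({z} : Set G)).relIndex (Subgroup.centralizer ({z} : Set G)) ∧ ((P : Subgroup G) ⊓ Subgroup.centralizer ({z} : Set G)).relIndex (P : Subgroup G) = Nat.card {x : G // x ∈ P ∧ z * x * z⁻¹ = x⁻¹} := by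
  open CF.Invol CF.Transfer in
  have h1 := isolated_isSylowIn_inf hz hp (isSylowIn_top P) hzP
  refine ⟨h1.not_dvd, ?_⟩
  obtain ⟨k, hk⟩ := IsPGroup.iff_card.1 P.isPGroup'
  have h2 := CF.Suz.card_eq_cent_mul_inv (mul_self_of_orderOf hz.1) (X := P)
    (hk ▸ ((Fact.out : p.Prime).odd_of_ne_two hp).pow)
    (fun x hx => conj_mem_of_mem_normalizer hzP hx)
  rw [← card_mul_relIndex (inf_le_left : (P : Subgroup G) ⊓ Subgroup.centralizer {z} ≤ P)] at h2
  exact Nat.eq_of_mul_eq_mul_left (card_pos' _) h2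

end Cfsg.Agent.S1253
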