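import Cfsg.Statements.S1254
import Cfsg.Agent.Invol.DihSylow

set_option autoImplicit false
open Cfsg

namespace Cfsg.Agent.S1254

/-- Let X be a finite group whose Sylow 2-subgroup S is dihedral (of order at least 4). Then X has a normal 2-complement if and only if, for every Klein four-subgroup U ≤ S, the normalizer N_X(U) is generated by C_X(U) and N_S(U). -/
theorem result {X : Type*} [Group X] [Finite X] (S : Sylow 2 X) (m : ℕ) (hm : 2 ≤ m) (eS : (S : Subgroup X) ≃* DihedralGroup m) : Cfsg.HasNormalPComplement 2 X ↔ ∀ U : Subgroup X, U ≤ S → IsKleinFour U → Subgroup.normalizer (U : Set X) = Subgroup.centralizer (U : Set X) ⊔ ((S : Subgroup X) ⊓ Subgroup.normalizer (U : Set X)) := by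
  open CF.Invol CF.Transfer in
  haveI : Fact (Nat.Prime 2) := ⟨Nat.prime_two⟩
  obtain ⟨n, a, b, -, h⟩ := exists_dh S.isPGroup' hm eS
  have hS := isSylowIn_top S
  constructor
  · intro hN U hU _
    refine le_antisymm (fun g hg => ?_)
      (sup_le (Subgroup.centralizer_le_normalizer _) inf_le_right)
    obtain ⟨s, hs, h1⟩ := HasNPC.exists_conj_eq (hasNPC_top_iff.2 hN) hS (Subgroup.mem_top g⁻¹)
    have h2 : ∀ x ∈ U, s * x * s⁻¹ = g⁻¹ * x * g⁻¹⁻¹ := fun x hx =>
      h1 x (hU hx) (hU (conj_mem_of_mem_normalizer (inv_mem hg) hx))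
    have h3 : g * s ∈ Subgroup.centralizer (U : Set X) := Subgroup.mem_centralizer_iff.2 fun x hx => by
      calc x * (g * s) = g * (g⁻¹ * x * g⁻¹⁻¹) * s := by group
        _ = _ := by rw [← h2 x hx]; group
    rw [← mul_inv_cancel_right g s]
    refine mul_mem (Subgroup.mem_sup_left h3) (Subgroup.mem_sup_right (inv_mem ⟨hs, ?_⟩))
    simpa using mul_mem (inv_mem hg) (Subgroup.centralizer_le_normalizer _ h3)
  · intro hU
    refine hasNPC_top_iff.1 (hS.hasNPC_of_extremal fun U hUe _ g _ hg ho => ?_)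
    by_contra hc
    have hodd := Nat.coprime_two_right.1 ho
    obtain ⟨l, hl⟩ := h.odd_cases' hUe.1 hg hodd hc
    rw [hU U hUe.1 (hl ▸ h.klein l)] at hg
    exact hc (mem_of_odd_of_mem_sup (S.isPGroup'.to_le inf_le_left)
      (inf_le_right.trans (normalizer_le_normalizer_centralizer U)) hg hodd)

end Cfsg.Agent.S1254
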