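import Cfsg.Statements.S1255
import Cfsg.Agent.Invol.DihSylow

set_option autoImplicit false
open Cfsg

namespace Cfsg.Agent.S1255

/-- Let X be a finite group whose Sylow 2-subgroup S is dihedral of order 2m ≥ 4. Then X has no subgroup of index 2 and no isolated involution if and only if either all involutions of X are conjugate, or for every Klein four-subgroup U ≤ S the index |N_X(U) : C_X(U)| equals 3 when |S| = 4 and equals 6 when |S| > 4. -/
theorem result {X : Type*} [Group X] [Finite X] (S : Sylow 2 X) (m : ℕ) (hm : 2 ≤ m) (eS : (S : Subgroup X) ≃* DihedralGroup m) : ((∀ H : Subgroup X, H.index ≠ 2) ∧ (∀ z : X, ¬ Cfsg.IsIsolatedInvolution z)) ↔ ((∀ a b : X, orderOf a = 2 → orderOf b = 2 → IsConj a b) ∨ (∀ U : Subgroup X, U ≤ S → IsKleinFour U → (Subgroup.centralizer (U : Set X)).relIndex (Subgroup.normalizer (U : Set X)) = (if Nat.card S = 4 then 3 else 6))) := by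
  open CF.Invol CF.Transfer in
  haveI : Fact (Nat.Prime 2) := ⟨Nat.prime_two⟩
  obtain ⟨n, a, b, -, h⟩ := exists_dh S.isPGroup' hm eS
  have hS := isSylowIn_top S
  refine ⟨fun hh => Or.inl fun s t => h.isConj_of_no_index_two hS hh.1, fun hh => ?_⟩
  have hc : ∀ s t : X, orderOf s = 2 → orderOf t = 2 → IsConj s t := by
    refine hh.elim id fun h1 s t => h.isConj_of_three_dvd hS fun l => ?_
    rw [h1 _ (h.sup_le_S _ _) (h.klein l)]
    split_ifs <;> norm_num
  refine ⟨h.no_index_two_of_isConj hS hc, fun z hz => ?_⟩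
  exact h.b_ne_a _ _ (isolated_eq_of_commute (isolated_of_isConj hz (hc _ _ hz.1 h.orderOf_zh))
    (hc _ _ h.orderOf_zh (h.orderOf_b 0)) (h.commute_zh (h.b_mem 0)).symm)

end Cfsg.Agent.S1255
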