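import Cfsg.Statements.S1267
import Cfsg.Agent.Sig.Bal

set_option autoImplicit false
open Cfsg

namespace Cfsg.Agent.S1267

/-- Let G be finite and P ≤ O_p(G). Then E(N_G(P)) = E(G). -/
theorem result {G : Type*} [Group G] [Finite G] (p : ℕ) [Fact p.Prime] (P : Subgroup G) (hP : P ≤ Cfsg.pCore p G) : (Cfsg.layer ↥(Subgroup.normalizer ((P : Subgroup G) : Set G))).map (Subgroup.normalizer ((P : Subgroup G) : Set G)).subtype = Cfsg.layer G := by
  have hp : p.Prime := Fact.out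
  rw [CF.BG.pCore_eq hp] at hP
  have k : CF.BG.PiGrp {p} P := (CF.BG.O_pi _ _).le hP
  have h1 := CF.Sig.OE_cent_O (H := ⊤) hp le_top k
  rw [top_inf_eq] at h1
  rw [← CF.Sig.Lay_top (G := G)]
  refine le_antisymm (CF.Sig.Lay_le_iff.2 fun K c => CF.Sig.Comp.le_Lay ?_) ?_
  · have h2 := (c.le_Lay.trans (CF.Sig.Lay_le_PLay_sup hp _)).trans h1
    refine (c.of_le h2 ((CF.BG.cent_anti hP).trans (CF.BG.cent_le_norm P))).trans ?_
    exact CF.BG.NormalIn.subN ⟨le_top, CF.BG.norm_cent (CF.BG.O_normal _ _).norm⟩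
  · exact CF.Sig.Lay_le_of_le le_top (((CF.Sig.Lay_cent_O p _).trans (CF.BG.cent_anti hP)).trans
      (CF.BG.cent_le_norm P))

end Cfsg.Agent.S1267
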