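import Cfsg.Statements.S1271
import Cfsg.Agent.Sig.Bal

set_option autoImplicit false
open Cfsg

namespace Cfsg.Agent.S1271

/-- Let G be finite with O_{p'}(G) = 1. Suppose that for every component L of G and every subgroup H ≥ L in which L is normal, the quotient H / C_H(L) is balanced for the prime p. Then G is balanced for p. -/
theorem result {G : Type*} [Group G] [Finite G] (p : ℕ) [Fact p.Prime] (hO : Cfsg.pPrimeCore p G = ⊥) (h : ∀ L : Subgroup G, Cfsg.IsComponent L → ∀ H : Subgroup G, L ≤ H → (L.subgroupOf H).Normal → ∀ [((Subgroup.centralizer (L : Set G)).subgroupOf H).Normal], Cfsg.IsBalancedFor p (↥H ⧸ (Subgroup.centralizer (L : Set G)).subgroupOf H)) : Cfsg.IsBalancedFor p G := by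
  have hp : p.Prime := Fact.out
  intro x hx
  have xp : x ^ p = 1 := hx ▸ pow_orderOf_eq_one x
  rw [hO, le_bot_iff, CF.Sig.cPPC_eq hp]
  rw [CF.BG.pPrimeCore_eq hp] at hO
  have px : CF.BG.PiGrp {p} (Subgroup.zpowers x) := (CF.BG.piElt_of_pow_eq_one hp xp).zpowers
  refine CF.Sig.eq_bot_of_cent hO le_top (CF.BG.O_pi _ _) ?_ fun L l => ?_
  · have := CF.Sig.O_cent_cent_O (H := ⊤) hp le_top px
    rwa [top_inf_eq, CF.BG.cent_zpowers] at this
  by_cases h1 : ⁅L, Subgroup.zpowers x⁆ = L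
  swap
  · have := l.O_cent1_cent hp hO (Subgroup.mem_top x) xp h1
    rwa [top_inf_eq] at this
  have hn := l.O_cent_norm hp hO le_top px
  rw [top_inf_eq, CF.BG.cent_zpowers] at hn
  set B := ⊤ ⊓ Subgroup.centralizer {x} ⊓ Subgroup.normalizer (L : Set G)
  have xB : x ∈ B := ⟨⟨trivial, CF.BG.self_mem_cent1 x⟩, CF.Sig.mem_norm_of_comm_eq h1⟩
  have YB : Cfsg.piCoreOf {p}ᶜ (Subgroup.centralizer {x}) ≤ B :=
    le_inf (le_inf le_top (CF.BG.O_le _ _)) hn
  have hN : CF.BG.NormalIn L (L ⊔ B) := CF.BG.normalIn_sup_left inf_le_right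
  have : ((Subgroup.centralizer (L : Set G)).subgroupOf (L ⊔ B)).Normal :=
    Subgroup.normal_subgroupOf_of_le_normalizer (CF.BG.norm_cent hN.norm)
  have h2 := h L (CF.Sig.comp_top_iff.1 l) (L ⊔ B) le_sup_left hN.normal
  have h3 := l.local_bal hp hO xB xp le_rfl YB (by rw [top_inf_eq]) _
    (QuotientGroup.mk'_surjective _) (QuotientGroup.ker_mk' _)
  refine CF.Sig.qs_cent_of_map_le l.qs hp (l.dvd_card hp hO) hN (YB.trans le_sup_right) _
    (QuotientGroup.mk'_surjective _) (QuotientGroup.ker_mk' _) (h3.trans ?_)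
  rw [← CF.Sig.cPPC_eq hp, ← CF.BG.pPrimeCore_eq hp]
  refine h2 _ (CF.BG.orderOf_eq_of_pow hp ?_ ?_)
  · rw [← map_pow]
    exact (congrArg _ (Subtype.ext xp)).trans (map_one _)
  · rw [QuotientGroup.mk'_apply, Ne, QuotientGroup.eq_one_iff]
    exact CF.Sig.not_mem_cent_of_comm_eq h1 l.ne_bot

end Cfsg.Agent.S1271
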