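import Cfsg.Statements.S1278
import Cfsg.Agent.Sig.PComp

set_option autoImplicit false
open Cfsg

namespace Cfsg.Agent.S1278

/-- Let K ≠ L be 2-components of the finite group X. Then ⁅K, L⁆ ≤ O(K) ⊓ O(L), and if K is quasisimple then ⁅K, L⁆ = 1. -/
theorem result {X : Type*} [Group X] [Finite X] (K L : Subgroup X) (hK : Cfsg.IsPComponent 2 K) (hL : Cfsg.IsPComponent 2 L) (hne : K ≠ L) : ⁅K, L⁆ ≤ ((Cfsg.oddCore ↥K).map K.subtype) ⊓ ((Cfsg.oddCore ↥L).map L.subtype) ∧ (Cfsg.IsQuasisimple ↥K → ⁅K, L⁆ = ⊥) := by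
  constructor
  · rw [CF.Solv.map_pPrimeCore_of_isSubnormal hK.1, CF.Solv.map_pPrimeCore_of_isSubnormal hL.1]
    have := CF.Sig.pcomp_commutator_le_of_ne hK hL hne
    exact le_inf (le_inf (this.trans inf_le_right) (this.trans (inf_le_left.trans inf_le_left)))
      (le_inf (this.trans inf_le_right) (this.trans (inf_le_left.trans inf_le_right)))
  · intro h
    rcases CF.Sig.comp_le_or_commutator_eq_bot ⟨hK.1, h⟩ hL.1 with h1 | h1
    · exact absurd (CF.Sig.pcomp_eq_of_le hK hL h1) hne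
    · exact h1

end Cfsg.Agent.S1278
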