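import Cfsg.Statements.S1281
import Cfsg.Agent.Sig.Fun

set_option autoImplicit false
open Cfsg

namespace Cfsg.Agent.S1281

open CF.BG CF.Sig Subgroup in

/-- Let θ be a solvable A-signalizer functor on the finite group G (A a noncyclic elementary abelian p-subgroup) and N a normal subgroup of order prime to p. Then for all non-identity a, b ∈ A, the image of θ a in G / N meets the centralizer of the image of b inside the image of θ b. -/
theorem result {G : Type*} [Group G] [Finite G] (p : ℕ) [Fact p.Prime] (A : Subgroup G) (hA : Cfsg.IsElementaryAbelian p A) (hA2 : p ^ 2 ≤ Nat.card ↥A) (θ : G → Subgroup G) (hθ : Cfsg.IsSolvableSignalizerFunctor p A θ) (N : Subgroup G) [N.Normal] (hN : ¬ p ∣ Nat.card ↥N) (a b : G) (ha : a ∈ A) (ha1 : a ≠ 1) (hb : b ∈ A) (hb1 : b ≠ 1) : (θ a).map (QuotientGroup.mk' N) ⊓ Subgroup.centralizer {QuotientGroup.mk' N b} ≤ (θ b).map (QuotientGroup.mk' N) := by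
  have hp : p.Prime := Fact.out
  have s := sf_of hp hA hA2 hθ
  have k : PiGrp {p}ᶜ (QuotientGroup.mk' N).ker := by
    rw [QuotientGroup.ker_mk']; exact (piNat_compl_single hp).2 hN
  have nN : ∀ X : Subgroup G, X ≤ 𝐍 (QuotientGroup.mk' N).ker := fun X =>
    le_top.trans (normalIn_top.2 inferInstance).norm
  rw [← map_cent1_of_ker (QuotientGroup.mk'_surjective N) k (s.elt hb)]
  rintro _ ⟨⟨x, hx, rfl⟩, y, hy, e⟩
  have h1 : y ∈ (θ a ⊔ (QuotientGroup.mk' N).ker) ⊓ 𝐂₁ b := by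
    refine ⟨?_, hy⟩
    have : y = x * (x⁻¹ * y) := by group
    rw [this]
    exact mul_mem (mem_sup_left hx) (mem_sup_right (by
      rw [MonoidHom.mem_ker, map_mul, map_inv, e, inv_mul_cancel]))
  rw [sup_inf_cent1 (s.elt hb) (s.norm a ha ha1 hb) (nN ⊤ trivial) (.inl (nN _)) k.inf_right,
    mem_sup_norm (K := _ ⊓ 𝐂₁ b) (inf_le_right.trans (norm_inf (nN _) (le_norm_self _)))] at h1
  obtain ⟨u, hu, v, hv, rfl⟩ := h1
  exact ⟨u, s.bal a ha ha1 b hb hb1 hu, by rw [← e, map_mul, MonoidHom.mem_ker.1 hv.1, mul_one]⟩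

end Cfsg.Agent.S1281
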