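import Cfsg.Statements.S1286
import Cfsg.Agent.Sig.Fun

set_option autoImplicit false
open Cfsg

namespace Cfsg.Agent.S1286

abbrev X := Equiv.Perm (Fin 5)
def a : X := Equiv.swap 0 1
def b : X := Equiv.swap 2 3
def u : X := Equiv.swap 2 3 * Equiv.swap 3 4
def v : X := Equiv.swap 0 1 * Equiv.swap 1 4

def A : Subgroup X where
  carrier := {x | x = 1 ∨ x = a ∨ x = b ∨ x = a * b}
  one_mem' := Or.inl rfl
  mul_mem' := by
    rintro x y (rfl | rfl | rfl | rfl) (rfl | rfl | rfl | rfl) <;>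
      simp only [Set.mem_ofPred_eq] <;> decide
  inv_mem' := by
    rintro x (rfl | rfl | rfl | rfl) <;> simp only [Set.mem_ofPred_eq] <;> decide

theorem mem_z {w x : X} (h : w ^ 3 = 1) (hx : x ∈ Subgroup.zpowers w) :
    x = 1 ∨ x = w ∨ x = w * w := by
  obtain ⟨n, rfl⟩ := (mem_powers_iff_mem_zpowers.2 hx)
  show w ^ n = 1 ∨ w ^ n = w ∨ w ^ n = w * w
  rw [pow_eq_pow_mod n h]
  have := Nat.mod_lt n (by norm_num : 3 > 0)
  interval_cases n % 3 <;> simp [pow_two]

theorem card_z {w : X} (h : w ^ 3 = 1) : ¬ 2 ∣ Nat.card (Subgroup.zpowers w) := by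
  rw [Nat.card_zpowers]
  intro h2
  have := h2.trans (orderOf_dvd_of_pow_eq_one h)
  omega

def w (x : X) : X := if x = a then u else if x = b then v else 1

theorem w3 : ∀ x ∈ A, w x ^ 3 = 1 := by
  rintro x (rfl | rfl | rfl | rfl) <;> decide

/-- There exist a finite group X, an elementary abelian subgroup A of order 4 and a solvable A-signalizer functor θ on X for the prime 2 which is not complete. -/
theorem result : ∃ (X : Type) (_ : Group X) (_ : Finite X) (A : Subgroup X) (θ : X → Subgroup X), Cfsg.IsElementaryAbelian 2 A ∧ Nat.card ↥A = 4 ∧ Cfsg.IsSolvableSignalizerFunctor 2 A θ ∧ ¬ Cfsg.IsCompleteSignalizerFunctor 2 A θ := by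
  have hA : Cfsg.IsElementaryAbelian 2 A := by
    refine ⟨⟨⟨?_⟩⟩, ?_⟩
    · rintro ⟨x, (rfl | rfl | rfl | rfl)⟩ ⟨y, (rfl | rfl | rfl | rfl)⟩ <;> apply Subtype.ext <;>
        simp only [Subgroup.coe_mul] <;> decide
    · rintro x (rfl | rfl | rfl | rfl) <;> decide
  refine ⟨X, inferInstance, inferInstance, A, fun x => Subgroup.zpowers (w x), hA, ?_,
    ⟨⟨?_, fun x hx _ => card_z (w3 x hx), ?_, ?_⟩, fun x _ _ => (CF.BG.abel_zpowers _).sol⟩, ?_⟩
  · have : (A : Set X) = ({1, a, b, a * b} : Finset X) := by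
      ext x; simp [A]
    rw [← SetLike.coe_sort_coe, this]
    simp only [Finset.coe_sort_coe, Nat.card_eq_fintype_card, Fintype.card_coe]
    decide
  · rintro x (rfl | rfl | rfl | rfl) _ <;> rw [Subgroup.zpowers_le, CF.BG.mem_cent1] <;> decide
  · intro x hx _ y hy z hz
    have : y * w x * y⁻¹ = w x ∨ y * w x * y⁻¹ = (w x)⁻¹ := by
      rcases hx with (rfl | rfl | rfl | rfl) <;> rcases hy with (rfl | rfl | rfl | rfl) <;> decide
    obtain ⟨n, rfl⟩ := hz
    show y * w x ^ n * y⁻¹ ∈ _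
    rw [← conj_zpow]
    rcases this with h | h <;> rw [h]
    · exact Subgroup.zpow_mem_zpowers _ _
    · exact zpow_mem (inv_mem (Subgroup.mem_zpowers _)) _
  · rintro x hx _ y hy h1 z ⟨hz, hc⟩
    have hc' := CF.BG.mem_cent1.1 hc
    have : z = 1 ∨ z = w y ∨ z = w y * w y := by
      have := mem_z (w3 x hx) hz
      revert hc' h1
      rcases hx with (rfl | rfl | rfl | rfl) <;> rcases hy with (rfl | rfl | rfl | rfl) <;>
        rcases this with (rfl | rfl | rfl) <;> decide
    rcases this with (rfl | rfl | rfl)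
    · exact one_mem _
    · exact Subgroup.mem_zpowers _
    · exact mul_mem (Subgroup.mem_zpowers _) (Subgroup.mem_zpowers _)
  · rintro ⟨-, Y, -, h2, h⟩
    have h1 : w a ∈ Y := ((h a (by simp [A]) (by decide)).ge (Subgroup.mem_zpowers _)).1
    have h3 : w b ∈ Y := ((h b (by simp [A]) (by decide)).ge (Subgroup.mem_zpowers _)).1
    have h4 : w a * w b * (w a)⁻¹ * w b ∈ Y := mul_mem (mul_mem (mul_mem h1 h3) (inv_mem h1)) h3
    have : orderOf (w a * w b * (w a)⁻¹ * w b) = 2 := orderOf_eq_prime (by decide) (by decide)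
    exact h2 (this ▸ CF.BG.orderOf_dvd_card' h4)

end Cfsg.Agent.S1286
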