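import Cfsg.Statements.S1288
import Cfsg.Agent.Sig.Fun

set_option autoImplicit false
open Cfsg

namespace Cfsg.Agent.S1288

open CF.BG CF.Sig Subgroup in

/-- Let A be a noncyclic elementary abelian p-subgroup of a finite group H normalizing a solvable subgroup K of order prime to p, q a prime dividing |K|, and U ≤ K a subgroup of order prime to q such that ⁅U, C_K(B)⁆ has order prime to q for every subgroup B of index p in A. Then U ≤ O_{q'}(K). -/
theorem result {H : Type*} [Group H] [Finite H] (p : ℕ) [Fact p.Prime] (A K : Subgroup H) (hA : Cfsg.IsElementaryAbelian p A) (hA2 : p ^ 2 ≤ Nat.card ↥A) (hK : ¬ p ∣ Nat.card ↥K) (hKs : Group.IsSolvable ↥K) (hAK : A ≤ Subgroup.normalizer (K : Set H)) (q : ℕ) [Fact q.Prime] (hqK : q ∣ Nat.card ↥K) (U : Subgroup H) (hU : U ≤ K) (hUq : ¬ q ∣ Nat.card ↥U) (hcomm : ∀ B : Subgroup H, B ≤ A → B.relIndex A = p → ¬ q ∣ Nat.card ↥⁅U, K ⊓ Subgroup.centralizer (B : Set H)⁆) : U ≤ (Cfsg.pPrimeCore q ↥K).map K.subtype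 := by
  have hp : p.Prime := Fact.out
  have hq : q.Prime := Fact.out
  have ab := Abelem.of_isEA hp hA
  have := logn_ge hp ab.pi hA2
  obtain ⟨m, hm⟩ : ∃ m, logn p (♯A) = m + 1 := ⟨logn p (♯A) - 1, by omega⟩
  have e : Elem p (m + 1) A A := ⟨le_rfl, ab, hm⟩
  rw [map_pPrimeCore hq]
  exact le_O_of_hyp e hAK ((piNat_compl_single hp).2 hK) hKs hU ((piNat_compl_single hq).2 hUq)
    fun B hB => (piNat_compl_single hq).2 (hcomm B hB.le ((e.relIndex hB).trans (pow_one p)))

end Cfsg.Agent.S1288
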