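import Cfsg.Statements.S1289
import Cfsg.Agent.Sig.PComp

set_option autoImplicit false
open Cfsg

namespace Cfsg.Agent.S1289

/-- A p-component K of the finite group X is subnormal, perfect, of order divisible by p, and minimal among the subnormal perfect subgroups of X of order divisible by p. -/
theorem result {X : Type*} [Group X] [Finite X] (p : ℕ) [Fact p.Prime] (K : Subgroup X) (hK : Cfsg.IsPComponent p K) : K.IsSubnormal ∧ ⁅K, K⁆ = K ∧ p ∣ Nat.card ↥K ∧ ∀ H : Subgroup X, H ≤ K → H.IsSubnormal → ⁅H, H⁆ = H → p ∣ Nat.card ↥H → H = K := by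
  refine ⟨hK.1, CF.Sig.pcomp_perfect hK, CF.Sig.pcomp_prime_dvd_card hK, fun H hle hH hp hd => ?_⟩
  rcases CF.Sig.eq_or_le_centralizer_of_le_comp hK.2.1 hH.quotient (Subgroup.map_mono hle) with h | h
  · exact hK.2.2 H hH hle h
  · exfalso
    have h1 : H.map (QuotientGroup.mk' (Cfsg.pPrimeCore p X)) = ⊥ :=
      CF.Sig.eq_bot_of_perfect_of_le_centralizer (by rw [← Subgroup.map_commutator, hp])
        (h.trans (Subgroup.centralizer_le (Subgroup.map_mono hle)))
    rw [CF.Solv.map_mk'_eq_bot_iff] at h1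
    exact CF.Solv.not_dvd_card_pPrimeCore (hd.trans (Subgroup.card_dvd_of_le h1))

end Cfsg.Agent.S1289
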