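import Cfsg.Statements.S1291
import Cfsg.Agent.PG.App

set_option autoImplicit false
open Cfsg

namespace Cfsg.Agent.S1291
open CF.BG Subgroup
open scoped commutatorElement Pointwise

/-- Let G be a balanced finite group with O(G) = 1 and 2-rank at least 3, such that the commuting graph of Klein four-subgroups of G, or of a Sylow 2-subgroup of G, is connected. Then O(C_G(t)) = 1 for every involution t. -/
theorem result {G : Type*} [Group G] [Finite G] (hbal : Cfsg.IsBalanced G) (hO : Cfsg.oddCore G = ⊥) (hrank : ¬ Cfsg.PRankLE 2 2 G) (hconn : Cfsg.IsFourConnected G ∨ ∃ S : Sylow 2 G, Cfsg.IsFourConnected ↥(S : Subgroup G)) (t : G) (ht : orderOf t = 2) : Cfsg.centralizerPPrimeCore 2 t = ⊥ := by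
  have hp := Nat.prime_two
  have b : ∀ x a : G, CF.Bender.Iv x → CF.Bender.Iv a → x * a = a * x → CF.Sig.Oc 2 x ⊓ 𝐂₁ a ≤ CF.Sig.Oc 2 a :=
    fun x a i j c => by
      have := hbal x a i.orderOf j.orderOf c
      rw [CF.Sig.cPPC_eq hp, CF.Sig.cPPC_eq hp] at this
      exact this.le.trans inf_le_left
  have h0 := CF.Sig.oddCore_eq.symm.trans hO
  have r : 2 < pRank 2 (⊤ : Subgroup G) := not_le.1 (mt (pRankLE_top_iff hp).2 hrank)
  rw [CF.Sig.cPPC_eq hp]
  rcases hconn with h | ⟨S, h⟩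
  · obtain ⟨S, hS⟩ := exists_syl 2 (⊤ : Subgroup G)
    exact CF.PG.kill_bal h0 hS (hS.syl_pRank.symm ▸ r) le_top (CF.Sig.fourConnected_iff.1 h) b (CF.Bender.iv_iff.2 ht)
  · have hS := syl_sylow_top S
    exact CF.PG.kill_bal h0 hS (hS.syl_pRank.symm ▸ r) le_rfl (CF.Sig.fourConnected_subgroup_iff.1 h) b
      (CF.Bender.iv_iff.2 ht)

end Cfsg.Agent.S1291
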