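import Cfsg.Statements.S1299
import Cfsg.Agent.Sig.KBal

set_option autoImplicit false
open Cfsg

namespace Cfsg.Agent.S1299

open CF.BG CF.Sig Subgroup in

/-- Let G be finite and k-balanced for the prime p (k ≥ 1), A an elementary abelian p-subgroup of order at least p^(k+2) such that O_{p'}(C_G(a)) is solvable for every non-identity a ∈ A. For a ∈ A put θ a = the subgroup generated by the Δ_G(D) ∩ C_G(a) over the subgroups D ≤ A of order p^k. Then θ is an A-signalizer functor. -/
theorem result {G : Type*} [Group G] [Finite G] (p k : ℕ) [Fact p.Prime] (hk : 1 ≤ k) (hbal : Cfsg.IsKBalanced p k G) (A : Subgroup G) (hA : Cfsg.IsElementaryAbelian p A) (hAk : p ^ (k + 2) ≤ Nat.card ↥A) (hsolv : ∀ a ∈ A, a ≠ 1 → Group.IsSolvable ↥(Cfsg.centralizerPPrimeCore p a)) : Cfsg.IsSignalizerFunctor p A (fun a => ⨆ D : {D : Subgroup G // D ≤ A ∧ Nat.card ↥D = p ^ k}, Cfsg.signalizerDelta p (D : Subgroup G) ⊓ Subgroup.centralizer {a}) := by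
  have hp : p.Prime := Fact.out
  have e := Abelem.of_isEA hp hA
  have := (sf_kY (k := k) e (fun D hD c a ha a1 => by
    have := hbal D (e.le hD).isEA c a (e.orderOf ha a1) fun b hb => e.abel.mul_comm (hD hb) ha
    rwa [delta_eq hp, cpc_eq hp] at this)
    (logn_ge hp e.pi hAk) fun a ha a1 => cpc_eq hp a ▸ hsolv a ha a1).isSF.1
  simpa only [kY, cent_zpowers, delta_eq hp] using this

end Cfsg.Agent.S1299
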