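import Cfsg.Statements.S1303
import Cfsg.Agent.Sig.Fun
import Cfsg.Agent.Classical.SL2
import Cfsg.Agent.Classical.SmallIso
import Cfsg.Agent.PLocal.Constraint
import Cfsg.Agent.Char.Integral

set_option autoImplicit false
open Cfsg

namespace Cfsg.Agent.S1303

abbrev S := Matrix.SpecialLinearGroup (Fin 2) (ZMod 3)
def i : S := ⟨!![0, 1; -1, 0], by decide⟩
def j : S := ⟨!![1, 1; 1, -1], by decide⟩
def j' : S := ⟨!![-1, -1; -1, 1], by decide⟩
def i' : S := ⟨!![0, -1; 1, 0], by decide⟩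

theorem key (x : S) : (x * i * x⁻¹ * i') ^ 4 = 1 ∧ (x * j * x⁻¹ * j') ^ 4 = 1 ∧
    (x * i * x⁻¹ * i' = 1 → x * j * x⁻¹ * j' = 1 → x ^ 2 = 1) := by
  revert x
  decide +kernel

open CF.BG CF.Sig Subgroup in

/-- The group X = SL(2, 3): it is 2-constrained, O_{2'}(X) = 1, its centre A = Z(X) contains every involution of X = C_X(A), and X has a subgroup of order 3 (normalized by A) not contained in O_{2'}(X). -/
theorem result : Cfsg.IsPConstrained 2 (Matrix.SpecialLinearGroup (Fin 2) (ZMod 3)) ∧ Cfsg.pPrimeCore 2 (Matrix.SpecialLinearGroup (Fin 2) (ZMod 3)) = ⊥ ∧ (∀ t : Matrix.SpecialLinearGroup (Fin 2) (ZMod 3), orderOf t = 2 → t ∈ Subgroup.center (Matrix.SpecialLinearGroup (Fin 2) (ZMod 3))) ∧ ∃ Q : Subgroup (Matrix.SpecialLinearGroup (Fin 2) (ZMod 3)), Nat.card ↥Q = 3 ∧ ¬ (Q ≤ Cfsg.pPrimeCore 2 (Matrix.SpecialLinearGroup (Fin 2) (ZMod 3))) := by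
  have hc : Nat.card S = 24 := by rw [CF.Classical.card_SL_two']; simp
  have : Group.IsSolvable S := CF.Char.burnside_paqb Nat.prime_two Nat.prime_three
    (a := 3) (b := 1) (by rw [hc]; norm_num)
  have h0 : Cfsg.pPrimeCore 2 S = ⊥ := by
    rw [pPrimeCore_eq Nat.prime_two]
    refine eq_bot_of_forall fun x hx => ?_
    have f : ∀ y ∈ 𝐎 {2}ᶜ (⊤ : Subgroup S), y ^ 4 = 1 → y = 1 := fun y hy e =>
      PiElt.eq_one (PiNat.dvd (piNat_pow_self Nat.prime_two 2) (orderOf_dvd_of_pow_eq_one e))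
        ((O_pi _ _).elt hy)
    have g : ∀ u v : S, u * v = 1 → x * u * x⁻¹ * v ∈ 𝐎 {2}ᶜ (⊤ : Subgroup S) := fun u v e => by
      rw [eq_inv_of_mul_eq_one_right e, mul_assoc, mul_assoc, ← mul_assoc u]
      exact mul_mem hx ((O_normal _ _).conj_mem trivial (inv_mem hx))
    obtain ⟨h1, h2, h3⟩ := key x
    refine f x hx ?_
    rw [show 4 = 2 * 2 from rfl, pow_mul, h3 (f _ (g _ _ (by decide)) h1) (f _ (g _ _ (by decide)) h2),
      one_pow]
  refine ⟨CF.PLocal.isPConstrained_of_isPSolvable (CF.Solv.isPSolvable_of_isSolvable 2), h0,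
    fun t ht => ?_, ?_⟩
  · rw [CF.Classical.mem_center_SL2_iff, ← CF.Classical.SL2_mul_self_eq_one_iff (by decide), ← pow_two,
      ← orderOf_dvd_iff_pow_eq_one, ht]
  · obtain ⟨Q, -, hQ⟩ := exists_card_eq_prime (H := (⊤ : Subgroup S)) Nat.prime_three
      (by rw [card_top', hc]; norm_num)
    refine ⟨Q, hQ, ?_⟩
    rw [h0, le_bot_iff, ← card_eq_one', hQ]
    norm_num

end Cfsg.Agent.S1303
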