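import Cfsg.Statements.S1305
import Cfsg.Agent.CT.Std

set_option autoImplicit false
open Cfsg

namespace Cfsg.Agent.S1305
open CF.BG Subgroup
open scoped commutatorElement Pointwise
open CF.Sig CF.CT

/-- Let G be a finite group of component type with the B-property and no nontrivial normal subgroup of odd order. Let a be an involution and K a component of C_G(a) such that (a) |K| is maximal among the orders of components of centralizers of involutions of G, (b) subject to (a) the 2-rank of the centralizer of K in C_G(a) is as large as possible, and (c) K has 2-rank at least 2. If B is an elementary abelian 2-subgroup of that centralizer of the largest possible order, then K is a component of C_G(b) for every non-identity b ∈ B. -/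
theorem result {G : Type*} [Group G] [Finite G] (hO : Cfsg.oddCore G = ⊥) (hB : Cfsg.HasBProperty G) (hct : Cfsg.IsComponentType G) (a : G) (ha : orderOf a = 2) (K : Subgroup G) (hKa : K ≤ Subgroup.centralizer ({a} : Set G)) (hK : Cfsg.IsComponent (K.subgroupOf (Subgroup.centralizer ({a} : Set G)))) (hmax : ∀ y : G, orderOf y = 2 → ∀ K' : Subgroup G, K' ≤ Subgroup.centralizer ({y} : Set G) → Cfsg.IsComponent (K'.subgroupOf (Subgroup.centralizer ({y} : Set G))) → Nat.card ↥K' ≤ Nat.card ↥K ∧ (Nat.card ↥K' = Nat.card ↥K → ∀ k : ℕ, Cfsg.PRankLE 2 k ↥(Subgroup.centralizer ({a} : Set G) ⊓ Subgroup.centralizer (K : Set G)) → Cfsg.PRankLE 2 k ↥(Subgroup.centralizer ({y} : Set G) ⊓ Subgroup.centralizer (K' : Set G)))) (hrk : ¬ Cfsg.PRankLE 2 1 ↥K) (B : Subgroup G) (hBle : B ≤ Subgroup.centralizer ({a} : Set G) ⊓ Subgroup.centralizer (K : Set G)) (hBel : Cfsg.IsElementaryAbelian 2 B) (hBmax : ∀ B' : Subgroup G, B' ≤ Subgroup.centralizer ({a} : Set G) ⊓ Subgroup.centralizer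 (K : Set G) → Cfsg.IsElementaryAbelian 2 B' → Nat.card ↥B' ≤ Nat.card ↥B) (b : G) (hb : b ∈ B) (hb1 : b ≠ 1) : K ≤ Subgroup.centralizer ({b} : Set G) ∧ Cfsg.IsComponent (K.subgroupOf (Subgroup.centralizer ({b} : Set G))) := by
  have h0 : 𝐎 {2}ᶜ (⊤ : Subgroup G) = ⊥ := by rw [← pPrimeCore_eq p2]; exact hO
  have c : Comp K (𝐂₁ a) := ⟨hKa, hK⟩
  have e := Abelem.of_isEA p2 hBel
  have o := e.orderOf hb hb1
  have Ba : B ≤ 𝐂₁ a := hBle.trans inf_le_left
  have BK : B ≤ 𝐂 K := hBle.trans inf_le_right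
  have Bb : B ≤ 𝐂₁ b := e.abel.trans (cent_le_cent1 hb)
  have aB : a ∈ B := by
    have := eq_of_card_le (le_sup_left (b := zpowers a)) (hBmax _ (sup_le hBle (zpowers_le.2
      ⟨self_mem_cent1 a, le_cent1_iff.1 hKa⟩)) (e.sup (abelem_zpowers p2 (sq_of ha))
        (by rwa [cent_zpowers])).isEA)
    rw [this]; exact mem_sup_right (mem_zpowers a)
  have k := PComp.lbal ha (Bb aB) ((Comp.pc2 c).of_le p2 (le_inf (le_cent1_iff.2 (BK hb)) hKa)
    inf_le_right)
  rw [bp_lay hB h0 o] at k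
  obtain ⟨D, hD, nc⟩ := exists_comp_nc (k.le.trans inf_le_left) c.not_sol
  obtain ⟨m1, m2⟩ := hmax b o D hD.1 hD.2
  have t2 : a ^ 2 ∈ 𝐂 D := by rw [sq_of ha]; exact one_mem _
  have BH := Bb.trans (le_norm_self _)
  rcases pump p2 (BH aB) t2 k hD nc with ⟨-, l⟩ | ⟨n, ν, g, rfl⟩
  · rw [eq_of_card_le l m1]; exact hD
  exfalso
  have inj := Dg.inj m1
  have e1 := e.elem hBle
  have r1 := (pRankLE_iff p2).1 (m2 (le_antisymm m1 (Dg.card_le ν)) (logn 2 (♯B))
    ((pRankLE_iff p2).2 (by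
      obtain ⟨A, k⟩ := exists_elem_pRank 2 (𝐂₁ a ⊓ 𝐂 ν.range)
      have := hBmax A k.le k.ab.isEA
      rwa [k.card, e1.card, Nat.pow_le_pow_iff_right one_lt_two] at this)))
  have h1 := hD.cj_of_norm (BH aB)
  have c1 := h1.cent_of_ne hD fun e => n (cj_eq_self.1 e)
  have l : ν.range ≤ D ⊔ cj a D := by
    rw [← orbJ_two (cent_le_norm D t2)]; exact g.le.trans inf_le_left
  have c2 : B ⊓ 𝐍 D ≤ 𝐂 D := g.cent_of_norm hD inf_le_right (inf_le_left.trans BK)
  have l2 : B ≤ (B ⊓ 𝐍 D) ⊔ zpowers a := fun y hy => by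
    have h2 := hD.cj_of_norm (BH hy)
    by_cases m : cj y D = D
    · exact mem_sup_left ⟨hy, cj_eq_self.1 m⟩
    have m' : cj y D = cj a D := by_contra fun m' => nc (by
      have := cent_symm ((le_cent_sup (h2.cent_of_ne hD m) (h2.cent_of_ne h1 m')).trans
        (cent_anti l))
      rwa [← cj_of_cent (BK hy), cj_cent_iff] at this)
    rw [← cj_cj_inv y (cj a D), cj_inj, cj_cj, eq_comm, cj_eq_self] at m'
    have := mul_mem (mem_sup_right (mem_zpowers a)) (mem_sup_left (T := zpowers a)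
      (inv_mem (mem_inf.2 ⟨mul_mem (inv_mem hy) aB, m'⟩)))
    simpa using this
  obtain ⟨V, hV⟩ : ∃ V, Elem 2 2 V (cj a D) := exists_elem (by
    rw [pRank_cj, pRank_congr 2 ⟨MonoidHom.ofInjective inj⟩]
    exact (not_pRankLE_iff p2).1 hrk)
  have e2 := (e.le (inf_le_left (b := 𝐍 D))).elem (le_inf (inf_le_left.trans Bb) c2)
  have c3 : B ⊓ 𝐍 D ≤ 𝐂 (cj a D) := by
    rw [← cj_of_cent (H := B ⊓ 𝐍 D) (cent_anti inf_le_left (e.abel aB)), cj_cent_iff]; exact c2
  have e3 := e2.sup (hV.of_le (le_inf (hV.le.trans h1.le) (hV.le.trans c1)))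
    (c3.trans (cent_anti hV.le)) (eq_bot_of_forall fun u hu => by
      have ua := mem_cent1.1 (Ba hu.1.1)
      have uD : u ∈ D := by
        have := mem_cj.1 (hV.le hu.2)
        rwa [mul_assoc, ua, inv_mul_cancel_left] at this
      have := g.pow (d := ⟨u, uD⟩) (Ba hu.1.1)
      rw [e.pow u hu.1.1] at this
      exact congrArg Subtype.val ((injective_iff_map_eq_one ν).1 inj _ this))
  have h3 := e3.le_pRank.trans r1
  have h4 := (card_dvd l2).trans (card_sup_dvd (.inl (norm_of_cent (by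
    rw [cent_zpowers]; exact inf_le_left.trans Ba))))
  rw [e1.card, e2.card, Nat.card_zpowers, ha, ← pow_succ, Nat.pow_dvd_pow_iff_le_right one_lt_two] at h4
  omega

end Cfsg.Agent.S1305
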