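import Cfsg.Statements.S1307
import Cfsg.Agent.CT.Std
import Cfsg.Agent.Bender.App
import Cfsg.Agent.Char.BSBig

set_option autoImplicit false
open Cfsg

namespace Cfsg.Agent.S1307
open CF.BG Subgroup
open scoped commutatorElement Pointwise
open CF.Sig CF.CT

/-- Let G be finite, x an involution and L ≤ C_G(x) a component of C_G(x) of even order and 2-rank 1, such that L is a component of C_G(y) for every involution y ∈ C_G(L). Then some involution of L is a classical involution of G. -/
theorem result {G : Type*} [Group G] [Finite G] (x : G) (hx : orderOf x = 2) (L : Subgroup G) (hLx : L ≤ Subgroup.centralizer ({x} : Set G)) (hL : Cfsg.IsComponent (L.subgroupOf (Subgroup.centralizer ({x} : Set G)))) (heven : Even (Nat.card ↥L)) (hrk : Cfsg.PRankLE 2 1 ↥L) (hne : ∀ y : G, orderOf y = 2 → y ∈ Subgroup.centralizer (L : Set G) → L ≤ Subgroup.centralizer ({y} : Set G) ∧ Cfsg.IsComponent (L.subgroupOf (Subgroup.centralizer ({y} : Set G)))) : ∃ t ∈ L, Cfsg.IsClassicalInvolution t := by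
  have c : Comp L (𝐂₁ x) := ⟨hLx, hL⟩
  obtain ⟨t, ht, o⟩ := exists_inv (Comp.not_odd c)
  have r : ¬ CF.Suz.Rank2 L := fun r => by
    obtain ⟨A, a, b, d⟩ := CF.Bender.pRank_of_rank2 r
    have := hrk A a b
    omega
  have z : 𝐎 {2}ᶜ L ≤ 𝐂 L := (c.eq_or (O_normal _ _)).resolve_left fun e =>
    Comp.not_odd c (e ▸ O_pi _ _)
  have tc : t ∈ 𝐂 L := zpowers_le.1 (cent_of_perfect c.perfect (le_trans ?_ z))
  · obtain ⟨a, b⟩ := hne t o tc
    refine ⟨t, ht, o, L, a, ht, b.1, ?_⟩
    obtain ⟨S⟩ : Nonempty (Sylow 2 L) := inferInstance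
    rcases CF.Bender.rank_one_syl r S with h | ⟨m, hm, e⟩
    · have := CF.Char.commutator_le_oddCore_of_isCyclic S h
      refine (Comp.not_odd c ?_).elim
      have h2 := map_mono (f := L.subtype) this
      rw [map_pPrimeCore p2, commutator_def, map_commutator, map_top_subtype, c.perfect] at h2
      exact (O_pi _ _).le h2
    · obtain ⟨n, rfl⟩ := Nat.exists_eq_add_of_le' hm
      exact ⟨S, n, e⟩
  · exact comm_zp_le ((O_normal _ _).norm ht) fun u hu =>
      CF.Bender.rank_one_comm (fun k => r k.rank2) (CF.Bender.iv_iff.2 o) ht hu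

end Cfsg.Agent.S1307
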