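import Cfsg.Statements.S1314
import Cfsg.Agent.Sig.Diag

set_option autoImplicit false
open Cfsg

namespace Cfsg.Agent.S1314

open CF.BG CF.Sig Subgroup in

/-- Let x be an involution of a group G and L a perfect subgroup with ⁅L, x L x⁻¹⁆ = 1. Then l ↦ l (x l x⁻¹) is a group homomorphism π from L to G whose kernel is central in L and whose image lies in C_G(x); and the commutator subgroup of C_{L ⊔ xLx⁻¹}(x) equals the image of π. -/
theorem result {G : Type*} [Group G] [Finite G] (x : G) (hx : orderOf x = 2) (L : Subgroup G) (hperf : ⁅L, L⁆ = L) (hcomm : ⁅L, L.map (MulAut.conj x).toMonoidHom⁆ = ⊥) : ∃ π : ↥L →* G, (∀ l : ↥L, π l = (l : G) * (x * (l : G) * x⁻¹)) ∧ π.ker ≤ Subgroup.center ↥L ∧ π.range ≤ Subgroup.centralizer ({x} : Set G) ∧ ⁅(L ⊔ L.map (MulAut.conj x).toMonoidHom) ⊓ Subgroup.centralizer ({x} : Set G), (L ⊔ L.map (MulAut.conj x).toMonoidHom) ⊓ Subgroup.centralizer ({x} : Set G)⁆ = π.range := by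
  have c : L ≤ 𝐂 (cj x L) := comm_eq_bot.1 hcomm
  have hx2 : x * x = 1 := by rw [← pow_two, ← hx, pow_orderOf_eq_one]
  refine ⟨dgHom x L c, fun _ => rfl, ?_, dg_cent1 c hx2, der_cent1_eq_dg c hx2 hperf⟩
  intro l hl
  rw [MonoidHom.mem_ker, dgHom_apply] at hl
  have h1 : (l : G) ∈ cj x L := by
    rw [eq_inv_of_mul_eq_one_left hl]; exact inv_mem (conj_mem_cj.2 l.2)
  rw [mem_center_iff]
  intro m
  exact Subtype.ext (mem_cent.1 (cent_symm c h1) m m.2)

end Cfsg.Agent.S1314
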