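import Cfsg.Statements.S1319
import Cfsg.Agent.Sig.Comp

set_option autoImplicit false
open Cfsg

namespace Cfsg.Agent.S1319

/-- Let A be a subnormal subgroup of the finite group X with E(A) = A. Then A ≤ E(X) and A is normal in E(X). -/
theorem result {X : Type*} [Group X] [Finite X] (A : Subgroup X) (hsn : A.IsSubnormal) (hA : Cfsg.layer ↥A = ⊤) : A ≤ Cfsg.layer X ∧ (A.subgroupOf (Cfsg.layer X)).Normal := by
  have h1 : A ≤ Cfsg.layer X := by
    have := CF.Sig.map_layer_subtype_le_of_subnormal hsn
    rwa [hA, ← MonoidHom.range_eq_map, Subgroup.range_subtype] at this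
  exact ⟨h1, (Subgroup.normal_subgroupOf_iff_le_normalizer h1).mpr
    (CF.Sig.layer_le_normalizer_of_subnormal hsn)⟩

end Cfsg.Agent.S1319
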