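import Cfsg.Statements.S1324
import Cfsg.Agent.Coprime.Hall

set_option autoImplicit false
open Cfsg

namespace Cfsg.Agent.S1324

/-- Let A be a noncyclic elementary abelian p-subgroup of a finite group H normalizing a subgroup X of order prime to p. Then X is generated by the subgroups X ∩ C_H(B), B ranging over the subgroups of A of index at most p. -/
theorem result {H : Type*} [Group H] [Finite H] (p : ℕ) [Fact p.Prime] (A X : Subgroup H) (hA : Cfsg.IsElementaryAbelian p A) (hA2 : p ^ 2 ≤ Nat.card ↥A) (hX : ¬ p ∣ Nat.card ↥X) (hAX : A ≤ Subgroup.normalizer (X : Set H)) : X = ⨆ B : {B : Subgroup H // B ≤ A ∧ B.relIndex A ≤ p}, X ⊓ Subgroup.centralizer ((B : Subgroup H) : Set H) := by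
  have := hA.1
  have hp : p.Prime := Fact.out
  refine le_antisymm (CF.Coprime.le_of_forall_cocyclic A X hAX
    (CF.Solv.coprime_card_of_isPGroup (CF.Solv.isPGroup_of_forall_pow_eq_one hA.2)
      (hp.coprime_iff_not_dvd.mpr hX).symm) _ fun B a ha h => ?_) (iSup_le fun _ => inf_le_left)
  have hB : B ≤ A := le_sup_left.trans h.le
  refine le_iSup_of_le ⟨B, hB, ?_⟩ le_rfl
  have hn : Subgroup.zpowers a ≤ Subgroup.normalizer (B : Set H) :=
    ((Subgroup.zpowers_le_of_mem ha).trans ((Subgroup.le_centralizer A).trans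
      (Subgroup.centralizer_le hB))).trans (Subgroup.centralizer_le_normalizer _)
  have h1 := CF.Solv.card_sup_dvd_of_le_normalizer hn
  rw [sup_comm, h, ← CF.Solv.card_mul_relIndex hB, mul_comm,
    Nat.mul_dvd_mul_iff_right Nat.card_pos, Nat.card_zpowers] at h1
  exact Nat.le_of_dvd hp.pos (h1.trans (orderOf_dvd_of_pow_eq_one (hA.2 a ha)))

end Cfsg.Agent.S1324
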