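import Cfsg.Statements.S1328
import Cfsg.Agent.Sig.Bal

set_option autoImplicit false
open Cfsg

namespace Cfsg.Agent.S1328

open CF.BG CF.Sig Subgroup in

/-- Let G be finite, H ≤ G with O(H) = 1, t an involution of G normalizing H, and Y a nontrivial subgroup of O(C_H(t)). Then some component E of H is normalized by t and by Y and centralized by neither t nor Y. -/
theorem result {G : Type*} [Group G] [Finite G] (H : Subgroup G) (hO : Cfsg.oddCore ↥H = ⊥) (t : G) (ht : orderOf t = 2) (htH : t ∈ Subgroup.normalizer (H : Set G)) (Y : Subgroup G) (hY1 : Y ≠ ⊥) (hY : Y ≤ (Cfsg.oddCore ↥(H ⊓ Subgroup.centralizer ({t} : Set G))).map (H ⊓ Subgroup.centralizer ({t} : Set G)).subtype) : ∃ E : Subgroup ↥H, Cfsg.IsComponent E ∧ (E.map H.subtype).map (MulAut.conj t).toMonoidHom = E.map H.subtype ∧ Y ≤ Subgroup.normalizer ((E.map H.subtype : Subgroup G) : Set G) ∧ ¬ (t ∈ Subgroup.centralizer ((E.map H.subtype : Subgroup G) : Set G)) ∧ ¬ (Y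 ≤ Subgroup.centralizer ((E.map H.subtype : Subgroup G) : Set G)) := by
  have hp := Nat.prime_two
  have t2 : t ^ 2 = 1 := ht ▸ pow_orderOf_eq_one t
  have pt : PiGrp {2} (zpowers t) := (piElt_of_pow_eq_one hp t2).zpowers
  have h0 : 𝐎 {2}ᶜ H = ⊥ := by rw [← map_pPrimeCore hp, show pPrimeCore 2 H = ⊥ from hO, Subgroup.map_bot]
  rw [map_pPrimeCore hp] at hY
  have hN : H ⊴ H ⊔ zpowers t := normalIn_sup_left (zpowers_le.2 htH)
  have h1 : 𝐎 {2}ᶜ (H ⊔ zpowers t) = ⊥ := by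
    rw [← O_eq_of_idx hN, h0]
    rw [compl_compl, relIndex_sup_norm' (Or.inl (zpowers_le.2 htH))]
    exact pt.relIndex H
  have tM : t ∈ H ⊔ zpowers t := mem_sup_right (mem_zpowers t)
  have hY' : Y ≤ 𝐎 {2}ᶜ ((H ⊔ zpowers t) ⊓ 𝐂₁ t) := by
    refine hY.trans (O_le_O_of_normal ⟨inf_le_inf_right _ le_sup_left, ?_⟩ _)
    exact norm_inf (inf_le_left.trans hN.norm) (norm_of_le inf_le_right)
  have h2 : ∃ L, Comp L H ∧ ¬ Y ≤ 𝐂 L := by
    by_contra hc
    push Not at hc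
    refine hY1 (eq_bot_of_cent h0 (hY.trans ((O_le _ _).trans inf_le_left)) ((O_pi _ _).le hY) ?_ hc)
    have := O_cent_cent_O hp (zpowers_le.2 tM) pt
    rw [cent_zpowers] at this
    exact (hY'.trans this).trans (cent_anti (O_le_O_of_normal hN _))
  obtain ⟨L, l, c⟩ := h2
  have l' := l.trans hN.subN
  have e : ⁅L, zpowers t⁆ = L := by
    by_contra e
    exact c (hY'.trans (l'.O_cent1_cent hp h1 tM t2 e))
  refine ⟨L.subgroupOf H, l.2, ?_⟩
  rw [map_subgroupOf l.le]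
  refine ⟨cj_of_norm (mem_norm_of_comm_eq e), ?_, not_mem_cent_of_comm_eq e l.ne_bot, c⟩
  have := l'.O_cent_norm hp h1 (zpowers_le.2 tM) pt
  rw [cent_zpowers] at this
  exact hY'.trans this

end Cfsg.Agent.S1328
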