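import Cfsg.Statements.S1329
import Cfsg.Agent.Coprime.Misc
import Cfsg.Agent.Hyp.FTProof

set_option autoImplicit false
open Cfsg

namespace Cfsg.Agent.S1329

/-- Let A be an abelian 2-subgroup of the finite group G, B ≤ A, and Y a subgroup of odd order normalized by A with ⁅Y, A⁆ = Y. Then Y ∩ C_G(B) is generated by the subgroups Y ∩ C_G(B) ∩ ⁅Y ∩ C_G(B₀), A⁆, B₀ ranging over the subgroups of B with B / B₀ cyclic. -/
theorem result {G : Type*} [Group G] [Finite G] (A B Y : Subgroup G) (hA2 : IsPGroup 2 ↥A) (hAc : IsMulCommutative ↥A) (hB : B ≤ A) (hYodd : Odd (Nat.card ↥Y)) (hAY : A ≤ Subgroup.normalizer (Y : Set G)) (hYA : ⁅Y, A⁆ = Y) : Y ⊓ Subgroup.centralizer (B : Set G) = ⨆ B₀ : {B₀ : Subgroup G // B₀ ≤ B ∧ ∀ [(B₀.subgroupOf B).Normal], IsCyclic (↥B ⧸ B₀.subgroupOf B)}, Y ⊓ Subgroup.centralizer (B : Set G) ⊓ ⁅Y ⊓ Subgroup.centralizer ((B₀ : Subgroup G) : Set G), A⁆ := by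
  have hs : Group.IsSolvable Y := CF.Hyp.isSolvable_of_odd hYodd
  have hcop : (Nat.card A).Coprime (Nat.card Y) :=
    CF.Solv.coprime_card_of_isPGroup hA2 (Nat.coprime_two_right.mpr hYodd)
  refine le_antisymm ?_ (iSup_le fun _ => inf_le_left)
  have hAB : A ≤ Subgroup.normalizer ((Y ⊓ Subgroup.centralizer (B : Set G) : Subgroup G) : Set G) :=
    CF.Coprime.le_normalizer_inf hAY (CF.Coprime.le_normalizer_centralizer_of_comm hB)
  conv_lhs => rw [← CF.Coprime.commutator_sup_centralizer A _ hAB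
    (CF.Coprime.coprime_of_le hcop le_rfl inf_le_left)
    (Or.inl (CF.Solv.isSolvable_of_isMulCommutative A))]
  refine sup_le (le_iSup_of_le ⟨B, le_rfl, ?_⟩
    (le_inf (CF.Coprime.commutator_le_of_le_normalizer hAB) le_rfl)) ?_
  · intro _
    have : Subsingleton (B ⧸ B.subgroupOf B) := by
      rw [QuotientGroup.subsingleton_iff]; exact Subgroup.subgroupOf_self B
    infer_instance
  refine le_trans (le_inf inf_le_right ((inf_le_left.trans inf_le_left).trans hYA.ge))
    (CF.Coprime.centralizer_inf_commutator_le A Y hs hAY hcop _ ?_)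
  rintro D hD ⟨a, ha, h⟩
  refine le_iSup_of_le ⟨D ⊓ B, inf_le_right, ?_⟩ (le_inf (le_inf (inf_le_right.trans
    ((CF.Coprime.commutator_le_of_le_normalizer (CF.Coprime.le_normalizer_inf hAY
      (CF.Coprime.le_normalizer_centralizer_of_comm hD))).trans inf_le_left))
    (inf_le_left.trans (Subgroup.centralizer_le hB))) (inf_le_right.trans
      (Subgroup.commutator_mono (inf_le_inf_left _ (Subgroup.centralizer_le
        (inf_le_left : D ⊓ B ≤ D))) le_rfl)))
  intro _
  have : (D.subgroupOf A).Normal := inferInstance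
  have hc : IsCyclic (A ⧸ D.subgroupOf A) := by
    refine ⟨⟨((⟨a, ha⟩ : A) : A ⧸ D.subgroupOf A), fun x => ?_⟩⟩
    obtain ⟨⟨x, hx⟩, rfl⟩ := QuotientGroup.mk_surjective x
    have hx' := hx
    rw [← h] at hx'
    obtain ⟨d, hd, _, ⟨n, rfl⟩, rfl⟩ := (CF.Solv.mem_sup_of_le_normalizer' (((Subgroup.zpowers_le_of_mem ha).trans
      ((Subgroup.le_centralizer A).trans (Subgroup.centralizer_le hD))).trans
        (Subgroup.centralizer_le_normalizer _))).mp hx'
    refine ⟨n, ?_⟩
    show ((⟨a, ha⟩ : A) : A ⧸ D.subgroupOf A) ^ n = _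
    rw [← QuotientGroup.mk_zpow, eq_comm, QuotientGroup.eq_iff_div_mem]
    simpa [Subgroup.mem_subgroupOf] using hd
  let f : B →* A ⧸ D.subgroupOf A := (QuotientGroup.mk' _).comp (Subgroup.inclusion hB)
  have hker : (D ⊓ B).subgroupOf B ≤ f.ker := fun x hx =>
    (QuotientGroup.eq_one_iff _).mpr (Subgroup.mem_subgroupOf.mp hx).1
  refine isCyclic_of_injective (QuotientGroup.lift _ f hker) ?_
  rw [QuotientGroup.injective_lift_iff]
  ext x
  simp [f, Subgroup.mem_subgroupOf]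

end Cfsg.Agent.S1329
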