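import Cfsg.Statements.S1330
import Cfsg.Agent.SC2.H

set_option autoImplicit false
open Cfsg

namespace Cfsg.Agent.S1330

open CF.BG

/-- Let A₁, A₂ be core-separated four-subgroups of the finite group G and A = A₁A₂. For a ∈ G put O_a = O(C_G(a)) and θ a = ⋂_{i=1,2} ( ⁅O_a, A_i⁆ · (O_a ∩ O(C_G(A_i))) ). Then θ is an A-signalizer functor for the prime 2. -/
theorem result {G : Type*} [Group G] [Finite G] (A₁ A₂ : Subgroup G) (hcs : Cfsg.IsCoreSeparated A₁ A₂) : Cfsg.IsSignalizerFunctor 2 (A₁ ⊔ A₂) (fun a => (⁅Cfsg.centralizerPPrimeCore 2 a, A₁⁆ ⊔ (Cfsg.centralizerPPrimeCore 2 a ⊓ ((Cfsg.oddCore ↥(Subgroup.centralizer ((A₁ : Subgroup G) : Set G))).map (Subgroup.centralizer ((A₁ : Subgroup G) : Set G)).subtype))) ⊓ (⁅Cfsg.centralizerPPrimeCore 2 a, A₂⁆ ⊔ (Cfsg.centralizerPPrimeCore 2 a ⊓ ((Cfsg.oddCore ↥(Subgroup.centralizer ((A₂ : Subgroup G) : Set G))).map (Subgroup.centralizer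 ((A₂ : Subgroup G) : Set G)).subtype)))) := by
  obtain ⟨e1, e2, c1, c2, -, i, c, h⟩ := hcs
  have p := Nat.prime_two
  have s : CF.SC2.Pr A₁ A₂ := ⟨.of_isEA p e1, .of_isEA p e2, c1.ge, c2.ge, fun a ha b hb => (c a ha b hb).symm, i⟩
  have b := (⟨s, fun t ht t1 L k => by
    have := h t ht t1 (L.subgroupOf _) (CF.Sig.pcomp_map_subtype.1 (by rwa [map_subgroupOf k.le]))
    rw [map_subgroupOf k.le, CF.Sig.cPPC_eq p, Subgroup.commutator_comm L, Subgroup.commutator_comm L] at this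
    exact this.imp (CF.Ab2.pc_le_Cz k (s.cA ht)) (CF.Ab2.pc_le_Cz k (s.cB ht))⟩ : CF.SC2.CS A₁ A₂).bal
  simp only [CF.Sig.cPPC_eq p, map_pPrimeCore p]
  exact ⟨fun a ha _ => (inf_le_left.trans (CF.SC2.Ph_le (s.cA ha))).trans (O_le _ _),
    fun a ha _ => Nat.not_even_iff_odd.2 (CF.Ab2.od_iff.2 (b.od ha)) ∘ even_iff_two_dvd.2,
    fun a ha _ y hy x hx => conj_mem_of_norm (b.norm ha hy) hx, fun a ha a1 y hy y1 => b.bal ha a1 hy y1⟩

end Cfsg.Agent.S1330
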