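import Cfsg.Statements.S1331
import Cfsg.Agent.Sig.Fun

set_option autoImplicit false
open Cfsg

namespace Cfsg.Agent.S1331

open CF.BG CF.Sig Subgroup in

/-- Let θ be a solvable A-signalizer functor on the finite group G for the prime p, A elementary abelian of rank at least 3, X a member of the family of θ, and B ≤ A with |B| ≥ p². Then X is generated by the subgroups X ∩ ⋂_{d ∈ D, d ≠ 1} θ d, D ranging over the subgroups of index p in B. -/
theorem result {G : Type*} [Group G] [Finite G] (p : ℕ) [Fact p.Prime] (A : Subgroup G) (hA : Cfsg.IsElementaryAbelian p A) (hA3 : p ^ 3 ≤ Nat.card ↥A) (θ : G → Subgroup G) (hθ : Cfsg.IsSolvableSignalizerFunctor p A θ) (X : Subgroup G) (hX : X ∈ Cfsg.signalizerFamily p A θ) (B : Subgroup G) (hB : B ≤ A) (hB2 : p ^ 2 ≤ Nat.card ↥B) : X = ⨆ D : {D : Subgroup G // D ≤ B ∧ D.relIndex B = p}, X ⊓ Cfsg.signalizerInf (D : Subgroup G) θ := by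
  have hp : p.Prime := Fact.out
  have s := sf_of hp hA (pow_three_le hp hA3) hθ
  have t := (ts_iff hp).2 hX
  have ab := s.ab.le hB
  have := logn_ge hp ab.pi hB2
  obtain ⟨m, hm⟩ : ∃ m, logn p (♯B) = m + 1 := ⟨logn p (♯B) - 1, by omega⟩
  have e : Elem p (m + 1) B B := ⟨le_rfl, ab, hm⟩
  refine le_antisymm (e.le_of_cent (hB.trans t.norm) t.pi fun D hD => ?_) (iSup_le fun _ => inf_le_left)
  rw [← t.inf_sI s (hD.le.trans hB)]
  exact le_iSup_of_le (f := fun D : {D : Subgroup G // D ≤ B ∧ D.relIndex B = p} =>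
    X ⊓ Cfsg.signalizerInf (D : Subgroup G) θ) ⟨D, hD.le, (e.relIndex hD).trans (pow_one p)⟩ le_rfl

end Cfsg.Agent.S1331
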