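import Cfsg.Statements.S1335
import Cfsg.Agent.Sig.Amb

set_option autoImplicit false
open Cfsg

namespace Cfsg.Agent.S1335

open CF.BG CF.Sig Subgroup in

/-- Let H be a subgroup of the finite group G, p a prime, k ≥ 1, P a Sylow p-subgroup of H of p-rank at least k, and suppose N_G(X) ≤ H for every subgroup X ≤ P of p-rank at least k. Then P is a Sylow p-subgroup of G. -/
theorem result {G : Type*} [Group G] [Finite G] {p : ℕ} [Fact p.Prime] (k : ℕ) (hk : 1 ≤ k) (H : Subgroup G) (P : Sylow p ↥H) (hP : ¬ Cfsg.PRankLE p (k - 1) ↥(P : Subgroup ↥H)) (hΓ : (∀ X : Subgroup G, X ≤ (P : Subgroup ↥H).map H.subtype → ¬ Cfsg.PRankLE p (k - 1) ↥X → Subgroup.normalizer (X : Set G) ≤ H)) : ∃ Q : Sylow p G, (Q : Subgroup G) = (P : Subgroup ↥H).map H.subtype := by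
  have h := syl_sylow P
  refine (h.syl_of_norm_le (hΓ _ le_rfl ?_) le_top).exists_sylow_top
  rwa [not_pRankLE_iff Fact.out, pRank_map _ _ H.subtype_injective, ← not_pRankLE_iff Fact.out]

end Cfsg.Agent.S1335
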