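import Cfsg.Statements.S1336
import Cfsg.Agent.Sig.Conn

set_option autoImplicit false
open Cfsg

namespace Cfsg.Agent.S1336

open CF.BG CF.Sig Subgroup in

/-- Let G be finite and p prime. Then G has a proper subgroup H with p ∣ |H| and p ∤ |H ∩ gHg⁻¹| for every g ∉ H (a strongly p-embedded subgroup) if and only if G is not 1-connected for p. -/
theorem result {G : Type*} [Group G] [Finite G] (p : ℕ) [Fact p.Prime] : (∃ H : Subgroup G, H ≠ ⊤ ∧ p ∣ Nat.card ↥H ∧ ∀ g : G, g ∉ H → ¬ p ∣ Nat.card ↥(H ⊓ H.map (MulAut.conj g).toMonoidHom)) ↔ ¬ Cfsg.IsKConnected p 1 G := by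
  have hp : p.Prime := Fact.out
  rw [kConnected_iff hp]
  constructor
  · rintro ⟨H, h1, h2, h3⟩ hc
    have key : ∀ X g, Vx p 1 H X → cj g X ≤ H → g ∈ H := fun X g x l => by
      by_contra hg
      refine h3 g hg (dvd_trans ?_ (card_dvd (le_inf l (cj_mono g x.le))))
      rw [card_cj]
      exact x.ab.pi.dvd_card (x.ab.pi.logn_pos.1 x.rk)
    obtain ⟨X, x⟩ := exists_elem_one hp h2
    refine h1 (eq_top_iff.2 fun g _ => key X g (Elem.vx x le_rfl) ?_)
    have v : Vx p 1 ⊤ X := Elem.vx x.top le_rfl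
    refine (hc X _ v (v.cj_of_norm (g := g) (by simp))).ind (T := fun Y => Y ≤ H) x.le
      fun A B a _ c l b hb => key A b ⟨a.ab, a.rk, l⟩ ?_
    rwa [cj_of_cent (cent_symm c hb)]
  · intro hc
    push Not at hc
    obtain ⟨A, B, a, b, hn⟩ := hc
    obtain ⟨P, hP, l⟩ := exists_syl_le le_top a.ab.pi
    have a' : Vx p 1 P A := ⟨a.ab, a.rk, l⟩
    have key : ∀ X, Vx p 1 (cStab p 1 A) X → Conn p 1 ⊤ A X := by
      intro X x
      have hl : P ≤ cStab p 1 A := fun g hg =>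
        (Vx.conn_one hP.pi a' (a'.cj_of_norm (le_norm_self P hg))).mono le_top
      obtain ⟨g, hg, e⟩ := (hP.of_le hl le_top).syl_le_cj x.le x.ab.pi
      exact (mem_cStab.1 hg).trans
        ((Vx.conn_one (hP.pi.cj g) (a'.cj g) ⟨x.ab, x.rk, e⟩).mono le_top)
    refine ⟨cStab p 1 A, fun e => hn (key B (e ▸ b)), ?_, fun g hg hd => hg ?_⟩
    · exact (a.ab.pi.dvd_card (a.ab.pi.logn_pos.1 a.rk)).trans
        (card_dvd ((le_norm_self A).trans (norm_le_cStab Conn.refl)))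
    · obtain ⟨X, x⟩ := exists_elem_one hp hd
      have h1 := key X (Elem.vx (x.mono inf_le_left) le_rfl)
      have h2 := (Elem.vx (x.mono inf_le_right) le_rfl).cj g⁻¹
      rw [← cj_def, cj_inv_cj] at h2
      exact mem_cStab_of (key _ h2) (by rwa [cj_cj_inv])

end Cfsg.Agent.S1336
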