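import Cfsg.Statements.S1338
import Cfsg.Agent.Pgp.B

set_option autoImplicit false
open Cfsg

namespace Cfsg.Agent.S1338


/-- A finite 3-group of 3-rank at least 4 is 2-connected for the prime 3: its commuting graph on elementary abelian subgroups of order ≥ 9 is connected. -/
theorem result {P : Type*} [Group P] [Finite P] (hP : IsPGroup 3 P) (hrk : ¬ Cfsg.PRankLE 3 3 P) : Cfsg.IsKConnected 3 2 P := by
  open CF.BG CF.BG2 CF.Pgp in
  have k : PiGrp {3} (⊤ : Subgroup P) := @piGrp_top _ _ _ _ Nat.prime_three hP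
  open CF.BG CF.BG2 CF.Pgp in
  obtain ⟨U, u1, u2⟩ := exists_conn k (by
    unfold Cfsg.PRankLE at hrk
    push Not at hrk
    obtain ⟨A, a1, a2, a3⟩ := hrk
    have a := Abelem.mk' Nat.prime_three (Abel.of_comm a1) a2
    rw [a.pi.card_eq] at a3
    obtain ⟨E, hE⟩ := a.exists_elem (n := 4) ((Nat.pow_lt_pow_iff_right (by decide)).1 a3)
    exact ⟨E, hE.top⟩)
  intro E E' e1 e2 e3 e4
  open CF.BG CF.BG2 CF.Pgp in
  have key : ∀ E : Subgroup P, Cfsg.IsElementaryAbelian 3 E → 3 ^ 2 ≤ Nat.card E → ∃ F, Elem 3 2 F ⊤ ∧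
      (∀ a ∈ F, ∀ b ∈ E, a * b = b * a) ∧ ∀ a ∈ F, ∀ b ∈ U, a * b = b * a := fun E h1 h2 => by
    have a := Abelem.of_isEA Nat.prime_three h1
    rw [a.pi.card_eq] at h2
    obtain ⟨F, f1, f2, f3⟩ := u2 E le_top a ((Nat.pow_le_pow_iff_right (by decide)).1 h2)
    exact ⟨F, f1, fun a ha b hb => (comm_of_cent (f2 ha) hb).eq, fun a ha b hb => (comm_of_cent (f3 ha) hb).eq⟩
  obtain ⟨F, f1, f2, f3⟩ := key E e1 e2
  obtain ⟨F', g1, g2, g3⟩ := key E' e3 e4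
  exact (((Relation.ReflTransGen.single ⟨e1, e2, f1.ab.isEA, f1.card.ge, fun a ha b hb => (f2 b hb a ha).symm⟩).tail
    ⟨f1.ab.isEA, f1.card.ge, u1.ab.isEA, u1.card.ge, f3⟩).tail
    ⟨u1.ab.isEA, u1.card.ge, g1.ab.isEA, g1.card.ge, fun a ha b hb => (g3 b hb a ha).symm⟩).tail
    ⟨g1.ab.isEA, g1.card.ge, e3, e4, g2⟩

end Cfsg.Agent.S1338
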