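import Cfsg.Statements.S1342
import Cfsg.Agent.Sig.XLay

set_option autoImplicit false
open Cfsg

namespace Cfsg.Agent.S1342

open CF.BG CF.Sig Subgroup in

/-- For a finite group X, L*_{2'}(X) is normal in X. -/
theorem result {X : Type*} [Group X] [Finite X] : (Cfsg.extendedTwoLayer X).Normal := by
  have hp := Nat.prime_two
  obtain ⟨T, t⟩ := exists_syl 2 (PLay 2 ⊤ ⊔ O2 {2}ᶜ {2} (⊤ : Subgroup X))
  rw [xlay_eq' t, ← normalIn_top]
  have h : 𝐍 T ≤ 𝐍 (PLay 2 ⊤ ⊔ 𝐎 {2}ᶜ ⊤ ⊔ 𝐎 {2}ᶜ (𝐂 T)) :=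
    norm_sup (le_top.trans (LO_normal hp ⊤).norm) (le_norm_O _ (norm_le_norm_cent T))
  refine ⟨le_top, ?_⟩
  refine (t.syl_frattini_sup (LO2_normal hp ⊤)).ge.trans (sup_le ?_ (inf_le_right.trans h))
  rw [← LO_sup_syl hp t]
  exact sup_le (norm_of_le le_sup_left) ((le_norm_self T).trans h)

end Cfsg.Agent.S1342
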