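import Cfsg.Statements.S1343
import Cfsg.Agent.Sig.XLay

set_option autoImplicit false
open Cfsg

namespace Cfsg.Agent.S1343

open CF.BG CF.Sig Subgroup in

/-- Let X be finite. Then L*_{2'}(X) = L_{2'}(X) ⊔ F for some subgroup F of odd order normalized by a Sylow 2-subgroup of X. -/
theorem result {X : Type*} [Group X] [Finite X] : ∃ F : Subgroup X, Odd (Nat.card ↥F) ∧ (∃ S : Sylow 2 X, (S : Subgroup X) ≤ Subgroup.normalizer (F : Set X)) ∧ Cfsg.extendedTwoLayer X = Cfsg.pLayer 2 X ⊔ F := by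
  have hp := Nat.prime_two
  obtain ⟨S⟩ := (inferInstance : Nonempty (Sylow 2 X))
  have t := (syl_sylow_top S).inf_normal (LO2_normal hp ⊤)
  have nO := (O_normal {2}ᶜ (⊤ : Subgroup X)).norm
  refine ⟨_, ?_, ⟨S, ?_⟩, by rw [xlay_eq' t, sup_assoc, PLay_top hp]⟩
  · rw [← Nat.not_even_iff_odd, even_iff_two_dvd, ← piNat_compl_single hp]
    exact (O_pi _ _).sup (O_pi _ _) (.inr (le_top.trans nO))
  · exact norm_sup (le_top.trans nO) (le_norm_O _ (norm_cent (norm_inf (le_norm_self _)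
      (le_top.trans (by rw [← PLay_top hp]; exact (LO2_normal hp ⊤).norm)))))

end Cfsg.Agent.S1343
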