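import Cfsg.Statements.S1344
import Cfsg.Agent.Sig.XLay

set_option autoImplicit false
open Cfsg

namespace Cfsg.Agent.S1344

open CF.BG CF.Sig Subgroup in

/-- Let K be a 2-component of the finite group X. Then K ≤ L*_{2'}(X) and K is normal in L*_{2'}(X). -/
theorem result {X : Type*} [Group X] [Finite X] (K : Subgroup X) (hK : Cfsg.IsPComponent 2 K) : K ≤ Cfsg.extendedTwoLayer X ∧ (K.subgroupOf (Cfsg.extendedTwoLayer X)).Normal := by
  have hp := Nat.prime_two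
  have k := (pcomp_top_iff hp).2 hK
  obtain ⟨T, t⟩ := exists_syl 2 (PLay 2 ⊤ ⊔ O2 {2}ᶜ {2} (⊤ : Subgroup X))
  rw [xlay_eq' t]
  have l : K ≤ PLay 2 ⊤ ⊔ 𝐎 {2}ᶜ ⊤ ⊔ 𝐎 {2}ᶜ (𝐂 T) := k.le_PLay.trans (le_sup_left.trans le_sup_left)
  exact ⟨l, NormalIn.normal ⟨l, sup_le (k.norm hp) ((le_inf le_top (O_le _ _)).trans
    (k.cent_syl_le_norm hp (LO2_normal hp ⊤) le_sup_left t))⟩⟩

end Cfsg.Agent.S1344
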