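import Cfsg.Statements.S1396
import Cfsg.Agent.BG.Sec7

set_option autoImplicit false
open Cfsg

namespace Cfsg.Agent.S1396
open CF.BG Subgroup
open scoped commutatorElement Pointwise

/-- Let G be a minimal simple group of odd order, p a prime dividing the order of G and A an abelian p-subgroup. Suppose either (1) A consists exactly of the elements x of C_G(A) with x^p = 1, and every proper subgroup of G has p-length at most one, or (2) A is normal and self-centralizing in some Sylow p-subgroup of G and has rank at least 2. Then A satisfies the transitivity hypothesis. -/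
theorem result {G : Type*} [Group G] [Finite G] (hG : Cfsg.IsMinSimpleOddOrder G)
    (p : ℕ) [Fact p.Prime] (hp : p ∣ Nat.card G) (A : Subgroup G) (hAp : IsPGroup p A) (hAc : IsMulCommutative A)
    (h : (∀ x ∈ Subgroup.centralizer (A : Set G), x ^ p = 1 ↔ x ∈ A) ∧ (∀ H : Subgroup G, H ≠ ⊤ → Cfsg.PLengthLE p 1 H) ∨
      ∃ P : Sylow p G, Cfsg.IsSCN (P : Subgroup G) A ∧ ¬ Cfsg.PRankLE p 1 A) :
    Cfsg.TransitivityHypothesis A := by
  have : MSO G := ⟨hG⟩
  have pp : p.Prime := Fact.out
  rw [← nc_iff]
  rcases h with ⟨h, l⟩ | ⟨P, s, r⟩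
  · have a := Abel.of_comm hAc
    have m : MaxElem p A ⊤ := maxElem_of_mem le_top (Abelem.mk' pp a fun x hx => (h x (a hx)).mpr hx)
      fun x _ c e => (h x c).mp e
    refine m.nc ?_ fun M t => (pLengthLE_iff pp).mp (l M t)
    rintro rfl
    obtain ⟨X, x⟩ := exists_elem_one (H := (⊤ : Subgroup G)) pp (by rwa [card_top'])
    exact x.ne_bot (m.max X le_top x.ab bot_le)
  · exact SCN.nc s (syl_sylow_top P) ((not_pRankLE_iff pp).mp r)

end Cfsg.Agent.S1396
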