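import Cfsg.Statements.S1397
import Cfsg.Agent.BG.Sec8

set_option autoImplicit false
open Cfsg

namespace Cfsg.Agent.S1397
open CF.BG Subgroup
open scoped commutatorElement Pointwise

/-- Let G be a minimal simple group of odd order, M a maximal subgroup, p a prime and A₀ an elementary abelian p-subgroup of F(M) of order at least p ^ 3 that is maximal among elementary abelian p-subgroups of F(M). (a) If F(M) is not a p-group, then F(M) ∩ C_G(A₀) lies in exactly one maximal subgroup of G. (b) If F(M) is a p-group and P is a Sylow p-subgroup of M, then p does not divide the index of P in G, and every normal self-centralizing subgroup A of P containing an elementary abelian subgroup of order p ^ 3 is contained in F(M) and lies in exactly one maximal subgroup of G. -/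
theorem result {G : Type*} [Group G] [Finite G] (hG : Cfsg.IsMinSimpleOddOrder G)
    (M : Subgroup G) (hM : IsCoatom M) (p : ℕ) [Fact p.Prime] (A₀ : Subgroup G)
    (hA₀ : A₀ ≤ Cfsg.fittingOf M) (hA₀e : Cfsg.IsElementaryAbelian p A₀) (hA₀3 : p ^ 3 ≤ Nat.card A₀)
    (hA₀max : ∀ B : Subgroup G, B ≤ Cfsg.fittingOf M → Cfsg.IsElementaryAbelian p B → A₀ ≤ B → B = A₀) :
    (¬ IsPGroup p ↥(Cfsg.fittingOf M) → Cfsg.InUniqueMaximal (Cfsg.fittingOf M ⊓ Subgroup.centralizer (A₀ : Set G))) ∧
      (IsPGroup p ↥(Cfsg.fittingOf M) → ∀ P : Sylow p M,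
        ¬ p ∣ ((P : Subgroup M).map M.subtype).index ∧
        ∀ A : Subgroup G, Cfsg.IsSCN ((P : Subgroup M).map M.subtype) A → ¬ Cfsg.PRankLE p 2 ↥A →
          A ≤ Cfsg.fittingOf M ∧ Cfsg.InUniqueMaximal A) := by
  have : MSO G := ⟨hG⟩
  have pp : p.Prime := Fact.out
  have a := Abelem.of_isEA pp hA₀e
  refine ⟨fun f => (Mx.uniqIn_cent_F hM (fun k => f k.isPGroup) hA₀ a.abel ?_).toUniq, fun f P => ?_⟩
  · rw [a.pRank_eq]
    have := Nat.pow_le_pow_iff_right pp.one_lt |>.mp (hA₀3.trans_eq a.pi.card_eq)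
    omega
  · obtain ⟨s, h⟩ := Mx.uniq_scn_F hM (piGrp_of_isPGroup pp f) (syl_sylow P)
    exact ⟨relIndex_top_right (H := (P : Subgroup M).map M.subtype) ▸ s.not_dvd pp,
      fun A b r => h A b ((not_pRankLE_iff pp).mp r)⟩

end Cfsg.Agent.S1397
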