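import Cfsg.Statements.S1400
import Cfsg.Agent.BG.Sec9

set_option autoImplicit false
open Cfsg

namespace Cfsg.Agent.S1400
open CF.BG Subgroup
open scoped commutatorElement Pointwise

/-- Let G be a minimal simple group of odd order, p a prime, A an abelian p-subgroup containing an elementary abelian subgroup of order p ^ 3 and lying in exactly one maximal subgroup, and B a noncyclic p-subgroup whose centralizer contains an elementary abelian subgroup of order p ^ 3. Then B lies in exactly one maximal subgroup of G. -/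
theorem result {G : Type*} [Group G] [Finite G] (hG : Cfsg.IsMinSimpleOddOrder G)
    (p : ℕ) [Fact p.Prime] (A B : Subgroup G) (hAp : IsPGroup p A) (hAc : IsMulCommutative A) (hA3 : ¬ Cfsg.PRankLE p 2 ↥A)
    (hAU : Cfsg.InUniqueMaximal A) (hBp : IsPGroup p B) (hBnc : ¬ IsCyclic B) (hB3 : ¬ Cfsg.PRankLE p 2 ↥(Subgroup.centralizer (B : Set G))) :
    Cfsg.InUniqueMaximal B := by
  have : MSO G := ⟨hG⟩
  have pp : p.Prime := Fact.out
  exact Uniq.of_cent_rank3 hAU (Abel.of_comm hAc) (piGrp_of_isPGroup pp hAp)
    ((not_pRankLE_iff pp).mp hA3) (piGrp_of_isPGroup pp hBp) hBnc ((not_pRankLE_iff pp).mp hB3)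

end Cfsg.Agent.S1400
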