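import Cfsg.Statements.S1405
import Cfsg.Agent.BG.Sec10a

set_option autoImplicit false
open Cfsg

namespace Cfsg.Agent.S1405
open CF.BG Subgroup
open scoped commutatorElement Pointwise

/-- Let G be a minimal simple group of odd order and M a maximal subgroup, α(M) the set of primes p with M of p-rank at least 3, and M_α = O_{α(M)}(M). Then M_α is a Hall α(M)-subgroup of M and of G, M_α ≤ M_σ, the quotient M/M_α has no elementary abelian subgroup of order p ^ 3 for any prime p, and the image of M' in M/M_α is nilpotent. -/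
theorem result {G : Type*} [Group G] [Finite G] (hG : Cfsg.IsMinSimpleOddOrder G)
    (M : Subgroup G) (hM : IsCoatom M) :
    Cfsg.IsPiHallOf (Cfsg.alpha M) (Cfsg.alphaCore M) M ∧ Cfsg.IsPiHall (Cfsg.alpha M) (Cfsg.alphaCore M) ∧
      Cfsg.alphaCore M ≤ Cfsg.sigmaCore M ∧ Cfsg.RankLE 2 (↥M ⧸ Cfsg.piCore (Cfsg.alpha M) ↥M) ∧
      Group.IsNilpotent ↥((commutator ↥M).map (QuotientGroup.mk' (Cfsg.piCore (Cfsg.alpha M) ↥M))) := by
  have : MSO G := ⟨hG⟩
  have m : Mx M := hM
  have e : (Cfsg.piCore (Cfsg.alpha M) ↥M).map M.subtype = Mα M := by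
    rw [← O_top, ← O_map_subtype, map_top_subtype]
  refine ⟨hall_iff.mp m.hall_Ma, hall_top_iff.mp m.hall_Ma_top, m.Ma_le_Ms, ?_, ?_⟩
  · obtain ⟨i⟩ := qt_iso_map (N := Cfsg.piCore (Cfsg.alpha M) ↥M) ⊤
    rw [e, map_top_subtype, map_top_of_surjective _ (QuotientGroup.mk'_surjective _)] at i
    exact fun p hp => (pRankLE_top_iff hp).mpr ((pRank_le_rank p _).trans
      ((rank_congr ⟨i⟩).symm.le.trans m.rank_qt_Ma))
  · obtain ⟨i⟩ := qt_iso_map (N := Cfsg.piCore (Cfsg.alpha M) ↥M) (commutator M)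
    rw [e, commutator_def, map_commutator, map_top_subtype] at i
    have := m.nil_qt_Ma
    exact Group.nilpotent_of_mulEquiv i

end Cfsg.Agent.S1405
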