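import Cfsg.Statements.S1412
import Cfsg.Agent.BG.Sec10

set_option autoImplicit false
open Cfsg

namespace Cfsg.Agent.S1412
open CF.BG Subgroup
open scoped commutatorElement Pointwise

/-- Let G be a minimal simple group of odd order, p a prime and P a Sylow p-subgroup of G with no elementary abelian subgroup of order p ^ 3. Then either P is abelian, or P is generated by two elementwise-commuting subgroups P₁, P₂ with P₁ nonabelian of order p ^ 3 and exponent p, P₂ cyclic, and the elements of P₂ of order dividing p generating exactly the centre of P₁. -/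
theorem result {G : Type*} [Group G] [Finite G] (hG : Cfsg.IsMinSimpleOddOrder G) (p : ℕ) [Fact p.Prime] (P : Sylow p G) (hr : Cfsg.PRankLE p 2 (P : Subgroup G)) :
    IsMulCommutative (P : Subgroup G) ∨ ∃ P₁ P₂ : Subgroup G, P₁ ⊔ P₂ = (P : Subgroup G) ∧ (∀ a ∈ P₁, ∀ b ∈ P₂, a * b = b * a) ∧
        ¬ IsMulCommutative P₁ ∧ Nat.card P₁ = p ^ 3 ∧ Monoid.exponent P₁ = p ∧ IsCyclic P₂ ∧
        Subgroup.closure {x : G | x ∈ P₂ ∧ x ^ p = 1} = P₁ ⊓ Subgroup.centralizer (P₁ : Set G) := by
  have : MSO G := ⟨hG⟩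
  have pp : p.Prime := Fact.out
  have hP := syl_sylow_top P
  by_cases a : Abel (P : Subgroup G)
  · exact Or.inl a.comm
  obtain ⟨S, C, e, c, na, l, ex, cy, o⟩ := hP.cprod_of_rank2 ((pRankLE_iff pp).mp hr) a
  refine Or.inr ⟨S, C, e, fun x hx y hy => c hy x hx, fun h => na (Abel.of_comm h), ?_, ?_, cy, o⟩
  · rw [← l]; exact (hP.pi.le (e ▸ le_sup_left)).card_eq
  · have d : Monoid.exponent S ∣ p :=
      Monoid.exponent_dvd_of_forall_pow_eq_one fun x => Subtype.ext (ex x x.2)
    refine ((Nat.dvd_prime pp).mp d).resolve_left fun h => na ?_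
    have : S = ⊥ := eq_bot_of_forall fun x hx => by
      have := Monoid.pow_exponent_eq_one (⟨x, hx⟩ : S)
      rw [h, pow_one] at this
      exact congrArg Subtype.val this
    exact this ▸ abel_bot

end Cfsg.Agent.S1412
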