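import Cfsg.Statements.S1414
import Cfsg.Agent.BG.Sec10

set_option autoImplicit false
open Cfsg

namespace Cfsg.Agent.S1414
open CF.BG Subgroup
open scoped commutatorElement Pointwise

/-- Let G be a minimal simple group of odd order, M a maximal subgroup, β(M) the set of ideal primes in α(M), and M_β = O_{β(M)}(M). Then M_β is a Hall β(M)-subgroup of M and of G; M' and M_σ each have a nilpotent Hall β(M)'-subgroup; and for each prime p dividing the order of M with p ∉ β(M), both M' and M_σ have normal p-complements and every prime dividing the index of O_{p'}(M) in M is at most p. -/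
theorem result {G : Type*} [Group G] [Finite G] (hG : Cfsg.IsMinSimpleOddOrder G)
    (M : Subgroup G) (hM : IsCoatom M) :
    Cfsg.IsPiHallOf (Cfsg.beta M) (Cfsg.piCoreOf (Cfsg.beta M) M) M ∧ Cfsg.IsPiHall (Cfsg.beta M) (Cfsg.piCoreOf (Cfsg.beta M) M) ∧
      (∃ H : Subgroup G, Cfsg.IsPiHallOf {q | q.Prime ∧ q ∉ Cfsg.beta M} H ⁅M, M⁆ ∧ Group.IsNilpotent H) ∧
      (∃ H : Subgroup G, Cfsg.IsPiHallOf {q | q.Prime ∧ q ∉ Cfsg.beta M} H (Cfsg.sigmaCore M) ∧ Group.IsNilpotent H) ∧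
      ∀ p : ℕ, p.Prime → p ∣ Nat.card M → p ∉ Cfsg.beta M →
        Cfsg.HasNormalPComplement p ↥⁅M, M⁆ ∧ Cfsg.HasNormalPComplement p ↥(Cfsg.sigmaCore M) ∧
        ∀ q : ℕ, q.Prime → q ∣ (Cfsg.pPrimeCore p ↥M).index → q ≤ p := by
  have : MSO G := ⟨hG⟩
  have m : Mx M := hM
  have key : ∀ L, L ≤ ⁅M, M⁆ → ∃ H : Subgroup G,
      Cfsg.IsPiHallOf {q | q.Prime ∧ q ∉ Cfsg.beta M} H L ∧ Group.IsNilpotent H := fun L l => by
    obtain ⟨H, hH⟩ := (m.sol' (l.trans (der_le M))).exists_hall (𝛃 M)ᶜ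
    exact ⟨H, hall_iff.mp (hH.congr fun q hq _ => ⟨fun h => ⟨hq, h⟩, fun h => h.2⟩),
      m.nil_of_beta' (hH.le.trans l) hH.pi⟩
  refine ⟨hall_iff.mp m.hall_Mb, hall_top_iff.mp m.hall_Mb_top, key _ le_rfl, key _ m.Ms_le_der,
    fun p hp _ b => ⟨(npc_iff hp).mp (m.npc_der b), (npc_iff hp).mp (m.npc_Ms b), fun q hq d => ?_⟩⟩
  rw [index_pPrimeCore hp] at d
  exact m.max_pdiv b hq d

end Cfsg.Agent.S1414
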