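import Cfsg.Statements.S1417
import Cfsg.Agent.BG.Sec12

set_option autoImplicit false
open Cfsg

namespace Cfsg.Agent.S1417

/-- Let G be a minimal simple group of odd order, M a maximal subgroup, p ∈ τ₂(M) and A ≤ M elementary abelian of order p ^ 2. Then (a) M_σ is nilpotent; (b) every Sylow p-subgroup P of M is abelian, and if A ≤ P then the elements of P of order dividing p are exactly those of A and N_G(P) is not contained in M; (c) M normalizes M_σA; (d) M_σ ∩ C_G(A) = 1; (e) M_σ ∩ M* = 1 for every maximal subgroup M* ≠ M containing A; (f) M_σ ∩ C_G(A₁) = 1 for some subgroup A₁ ≤ A of order p. -/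
theorem result {G : Type*} [Group G] [Finite G] (hG : Cfsg.IsMinSimpleOddOrder G)
    (M : Subgroup G) (hM : IsCoatom M) (p : ℕ) [Fact p.Prime] (hp : p ∈ Cfsg.tau2 M) (A : Subgroup G) (hA : (A ≤ M ∧ Cfsg.IsElementaryAbelian p A ∧ Nat.card A = p ^ 2)) :
    Group.IsNilpotent (Cfsg.sigmaCore M) ∧
      (∀ P : Sylow p M, IsMulCommutative (P : Subgroup M) ∧
        (A ≤ (P : Subgroup M).map M.subtype →
          (∀ x ∈ (P : Subgroup M).map M.subtype, x ^ p = 1 ↔ x ∈ A) ∧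
          ¬ Subgroup.normalizer ((((P : Subgroup M).map M.subtype : Subgroup G)) : Set G) ≤ M)) ∧
      M ≤ Subgroup.normalizer ((Cfsg.sigmaCore M ⊔ A : Subgroup G) : Set G) ∧
      Cfsg.sigmaCore M ⊓ Subgroup.centralizer (A : Set G) = ⊥ ∧
      (∀ Mstar : Subgroup G, IsCoatom Mstar → Mstar ≠ M → A ≤ Mstar → Cfsg.sigmaCore M ⊓ Mstar = ⊥) ∧
      ∃ A₁ : Subgroup G, A₁ ≤ A ∧ Nat.card A₁ = p ∧ Cfsg.sigmaCore M ⊓ Subgroup.centralizer (A₁ : Set G) = ⊥ := by
  have : CF.BG.MSO G := ⟨hG⟩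
  have m : CF.BG.Mx M := hM
  have a := CF.BG.Elem.of_isEA Fact.out hA.1 hA.2.1 hA.2.2
  refine ⟨m.tau2_nil hp, fun P => ?_, (m.tau2_sup_normal hp a).norm, m.tau2_cent hp a,
    fun H h ne l => m.tau2_inf hp a h l ne, ?_⟩
  · have s := CF.BG.syl_sylow P
    have ab := m.tau2_abel hp s.le s.pi
    refine ⟨((CF.BG.abel_map_iff M.subtype_injective).mp ab).comm, fun l => ⟨fun x hx => ?_,
      fun n => CF.BG.tau2_sigma' hp (s.mem_sigma m.ne_top n)⟩⟩
    rw [← m.tau2_Om hp (a.of_le l) s.le s.pi, ab.mem_Om]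
    exact ⟨fun e => ⟨hx, e⟩, fun e => e.2⟩
  · obtain ⟨X, x, c⟩ := m.tau2_exists_reg hp a
    exact ⟨X, x.le, x.card_one, c⟩

end Cfsg.Agent.S1417
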