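import Cfsg.Statements.S1422
import Cfsg.Agent.BG.Sec12b

set_option autoImplicit false
open Cfsg

namespace Cfsg.Agent.S1422

/-- Let G be a minimal simple group of odd order, p a prime and P a non-abelian p-subgroup of G. Then P lies in exactly one maximal subgroup of G. -/
theorem result {G : Type*} [Group G] [Finite G] (hG : Cfsg.IsMinSimpleOddOrder G) (p : ℕ) [Fact p.Prime] (P : Subgroup G) (hP : IsPGroup p P) (hPna : ¬ IsMulCommutative P) :
    Cfsg.InUniqueMaximal P := by
  have : CF.BG.MSO G := ⟨hG⟩
  exact (CF.BG.piGrp_of_isPGroup Fact.out hP).uniq_of_not_abel fun a => hPna a.comm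

end Cfsg.Agent.S1422
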