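import Cfsg.Statements.S1433
import Cfsg.Agent.BG.Sec16a

set_option autoImplicit false
open Cfsg

namespace Cfsg.Agent.S1433

/-- Let G be a minimal simple group of odd order, M and N maximal subgroups, x ≠ 1 in M_σ and y ≠ 1 in N_σ with x ≠ y, where R(x) = 1 if C_G(x) ≤ M and R(x) = C_{L_F}(x) for the unique maximal L containing C_G(x) otherwise (and likewise R(y) relative to N). Then no element lies in both x R(x) and y R(y). -/
theorem result {G : Type*} [Group G] [Finite G] (hG : Cfsg.IsMinSimpleOddOrder G)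
    (M N : Subgroup G) (hM : IsCoatom M) (hN : IsCoatom N) (x y : G) (hx : x ∈ Cfsg.sigmaCore M) (hy : y ∈ Cfsg.sigmaCore N)
    (hx1 : x ≠ 1) (hy1 : y ≠ 1) (hxy : x ≠ y) :
    ∀ r ∈ Cfsg.supportR M x, ∀ s ∈ Cfsg.supportR N y, x * r ≠ y * s := by
  have : CF.BG.MSO G := ⟨hG⟩
  have s : CF.BG.SigMx x M := ⟨hM, hx⟩
  have t : CF.BG.SigMx y N := ⟨hN, hy⟩
  rw [s.supportR_eq hx1, t.supportR_eq hy1]
  exact fun r hr u hu e => hxy (CF.BG.sigR_disjoint (s.ell1 hx1) (t.ell1 hy1) hr hu e)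

end Cfsg.Agent.S1433
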