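import Cfsg.Statements.S1434
import Cfsg.Agent.BG.Sec14b

set_option autoImplicit false
open Cfsg

namespace Cfsg.Agent.S1434

/-- Let G be a minimal simple group of odd order, M a maximal subgroup with standard factorisation M = K U M_σ, K ≠ 1, K* = M_σ ∩ C_G(K), and M* a maximal subgroup with K = M*_σ ∩ C_G(K*) and K* a Hall κ(M*)-subgroup of M*. Then κ(M) = τ₁(M); K* is a Hall σ(M)-subgroup of M*; for non-identity x ∈ K and y ∈ K*, C_M(x), C_{M*}(y) and C_G(xy) all equal K K*; the set Ẑ of elements of K K* outside K ∪ K* meets no gMg⁻¹ with g ∉ M; and with k = #K, k* = #K*, the union of the conjugates of Ẑ has k·k*·(number of elements) = (k k* − k − k* + 1)·#G and more than #G / 2 elements. -/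
theorem result {G : Type*} [Group G] [Finite G] (hG : Cfsg.IsMinSimpleOddOrder G)
    (M : Subgroup G) (hM : IsCoatom M) (K U : Subgroup G) (hKU : Cfsg.IsSigmaDecomposition M K U) (hK1 : K ≠ ⊥) (Mstar : Subgroup G) (hMstar : IsCoatom Mstar)
    (hKst : K = Cfsg.sigmaCore Mstar ⊓ Subgroup.centralizer ((Cfsg.sigmaCore M ⊓ Subgroup.centralizer (K : Set G)) : Set G))
    (hKstH : Cfsg.IsPiHallOf (Cfsg.kappa Mstar) (Cfsg.sigmaCore M ⊓ Subgroup.centralizer (K : Set G)) Mstar) :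
    Cfsg.kappa M = Cfsg.tau1 M ∧ Cfsg.IsPiHallOf (Cfsg.sigma M) (Cfsg.sigmaCore M ⊓ Subgroup.centralizer (K : Set G)) Mstar ∧
      (∀ x ∈ K, x ≠ 1 → ∀ y ∈ (Cfsg.sigmaCore M ⊓ Subgroup.centralizer (K : Set G)), y ≠ 1 →
        M ⊓ Subgroup.centralizer ({x} : Set G) = K ⊔ (Cfsg.sigmaCore M ⊓ Subgroup.centralizer (K : Set G)) ∧ Mstar ⊓ Subgroup.centralizer ({y} : Set G) = K ⊔ (Cfsg.sigmaCore M ⊓ Subgroup.centralizer (K : Set G)) ∧
        Subgroup.centralizer ({x * y} : Set G) = K ⊔ (Cfsg.sigmaCore M ⊓ Subgroup.centralizer (K : Set G))) ∧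
      (∀ g : G, g ∉ M → ∀ z ∈ ((↑(K ⊔ (Cfsg.sigmaCore M ⊓ Subgroup.centralizer (K : Set G))) : Set G) \ ((K : Set G) ∪ ↑(Cfsg.sigmaCore M ⊓ Subgroup.centralizer (K : Set G)))), z ∉ M.map (MulAut.conj g).toMonoidHom) ∧
      Nat.card K * Nat.card ↥(Cfsg.sigmaCore M ⊓ Subgroup.centralizer (K : Set G)) * Set.ncard {a : G | ∃ g : G, ∃ z ∈ ((↑(K ⊔ (Cfsg.sigmaCore M ⊓ Subgroup.centralizer (K : Set G))) : Set G) \ ((K : Set G) ∪ ↑(Cfsg.sigmaCore M ⊓ Subgroup.centralizer (K : Set G)))), a = g * z * g⁻¹} =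
        (Nat.card K * Nat.card ↥(Cfsg.sigmaCore M ⊓ Subgroup.centralizer (K : Set G)) - Nat.card K - Nat.card ↥(Cfsg.sigmaCore M ⊓ Subgroup.centralizer (K : Set G)) + 1) * Nat.card G ∧
      Nat.card G < 2 * Set.ncard {a : G | ∃ g : G, ∃ z ∈ ((↑(K ⊔ (Cfsg.sigmaCore M ⊓ Subgroup.centralizer (K : Set G))) : Set G) \ ((K : Set G) ∪ ↑(Cfsg.sigmaCore M ⊓ Subgroup.centralizer (K : Set G)))), a = g * z * g⁻¹} := by
  have : CF.BG.MSO G := ⟨hG⟩
  have m : CF.BG.Mx M := hM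
  have k := CF.BG.hall_iff.mpr hKU.hall
  have t := m.tyP_of k hK1
  have pp := t.pPair' k hMstar hKst (CF.BG.hall_iff.mpr hKstH)
  have e : ∀ A : Set G, {a : G | ∃ g : G, ∃ z ∈ A, a = g * z * g⁻¹} = CF.BG.clSupp A ⊤ :=
    fun A => Set.ext fun _ => CF.BG.mem_clSupp_top.symm
  refine ⟨pp.kappa_eq, CF.BG.hall_iff.mp pp.hall_sigma, fun x hx x1 y hy y1 =>
    ⟨pp.cent_K x hx x1, pp.cent_Ks y hy y1, pp.cent_mul x hx x1 y hy y1⟩, pp.not_mem_cj, ?_, ?_⟩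
  · rw [e]
    refine pp.card_eq.trans (congrArg (· * Nat.card G) ?_)
    have h1 := CF.BG.one_lt_card.mpr hK1
    have h2 := CF.BG.one_lt_card.mpr (t.Kstar_ne_bot k)
    change _ = Nat.card K * Nat.card ↥(Cfsg.piCoreOf (Cfsg.sigma M) M ⊓ Subgroup.centralizer (K : Set G))
      - Nat.card K - Nat.card ↥(Cfsg.piCoreOf (Cfsg.sigma M) M ⊓ Subgroup.centralizer (K : Set G)) + 1
    generalize Nat.card ↥(Cfsg.piCoreOf (Cfsg.sigma M) M ⊓ Subgroup.centralizer (K : Set G)) = b at *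
    generalize Nat.card K = a at *
    obtain ⟨a, rfl⟩ : ∃ n, a = n + 2 := ⟨a - 2, by omega⟩
    obtain ⟨b, rfl⟩ : ∃ n, b = n + 2 := ⟨b - 2, by omega⟩
    rw [show a + 2 - 1 = a + 1 by omega, show b + 2 - 1 = b + 1 by omega]
    have : (a + 2) * (b + 2) = a * b + 2 * a + 2 * b + 4 := by ring
    have : (a + 1) * (b + 1) = a * b + a + b + 1 := by ring
    omega
  · rw [e]; exact pp.half

end Cfsg.Agent.S1434
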