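import Cfsg.Statements.S1437
import Cfsg.Agent.BG.Sec16

set_option autoImplicit false
open Cfsg

namespace Cfsg.Agent.S1437

open CF.BG Subgroup
open scoped commutatorElement

/-- Let G be a minimal simple group of odd order and M a maximal subgroup with standard factorisation M = K U M_σ such that M_F ≠ M_σ; put K* = M_σ ∩ C_G(K), p = #K, q = #K*. Then U = 1 and M_σ = M'; p and q are prime, q divides #M_F and q ∈ β(M); M_σ has a Sylow q-subgroup Q normal in M and contained in M_F; every complement D of Q in M_σ is nilpotent, and Q₀ = Q ∩ C_G(D) is normal in M; Q₀ < Q with #Q = #Q₀ · q ^ p, every element of Q has its q-th power and all its commutators with Q in Q₀, and every subgroup strictly between Q₀ and Q fails to be normal in M. -/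
theorem result {G : Type*} [Group G] [Finite G] (hG : Cfsg.IsMinSimpleOddOrder G)
    (M : Subgroup G) (hM : IsCoatom M) (K U : Subgroup G) (hKU : Cfsg.IsSigmaDecomposition M K U) (hne : Cfsg.fittingHallOf M ≠ Cfsg.sigmaCore M) :
    U = ⊥ ∧ Cfsg.sigmaCore M = ⁅M, M⁆ ∧ (Nat.card K).Prime ∧ (Nat.card ↥(Cfsg.sigmaCore M ⊓ Subgroup.centralizer (K : Set G))).Prime ∧
      Nat.card ↥(Cfsg.sigmaCore M ⊓ Subgroup.centralizer (K : Set G)) ∣ Nat.card (Cfsg.fittingHallOf M) ∧ Nat.card ↥(Cfsg.sigmaCore M ⊓ Subgroup.centralizer (K : Set G)) ∈ Cfsg.beta M ∧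
      ∃ Q : Subgroup G, Q ≤ Cfsg.fittingHallOf M ∧ M ≤ Subgroup.normalizer (Q : Set G) ∧ IsPGroup (Nat.card ↥(Cfsg.sigmaCore M ⊓ Subgroup.centralizer (K : Set G))) Q ∧
        ¬ Nat.card ↥(Cfsg.sigmaCore M ⊓ Subgroup.centralizer (K : Set G)) ∣ Q.relIndex (Cfsg.sigmaCore M) ∧
        ∀ D : Subgroup G, Cfsg.IsComplIn Q D (Cfsg.sigmaCore M) →
          Group.IsNilpotent D ∧ M ≤ Subgroup.normalizer ((Q ⊓ Subgroup.centralizer (D : Set G) : Subgroup G) : Set G) ∧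
          Q ⊓ Subgroup.centralizer (D : Set G) < Q ∧
          Nat.card Q = Nat.card ↥(Q ⊓ Subgroup.centralizer (D : Set G)) * Nat.card ↥(Cfsg.sigmaCore M ⊓ Subgroup.centralizer (K : Set G)) ^ Nat.card K ∧
          (∀ a ∈ Q, ∀ b ∈ Q, a ^ Nat.card ↥(Cfsg.sigmaCore M ⊓ Subgroup.centralizer (K : Set G)) ∈ Q ⊓ Subgroup.centralizer (D : Set G) ∧
            a * b * a⁻¹ * b⁻¹ ∈ Q ⊓ Subgroup.centralizer (D : Set G)) ∧
          ∀ N : Subgroup G, Q ⊓ Subgroup.centralizer (D : Set G) < N → N < Q → ¬ M ≤ Subgroup.normalizer (N : Set G) := by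
  have : MSO G := ⟨hG⟩
  have m : Mx M := hM
  have u := m.kapC_of_dec hKU
  have n : ¬ Nil (Mσ M) := fun c => hne (m.Fh_eq_iff.mpr c)
  rw [sigmaCore_eq]
  obtain ⟨q, hq⟩ : ∃ q, ♯(Mσ M ⊓ 𝐂 K) = q := ⟨_, rfl⟩
  obtain ⟨t, -, e, pK, pq, d, b, s⟩ := m.of_not_nil u.hK n hq
  have l : 𝐎 {q} M ≤ Mσ M := m.le_Ms' s.le s.pi (m.beta_sub_sigma b)
  have s' := s.of_le l (O_le _ M)
  rw [hq]
  refine ⟨t.eq_bot u, e, pK, pq, d, b, 𝐎 {q} M, O_le_Fh s, (O_normal _ M).norm, s.pi.isPGroup,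
    s'.not_dvd pq, fun D hD => ?_⟩
  have sd := SDProd.of_isComplIn hD (hD.2.1.trans ((O_le _ M).trans (O_normal _ M).norm))
  obtain ⟨a1, a2, a3, a4, -⟩ := m.of_not_nil' u.hK n hq rfl (sd.hall_compl_right s')
  have ab := a3.minN.abelem_of_pi (s.pi.qt _)
  have nm := a3.normalVU.norm
  refine ⟨a1, a2.norm, a3.lt, by rw [← a4, card_mul_relIndex inf_le_left], fun a ha c hc => ⟨?_, ?_⟩,
    fun N n1 n2 k => n1.ne' (a3.max N n1.le n2 k)⟩
  · rw [← qe_eq_one (pow_mem (nm ha) q), qe_pow (nm ha)]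
    exact ab.pow _ (qe_mem_qt ha (nm ha))
  · exact (abel_qt_iff nm).mp ab.abel (commutator_mem_commutator ha hc)

end Cfsg.Agent.S1437
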