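import Cfsg.Statements.S1441
import Cfsg.Agent.Coprime.PGroup

set_option autoImplicit false
open Cfsg

namespace Cfsg.Agent.S1441

/-- Let G be a finite group, H a solvable subgroup and A a subgroup normalizing H. Suppose there is a chain H = H₀ ≥ H₁ ≥ ⋯ ≥ H_n = 1 of subgroups normal in H and normalized by A such that A acts trivially on each factor H_{i-1}/H_i (that is, [H_{i-1}, A] ≤ H_i). Then every prime dividing the index of C_A(H) in A divides the order of H. -/
theorem result {G : Type*} [Group G] [Finite G] (H A : Subgroup G) (hH : Group.IsSolvable H) (hA : (A ≤ Subgroup.normalizer (H : Set G)))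
    (n : ℕ) (c : Fin (n + 1) → Subgroup G) (hc0 : c 0 = H) (hcn : c (Fin.last n) = ⊥) (hanti : Antitone c)
    (hcN : ∀ i, H ≤ Subgroup.normalizer ((c i : Subgroup G) : Set G)) (hcA : ∀ i, A ≤ Subgroup.normalizer ((c i : Subgroup G) : Set G))
    (htriv : ∀ i : Fin n, ⁅c i.castSucc, A⁆ ≤ c i.succ) :
    ∀ p : ℕ, p.Prime → p ∣ (A ⊓ Subgroup.centralizer (H : Set G)).relIndex A → p ∣ Nat.card H := by
  intro p hp hd
  by_contra hpH
  have := Fact.mk hp
  obtain ⟨P, hPA, hP, hne⟩ := CF.Coprime.exists_isPGroup_not_le_of_dvd_relIndex hd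
  apply hne
  refine le_inf hPA ?_
  have hcop : (Nat.card P).Coprime (Nat.card H) :=
    (CF.Coprime.coprime_card_of_isPGroup hP ((Nat.Prime.coprime_iff_not_dvd hp).mpr hpH).symm).symm
  have key := CF.Coprime.le_centralizer_of_chain P
    (fun i => c ⟨min i n, Nat.lt_succ_of_le (min_le_right i n)⟩) n
    (fun i _ _ => CF.Coprime.coprime_of_le hcop le_rfl (hc0 ▸ hanti (Fin.zero_le _)))
    (by
      have : (⟨min n n, Nat.lt_succ_of_le (min_le_right n n)⟩ : Fin (n + 1)) = Fin.last n := by
        ext; simp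
      simp only [this, hcn]
      exact bot_le)
    (fun i hi => by
      have h1 : (⟨min i n, Nat.lt_succ_of_le (min_le_right i n)⟩ : Fin (n + 1)) =
          Fin.castSucc ⟨i, hi⟩ := by
        ext; simp [hi.le]
      have h2 : (⟨min (i + 1) n, Nat.lt_succ_of_le (min_le_right (i + 1) n)⟩ : Fin (n + 1)) =
          Fin.succ ⟨i, hi⟩ := by
        ext; simp; omega
      simp only [h1, h2]
      exact (Subgroup.commutator_mono le_rfl hPA).trans (htriv _))
  have h0 : (⟨min 0 n, Nat.lt_succ_of_le (min_le_right 0 n)⟩ : Fin (n + 1)) = 0 := by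
    ext; simp
  simpa only [h0, hc0] using key

end Cfsg.Agent.S1441
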