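import Cfsg.Statements.S1444
import Cfsg.Agent.BG.Sec3a

set_option autoImplicit false
open Cfsg

namespace Cfsg.Agent.S1444

open CF.BG CF.BG2 Subgroup
open scoped commutatorElement Pointwise

/-- Let G be a solvable group of odd order, H a normal subgroup of order coprime to its index, R a complement to H in G, and R₀ ≤ R a subgroup of prime order such that every Sylow subgroup of H ∩ C_G(R₀) is cyclic. Then for every prime p the commutator subgroup [H, R] satisfies [H,R] = O_{p',p,p'}([H,R]). -/
theorem result {G : Type*} [Group G] [Finite G] [Group.IsSolvable G] (hodd : Odd (Nat.card G)) (H R R₀ : Subgroup G) [H.Normal] (hHall : (Nat.card H).Coprime H.index)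
    (hR : Subgroup.IsComplement' H R) (hR₀ : R₀ ≤ R) (hR₀p : (Nat.card R₀).Prime) (hZ : IsZGroup ↥(H ⊓ Subgroup.centralizer (R₀ : Set G)))
    (p : ℕ) [Fact p.Prime] :
    Cfsg.PLengthLE p 1 ↥⁅H, R⁆ := by
  exact (pLengthLE_iff Fact.out).2 (pLen1_comm_of_zGrp le_normalizer_of_normal
    (by rw [← hR.symm.index_eq_card]; exact hHall.symm) inferInstance
    (hodd.of_dvd_nat (card_subgroup_dvd_card _)) hR₀ hR₀p hZ p)

end Cfsg.Agent.S1444
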