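import Cfsg.Statements.S1448
import Cfsg.Agent.BG2.P4c

set_option autoImplicit false
open Cfsg

namespace Cfsg.Agent.S1448

/-- Let G be a finite group, p an odd prime, R a nontrivial p-subgroup with no elementary abelian subgroup of order p ^ 3, and A a subgroup of odd order coprime to p normalizing R with [R, A] = R. Then 3 < p, and either R is abelian or R is generated by two elementwise-commuting subgroups R₁, R₂ with R₁ non-abelian of order p ^ 3 and exponent p, R₂ cyclic, and the elements of R₂ of order dividing p generating exactly [R₁, R₁]. -/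
theorem result {G : Type*} [Group G] [Finite G] (p : ℕ) [Fact p.Prime] (hp : p ≠ 2) (R A : Subgroup G) (hR : IsPGroup p R) (hR1 : R ≠ ⊥) (hr : Cfsg.PRankLE p 2 R)
    (hA : (A ≤ Subgroup.normalizer (R : Set G))) (hcop : (Nat.card A).Coprime p) (hAodd : Odd (Nat.card A)) (hRA : ⁅R, A⁆ = R) :
    3 < p ∧ (IsMulCommutative R ∨ ∃ R₁ R₂ : Subgroup G, R₁ ⊔ R₂ = R ∧ (∀ a ∈ R₁, ∀ b ∈ R₂, a * b = b * a) ∧
        ¬ IsMulCommutative R₁ ∧ Nat.card R₁ = p ^ 3 ∧ Monoid.exponent R₁ = p ∧ IsCyclic R₂ ∧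
        Subgroup.closure {x : G | x ∈ R₂ ∧ x ^ p = 1} = ⁅R₁, R₁⁆) := by
  have hpp : p.Prime := Fact.out
  have k := CF.BG.piGrp_of_isPGroup hpp hR
  obtain ⟨h1, h2⟩ := CF.BG2.blackburn hpp hp k hR1 ((CF.BG.pRankLE_iff hpp).1 hr) hA
    ((CF.BG.piNat_compl_single_iff_coprime hpp).2 hcop) hAodd hRA
  refine ⟨h1, h2.imp (fun a => a.comm) ?_⟩
  rintro ⟨a1, a2, a3, a4, a5, a6⟩
  refine ⟨_, _, a4, fun a ha b hb => hb.2 a ha, fun c => a1 (CF.BG.Abel.of_comm c), ?_, ?_, a5, a6⟩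
  · rw [(k.le (CF.BG.Om_le p R)).card_eq, a2]
  · have h3 : Monoid.exponent (Cfsg.omegaOne p R) ∣ p :=
      Monoid.exponent_dvd_of_forall_pow_eq_one fun g => Subtype.ext (a3 g g.2)
    refine (hpp.eq_one_or_self_of_dvd _ h3).resolve_left fun h => a1 ?_
    have := Monoid.exp_eq_one_iff.1 h
    exact CF.BG.abel_of_forall fun x hx y hy =>
      congrArg Subtype.val (Subsingleton.elim (⟨x, hx⟩ * ⟨y, hy⟩ : Cfsg.omegaOne p R)
        (⟨y, hy⟩ * ⟨x, hx⟩))

end Cfsg.Agent.S1448
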