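import Cfsg.Statements.S1451
import Cfsg.Agent.BG2.P4d

set_option autoImplicit false
open Cfsg

namespace Cfsg.Agent.S1451

/-- Let G be a solvable group of odd order such that G, or its Fitting subgroup, has no elementary abelian subgroup of order q ^ 3 for any prime q. Then G' is nilpotent; for every Sylow subgroup S of G, every characteristic subgroup T of S with T ≤ [S, S] is normal in G; and for every prime p, G has a characteristic subgroup that is a Hall subgroup for the set of primes greater than p. -/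
theorem result {G : Type*} [Group G] [Finite G] [Group.IsSolvable G] (hodd : Odd (Nat.card G)) (hr : Cfsg.RankLE 2 G ∨ Cfsg.RankLE 2 (Cfsg.fittingSubgroup G)) :
    Group.IsNilpotent ↥(commutator G) ∧
      (∀ (q : ℕ) [Fact q.Prime] (S : Sylow q G) (T : Subgroup ↥(S : Subgroup G)), T.Characteristic → T.map (S : Subgroup G).subtype ≤ ⁅(S : Subgroup G), (S : Subgroup G)⁆ →
        (T.map (S : Subgroup G).subtype).Normal) ∧
      ∀ p : ℕ, ∃ N : Subgroup G, N.Characteristic ∧ Cfsg.IsPiHall {q | q.Prime ∧ p < q} N := by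
  have o := CF.BG2.odd_top hodd
  have r : CF.BG.rank (Cfsg.fittingOf (⊤ : Subgroup G)) ≤ 2 := by
    rcases hr with h | h
    · refine (CF.BG.rank_mono le_top).trans (CF.BG.rank_le_iff.2 fun p hp => ?_)
      exact (CF.BG.pRankLE_top_iff hp).1 (h p hp)
    · rw [CF.BG.F_top]; exact CF.BG.rankLE_iff.1 h
  refine ⟨CF.BG2.nil_der_of_rank CF.BG2.sol_top o r, fun q _ S T _ hT => ?_, fun p => ?_⟩
  · exact CF.BG.normalIn_top.1 (CF.BG2.normal_of_le_der_syl
      (CF.BG2.der_le_F_of_rank CF.BG2.sol_top o r) (CF.BG.syl_sylow_top S) hT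
      (inf_le_right.trans (CF.Solv.normalizer_le_normalizer_map_subtype T)))
  · refine ⟨Cfsg.piCore {q | q.Prime ∧ p < q} G, inferInstance, ?_⟩
    rw [← CF.BG.O_top, ← CF.BG.hall_top_iff]
    refine CF.BG2.hall_O_of_rank CF.BG2.sol_top o r fun q t _ ht _ _ h1 h2 => ?_
    have : ¬ p < t := fun h => h2 ⟨ht, h⟩
    have := h1.2
    omega

end Cfsg.Agent.S1451
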