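import Cfsg.Statements.S1453
import Cfsg.Agent.BG2.P5
import Cfsg.Agent.Eqns.Mathlib1

set_option autoImplicit false
open Cfsg

namespace Cfsg.Agent.S1453

/-- Let p be an odd prime and R a finite p-group with an elementary abelian subgroup of order p ^ 3 and an elementary abelian subgroup E of order p ^ 2 contained in no larger elementary abelian subgroup. Let Z₂ be the second centre of R, W the subgroup generated by the elements of Z₂ of order dividing p, and T = C_R(W). Then E is not contained in T; the elements of order dividing p of the centre of R generate a group of order p; W is elementary abelian of order p ^ 2; and T is characteristic in R of index p. -/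
theorem result {R : Type*} [Group R] [Finite R] (p : ℕ) [Fact p.Prime] (hp : p ≠ 2) (hR : IsPGroup p R) (hr : ¬ Cfsg.PRankLE p 2 R)
    (E : Subgroup R) (hE : Cfsg.IsElementaryAbelian p E) (hE2 : Nat.card E = p ^ 2)
    (hEmax : ∀ B : Subgroup R, Cfsg.IsElementaryAbelian p B → E ≤ B → B = E) :
    ¬ E ≤ Subgroup.centralizer ((Subgroup.closure {x : R | x ∈ Subgroup.upperCentralSeries R 2 ∧ x ^ p = 1} : Subgroup R) : Set R) ∧
      Nat.card ↥(Subgroup.closure {x : R | x ∈ Subgroup.center R ∧ x ^ p = 1}) = p ∧
      (Cfsg.IsElementaryAbelian p (Subgroup.closure {x : R | x ∈ Subgroup.upperCentralSeries R 2 ∧ x ^ p = 1}) ∧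
        Nat.card ↥(Subgroup.closure {x : R | x ∈ Subgroup.upperCentralSeries R 2 ∧ x ^ p = 1}) = p ^ 2) ∧
      (Subgroup.centralizer ((Subgroup.closure {x : R | x ∈ Subgroup.upperCentralSeries R 2 ∧ x ^ p = 1} : Subgroup R) : Set R)).Characteristic ∧
      (Subgroup.centralizer ((Subgroup.closure {x : R | x ∈ Subgroup.upperCentralSeries R 2 ∧ x ^ p = 1} : Subgroup R) : Set R)).index = p := by
  have hpp : p.Prime := Fact.out
  rw [CF.BG.pRankLE_top_iff hpp] at hr
  have a := CF.BG.Abelem.of_isEA hpp hE
  obtain ⟨h1, h2, h3, h4⟩ := CF.BG2.narrow_structure hpp hp (CF.BG2.piGrp_top hpp hR) (by omega)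
    (CF.BG.elem_of_card hpp le_top a hE2) ⟨le_top, a, fun B _ b h => hEmax B b.isEA h⟩
  have e1 : CF.BG2.Z2 (⊤ : Subgroup R) = Subgroup.upperCentralSeries R 2 := by
    ext x
    rw [CF.BG2.mem_Z2, Subgroup.mem_upperCentralSeries_succ_iff, Subgroup.upperCentralSeries_one]
    simp [commutatorElement_def, Subgroup.centralizer_univ]
  have e2 : (⊤ : Subgroup R) ⊓ Subgroup.centralizer ((⊤ : Subgroup R) : Set R) =
      Subgroup.center R := by simp [Subgroup.centralizer_univ]
  rw [e1] at h1 h3 h4
  rw [e2] at h2
  have := CF.Solv.omegaOne_characteristic (p := p) (M := Subgroup.upperCentralSeries R 2)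
  refine ⟨h1, h2.card_one, ⟨h3.ab.isEA, h3.card⟩, ?_, ?_⟩
  · exact (inferInstance : (Subgroup.centralizer
      ((Cfsg.omegaOne p (Subgroup.upperCentralSeries R 2) : Subgroup R) : Set R)).Characteristic)
  · rw [← Subgroup.relIndex_top_right]; exact h4

end Cfsg.Agent.S1453
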