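import Cfsg.Statements.S1454
import Cfsg.Agent.BG2.P5

set_option autoImplicit false
open Cfsg

namespace Cfsg.Agent.S1454

/-- Let G be a finite group, p an odd prime, R a narrow p-subgroup and A a solvable subgroup of odd order normalizing R with A ∩ C_G(R) = 1. Then [A, A] ≤ O_p(A) and the index of O_p(A) in A is coprime to p; if R has an elementary abelian subgroup of order p ^ 3 then the order of every element of A of order coprime to p divides p − 1; and if the order of A is a prime not dividing p(p − 1), then 2·#A divides p + 1, and if in addition [R, A] = R and R is non-abelian then #R = p ^ 3. -/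
theorem result {G : Type*} [Group G] [Finite G] (p : ℕ) [Fact p.Prime] (hp : p ≠ 2) (R A : Subgroup G) (hR : IsPGroup p R) (hRn : Cfsg.IsNarrow p R)
    (hA : (A ≤ Subgroup.normalizer (R : Set G))) (hAs : Group.IsSolvable A) (hAodd : Odd (Nat.card A)) (hfaith : A ⊓ Subgroup.centralizer (R : Set G) = ⊥) :
    (commutator ↥A ≤ Cfsg.pCore p ↥A ∧ ((Cfsg.pCore p ↥A).index).Coprime p) ∧
      (¬ Cfsg.PRankLE p 2 R → ∀ a ∈ A, (orderOf a).Coprime p → orderOf a ∣ p - 1) ∧
      ((Nat.card A).Prime → ¬ Nat.card A ∣ p * (p - 1) →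
        2 * Nat.card A ∣ p + 1 ∧ (⁅R, A⁆ = R → ¬ IsMulCommutative R → Nat.card R = p ^ 3)) := by
  have hpp : p.Prime := Fact.out
  have k := CF.BG.piGrp_of_isPGroup hpp hR
  have h := (CF.BG2.isNarrow_iff hpp hp k).1 hRn
  refine ⟨?_, fun r a ha c => ?_, fun hq d => ?_⟩
  · have h1 := h.piNat_relIndex_cent_der hpp hp k hA hAodd
    rw [CF.BG.relIndex_of_inf_bot (CF.BG.eq_bot_mono hfaith
      (le_inf (inf_le_right.trans (CF.BG.der_le A)) inf_le_left))] at h1
    have h2 := CF.BG2.der_le_O_of_pi h1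
    have h3 := CF.BG2.pi'_relIndex_O_of_der_le h2
    rw [← CF.BG.map_pCore hpp] at h2 h3
    rw [← Subgroup.map_subtype_commutator,
      Subgroup.map_le_map_iff_of_injective A.subtype_injective] at h2
    refine ⟨h2, (CF.BG.piNat_compl_single_iff_coprime hpp).1 ?_⟩
    rwa [Subgroup.relIndex, Subgroup.subgroupOf,
      Subgroup.comap_map_eq_self_of_injective A.subtype_injective] at h3
  · have h1 := h.pow_pred_mem_cent hpp hp k ((CF.BG.not_pRankLE_iff hpp).1 r) (hA ha)
      ((CF.BG.piNat_compl_single_iff_coprime hpp).2 c)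
    exact orderOf_dvd_of_pow_eq_one (CF.BG.eq_one_of_mem_bot hfaith ⟨A.pow_mem ha _, h1⟩)
  · obtain ⟨-, h2, h3⟩ := h.prime_action hpp hp k (q := Nat.card A) (Q := A)
      (fun e => d (e ▸ dvd_mul_right _ _)) (CF.BG.ne_two_of_odd hAodd dvd_rfl)
      (fun e => d (e.mul_left _)) (CF.BG.piGrp_of_card_prime hq rfl) hA
      (fun c => CF.BG.ne_bot_of_prime_card hq ((inf_eq_left.2 c).symm.trans hfaith))
    exact ⟨h2, fun e na => by rw [k.card_eq, h3 e fun c => na c.comm]⟩

end Cfsg.Agent.S1454
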