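import Cfsg.Statements.S1459
import Cfsg.Agent.BG.Sec6

set_option autoImplicit false
open Cfsg

namespace Cfsg.Agent.S1459
open CF.BG Subgroup
open scoped commutatorElement Pointwise

/-- Let G be a finite solvable group. (a) If H is a normal subgroup of order coprime to its index, K is a complement to H, and H ≤ G', then H = [H, K] and H ∩ C_G(K) ≤ [H, H]. (b) If G' is nilpotent and has prime index in G, then the order of G' is coprime to its index and G' = [G, K] (the subgroup generated by commutators of elements of G with elements of K) for every complement K of G'. -/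
theorem result {G : Type*} [Group G] [Finite G] [Group.IsSolvable G] :
    (∀ (H K : Subgroup G), H.Normal → (Nat.card H).Coprime H.index → Subgroup.IsComplement' H K → H ≤ commutator G →
        H = ⁅H, K⁆ ∧ H ⊓ Subgroup.centralizer (K : Set G) ≤ ⁅H, H⁆) ∧
      (Group.IsNilpotent ↥(commutator G) → (commutator G).index.Prime →
        (Nat.card ↥(commutator G)).Coprime (commutator G).index ∧
        ∀ K : Subgroup G, Subgroup.IsComplement' (commutator G) K → commutator G = ⁅(⊤ : Subgroup G), K⁆) := by
  have s : Sol (⊤ : Subgroup G) := inferInstance
  refine ⟨fun H K n c k d => ?_, fun n hp => ?_⟩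
  · have sd := SDProd.of_isComplement' k
    rw [← relIndex_top_right, sd.relIndex_left] at c
    have := sd.comm_eq_of_le_der c (s.mono le_top) d
    exact ⟨this.1.symm, this.2⟩
  · rw [← relIndex_top_right] at hp ⊢
    have c := coprime_der_of_prime (M := (⊤ : Subgroup G)) n hp
    refine ⟨c, fun K k => ?_⟩
    have sd := SDProd.of_isComplement' k
    have c' := c
    rw [show ⁅(⊤ : Subgroup G), ⊤⁆ = commutator G from rfl, sd.relIndex_left] at c'
    have := (sd.comm_eq_of_le_der c' (s.mono le_top) le_rfl).1
    exact le_antisymm (this.ge.trans (commutator_mono le_top le_rfl)) (commutator_mono le_rfl le_top)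

end Cfsg.Agent.S1459
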