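import Cfsg.Statements.S1460
import Cfsg.Agent.Coprime.Misc

set_option autoImplicit false
open Cfsg

namespace Cfsg.Agent.S1460

/-- Let G be a finite solvable group, K a normal subgroup and U a subgroup with G = KU, and H ≤ U a subgroup whose order is coprime to that of K. Then H ∩ G' = H ∩ U'; N_G(H) is generated by K ∩ C_G(H) and U ∩ N_G(H); and if gHg⁻¹ ≤ U for some g ∈ G then g = u c with u ∈ U and c ∈ K ∩ C_G(H). -/
theorem result {G : Type*} [Group G] [Finite G] [Group.IsSolvable G] (K U H : Subgroup G) [K.Normal] (hKU : K ⊔ U = ⊤) (hH : H ≤ U) (hcop : (Nat.card H).Coprime (Nat.card K)) :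
    H ⊓ commutator G = H ⊓ ⁅U, U⁆ ∧
      Subgroup.normalizer (H : Set G) = (K ⊓ Subgroup.centralizer (H : Set G)) ⊔ (U ⊓ Subgroup.normalizer (H : Set G)) ∧
      ∀ g : G, H.map (MulAut.conj g).toMonoidHom ≤ U → ∃ u ∈ U, ∃ c ∈ K ⊓ Subgroup.centralizer (H : Set G), g = u * c := by
  have h3 : ∀ g : G, H.map (MulAut.conj g).toMonoidHom ≤ U →
      ∃ u ∈ U, ∃ c ∈ K ⊓ Subgroup.centralizer (H : Set G), g = u * c := by
    intro g hg
    have h1 : g ∈ U ⊔ K := by rw [sup_comm, hKU]; trivial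
    obtain ⟨u, hu, k, hk, rfl⟩ :=
      (CF.Solv.mem_sup_of_le_normalizer Subgroup.le_normalizer_of_normal).mp h1
    obtain ⟨w, hw, h2⟩ := CF.Coprime.exists_mul_mem_centralizer H (K ⊓ U)
      (CF.Coprime.le_normalizer_inf Subgroup.le_normalizer_of_normal
        (hH.trans Subgroup.le_normalizer)) (CF.Coprime.coprime_of_le hcop le_rfl inf_le_left)
      (Or.inl inferInstance) k (fun a ha => ⟨K.mul_mem
        (Subgroup.Normal.conj_mem inferInstance k hk a) (K.inv_mem hk), by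
        have h3 : u * k * a⁻¹ * (u * k)⁻¹ ∈ U := hg ⟨a⁻¹, H.inv_mem ha, rfl⟩
        have h4 := U.mul_mem (hH ha) (U.mul_mem (U.mul_mem (U.inv_mem hu) h3) hu)
        simpa [mul_assoc] using h4⟩)
    exact ⟨u * w⁻¹, U.mul_mem hu (U.inv_mem hw.2), w * k, ⟨K.mul_mem hw.1 hk, h2⟩, by group⟩
  refine ⟨le_antisymm (fun x hx => ⟨hx.1, ?aa⟩)
    (inf_le_inf_left _ (Subgroup.commutator_mono le_top le_top)), le_antisymm (fun g hg => ?bb)
    (sup_le (inf_le_right.trans (Subgroup.centralizer_le_normalizer _)) inf_le_right), h3⟩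
  case aa =>
    have h1 : commutator G ≤ ⁅U, U⁆ ⊔ K := by
      rw [← CF.Solv.map_mk'_le_map_mk'_iff, Subgroup.map_commutator, commutator_def,
        Subgroup.map_commutator]
      have : (⊤ : Subgroup G).map (QuotientGroup.mk' K) ≤ U.map (QuotientGroup.mk' K) := by
        rw [CF.Solv.map_mk'_le_map_mk'_iff, sup_comm, hKU]
      exact Subgroup.commutator_mono this this
    obtain ⟨u, hu, k, hk, h2⟩ :=
      (CF.Solv.mem_sup_of_le_normalizer Subgroup.le_normalizer_of_normal).mp (h1 hx.2)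
    rw [← Subgroup.map_subtype_commutator] at hu ⊢
    obtain ⟨u, hu, rfl⟩ := hu
    have hkU : k ∈ U := by
      have := U.mul_mem (U.inv_mem u.2) (hH hx.1)
      rw [← h2] at this
      simpa using this
    refine ⟨⟨x, hH hx.1⟩, ?_, rfl⟩
    have h4 : Abelianization.of (⟨x, hH hx.1⟩ : U) = Abelianization.of (⟨k, hkU⟩ : U) := by
      have : (⟨x, hH hx.1⟩ : U) = u * ⟨k, hkU⟩ := Subtype.ext h2.symm
      rw [this, map_mul, show Abelianization.of u = 1 from by
        rw [← MonoidHom.mem_ker, Abelianization.ker_of]; exact hu, one_mul]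
    have h5 : orderOf (Abelianization.of (⟨x, hH hx.1⟩ : U)) = 1 := by
      refine Nat.eq_one_of_dvd_coprimes hcop ((orderOf_map_dvd _ _).trans ?_) ?_
      · rw [← Subgroup.orderOf_coe]; exact H.orderOf_dvd_natCard hx.1
      · rw [h4]
        refine (orderOf_map_dvd _ _).trans ?_
        rw [← Subgroup.orderOf_coe]; exact K.orderOf_dvd_natCard hk
    rw [orderOf_eq_one_iff, ← MonoidHom.mem_ker, Abelianization.ker_of] at h5
    exact h5
  case bb =>
    obtain ⟨u, hu, c, hc, rfl⟩ := h3 g (by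
      rw [← CF.Solv.conj_smul_eq_map, CF.Solv.conj_smul_eq_iff.mpr hg]; exact hH)
    refine mul_mem ((le_sup_right : _ ≤ _ ⊔ U ⊓ _) ⟨hu, ?_⟩) ((le_sup_left : _ ≤ _ ⊔ U ⊓ _) hc)
    have := mul_mem hg (inv_mem (Subgroup.centralizer_le_normalizer _ hc.2))
    simpa using this

end Cfsg.Agent.S1460
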