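import Cfsg.Statements.S1463
import Cfsg.Agent.BG2.GL2

set_option autoImplicit false
open scoped MatrixGroups
open Cfsg

namespace Cfsg.Agent.S1463

/-- Let F be a field of odd characteristic p and H a finite subgroup of odd order of GL(2, F) that leaves no 1-dimensional subspace of F² invariant. Then p does not divide the order of H. -/
theorem result {F : Type*} [Field F] (p : ℕ) [Fact p.Prime] [CharP F p] (hp : p ≠ 2)
    (H : Subgroup (GL (Fin 2) F)) [Finite H] (hodd : Odd (Nat.card H))
    (hirr : ∀ v : Fin 2 → F, v ≠ 0 → ∃ g ∈ H, (g : Matrix (Fin 2) (Fin 2) F).mulVec v ∉ Submodule.span F {v}) :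
    ¬ p ∣ Nat.card H := by
  intro hdvd
  obtain ⟨g, hg⟩ := exists_prime_orderOf_dvd_card' p hdvd
  let f : H →* Matrix (Fin 2) (Fin 2) F := (Units.coeHom _).comp H.subtype
  have hf : Function.Injective f := Units.val_injective.comp H.subtype_injective
  have hg1 : f g ≠ 1 := by
    intro h
    rw [← map_one f] at h
    rw [hf h, orderOf_one] at hg
    exact (Fact.out : p.Prime).one_lt.ne hg
  obtain ⟨v, hv, h⟩ := CF.BG2.exists_common_eigenvector_of_unipotent hodd f (Fact.out : p.Prime)
    (CharP.cast_eq_zero F p) (g := g) (m := 1)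
    (by rw [pow_one, ← map_pow, ← hg, pow_orderOf_eq_one, map_one]) hg1
  obtain ⟨x, hx, hxv⟩ := hirr v hv
  have : (⟨x, hx⟩ : H) ∈ CF.BG2.eigenStab f v hv := h ▸ Subgroup.mem_top _
  obtain ⟨c, hc⟩ := this
  exact hxv (Submodule.mem_span_singleton.2 ⟨c, hc.symm⟩)

end Cfsg.Agent.S1463
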