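import Cfsg.Statements.S1474
import Cfsg.Agent.SolvStr.CN

set_option autoImplicit false
open Cfsg

namespace Cfsg.Agent.S1474

/-- Let G be a finite group in which every non-identity element has nilpotent centralizer, not itself nilpotent, and having a nontrivial normal Sylow p-subgroup for some prime p. Let H be the largest normal nilpotent Hall subgroup of G. Then H is a nontrivial proper normal subgroup with a complement E that is a Frobenius complement in G (no non-identity element of E centralizes a non-identity element of H), and G/H is nilpotent. -/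
theorem result {G : Type*} [Group G] [Finite G] (hCN : Cfsg.IsCNGroup G) (hnn : ¬ Group.IsNilpotent G) (p : ℕ) [Fact p.Prime] (P : Sylow p G)
    (hP1 : (P : Subgroup G) ≠ ⊥) (hPn : (P : Subgroup G).Normal) :
    Cfsg.fittingHall G ≠ ⊥ ∧ Cfsg.fittingHall G ≠ ⊤ ∧
      (∃ E : Subgroup G, Subgroup.IsComplement' (Cfsg.fittingHall G) E ∧ Cfsg.IsFrobeniusComplement E ∧
        ∀ e ∈ E, e ≠ 1 → Cfsg.fittingHall G ⊓ Subgroup.centralizer ({e} : Set G) = ⊥) ∧
      Group.IsNilpotent (G ⧸ Cfsg.fittingHall G) := by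
  open CF.BG in
  have nn : ¬ Nil (⊤ : Subgroup G) := fun h => hnn (Group.nilpotent_of_mulEquiv Subgroup.topEquiv)
  have h1 : 𝐅ₕ (⊤ : Subgroup G) ≠ ⊥ :=
    ne_bot_mono hP1 ((syl_sylow_top P).syl_le_Fh (normalIn_top.2 hPn).norm)
  obtain ⟨E, hE, r, E1, nE, fE⟩ := CF.SolvStr.cn_frob hCN nn h1
  have h2 : 𝐅ₕ (⊤ : Subgroup G) ≠ ⊤ := fun h => nn (h ▸ Fh_nil _)
  rw [Fh_top] at hE r h1 h2
  refine ⟨h1, h2, ⟨E, hE.isComplement', fE, r⟩, ?_⟩
  exact Group.nilpotent_of_mulEquiv hE.isComplement'.symm.QuotientMulEquiv.symm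

end Cfsg.Agent.S1474
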