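import Cfsg.Statements.S1475
import Cfsg.Agent.SolvStr.CN

set_option autoImplicit false
open Cfsg

namespace Cfsg.Agent.S1475

/-- Let G be a finite solvable group such that the order of every element is a prime power (1 included). Then at most two distinct primes divide the order of G. -/
theorem result {G : Type*} [Group G] [Finite G] [Group.IsSolvable G] (h : ∀ g : G, IsPrimePow (orderOf g) ∨ g = 1) :
    (Nat.card G).primeFactors.card ≤ 2 := by
  open CF.BG in
  have key : ∀ x y : G, x * y = y * x → (orderOf x).Coprime (orderOf y) → x = 1 ∨ y = 1 := by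
    intro x y e c
    have o := Commute.orderOf_mul_eq_mul_orderOf_of_coprime (show Commute x y from e) c
    have hx := orderOf_pos x
    have hy := orderOf_pos y
    rcases h (x * y) with pp | e1
    · rcases (c.isPrimePow_dvd_mul pp).1 (o ▸ dvd_rfl) with d | d
      · right
        rw [o] at d
        have := Nat.le_of_dvd hx d
        exact orderOf_eq_one_iff.1 (by nlinarith)
      · left
        rw [o] at d
        have := Nat.le_of_dvd hy d
        exact orderOf_eq_one_iff.1 (by nlinarith)
    · rw [e1, orderOf_one] at o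
      exact Or.inl (orderOf_eq_one_iff.1 (Nat.eq_one_of_mul_eq_one_right o.symm))
  have s : Sol (⊤ : Subgroup G) := inferInstance
  have fin : ∀ p q : ℕ, PiGrp {p, q} (⊤ : Subgroup G) → (Nat.card G).primeFactors.card ≤ 2 := by
    intro p q hpq
    refine (Finset.card_le_card (t := {p, q}) fun r hr => ?_).trans Finset.card_le_two
    have := hpq r (Nat.prime_of_mem_primeFactors hr)
      (card_top' (G := G) ▸ Nat.dvd_of_mem_primeFactors hr)
    simpa using this
  by_cases h1 : (⊤ : Subgroup G) = ⊥
  · exact fin 2 2 (h1 ▸ piGrp_bot _)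
  obtain ⟨p, hp, K1⟩ := s.exists_O_ne_bot h1
  obtain ⟨H, hH⟩ := s.exists_hall {p}ᶜ
  have r : Reg (𝐎 {p} (⊤ : Subgroup G)) H := reg_of_forall fun x hx x1 y hy e =>
    (key x y e ((hH.pi.elt hx).coprime' ((O_pi _ _).elt hy))).resolve_left x1
  have fin2 : ∀ q, PiGrp {q} H → (Nat.card G).primeFactors.card ≤ 2 := fun q hq =>
    fin p q ((hq.mono (by simp)).of_relIndex (hH.idx.of_compl_compl.mono (by simp)))
  by_cases H1 : H = ⊥
  · exact fin2 p (H1 ▸ piGrp_bot _)
  obtain ⟨z, hz, z1, hc⟩ := CF.SolvStr.reg_exists_center r (le_top.trans (O_normal _ _).norm) K1 H1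
  obtain ⟨q, hq, w, hw, ho⟩ := CF.SolvStr.exists_prime_pow_elt z1
  have w1 : w ≠ 1 := by rintro rfl; exact hq.one_lt.ne (by simpa using ho)
  refine fin2 q fun t ht hd => by_contra fun tq => ?_
  obtain ⟨y, hy, ho'⟩ := exists_mem_orderOf_eq ht hd
  have y1 : y ≠ 1 := by rintro rfl; exact ht.one_lt.ne (by simpa using ho')
  rcases key y w (mem_cent1.1 (CF.SolvStr.cent1_le_of_mem_zpowers hw (hc hy)))
    (by rw [ho, ho']; exact (Nat.coprime_primes ht hq).2 tq) with e | e
  · exact y1 e
  · exact w1 e

end Cfsg.Agent.S1475
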