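import Cfsg.Statements.S1477
import Cfsg.Agent.SolvStr.CN

set_option autoImplicit false
open Cfsg

namespace Cfsg.Agent.S1477

/-- Let G be a finite group in which every non-identity element has nilpotent centralizer, and H a nilpotent subgroup not properly contained in any nilpotent subgroup. Then the order of H is coprime to its index; if the order of H is not a prime power then H ∩ gHg⁻¹ = 1 whenever gHg⁻¹ ≠ H; and if H ∩ gHg⁻¹ = 1 whenever gHg⁻¹ ≠ H, then C_G(x) ≤ H for every non-identity x ∈ H. -/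
theorem result {G : Type*} [Group G] [Finite G] (hCN : Cfsg.IsCNGroup G) (H : Subgroup G) (hH : Group.IsNilpotent H)
    (hmax : ∀ L : Subgroup G, Group.IsNilpotent L → H ≤ L → L = H) :
    (Nat.card H).Coprime H.index ∧
      (¬ IsPrimePow (Nat.card H) → Nat.card H ≠ 1 → ∀ g : G, H.map (MulAut.conj g).toMonoidHom ≠ H → H ⊓ H.map (MulAut.conj g).toMonoidHom = ⊥) ∧
      ((∀ g : G, H.map (MulAut.conj g).toMonoidHom ≠ H → H ⊓ H.map (MulAut.conj g).toMonoidHom = ⊥) → ∀ x ∈ H, x ≠ 1 → Subgroup.centralizer ({x} : Set G) ≤ H) := by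
  open CF.BG in
  refine ⟨?_, fun np h1 g hg => by_contra fun i => hg ?_, fun ti x hx x1 => ?_⟩
  · have := (CF.SolvStr.cn_hall hCN hH hmax).coprime
    rwa [Subgroup.relIndex_top_right] at this
  · have nH : ∀ p, ¬ PiGrp {p} H := by
      intro p hp
      have H1 : H ≠ ⊥ := fun h => h1 (card_eq_one'.2 h)
      obtain ⟨k, hk⟩ := hp.card_pow
      refine np (hk ▸ (hp.prime H1).isPrimePow.pow ?_)
      rintro rfl
      exact h1 (by simpa using hk)
    have := CF.SolvStr.cn_le_of_inf hCN (H := cj g H) (nil_cj.2 hH) hH hmax (fun p h => nH p (piGrp_cj.1 h)) nH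
      (by rw [inf_comm]; exact i)
    exact eq_of_card_eq this (card_cj _ _)
  · refine CF.SolvStr.cn_cent1_le hCN hH hmax hx x1 fun c hc => cj_eq_self.1 ?_
    by_contra ne
    refine x1 (eq_one_of_mem_bot (ti c ne) ⟨hx, ?_⟩)
    change x ∈ cj c H
    rw [mem_cj, mul_assoc, ← mem_cent1.1 hc]
    simpa using hx

end Cfsg.Agent.S1477
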