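import Cfsg.Statements.S1480
import Cfsg.Agent.SolvStr.Trans

set_option autoImplicit false
open Cfsg

namespace Cfsg.Agent.S1480

/-- Let G be a finite group and p a prime such that the normalizer of every nontrivial p-subgroup of G is p-constrained; if p = 2 assume also that the Sylow 2-subgroups of G have nilpotency class at most 2. Let E be an abelian p-subgroup containing an elementary abelian subgroup of order p ^ 3 and containing every element of p-power order of C_G(E). Then for every prime q ≠ p, any two maximal E-invariant q-subgroups of G are conjugate by an element of O_{p'}(C_G(E)). -/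
theorem result {G : Type*} [Group G] [Finite G] (p : ℕ) [Fact p.Prime]
    (hloc : ∀ T : Subgroup G, IsPGroup p T → T ≠ ⊥ → Cfsg.IsPConstrained p ↥(Subgroup.normalizer (T : Set G)))
    (h2 : p = 2 → ∀ S : Sylow p G, Group.IsNilpotent (S : Subgroup G) ∧ Group.nilpotencyClass (S : Subgroup G) ≤ 2)
    (E : Subgroup G) (hEp : IsPGroup p E) (hEc : IsMulCommutative E) (hE3 : ¬ Cfsg.PRankLE p 2 E)
    (hEfull : ∀ x ∈ Subgroup.centralizer (E : Set G), IsPGroup p (Subgroup.zpowers x) → x ∈ E)
    (q : ℕ) [Fact q.Prime] (hqp : q ≠ p) :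
    ∀ Q₁ ∈ Cfsg.maxInvSubgroups ⊤ E {q}, ∀ Q₂ ∈ Cfsg.maxInvSubgroups ⊤ E {q},
        ∃ k ∈ Cfsg.piCoreOf (Cfsg.primesNotDvd p) (Subgroup.centralizer (E : Set G)), Q₂ = Q₁.map (MulAut.conj k).toMonoidHom := by
  open CF.BG CF.Sig in
  have hp : p.Prime := Fact.out
  have e : piOf p = {p} := Set.ext fun r =>
    ⟨fun h => (Nat.prime_dvd_prime_iff_eq h.1 hp).1 h.2, fun h => by
      obtain rfl : r = p := h
      exact ⟨hp, dvd_rfl⟩⟩
  rw [← transOn_iff, O_primesNotDvd, e]
  refine CF.SolvStr.transitivity hp (fun u u1 pu => ?_) (fun h S hS => ?_)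
    (piGrp_of_isPGroup hp hEp) (Abel.of_comm hEc) ((not_pRankLE_iff hp).1 hE3)
    (fun x hx px => hEfull x hx px.zpowers.isPGroup) hqp
  · exact PLay_eq_bot_iff'.2 (isPConstrained_iff_pLayer_eq_bot.1
      (hloc _ pu.zpowers.isPGroup (by simpa using u1)))
  · obtain ⟨P, hP⟩ := hS.isPGroup.exists_le_sylow
    obtain ⟨h1, h3⟩ := h2 h P
    have := Subgroup.lowerCentralSeries_eq_bot_of_nilpotencyClass_le h3
    exact cent_mono (comm_eq_bot.1 this) (der_mono hP) hP

end Cfsg.Agent.S1480
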