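import Cfsg.Statements.S1481
import Cfsg.Agent.BG.Sec8

set_option autoImplicit false
open Cfsg

namespace Cfsg.Agent.S1481

/-- Let G be a finite group and H a local subgroup (the normalizer of a nontrivial subgroup of prime-power order) not properly contained in any local subgroup; let F = F(H), suppose at least two primes divide #F, put X = H ∩ C_G(F), let M ≤ F with F ∩ C_G(M) ≤ M, and let R be a solvable subgroup normalized by M and by X. Then for every prime q not dividing #F there is exactly one maximal M-invariant q-subgroup of R, and it is a Sylow q-subgroup of the largest normal subgroup of R of order coprime to #F. -/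
theorem result {G : Type*} [Group G] [Finite G] (H : Subgroup G) (hH : Cfsg.IsLocalSubgroup H) (hHmax : ∀ L : Subgroup G, Cfsg.IsLocalSubgroup L → H ≤ L → L = H)
    (hF2 : 2 ≤ (Nat.card (Cfsg.fittingOf H)).primeFactors.card)
    (M : Subgroup G) (hM : M ≤ Cfsg.fittingOf H) (hCM : Cfsg.fittingOf H ⊓ Subgroup.centralizer (M : Set G) ≤ M)
    (R : Subgroup G) (hR : Group.IsSolvable R) (hMR : M ≤ Subgroup.normalizer (R : Set G))
    (hXR : H ⊓ Subgroup.centralizer (Cfsg.fittingOf H : Set G) ≤ Subgroup.normalizer (R : Set G))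
    (q : ℕ) [Fact q.Prime] (hq : ¬ q ∣ Nat.card (Cfsg.fittingOf H)) :
    ∃! Q : Subgroup G, Q ∈ Cfsg.maxInvSubgroups R M {q} ∧
      (∀ Q' : Subgroup G, Q' ∈ Cfsg.maxInvSubgroups R M {q} →
        Q' ≤ Cfsg.piCoreOf (Cfsg.primesNotDvd (Nat.card (Cfsg.fittingOf H))) R ∧
        ¬ q ∣ Q'.relIndex (Cfsg.piCoreOf (Cfsg.primesNotDvd (Nat.card (Cfsg.fittingOf H))) R)) := by
  open CF.BG Subgroup in
  classical
  obtain ⟨p, hp, p', hp', pq⟩ := Finset.one_lt_card.1 hF2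
  have d : p ∈ piOf (♯(𝐅 H)) := ⟨Nat.prime_of_mem_primeFactors hp, Nat.dvd_of_mem_primeFactors hp⟩
  have f : ¬ PiGrp {p} (𝐅 H) := fun h =>
    pq (h p' (Nat.prime_of_mem_primeFactors hp') (Nat.dvd_of_mem_primeFactors hp')).symm
  have z : 𝐙 (𝐅 H) ≤ M := (inf_le_inf_left _ (cent_anti hM)).trans hCM
  have nZ : 𝐙 (𝐅 H) ⊴ H := (F_normal H).char inf_le_left (norm_center _)
  have OZ : ∀ r ∈ piOf (♯(𝐅 H)), 𝐍 (𝐎 {r} (𝐙 (𝐅 H))) = H := fun r hr =>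
    hHmax _ ⟨r, _, hr.1, (O_pi _ _).isPGroup, (F_nil H).O_center_ne_bot hr.1 hr.2, rfl⟩
      (nZ.O {r}).norm
  have nX : H ⊓ 𝐂 (𝐅 H) ⊴ H := normalIn_inf_cent (F_normal H).norm
  have XR : (H ⊓ 𝐂 (𝐅 H)) ⊓ R ≤ 𝐅 H := by
    have n1 : (H ⊓ 𝐂 (𝐅 H)) ⊓ R ⊴ H ⊓ 𝐂 (𝐅 H) := normalIn_inf_left hXR
    have h1 : 𝐅 ((H ⊓ 𝐂 (𝐅 H)) ⊓ R) ≤ 𝐅 H := (F_le_F_of_normal n1).trans (F_le_F_of_normal nX)
    refine le_trans (le_inf le_rfl ?_) ((Sol.mono hR inf_le_right).cent_F_le.trans h1)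
    exact (inf_le_left.trans inf_le_right).trans (cent_anti h1)
  have c0 : ∀ Y, Y ≤ R → PiGrp (piOf (♯(𝐅 H)))ᶜ Y → M ≤ 𝐍 Y → ∀ r ∈ piOf (♯(𝐅 H)),
      Y ⊓ 𝐂 (𝐎 {r} (𝐙 (𝐅 H))) = ⊥ := by
    intro Y hY y n r hr
    have yH : Y ⊓ 𝐂 (𝐎 {r} (𝐙 (𝐅 H))) ≤ H :=
      inf_le_right.trans ((cent_le_norm _).trans (OZ r hr).le)
    have cM : Y ⊓ 𝐂 (𝐎 {r} (𝐙 (𝐅 H))) ≤ 𝐂 M := by
      refine comm_eq_bot.mp (eq_bot_mono (y.inf_eq_bot' (piGrp_piOf _)) (le_inf ?_ ?_))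
      · exact (commutator_mono inf_le_left le_rfl).trans (comm_le_left n)
      · exact (commutator_mono le_rfl hM).trans (comm_le_right (yH.trans (F_normal H).norm))
    have := (F_nil H).cent_of_cent_cent (yH.trans (F_normal H).norm)
      (y.inf_left.coprime' (piGrp_piOf _)) hM (cent_symm cM) (hCM.trans (cent_symm cM))
    exact ((piGrp_piOf _).le ((le_inf (le_inf yH this) (inf_le_left.trans hY)).trans XR)).eq_bot
      y.inf_left
  have sL : Sol (M ⊔ R) := Sol.sup (nil_of_le_F hM).sol hR hMR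
  have key : ∀ Y, Y ≤ R → PiGrp (piOf (♯(𝐅 H)))ᶜ Y → M ≤ 𝐍 Y → Y ≤ 𝐎 (piOf (♯(𝐅 H)))ᶜ R := by
    intro Y hY y n
    refine le_O_compl_of_forall hY fun s hs k => ?_
    obtain ⟨r, hr, rq⟩ := exists_prime_ne f d s
    have zA := (O_le {r} _).trans z
    have h1 : 𝐎 {r} (𝐙 (𝐅 H)) ≤ 𝐎 {s}ᶜ (M ⊔ R) := by
      refine sL.le_O_of_norm (((O_le {s} _).trans z).trans le_sup_left) (O_pi _ _)
        (zA.trans le_sup_left) ?_
      rw [OZ s k]
      exact le_O (nZ.O {r}) ((O_pi _ _).of_single_ne rq)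
    rw [← O_inf_normal (normalIn_sup_right hMR)]
    refine le_inf ?_ hY
    rw [← comm_sup_inf_cent (zA.trans n) (((piGrp_piOf _).le (zA.trans hM)).coprime y)
      (Or.inl (O_pi _ _).sol), c0 Y hY y n r hr, sup_bot_eq]
    exact (commutator_mono le_rfl h1).trans
      (comm_le_right ((hY.trans le_sup_right).trans (O_normal _ _).norm))
  rw [O_primesNotDvd]
  set K := 𝐎 (piOf (♯(𝐅 H)))ᶜ R with hK
  have nK : M ≤ 𝐍 K := le_norm_O _ hMR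
  have co : (♯M).Coprime (♯K) := ((piGrp_piOf _).le hM).coprime (O_pi _ _)
  have sM : Sol M ∨ Sol K := Or.inl (nil_of_le_F hM).sol
  have hq' : q ∉ piOf (♯(𝐅 H)) := fun h => hq h.2
  have syl : ∀ Q ∈ Cfsg.maxInvSubgroups R M {q}, Syl q Q K ∧ M ≤ 𝐍 Q := by
    rintro Q ⟨⟨a, b, c⟩, m⟩
    obtain ⟨P, hP, nP, QP⟩ := exists_syl_inv_le nK co sM (key Q a (PiGrp.of_single' b hq') c) b c
    rw [← m P ⟨hP.le.trans (O_le _ _), hP.pi, nP⟩ QP]
    exact ⟨hP, nP⟩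
  obtain ⟨P, hP, nP⟩ := exists_syl_inv nK co sM q
  have mP : P ∈ Cfsg.maxInvSubgroups R M {q} := ⟨⟨hP.le.trans (O_le _ _), hP.pi, nP⟩,
    fun Q ⟨a, b, c⟩ l => (hP.eq_of_le l (key Q a (PiGrp.of_single' b hq') c) b).symm⟩
  refine ⟨P, ⟨mP, fun Q hQ => ⟨(syl Q hQ).1.le, (syl Q hQ).1.not_dvd Fact.out⟩⟩, fun Q hQ => ?_⟩
  obtain ⟨g, hg, e⟩ := hP.syl_conj_inv (syl Q hQ.1).1 nK co sM nP (syl Q hQ.1).2
  have : g = 1 := eq_one_of_mem_bot (c0 K (O_le _ _) (O_pi _ _) nK p d)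
    ⟨hg.1, cent_anti ((O_le _ _).trans z) hg.2⟩
  rw [e, this, cj_one]

end Cfsg.Agent.S1481
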