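import Cfsg.Statements.S1485
import Cfsg.Agent.PF.Sec1

set_option autoImplicit false
open Cfsg

namespace Cfsg.Agent.S1485

open CF.PF
open scoped ComplexConjugate

/-- Let H be a normal subgroup of the finite group G and θ an irreducible character of H. On H, the function induced from θ equals r times the sum of the distinct G-conjugates of θ, where r is the number of elements of G fixing θ under conjugation divided by the order of H (the index of H in the inertia group). -/
theorem result {G : Type*} [Group G] [Fintype G] (H : Subgroup G) [hN : H.Normal] (θ : H → ℂ) (hθ : Cfsg.IsIrrCharacter H θ) : (fun h : H => Cfsg.indFun H θ h) = ((Nat.card {g : G // ∀ h : H, θ ⟨g * h * g⁻¹, hN.conj_mem h h.2 g⟩ = θ h} : ℂ) / (Nat.card H : ℂ)) • ∑ᶠ ψ ∈ {ψ : H → ℂ | ∃ g : G, ψ = fun h : H => θ ⟨g * h * g⁻¹, hN.conj_mem h h.2 g⟩}, ψ := by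
  classical
  have hθ' := extendByZero_mem_irr.2 hθ
  have e1 : Nat.card {g : G // ∀ h : H, θ ⟨g * h * g⁻¹, hN.conj_mem h h.2 g⟩ = θ h} =
      Nat.card (inertia ⊤ (extendByZero H θ)) :=
    Nat.card_congr (Equiv.subtypeEquivRight fun g => (mem_inertia_extendByZero H θ g).symm)
  have e2 : {ψ : H → ℂ | ∃ g : G, ψ = fun h : H => θ ⟨g * h * g⁻¹, hN.conj_mem h h.2 g⟩} =
      ((orb ⊤ (extendByZero H θ)).image (fun (φ : G → ℂ) (x : H) => φ x) : Finset (H → ℂ)) := by
    ext ψ
    simp only [Set.mem_setOf_eq, Finset.coe_image, Set.mem_image, Finset.mem_coe, mem_orb]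
    constructor
    · rintro ⟨g, rfl⟩
      exact ⟨_, ⟨g, trivial, rfl⟩, by rw [cj_extendByZero, restrict_extendByZero]⟩
    · rintro ⟨_, ⟨g, -, rfl⟩, rfl⟩
      exact ⟨g, by rw [cj_extendByZero, restrict_extendByZero]⟩
  rw [e1, e2, finsum_mem_coe_finset, Finset.sum_image, indFun_eq_ind,
    ind_eq_sum_orb le_top (cfn_of_irr hθ'),
    card_eq_relIndex_mul (le_inertia le_top (cfn_of_irr hθ'))]
  · funext h
    have := card_ne_zero H
    simp only [Pi.smul_apply, Finset.sum_apply, smul_eq_mul, Nat.cast_mul]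
    field_simp
  · intro a ha b hb e
    have hs := orb_subset_irr (top_le_normalizer H) hθ'
    exact CFn.ext (cfn_of_irr (hs ha)) (cfn_of_irr (hs hb)) fun x hx => congrFun e ⟨x, hx⟩

end Cfsg.Agent.S1485
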