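import Cfsg.Statements.S1486
import Cfsg.Agent.PF.Sec1

set_option autoImplicit false
open Cfsg

namespace Cfsg.Agent.S1486

open CF.PF
open scoped ComplexConjugate

/-- Let H be a normal subgroup of the finite group G and θ, φ irreducible characters of H. If φ is a G-conjugate of θ then the functions induced from θ and φ coincide; if φ is not a G-conjugate of θ then the induced functions are orthogonal. -/
theorem result {G : Type*} [Group G] [Fintype G] (H : Subgroup G) [hN : H.Normal] (θ φ : H → ℂ) (hθ : Cfsg.IsIrrCharacter H θ) (hφ : Cfsg.IsIrrCharacter H φ) : ((∃ g : G, φ = fun h : H => θ ⟨g * h * g⁻¹, hN.conj_mem h h.2 g⟩) → Cfsg.indFun H φ = Cfsg.indFun H θ) ∧ ((¬ ∃ g : G, φ = fun h : H => θ ⟨g * h * g⁻¹, hN.conj_mem h h.2 g⟩) → Cfsg.classInner (Cfsg.indFun H φ) (Cfsg.indFun H θ) = 0) := by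
  have hθ' := extendByZero_mem_irr.2 hθ
  have hφ' := extendByZero_mem_irr.2 hφ
  have e : (∃ g : G, φ = fun h : H => θ ⟨g * h * g⁻¹, hN.conj_mem h h.2 g⟩) ↔
      extendByZero H φ ∈ orb ⊤ (extendByZero H θ) := by
    rw [mem_orb]
    refine exists_congr fun g => ?_
    rw [cj_extendByZero, (extendByZero_injective H).eq_iff, eq_comm]
    exact (and_iff_right trivial).symm
  rw [e, indFun_eq_ind, indFun_eq_ind, ← ip_top,
    ← ind_eq_ind_iff le_top (top_le_normalizer H) hθ' hφ']
  exact ⟨id, ip_ind_ind_of_ne le_top (top_le_normalizer H) hφ' hθ'⟩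

end Cfsg.Agent.S1486
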