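import Cfsg.Statements.S1488
import Cfsg.Agent.PF.Sec1

set_option autoImplicit false
open Cfsg

namespace Cfsg.Agent.S1488

open CF.PF
open scoped ComplexConjugate

/-- Let A be a normal subgroup of the finite group G contained in the subgroup H, let θ be a function on H and θ₁ a function on the image of H in G ⧸ A whose composite with the projection is θ. Then the function induced from θ₁ to G ⧸ A, composed with the projection G → G ⧸ A, equals the function induced from θ to G. -/
theorem result {G : Type*} [Group G] [Fintype G] (A H : Subgroup G) [A.Normal] (hAH : A ≤ H) [Fintype (G ⧸ A)] [Fintype ↥(H.map (QuotientGroup.mk' A))] (θ : H → ℂ) (θ₁ : ↥(H.map (QuotientGroup.mk' A)) → ℂ) (hθ : ∀ x : H, θ₁ ⟨QuotientGroup.mk' A x, Subgroup.mem_map_of_mem _ x.2⟩ = θ x) (g : G) : Cfsg.indFun (H.map (QuotientGroup.mk' A)) θ₁ (QuotientGroup.mk' A g) = Cfsg.indFun H θ g := by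
  classical
  rw [indFun_eq_ind, indFun_eq_ind, ind_apply, ind_apply, els_top, els_top]
  have hA : ∀ x : G, QuotientGroup.mk' A x ∈ H.map (QuotientGroup.mk' A) ↔ x ∈ H := fun x => by
    rw [← Subgroup.mem_comap, Subgroup.comap_map_eq, QuotientGroup.ker_mk', sup_eq_left.2 hAH]
  have e : ∀ x : G, res (H.map (QuotientGroup.mk' A)) (extendByZero _ θ₁) (QuotientGroup.mk' A x)
      = res H (extendByZero H θ) x := fun x => by
    by_cases hx : x ∈ H
    · rw [res_of_mem _ ((hA x).2 hx), res_of_mem _ hx, extendByZero_of_mem _ _ hx, ← hθ,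
        extendByZero_of_mem]
    · rw [res_of_notMem _ (mt (hA x).1 hx), res_of_notMem _ hx]
  have h1 : ∑ x : G, res H (extendByZero H θ) (x⁻¹ * g * x) = (Nat.card A : ℂ) *
      ∑ y : G ⧸ A, res (H.map (QuotientGroup.mk' A)) (extendByZero _ θ₁)
        (y⁻¹ * QuotientGroup.mk' A g * y) := by
    rw [← Finset.sum_fiberwise_of_maps_to (s := Finset.univ) (t := Finset.univ)
      (g := fun x : G => (QuotientGroup.mk' A x)) (fun _ _ => Finset.mem_univ _), Finset.mul_sum]
    refine Finset.sum_congr rfl fun y _ => ?_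
    rw [Finset.sum_congr rfl (g := fun _ => res (H.map (QuotientGroup.mk' A)) (extendByZero _ θ₁)
        (y⁻¹ * QuotientGroup.mk' A g * y)) (fun x hx => by
      rw [← e, ← (Finset.mem_filter.1 hx).2]; simp), Finset.sum_const, nsmul_eq_mul]
    congr 2
    obtain ⟨z, rfl⟩ := QuotientGroup.mk'_surjective A y
    rw [← card_els]
    refine Finset.card_bij' (fun x _ => z⁻¹ * x) (fun a _ => z * a) (fun x hx => ?_)
      (fun a ha => ?_) (by simp) (by simp)
    · simpa [QuotientGroup.eq] using (Finset.mem_filter.1 hx).2.symm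
    · exact Finset.mem_filter.2 ⟨Finset.mem_univ _, by
        simpa [QuotientGroup.eq] using ha⟩
  have h2 : Nat.card H = Nat.card A * Nat.card (H.map (QuotientGroup.mk' A)) := by
    rw [card_eq_relIndex_mul hAH, mul_comm, ← Subgroup.relIndex_ker, QuotientGroup.ker_mk']
  rw [h1, h2]
  have := card_ne_zero A
  push_cast; field_simp

end Cfsg.Agent.S1488
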