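import Cfsg.Statements.S1489
import Cfsg.Agent.PF.Sec1

set_option autoImplicit false
open Cfsg

namespace Cfsg.Agent.S1489

open CF.PF
open scoped ComplexConjugate

/-- Let H be a normal subgroup of the finite group G, θ an irreducible character of H, and T the inertia group of θ (the elements g with θ(g h g⁻¹) = θ(h) for all h ∈ H). If ψ and ψ' are irreducible characters of T having nonzero inner product with the function induced from θ to T, then the function induced from ψ to G is an irreducible character of G, and it equals the one induced from ψ' only if ψ = ψ'. -/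
theorem result {G : Type*} [Group G] [Fintype G] (H T : Subgroup G) [hN : H.Normal] [Fintype T] (θ : H → ℂ) (hθ : Cfsg.IsIrrCharacter H θ) (hT : ∀ g : G, g ∈ T ↔ ∀ h : H, θ ⟨g * h * g⁻¹, hN.conj_mem h h.2 g⟩ = θ h) (hHT : H ≤ T) (ψ ψ' : T → ℂ) (hψ : Cfsg.IsIrrCharacter T ψ) (hψ' : Cfsg.IsIrrCharacter T ψ') (hc : Cfsg.classInner (Cfsg.indFun (H.subgroupOf T) (fun x => θ ⟨(x : T), Subgroup.mem_subgroupOf.mp x.2⟩)) ψ ≠ 0) (hc' : Cfsg.classInner (Cfsg.indFun (H.subgroupOf T) (fun x => θ ⟨(x : T), Subgroup.mem_subgroupOf.mp x.2⟩)) ψ' ≠ 0) : Cfsg.IsIrrCharacter G (Cfsg.indFun T ψ) ∧ (Cfsg.indFun T ψ = Cfsg.indFun T ψ' → ψ = ψ') := by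
  have hθ' := extendByZero_mem_irr.2 hθ
  have hI : inertia ⊤ (extendByZero H θ) ≤ T := fun g hg =>
    (hT g).2 ((mem_inertia_extendByZero H θ g).1 hg)
  have key : ∀ ψ : T → ℂ, IsIrrCharacter T ψ → classInner (indFun (H.subgroupOf T)
      (fun x => θ ⟨(x : T), Subgroup.mem_subgroupOf.mp x.2⟩)) ψ ≠ 0 →
      ip H (extendByZero T ψ) (extendByZero H θ) ≠ 0 := fun ψ hψ h h' => h (by
    have h1 := ip_eq_zero_symm h'
    rw [← ip_ind_left' hHT _ (cfn_of_irr (extendByZero_mem_irr.2 hψ)), ip_eq_classInner,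
      ind_restrict hHT, restrict_extendByZero] at h1
    rw [← h1]
    congr 2; funext x
    rw [extendByZero_of_mem])
  rw [indFun_eq_ind, indFun_eq_ind, ← mem_irr_top]
  exact ⟨ind_mem_irr_of_over le_top (top_le_normalizer H) hθ' hI le_top
    (extendByZero_mem_irr.2 hψ) (key ψ hψ hc), fun e => extendByZero_injective T
    (ind_inj_of_over le_top (top_le_normalizer H) hθ' hI le_top (extendByZero_mem_irr.2 hψ)
      (extendByZero_mem_irr.2 hψ') (key ψ hψ hc) (key ψ' hψ' hc') e)⟩

end Cfsg.Agent.S1489
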