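import Cfsg.Statements.S1492
import Cfsg.Agent.PF.Sec1

set_option autoImplicit false
open Cfsg

namespace Cfsg.Agent.S1492

open CF.PF
open scoped ComplexConjugate

/-- Let ψ be an irreducible character of the finite group G and B ≤ D ≤ C subgroups with B normal in C, every commutator of an element of D with an element of C lying in B (so D/B is central in C/B), and ψ constant equal to ψ 1 on B. Then ψ(1) ^ 2 * |C| * |D| ≤ |G| ^ 2. -/
theorem result {G : Type*} [Group G] [Finite G] (ψ : G → ℂ) (hψ : Cfsg.IsIrrCharacter G ψ) (B C D : Subgroup G) (hBD : B ≤ D) (hDC : D ≤ C) (hBn : ∀ c ∈ C, ∀ b ∈ B, c * b * c⁻¹ ∈ B) (hcent : ∀ d ∈ D, ∀ c ∈ C, d * c * d⁻¹ * c⁻¹ ∈ B) (hker : ∀ b ∈ B, ψ b = ψ 1) : ‖ψ 1‖ ^ 2 * (Nat.card C : ℝ) * (Nat.card D : ℝ) ≤ (Nat.card G : ℝ) ^ 2 := by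
  have hψ' := mem_irr_top.2 hψ
  have h := irr_one_le_of_section hψ' hBD hDC le_top hcent
    (((isCh_of_irr hψ').le_ker_iff le_top).2 hker)
  obtain ⟨n, -, hn⟩ := irr_one_nat hψ'
  have h1 := card_eq_relIndex_mul hDC
  have h2 := card_eq_relIndex_mul (le_top : C ≤ ⊤)
  rw [Subgroup.card_top] at h2
  rw [hn] at h ⊢
  simp only [Complex.natCast_re, Complex.norm_natCast] at h ⊢
  rw [h2]
  have h3 : (Nat.card C : ℝ) = D.relIndex C * Nat.card D := by exact_mod_cast h1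
  calc (n : ℝ) ^ 2 * Nat.card C * Nat.card D ≤
      ((C.relIndex ⊤ : ℝ) ^ 2 * D.relIndex C) * Nat.card C * Nat.card D := by gcongr
    _ = _ := by push_cast; rw [h3]; ring

end Cfsg.Agent.S1492
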