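import Cfsg.Statements.S1493
import Cfsg.Agent.PF.Sec1

set_option autoImplicit false
open Cfsg

namespace Cfsg.Agent.S1493

open CF.PF
open scoped ComplexConjugate

/-- Let G be a finite group of order a * b with a and b coprime, let k be coprime to a, and let χ be a character of G. Then there is a character χ' of G such that χ'(g) = χ(g ^ k) whenever the order of g divides a and χ'(g) = χ(g) whenever the order of g is coprime to a; moreover χ' is irreducible if χ is. -/
theorem result {G : Type*} [Group G] [Finite G] (a b k : ℕ) (hab : Nat.card G = a * b) (hcop : Nat.Coprime a b) (hk : Nat.Coprime k a) (χ : G → ℂ) (hχ : Cfsg.IsCharacter G χ) : ∃ χ' : G → ℂ, Cfsg.IsCharacter G χ' ∧ (Cfsg.IsIrrCharacter G χ → Cfsg.IsIrrCharacter G χ') ∧ (∀ g : G, orderOf g ∣ a → χ' g = χ (g ^ k)) ∧ (∀ g : G, Nat.Coprime (orderOf g) a → χ' g = χ g) := by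
  have h0 : Nat.card G ≠ 0 := Nat.card_pos.ne'
  have ha : a ≠ 0 := fun h => h0 (by rw [hab, h, zero_mul])
  have hb : b ≠ 0 := fun h => h0 (by rw [hab, h, mul_zero])
  obtain ⟨u, h1, h2⟩ := exists_ringEquiv_pow_coprime ha hb hcop hk
  refine ⟨fun g => (u : ℂ →+* ℂ) (χ g), char_aut _ hχ, irr_aut _, fun g hg =>
    char_aut_apply _ hχ fun z hz => h1 z ?_, fun g hg => ?_⟩
  · obtain ⟨c, rfl⟩ := hg; rw [pow_mul, hz, one_pow]
  · have := char_aut_apply (u : ℂ →+* ℂ) hχ (g := g) (k := 1) fun z hz => by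
      obtain ⟨c, hc⟩ := hg.dvd_of_dvd_mul_left (hab ▸ orderOf_dvd_natCard g)
      rw [pow_one]; exact h2 z (by rw [hc, pow_mul, hz, one_pow])
    simpa using this

end Cfsg.Agent.S1493
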