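import Cfsg.Statements.S1499
import Cfsg.Agent.PF.Dade

set_option autoImplicit false
open Cfsg

namespace Cfsg.Agent.S1499

open CF.PF
open scoped ComplexConjugate

/-- Under the Dade hypothesis for (A, L, H), let a, b ∈ A. If an element of the coset a·H(a) is conjugate in G to an element of b·H(b), then a and b are conjugate by an element of L. Moreover the set normaliser of the coset a·H(a) is the centraliser of a. -/
theorem result {G : Type*} [Group G] [Finite G] (A : Set G) (L : Subgroup G) (H : G → Subgroup G) (hD : Cfsg.DadeHypothesis A L H) (a b : G) (ha : a ∈ A) (hb : b ∈ A) : ((∃ u ∈ H a, ∃ v ∈ H b, ∃ g : G, g * (a * u) * g⁻¹ = b * v) → ∃ x ∈ L, x * a * x⁻¹ = b) ∧ Subgroup.normalizer ((fun u : G => a * u) '' (H a : Set G)) = Subgroup.centralizer ({a} : Set G) := by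
  refine ⟨fun ⟨u, hu, v, hv, g, e⟩ => dade_conj_L hD ha hb hu hv e, le_antisymm (fun g hg => ?_)
    fun g hg => Subgroup.mem_normalizer_fintype ?_⟩
  · obtain ⟨v, hv, e⟩ := (hg a).1 ⟨1, (H a).one_mem, mul_one a⟩
    have := dade_conj_eq hD ha ha (H a).one_mem hv (g := g) (by simpa using e.symm)
    rw [mem_centralizer_singleton', ← mul_inv_eq_iff_eq_mul, this]
  · rintro _ ⟨u, hu, rfl⟩
    refine ⟨g * u * g⁻¹, hD.conj_mem_H a ha g hg u hu, ?_⟩
    rw [mem_centralizer_singleton'] at hg
    calc a * (g * u * g⁻¹) = (a * g) * u * g⁻¹ := by group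
      _ = _ := by rw [← hg]; group

end Cfsg.Agent.S1499
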