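import Cfsg.Statements.S1504
import Cfsg.Agent.PF.Bridge3

set_option autoImplicit false
open Cfsg

namespace Cfsg.Agent.S1504

open CF.PF
open scoped ComplexConjugate

/-- Let W₁, W₂ be subgroups of a finite group with W₁ ⊓ W₂ = ⊥ whose elements commute, and W = W₁ ⊔ W₂. For linear characters φ, ψ of W with φ trivial on W₂ and ψ trivial on W₁, the function (1 − φ)(1 − ψ) vanishes on W₁ ∪ W₂; and the family of these functions, indexed by pairs (φ, ψ) with φ ≠ 1 ≠ ψ, is linearly independent over ℂ. -/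
theorem result {G : Type*} [Group G] [Finite G] (W₁ W₂ : Subgroup G) (hdisj : W₁ ⊓ W₂ = ⊥) (hcomm : ∀ a ∈ W₁, ∀ b ∈ W₂, a * b = b * a) : (∀ φ ψ : ↥(W₁ ⊔ W₂) →* ℂˣ, (∀ w : ↥(W₁ ⊔ W₂), (w : G) ∈ W₂ → φ w = 1) → (∀ w : ↥(W₁ ⊔ W₂), (w : G) ∈ W₁ → ψ w = 1) → ∀ w : ↥(W₁ ⊔ W₂), ((w : G) ∈ W₁ ∨ (w : G) ∈ W₂) → (1 - (φ w : ℂ) - (ψ w : ℂ) + (φ w : ℂ) * (ψ w : ℂ)) = 0) ∧ LinearIndependent ℂ (fun p : {p : (↥(W₁ ⊔ W₂) →* ℂˣ) × (↥(W₁ ⊔ W₂) →* ℂˣ) // p.1 ≠ 1 ∧ p.2 ≠ 1 ∧ (∀ w : ↥(W₁ ⊔ W₂), (w : G) ∈ W₂ → p.1 w = 1) ∧ (∀ w : ↥(W₁ ⊔ W₂), (w : G) ∈ W₁ → p.2 w = 1)} => fun w : ↥(W₁ ⊔ W₂) => 1 - (p.1.1 w : ℂ) - (p.1.2 w : ℂ) + (p.1.1 w : ℂ) * (p.1.2 w : ℂ)) := by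
  classical
  refine ⟨fun φ ψ h1 h2 w hw => ?_, ?_⟩
  · rcases hw with hw | hw
    · simp [h2 w hw]
    · simp [h1 w hw]
  have ext : ∀ m n : ↥(W₁ ⊔ W₂) →* ℂˣ, (∀ w : ↥(W₁ ⊔ W₂), (w : G) ∈ W₁ → m w = n w) →
      (∀ w : ↥(W₁ ⊔ W₂), (w : G) ∈ W₂ → m w = n w) → m = n := fun m n h1 h2 => by
    ext ⟨w, hw⟩
    obtain ⟨x, hx, y, hy, rfl⟩ := exists_mul_of_mem_sup (fun y hy =>
      Subgroup.mem_normalizer_fintype fun x hx => by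
        rwa [← hcomm x hx y hy, mul_inv_cancel_right]) hw
    have : (⟨x * y, hw⟩ : ↥(W₁ ⊔ W₂)) = ⟨x, Subgroup.mem_sup_left hx⟩ *
      ⟨y, Subgroup.mem_sup_right hy⟩ := rfl
    rw [this, map_mul, map_mul, h1 _ hx, h2 _ hy]
  let _ : Fintype ↥(W₁ ⊔ W₂) := Fintype.ofFinite _
  have o : ∀ m n : ↥(W₁ ⊔ W₂) →* ℂˣ, classInner (fun w => (m w : ℂ)) (fun w => (n w : ℂ)) =
      if m = n then 1 else 0 := fun m n => by
    rw [← ip_extendByZero, ← lin_of, ← lin_of, ip_lin]; congr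
  rw [linearIndependent_iff']
  intro s g hg p hp
  have := congrArg (fun f => classInner f fun w => ((p.1.1 * p.1.2) w : ℂ)) hg
  simp only [CF.Char.inner_sum_left, CF.Char.inner_smul_left, CF.Char.inner_zero_left] at this
  rw [Finset.sum_eq_single_of_mem p hp] at this
  all_goals
    have key : ∀ q : {p : (↥(W₁ ⊔ W₂) →* ℂˣ) × (↥(W₁ ⊔ W₂) →* ℂˣ) // p.1 ≠ 1 ∧ p.2 ≠ 1 ∧
        (∀ w : ↥(W₁ ⊔ W₂), (w : G) ∈ W₂ → p.1 w = 1) ∧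
        (∀ w : ↥(W₁ ⊔ W₂), (w : G) ∈ W₁ → p.2 w = 1)}, classInner (fun w => 1 - (q.1.1 w : ℂ) -
        (q.1.2 w : ℂ) + (q.1.1 w : ℂ) * (q.1.2 w : ℂ)) (fun w => ((p.1.1 * p.1.2) w : ℂ)) =
        if q = p then 1 else 0 := fun q => by
      obtain ⟨⟨a, b⟩, ha, hb, ha', hb'⟩ := q
      obtain ⟨⟨c, d⟩, hc, hd, hc', hd'⟩ := p
      simp only at ha hb ha' hb' hc hd hc' hd' ⊢
      have e : (fun w => 1 - (a w : ℂ) - (b w : ℂ) + (a w : ℂ) * (b w : ℂ)) =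
          (fun w => ((1 : ↥(W₁ ⊔ W₂) →* ℂˣ) w : ℂ)) - (fun w => (a w : ℂ)) - (fun w => (b w : ℂ)) +
          fun w => ((a * b) w : ℂ) := by funext w; simp
      have n1 : ∀ a : ↥(W₁ ⊔ W₂) →* ℂˣ, (∀ w : ↥(W₁ ⊔ W₂), (w : G) ∈ W₂ → a w = 1) → a ≠ c * d :=
        fun a ha e => hd (ext _ _ hd' fun w hw => by
          simpa [ha w hw, hc' w hw] using (DFunLike.congr_fun e w).symm)
      have n2 : b ≠ c * d := fun e => hc (ext _ _ (fun w hw => by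
          simpa [hb' w hw, hd' w hw] using (DFunLike.congr_fun e w).symm) hc')
      have n3 : a * b = c * d ↔ a = c ∧ b = d := ⟨fun e =>
        ⟨ext _ _ (fun w hw => by simpa [hb' w hw, hd' w hw] using DFunLike.congr_fun e w)
          fun w hw => by rw [ha' w hw, hc' w hw],
        ext _ _ (fun w hw => by rw [hb' w hw, hd' w hw])
          fun w hw => by simpa [ha' w hw, hc' w hw] using DFunLike.congr_fun e w⟩,
        fun e => by rw [e.1, e.2]⟩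
      rw [e, CF.Char.inner_add_left, CF.Char.inner_sub_left, CF.Char.inner_sub_left, o, o, o, o,
        if_neg (n1 1 fun _ _ => rfl), if_neg (n1 a ha'), if_neg n2]
      simp [n3]
  · rwa [key, if_pos rfl, mul_one] at this
  · intro q _ hq; rw [key, if_neg hq, mul_zero]

end Cfsg.Agent.S1504
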