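import Cfsg.Statements.S1505
import Cfsg.Agent.PF.Bridge3

set_option autoImplicit false
open Cfsg

namespace Cfsg.Agent.S1505

open CF.PF
open scoped ComplexConjugate

open Classical in
/-- Let W₁, W₂ ≤ G form a self-normalising cyclic subgroup W = W₁ ⊔ W₂. For nontrivial linear characters φ, φ' of W trivial on W₂ and ψ, ψ' trivial on W₁, put α = (1 − φ)(1 − ψ) and α' = (1 − φ')(1 − ψ'). Then the function induced from α to G has inner product 1 with the principal character, and the inner product of the functions induced from α and α' is 1 + a + b + ab where a = 1 if φ = φ' (else 0) and b = 1 if ψ = ψ' (else 0). -/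
theorem result {G : Type*} [Group G] [Fintype G] (W₁ W₂ : Subgroup G) (hW : Cfsg.IsSelfNormalizingCyclic W₁ W₂) (φ φ' ψ ψ' : ↥(W₁ ⊔ W₂) →* ℂˣ) (hφ : φ ≠ 1) (hφ' : φ' ≠ 1) (hψ : ψ ≠ 1) (hψ' : ψ' ≠ 1) (hφ₂ : ∀ w : ↥(W₁ ⊔ W₂), (w : G) ∈ W₂ → φ w = 1 ∧ φ' w = 1) (hψ₁ : ∀ w : ↥(W₁ ⊔ W₂), (w : G) ∈ W₁ → ψ w = 1 ∧ ψ' w = 1) : Cfsg.classInner (Cfsg.indFun (W₁ ⊔ W₂) (fun w => 1 - (φ w : ℂ) - (ψ w : ℂ) + (φ w : ℂ) * (ψ w : ℂ))) (fun _ => 1) = 1 ∧ Cfsg.classInner (Cfsg.indFun (W₁ ⊔ W₂) (fun w => 1 - (φ w : ℂ) - (ψ w : ℂ) + (φ w : ℂ) * (ψ w : ℂ))) (Cfsg.indFun (W₁ ⊔ W₂) (fun w => 1 - (φ' w : ℂ) - (ψ' w : ℂ) + (φ' w : ℂ) * (ψ' w : ℂ))) = 1 + (if φ = φ' then 1 else 0) + (if ψ = ψ' then 1 else 0) + (if φ = φ' then 1 else 0) * (if ψ = ψ' then 1 else 0) := by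
  have h := cti0_of_selfNorm hW
  have a1 := (h.equiv_snd_eq_one φ).2 fun w hw => (hφ₂ w hw).1
  have a2 := (h.equiv_snd_eq_one φ').2 fun w hw => (hφ₂ w hw).2
  have b1 := (h.equiv_fst_eq_one ψ).2 fun w hw => (hψ₁ w hw).1
  have b2 := (h.equiv_fst_eq_one ψ').2 fun w hw => (hψ₁ w hw).2
  have c : ∀ {φ φ'}, (h.equiv φ).2 = (h.equiv φ').2 → ((h.equiv φ).1 = (h.equiv φ').1 ↔ φ = φ') :=
    fun e => ⟨fun e' => h.equiv.injective (Prod.ext e' e), fun e => by rw [e]⟩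
  have d : ∀ {φ φ'}, (h.equiv φ).1 = (h.equiv φ').1 → ((h.equiv φ).2 = (h.equiv φ').2 ↔ φ = φ') :=
    fun e => ⟨fun e' => h.equiv.injective (Prod.ext e e'), fun e => by rw [e]⟩
  have i1 : (h.equiv φ).1 ≠ 1 := mt (c (φ' := 1) a1).1 hφ
  have i2 : (h.equiv φ').1 ≠ 1 := mt (c (φ' := 1) a2).1 hφ'
  have j1 : (h.equiv ψ).2 ≠ 1 := mt (d (φ' := 1) b1).1 hψ
  have j2 : (h.equiv ψ').2 ≠ 1 := mt (d (φ' := 1) b2).1 hψ'
  have z := fun i j => ZIrr.ind h.le (h.alp_zirr i j)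
  rw [h.indFun_alp a1 b1, h.indFun_alp a2 b2, ← ip_top, ← ip_top, ip_eq_rip (z _ _) (z _ _),
    h.rip_ind_alp i1 j1 i2 j2]
  refine ⟨?_, ?_⟩
  · have := h.rip_ind_alp_triv i1 j1
    rw [← Complex.ofReal_inj, ← ip_eq_rip (z _ _) (triv_mem_ZIrr _), triv_top] at this
    exact this
  · simp only [c (a1.trans a2.symm), d (b1.trans b2.symm)]
    by_cases e1 : φ = φ' <;> by_cases e2 : ψ = ψ' <;> simp [e1, e2]

end Cfsg.Agent.S1505
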