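import Cfsg.Statements.S1507
import Cfsg.Agent.PF.Bridge3

set_option autoImplicit false
open Cfsg

namespace Cfsg.Agent.S1507

open CF.PF
open scoped ComplexConjugate

open Classical in
/-- Let W₁, W₂ ≤ G form a self-normalising cyclic subgroup W = W₁ ⊔ W₂ of odd order with Nat.card W₁ < Nat.card W₂, and χ an orthonormal family of irreducible characters of G up to sign, indexed by the linear characters ω of W, with χ_1 = 1, χ_ω = ω on W outside W₁ ∪ W₂, and the induction identity for (1 − φ)(1 − ψ). Let θ be a class function of G vanishing on W outside W₁ ∪ W₂, and suppose fewer than 2 · Nat.card W₁ linear characters ω of W have ⟨θ, χ ω⟩ ≠ 0. Then one of: all ⟨θ, χ ω⟩ vanish; or there are ψ₀ and a with ⟨θ, χ ω⟩ = a when ω ψ₀⁻¹ is trivial on W₂ and 0 otherwise; or there are φ₀ and a with ⟨θ, χ ω⟩ = a when ω φ₀⁻¹ is trivial on W₁ and 0 otherwise. -/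
theorem result {G : Type*} [Group G] [Fintype G] (W₁ W₂ : Subgroup G) (hW : Cfsg.IsSelfNormalizingCyclic W₁ W₂) (hodd : Odd (Nat.card ↥(W₁ ⊔ W₂))) (χ : (↥(W₁ ⊔ W₂) →* ℂˣ) → (G → ℂ)) (hχ : Cfsg.IsCyclicTIFamily W₁ W₂ χ) (hlt : Nat.card W₁ < Nat.card W₂) (θ : G → ℂ) (hθ : Cfsg.IsClassFunction G θ) (hθV : ∀ w : ↥(W₁ ⊔ W₂), (w : G) ∉ W₁ → (w : G) ∉ W₂ → θ w = 0) (hfew : Nat.card {ω : ↥(W₁ ⊔ W₂) →* ℂˣ // Cfsg.classInner θ (χ ω) ≠ 0} < 2 * Nat.card W₁) : (∀ ω, Cfsg.classInner θ (χ ω) = 0) ∨ (∃ (ψ₀ : ↥(W₁ ⊔ W₂) →* ℂˣ) (a : ℂ), ∀ ω, Cfsg.classInner θ (χ ω) = if (∀ w : ↥(W₁ ⊔ W₂), (w : G) ∈ W₂ → (ω * ψ₀⁻¹) w = 1) then a else 0) ∨ (∃ (φ₀ : ↥(W₁ ⊔ W₂) →* ℂˣ) (a : ℂ), ∀ ω, Cfsg.classInner θ (χ ω) = if (∀ w : ↥(W₁ ⊔ W₂), (w : G) ∈ W₁ → (ω * φ₀⁻¹) w = 1) then a else 0) := by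
  classical
  have h : Fam ⊤ (W₁ ⊔ W₂) W₁ W₂ _ := ⟨fam0_of_family hW hχ, hodd⟩
  by_cases h0 : ∀ ω, classInner θ (χ ω) = 0
  · exact Or.inl h0
  push Not at h0
  obtain ⟨m, hm⟩ := h0
  have hc : Nat.card {ω : ↥(W₁ ⊔ W₂) →* ℂˣ // classInner θ (χ ω) ≠ 0} = (Finset.univ.filter
      fun p : Lin W₁ × Lin W₂ => ip ⊤ θ (χ (h.equiv.symm (p.1, p.2))) ≠ 0).card := by
    rw [← Fintype.card_subtype, ← Nat.card_eq_fintype_card]
    exact Nat.card_congr (h.equiv.subtypeEquiv fun a => by simp [ip_top])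
  obtain ⟨a, ha⟩ := h.cti.odd₁
  obtain ⟨b, hb⟩ := h.cti.odd₂
  have := grid_small _ (h.grid (mem_CFn_top.2 hθ) fun v hv => hθV ⟨v, hv.1⟩ hv.2.1 hv.2.2)
    (Finset.univ.filter fun p : Lin W₁ × Lin W₂ => ip ⊤ θ (χ (h.equiv.symm (p.1, p.2))) ≠ 0)
    (fun i j h => Finset.mem_filter.2 ⟨Finset.mem_univ _, h⟩)
    (by rw [← hc, h.card_lin₁, h.card_lin₂]; omega) (by rw [← hc, h.card_lin₁]; omega)
    (by rw [← hc, h.card_lin₂]; omega) (i0 := (h.equiv m).1) (j0 := (h.equiv m).2)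
    (by simpa [ip_top] using hm)
  refine Or.inr (this.imp (fun e => ⟨m, classInner θ (χ m), fun ω => ?_⟩)
    fun e => ⟨m, classInner θ (χ m), fun ω => ?_⟩)
  · have := e (h.equiv ω).1 (h.equiv ω).2
    simp only [Prod.mk.eta, Equiv.symm_apply_apply, ip_top] at this
    rw [this]
    simp only [← h.equiv_snd_eq_one, h.equiv_mul, h.equiv_inv, Prod.snd_mul, Prod.snd_inv,
      mul_inv_eq_one]
  · have := e (h.equiv ω).1 (h.equiv ω).2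
    simp only [Prod.mk.eta, Equiv.symm_apply_apply, ip_top] at this
    rw [this]
    simp only [← h.equiv_fst_eq_one, h.equiv_mul, h.equiv_inv, Prod.fst_mul, Prod.fst_inv,
      mul_inv_eq_one]

end Cfsg.Agent.S1507
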