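import Cfsg.Statements.S1511
import Cfsg.Agent.PF.Bridge4

set_option autoImplicit false
open Cfsg

namespace Cfsg.Agent.S1511

open CF.PF
open scoped ComplexConjugate

/-- Let L be a finite group with K normal with complement W₁ ≠ 1 a cyclic Hall subgroup, and W₂ ≠ 1 a cyclic subgroup of K equal to C_K(x) for every non-identity x ∈ W₁, with W₁W₂ of odd order. Then there are a map μ from the linear characters of W = W₁ ⊔ W₂ to irreducible characters of L, injective, and a sign δ(ω) ∈ {1, −1} depending only on the values of ω on W₂, such that: for ω, ω' agreeing on W₂, the function induced to L from ω − ω' equals δ(ω) • (μ ω − μ ω'); μ ω x = δ(ω) ω x for x ∈ W outside W₂; every irreducible character of L not of the form μ ω vanishes on W outside W₂; and μ ω 1 − δ(ω) is an integer multiple of Nat.card W₁. -/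
theorem result {L : Type*} [Group L] [Fintype L] (K W₁ W₂ : Subgroup L) [hK : K.Normal] (hKW₁ : K ⊓ W₁ = ⊥) (hKW₁' : K ⊔ W₁ = ⊤) (hW₁ : W₁ ≠ ⊥) (hW₁c : IsCyclic W₁) (hHall : Nat.Coprime (Nat.card W₁) W₁.index) (hW₂ : W₂ ≠ ⊥) (hW₂c : IsCyclic W₂) (hW₂K : W₂ ≤ K) (hC : ∀ x ∈ W₁, x ≠ 1 → K ⊓ Subgroup.centralizer ({x} : Set L) = W₂) (hodd : Odd (Nat.card ↥(W₁ ⊔ W₂))) : ∃ (μ : (↥(W₁ ⊔ W₂) →* ℂˣ) → (L → ℂ)) (δ : (↥(W₁ ⊔ W₂) →* ℂˣ) → ℂ), Function.Injective μ ∧ (∀ ω, Cfsg.IsIrrCharacter L (μ ω)) ∧ (∀ ω, δ ω = 1 ∨ δ ω = -1) ∧ (∀ ω ω' : ↥(W₁ ⊔ W₂) →* ℂˣ, (∀ w : ↥(W₁ ⊔ W₂), (w : L) ∈ W₂ → ω w = ω' w) → δ ω = δ ω' ∧ Cfsg.indFun (W₁ ⊔ W₂) (fun w => (ω w : ℂ) - (ω' w : ℂ)) = δ ω • (μ ω - μ ω')) ∧ (∀ ω, ∀ w : ↥(W₁ ⊔ W₂), (w : L) ∉ W₂ → μ ω w = δ ω * (ω w : ℂ)) ∧ (∀ θ : L → ℂ, Cfsg.IsIrrCharacter L θ → (∀ ω, θ ≠ μ ω) → ∀ w : ↥(W₁ ⊔ W₂), (w : L) ∉ W₂ → θ w = 0) ∧ (∀ ω,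 ∃ n : ℤ, μ ω 1 - δ ω = n * (Nat.card W₁ : ℂ)) := by
  obtain ⟨μ, δ, h⟩ := (pti_top hKW₁ hKW₁' hW₁ hW₁c hHall hW₂ hW₂c hW₂K hC hodd).exists_pfam
  refine ⟨fun m => μ (h.equiv m).1 (h.equiv m).2, fun m => δ (h.equiv m).2,
    fun m n e => h.equiv.injective (Prod.ext (h.mu_inj.1 e).1 (h.mu_inj.1 e).2),
    fun m => mem_irr_top.1 (h.irr _ _), fun m => (h.sign (h.equiv m).2).imp (fun e => by simp [e])
      fun e => by simp [e], fun m n e => ?_, fun m w hw => ?_, fun θ hθ hne w hw => ?_,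
    fun m => h.one_modEq _ _⟩
  · have e1 : (h.equiv m).2 = (h.equiv n).2 := by
      rw [← mul_inv_eq_one, ← Prod.snd_inv, ← Prod.snd_mul, ← h.equiv_inv, ← h.equiv_mul,
        h.equiv_snd_eq_one]
      intro w hw; simp [e w hw]
    refine ⟨by simp only [e1], ?_⟩
    have := h.ind_om_sub' (h.equiv m).1 (h.equiv n).1 (h.equiv m).2
    rw [h.om_equiv, ← Complex.coe_smul] at this
    simp only [← e1, ← this]
    rw [e1, h.om_equiv, ind_top_eq_indFun]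
    simp only [Pi.sub_apply, lin_of_coe]
  · simp only [h.eq_on _ _ w.2 hw, h.om_equiv, lin_of_coe]
  · exact h.vanish (mem_irr_top.2 hθ) (fun i j => by simpa using hne (h.equiv.symm (i, j))) w.2 hw

end Cfsg.Agent.S1511
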