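import Cfsg.Statements.S1513
import Cfsg.Agent.PF.Bridge4

set_option autoImplicit false
open Cfsg

namespace Cfsg.Agent.S1513

open CF.PF
open scoped ComplexConjugate

/-- Let L be a finite group with K normal with complement W₁ ≠ 1 a cyclic Hall subgroup, and W₂ ≠ 1 a cyclic subgroup of K equal to C_K(x) for every non-identity x ∈ W₁, with W₁W₂ of odd order. For an irreducible character θ of K: if θ is not fixed under conjugation by some element of W₁, then the function induced from θ to L is an irreducible character of L; and the irreducible characters of K fixed by all of W₁ are exactly Nat.card W₂ in number, each inducing to the sum of Nat.card W₁ pairwise distinct irreducible characters of L. -/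
theorem result {L : Type*} [Group L] [Fintype L] (K W₁ W₂ : Subgroup L) [hK : K.Normal] (hKW₁ : K ⊓ W₁ = ⊥) (hKW₁' : K ⊔ W₁ = ⊤) (hW₁ : W₁ ≠ ⊥) (hW₁c : IsCyclic W₁) (hHall : Nat.Coprime (Nat.card W₁) W₁.index) (hW₂ : W₂ ≠ ⊥) (hW₂c : IsCyclic W₂) (hW₂K : W₂ ≤ K) (hC : ∀ x ∈ W₁, x ≠ 1 → K ⊓ Subgroup.centralizer ({x} : Set L) = W₂) (hodd : Odd (Nat.card ↥(W₁ ⊔ W₂))) : (∀ θ : K → ℂ, Cfsg.IsIrrCharacter K θ → (∃ x ∈ W₁, (fun k : K => θ ⟨x * k * x⁻¹, hK.conj_mem (k : L) k.2 x⟩) ≠ θ) → Cfsg.IsIrrCharacter L (Cfsg.indFun K θ)) ∧ Nat.card {θ : Cfsg.IrrCharacter K // ∀ x ∈ W₁, (fun k : K => (θ : K → ℂ) ⟨x * k * x⁻¹, hK.conj_mem (k : L) k.2 x⟩) = θ} = Nat.card W₂ ∧ (∀ θ : K → ℂ, Cfsg.IsIrrCharacter K θ → (∀ x ∈ W₁, (fun k : K => θ ⟨x * k * x⁻¹, hK.conj_mem (k : L) k.2 x⟩) = θ) → ∃ C : Finset (L → ℂ), C.card = Nat.card W₁ ∧ (∀ μ ∈ C, Cfsg.IsIrrCharacter L μ) ∧ Cfsg.indFun K θ = ∑ μ ∈ C, μ) := by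
  classical
  obtain ⟨μ, δ, h⟩ := (pti_top hKW₁ hKW₁' hW₁ hW₁c hHall hW₂ hW₂c hW₂K hC hodd).exists_pfam
  have e : ∀ (θ : K → ℂ) (x : L), (fun k : K => θ ⟨x * k * x⁻¹, hK.conj_mem (k : L) k.2 x⟩) = θ ↔
      cj x (extendByZero K θ) = extendByZero K θ := fun θ x => by
    rw [cj_extendByZero, (extendByZero_injective K).eq_iff]
  obtain ⟨x, hx, h1⟩ := h.exists_ne_one₁
  simp only [Ne, e]
  refine ⟨fun θ hθ ⟨y, _, hy⟩ => ?_, ?_, fun θ hθ hf => ?_⟩
  · rcases h.ind_cases (extendByZero_mem_irr.2 hθ) with ⟨j, hj, -⟩ | hj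
    · exact (hy (by rw [hj, h.cj_res' 1 j trivial])).elim
    · rw [indFun_eq_ind]; exact mem_irr_top.1 hj.1
  · rw [← h.card_lin₂, ← Nat.card_eq_fintype_card]
    refine (Nat.card_congr (Equiv.ofBijective (fun j : Lin W₂ => ⟨⟨fun k => res K (μ 1 j) k,
      (mem_irr.1 (h.res_irr 1 j)).2⟩, fun y _ => by
        rw [extendByZero_restrict, res_res le_rfl, h.cj_res' 1 j trivial]⟩)
      ⟨fun j l e => ?_, fun θ => ?_⟩)).symm
    · have := congrArg (fun θ => extendByZero K θ.1.1) e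
      simpa only [extendByZero_restrict, res_res le_rfl, h.res_inj] using this
    · obtain ⟨j, hj⟩ := h.exists_of_fixed (extendByZero_mem_irr.2 θ.1.2) hx h1 (θ.2 x hx)
      exact ⟨j, Subtype.ext (Subtype.ext (by simp only [← hj, restrict_extendByZero]))⟩
  · obtain ⟨j, hj⟩ := h.exists_of_fixed (extendByZero_mem_irr.2 hθ) hx h1 (hf x hx)
    have inj : Function.Injective fun i => μ i j := fun _ _ e => (h.mu_inj.1 e).1
    refine ⟨Finset.univ.image fun i => μ i j, by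
      rw [Finset.card_image_of_injective _ inj, Finset.card_univ, h.card_lin₁], fun ψ hψ => ?_, ?_⟩
    · obtain ⟨i, -, rfl⟩ := Finset.mem_image.1 hψ; exact mem_irr_top.1 (h.irr _ _)
    · rw [indFun_eq_ind, hj, h.ind_res, Finset.sum_image inj.injOn, red]

end Cfsg.Agent.S1513
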