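import Cfsg.Statements.S1514
import Cfsg.Agent.PF.Bridge5

set_option autoImplicit false
open Cfsg

namespace Cfsg.Agent.S1514

open CF.PF
open scoped ComplexConjugate

/-- Let S be a nonempty set of irreducible characters of the finite group L, closed under complex conjugation and containing no real-valued member, and τ a linear isometry on the integer combinations of S vanishing at 1, with values virtual characters of G vanishing at 1. Then there is a choice R making (S, τ, R) a coherence system. -/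
theorem result {L : Type*} [Group L] [Fintype L] {G : Type*} [Group G] [Fintype G] (S : Set (L → ℂ)) (hS : S.Nonempty) (hirr : ∀ χ ∈ S, Cfsg.IsIrrCharacter L χ) (hconj : ∀ χ ∈ S, Cfsg.conjFun χ ∈ S ∧ Cfsg.conjFun χ ≠ χ) (τ : (L → ℂ) → (G → ℂ)) (hτ : Cfsg.IsLinearIsometryOn (Cfsg.zspanOn S {1}ᶜ) τ) (hτ1 : ∀ α ∈ Cfsg.zspanOn S {1}ᶜ, τ α 1 = 0) : ∃ R : (L → ℂ) → Finset (G → ℂ), Cfsg.IsCoherenceSystem S τ R := by
  classical
  lift S to Finset (L → ℂ) using (irr (⊤ : Subgroup L)).finite_toSet.subset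
    fun χ hχ => mem_irr_top.2 (hirr χ hχ)
  have hi : S ⊆ irr ⊤ := fun χ hχ => mem_irr_top.2 (hirr χ hχ)
  obtain ⟨τ', a, e⟩ := exists_iso0 (fun χ hχ => ZIrr.one_eq_int (zirr_of_irr (hi hχ))) hτ hτ1
  obtain ⟨R, h⟩ := subCoh_of_irr hi a (fun χ hχ => (hconj χ hχ).1) fun χ hχ => (hconj χ hχ).2
  have o : ∀ {a b : G → ℂ}, a ∈ ZIrr ⊤ → b ∈ ZIrr ⊤ → classInner a b = rip ⊤ a b :=
    fun ha hb => by rw [← ip_top, ip_eq_rip ha hb]
  refine ⟨R, hS, fun χ hχ => isCh_top.1 (h.ch χ hχ), h.star_mem, h.star_ne, hτ, hτ1,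
    fun χ hχ φ hφ ne => by rw [← ip_top, ip_irr_ne (hi hχ) (hi hφ) ne], fun χ hχ a ha b hb => ?_,
    fun χ hχ a ha => mem_ZIrr_top.1 (h.R_zirr χ hχ a ha), fun χ hχ => ?_,
    fun χ hχ φ hφ h1 h2 a ha b hb => ?_⟩
  · rw [o (h.R_zirr χ hχ a ha) (h.R_zirr χ hχ b hb)]
    split_ifs with k
    · subst k; exact_mod_cast (h.R_onf χ hχ).1 a ha
    · exact_mod_cast (h.R_onf χ hχ).2 a ha b hb k
  · exact (e _ (h.sub_star_mem hχ) (h.sub_star_one hχ)).symm.trans (h.R_sum χ hχ)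
  · rw [o (h.R_zirr φ hφ a ha) (h.R_zirr χ hχ b hb), h.R_orth χ hχ φ hφ ?_ ?_ a ha b hb,
      Complex.ofReal_zero]
    · rintro rfl; rw [← ip_top, ip_irr_self (hi hχ)] at h1; exact one_ne_zero h1
    · rintro rfl
      exact one_ne_zero ((ip_irr_self (hi hφ)).symm.trans ((ip_top _ _).trans h2))

end Cfsg.Agent.S1514
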