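import Cfsg.Statements.S1516
import Cfsg.Agent.PF.Bridge5

set_option autoImplicit false
open Cfsg

namespace Cfsg.Agent.S1516

open CF.PF
open scoped ComplexConjugate

/-- Let (S, τ, R) be a coherence system from L to G with degrees φ 1 = d φ and squared norms ⟨φ, φ⟩ = n φ for φ ∈ S. Let S₁ ⊆ S be a finite subset closed under complex conjugation such that (S₁, L minus 1, τ) is coherent, let χ ∈ S with χ ∉ S₁ and conj χ ∉ S₁, and let χ₁ ∈ S₁ with d χ₁ dividing d χ and 2 d χ d χ₁ < Σ_{φ ∈ S₁} (d φ)² / n φ. Then S₁ together with χ and conj χ is coherent. -/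
theorem result {L : Type*} [Group L] [Fintype L] {G : Type*} [Group G] [Fintype G] (S : Set (L → ℂ)) (τ : (L → ℂ) → (G → ℂ)) (R : (L → ℂ) → Finset (G → ℂ)) (hS : Cfsg.IsCoherenceSystem S τ R) (d n : (L → ℂ) → ℕ) (hd : ∀ φ ∈ S, φ 1 = (d φ : ℂ)) (hn : ∀ φ ∈ S, Cfsg.classInner φ φ = (n φ : ℂ)) (S₁ : Finset (L → ℂ)) (hS₁ : ↑S₁ ⊆ S) (hS₁c : ∀ φ ∈ S₁, Cfsg.conjFun φ ∈ S₁) (hcoh : Cfsg.IsCoherent (↑S₁ : Set (L → ℂ)) {1}ᶜ τ) (χ : L → ℂ) (hχ : χ ∈ S) (hχ₁ : χ ∉ S₁) (hχ₂ : Cfsg.conjFun χ ∉ S₁) (χ₁ : L → ℂ) (hχ₁S : χ₁ ∈ S₁) (hdvd : d χ₁ ∣ d χ) (hineq : (2 * d χ * d χ₁ : ℝ) < ∑ φ ∈ S₁, ((d φ : ℝ) ^ 2 / (n φ : ℝ))) : Cfsg.IsCoherent (↑S₁ ∪ {χ, Cfsg.conjFun χ} : Set (L → ℂ)) {1}ᶜ τ := by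
  classical
  lift S to Finset (L → ℂ) using IsCoherenceSystem.finite hS
  obtain ⟨τ', h, e⟩ := exists_subCoh hS
  have hs : S₁ ⊆ S := hS₁
  obtain ⟨a, ha⟩ := hdvd
  have c := h.extend hs hS₁c (coh_of_isCoherent (fun χ hχ => ZIrr.one_eq_int (h.ch χ (hs hχ)).zirr)
    (fun α a => e α (ZS_mono hs a)) hcoh) hχ₁S hχ hχ₁ (a := a)
    (by rw [hd χ hχ, hd χ₁ (hs hχ₁S), ha]; push_cast; ring) (by
      rw [hd χ hχ, hd χ₁ (hs hχ₁S), Finset.sum_congr rfl fun φ hφ => by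
        rw [hd φ (hs hφ), rip, ip_top, hn φ (hs hφ)]]
      simpa using hineq)
  refine c.isCoherent' e ?_ ?_ (exists_ne_zero_of_star (χ := χ) (by simp) (.inr (.inr rfl))
    (h.ch χ hχ) (h.star_ne χ hχ))
  · rintro φ (k | rfl | rfl)
    · simp [show φ ∈ S₁ from k]
    · simp
    · simp [show conjFun χ = star χ from rfl]
  · rintro φ (k | rfl | rfl)
    exacts [hs k, hχ, h.star_mem χ hχ]

end Cfsg.Agent.S1516
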