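import Cfsg.Statements.S1517
import Cfsg.Agent.PF.Bridge5

set_option autoImplicit false
open Cfsg

namespace Cfsg.Agent.S1517

open CF.PF
open scoped ComplexConjugate

/-- Let (S, τ, R) be a coherence system from L to G such that φ 1 = ψ 1 for all φ, ψ ∈ S. Then (S, L minus 1, τ) is coherent. -/
theorem result {L : Type*} [Group L] [Fintype L] {G : Type*} [Group G] [Fintype G] (S : Set (L → ℂ)) (τ : (L → ℂ) → (G → ℂ)) (R : (L → ℂ) → Finset (G → ℂ)) (hS : Cfsg.IsCoherenceSystem S τ R) (hdeg : ∀ φ ∈ S, ∀ ψ ∈ S, φ 1 = ψ 1) : Cfsg.IsCoherent S {1}ᶜ τ := by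
  lift S to Finset (L → ℂ) using IsCoherenceSystem.finite hS
  obtain ⟨τ', h, e⟩ := exists_subCoh hS
  obtain ⟨χ, hχ⟩ := hS.nonempty
  exact (h.uniform hdeg).isCoherent e
    (exists_ne_zero_of_star hχ (h.star_mem χ hχ) (h.ch χ hχ) (h.star_ne χ hχ))

end Cfsg.Agent.S1517
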