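import Cfsg.Statements.S1518
import Cfsg.Agent.PF.Sec5

set_option autoImplicit false
open Cfsg

namespace Cfsg.Agent.S1518

open CF.PF
open scoped ComplexConjugate

/-- Under the Dade hypothesis for (A, L, H): if χ is an irreducible character of L vanishing at every non-identity element of L outside A, then the Dade image of χ − conj χ equals μ − conj μ for some irreducible character μ of G. -/
theorem result {G : Type*} [Group G] [Fintype G] (A : Set G) (L : Subgroup G) [Fintype L] (H : G → Subgroup G) (hD : Cfsg.DadeHypothesis A L H) (χ : L → ℂ) (hχ : Cfsg.IsIrrCharacter L χ) (hsupp : ∀ x : L, x ≠ 1 → (x : G) ∉ A → χ x = 0) : ∃ μ : G → ℂ, Cfsg.IsIrrCharacter G μ ∧ Cfsg.dadeIsometry A L H (χ - Cfsg.conjFun χ) = μ - Cfsg.conjFun μ := by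
  obtain ⟨a, ha, e⟩ := exists_irr_dade_sub_star hD (extendByZero_mem_irr.2 hχ) fun x hx => by
    by_cases k : x ∈ L
    · rw [extendByZero_of_mem _ _ k]
      exact hsupp _ (fun e => hx (.inl (congrArg Subtype.val e))) fun e => hx (.inr e)
    · exact extendByZero_of_notMem _ _ k
  refine ⟨a, mem_irr_top.1 ha, (dadeIsometry_eq_dade _).trans (.trans ?_ e)⟩
  congr 1
  ext x
  by_cases k : x ∈ L
  · simp [extendByZero_of_mem _ _ k, conjFun]
  · simp [extendByZero_of_notMem _ _ k]

end Cfsg.Agent.S1518
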