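import Cfsg.Statements.S1520
import Cfsg.Agent.PF.Bridge5

set_option autoImplicit false
open Cfsg

namespace Cfsg.Agent.S1520

open CF.PF
open scoped ComplexConjugate

/-- Let K be a solvable normal subgroup of the finite group L and (S, τ, R) a coherence system from L to G with S the functions induced from non-principal irreducible characters of K; S(A) the members of S induced from characters whose kernel contains A. Let M ≤ H₁ ≤ H ≤ K be normal subgroups of L such that every term of the lower central series of H eventually lies in M (H/M nilpotent), S(H₁) is coherent and [H:H₁] > 4 * [L:K]^2 + 1. Then S(M) is coherent. -/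
theorem result {L : Type*} [Group L] [Fintype L] {G : Type*} [Group G] [Fintype G] (K : Subgroup L) [hK : K.Normal] (hsolv : Group.IsSolvable K) (τ : (L → ℂ) → (G → ℂ)) (R : (L → ℂ) → Finset (G → ℂ)) (hS : Cfsg.IsCoherenceSystem (Cfsg.inducedIrrAbove K ⊥) τ R) (M H₁ H : Subgroup L) [M.Normal] [H₁.Normal] [H.Normal] (hMH₁ : M ≤ H₁) (hH₁H : H₁ ≤ H) (hHK : H ≤ K) [(M.subgroupOf H).Normal] (hnil : Group.IsNilpotent (↥H ⧸ M.subgroupOf H)) (hcoh : Cfsg.IsCoherent (Cfsg.inducedIrrAbove K H₁) {1}ᶜ τ) (hbig : 4 * K.index ^ 2 + 1 < H₁.relIndex H) : Cfsg.IsCoherent (Cfsg.inducedIrrAbove K M) {1}ᶜ τ := by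
  have hM := hMH₁.trans (hH₁H.trans hHK)
  rw [inducedIrrAbove_eq bot_le] at hS
  rw [inducedIrrAbove_eq (hH₁H.trans hHK)] at hcoh
  rw [inducedIrrAbove_eq hM]
  obtain ⟨τ', h, e⟩ := exists_subCoh hS
  have e' := fun (M : Subgroup L) α a => e α (ZS_mono (sind_sub_bot (M := M)) a)
  obtain ⟨α, a, b⟩ := hcoh.1
  obtain ⟨f⟩ := CF.BG.qt_iso_quotient (H := H) (le_top.trans (top_le_normalizer M))
  exact (h.bounded (CF.BG.normalIn_top.2 hK) hsolv (top_le_normalizer M) (top_le_normalizer H)
    (top_le_normalizer H₁) hMH₁ hH₁H hHK (Group.nilpotent_of_mulEquiv f.symm) (coh_of_isCoherent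
      (fun χ hχ => ZIrr.one_eq_int (sind_zirr le_top hχ)) (e' H₁) hcoh) (by simpa using hbig)).isCoherent
    (e' M) ⟨α, zspanOn_mono (Finset.coe_subset.2 (sind_sub hMH₁)) _ a, b⟩

end Cfsg.Agent.S1520
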