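import Cfsg.Statements.S1521
import Cfsg.Agent.PF.Bridge5

set_option autoImplicit false
open Cfsg

namespace Cfsg.Agent.S1521

open CF.PF
open scoped ComplexConjugate

/-- Let K be a solvable normal subgroup of the finite group L of odd order and (S, τ, R) a coherence system from L to G with S the functions induced from non-principal irreducible characters of K; S(A) as before. Let M ≤ K be normal in L with K/M nilpotent, H₁ = [K, K] ⊔ M, H₁ < K < L, and suppose every element of K outside H₁ is centralised modulo H₁ only from inside K (L/H₁ is a Frobenius group with kernel K/H₁). Suppose one of the following: some normal subgroup of L lies strictly between H₁ and K; or [K:H₁] > 4[L:K]^2 + 1; or [K:M] is not a prime power; or [K,K] ≤ M; or [K:M] is a power of a prime p with [L:K] dividing p − 1. Then S(M) is coherent. -/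
theorem result {L : Type*} [Group L] [Fintype L] {G : Type*} [Group G] [Fintype G] (K : Subgroup L) [hK : K.Normal] (hsolv : Group.IsSolvable K) (τ : (L → ℂ) → (G → ℂ)) (R : (L → ℂ) → Finset (G → ℂ)) (hS : Cfsg.IsCoherenceSystem (Cfsg.inducedIrrAbove K ⊥) τ R) (hodd : Odd (Nat.card L)) (M : Subgroup L) [M.Normal] (hMK : M ≤ K) [(M.subgroupOf K).Normal] (hnil : Group.IsNilpotent (↥K ⧸ M.subgroupOf K)) (H₁ : Subgroup L) (hH₁ : H₁ = ⁅K, K⁆ ⊔ M) (hH₁K : H₁ < K) (hKL : K < ⊤) (hfrob : ∀ k ∈ K, k ∉ H₁ → ∀ x : L, x * k * x⁻¹ * k⁻¹ ∈ H₁ → x ∈ K) (hgood : (∃ N : Subgroup L, N.Normal ∧ H₁ < N ∧ N < K) ∨ 4 * K.index ^ 2 + 1 < H₁.relIndex K ∨ (¬ ∃ p m : ℕ, p.Prime ∧ M.relIndex K = p ^ m) ∨ ⁅K, K⁆ ≤ M ∨ (∃ p m : ℕ, p.Prime ∧ M.relIndex K = p ^ m ∧ K.index ∣ p - 1)) : Cfsg.IsCoherent (Cfsg.inducedIrrAbove K M) {1}ᶜ τ := by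
  subst hH₁
  rw [inducedIrrAbove_eq bot_le] at hS
  rw [inducedIrrAbove_eq hMK]
  obtain ⟨τ', h, e⟩ := exists_subCoh hS
  have e' := fun (M : Subgroup L) α a => e α (ZS_mono (sind_sub_bot (M := M)) a)
  obtain ⟨f⟩ := CF.BG.qt_iso_quotient (H := K) (le_top.trans (top_le_normalizer M))
  obtain ⟨χ, hχ, -⟩ := exists_lin_sind (L := ⊤) le_top ⟨hMK, le_top.trans (top_le_normalizer M)⟩
    hH₁K.not_ge
  refine Coh.isCoherent (by_contra fun n => ?_) (e' M) (exists_ne_zero_of_star hχ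
    (sind_star hχ) (sind_isCh le_top hχ) (h.star_ne χ (sind_sub_bot hχ)))
  obtain ⟨c, l, p, hp, pM, nd, nd'⟩ := h.non_coh_chief hsolv ⟨by simpa using hodd,
    CF.BG.normalIn_top.2 hK, hMK, top_le_normalizer M, Group.nilpotent_of_mulEquiv f.symm, hH₁K, hKL.ne,
    fun k hk nk x _ => hfrob k hk nk x⟩ n
  rw [Subgroup.relIndex_top_right] at l nd'
  obtain ⟨m, em⟩ := pM.exists_pow (CF.BG.relIndex_ne_zero' _ _)
  rcases hgood with ⟨N, a, b, d⟩ | k | k | k | ⟨q, r, hq, k, k'⟩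
  · exact b.ne' (c.max N b.le d (top_le_normalizer N))
  · exact k.not_ge l
  · exact k ⟨p, m, hp, em⟩
  · exact nd k
  · have := one_lt_relIndex (H := M) (le_sup_right.trans_lt hH₁K).not_ge
    obtain rfl : q = p := pM q hq (k ▸ dvd_pow_self q (by rintro rfl; rw [k] at this; simp at this))
    exact nd' k'

end Cfsg.Agent.S1521
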