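import Cfsg.Statements.S1522
import Cfsg.Agent.PF.Bridge5

set_option autoImplicit false
open Cfsg

namespace Cfsg.Agent.S1522

open CF.PF
open scoped ComplexConjugate

/-- Let K be a nilpotent normal subgroup of the finite group L of odd order with [K,K] < K < L and L/[K,K] a Frobenius group with kernel K/[K,K] (elements of K outside [K,K] are centralised modulo [K,K] only from inside K); let (S, τ, R) be a coherence system from L to G with S the functions induced from non-principal irreducible characters of K. Let Z be a nontrivial normal subgroup of L contained in the centre of K, and suppose every member of S outside S(Z) is an irreducible character of L. Then S minus S(Z) is the set of irreducible characters χ of L with χ z ≠ χ 1 for some z ∈ Z, and it is coherent. -/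
theorem result {L : Type*} [Group L] [Fintype L] {G : Type*} [Group G] [Fintype G] (K : Subgroup L) [hK : K.Normal] (hsolv : Group.IsSolvable K) (τ : (L → ℂ) → (G → ℂ)) (R : (L → ℂ) → Finset (G → ℂ)) (hS : Cfsg.IsCoherenceSystem (Cfsg.inducedIrrAbove K ⊥) τ R) (hodd : Odd (Nat.card L)) (hnil : Group.IsNilpotent K) (hH₁K : ⁅K, K⁆ < K) (hKL : K < ⊤) (hfrob : ∀ k ∈ K, k ∉ ⁅K, K⁆ → ∀ x : L, x * k * x⁻¹ * k⁻¹ ∈ ⁅K, K⁆ → x ∈ K) (Z : Subgroup L) [Z.Normal] (hZ1 : Z ≠ ⊥) (hZK : Z ≤ K) (hZc : ∀ z ∈ Z, ∀ k ∈ K, z * k = k * z) (hirr : ∀ χ ∈ Cfsg.inducedIrrAbove K ⊥ \ Cfsg.inducedIrrAbove K Z, Cfsg.IsIrrCharacter L χ) : Cfsg.inducedIrrAbove K ⊥ \ Cfsg.inducedIrrAbove K Z = {χ | Cfsg.IsIrrCharacter L χ ∧ ∃ z ∈ Z, χ z ≠ χ 1} ∧ Cfsg.IsCoherent (Cfsg.inducedIrrAbove K ⊥ \ Cfsg.inducedIrrAbove K Z) {1}ᶜ τ := by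
  rw [inducedIrrAbove_eq bot_le] at hS
  obtain ⟨τ', h, e⟩ := exists_subCoh hS
  have nK := CF.BG.normalIn_top.2 hK
  have nZ := top_le_normalizer Z
  have eq : inducedIrrAbove K ⊥ \ inducedIrrAbove K Z = (sind K ⊤ Z ⊥ : Set (L → ℂ)) := by
    ext χ
    rw [inducedIrrAbove_eq bot_le, inducedIrrAbove_eq hZK, Finset.mem_coe,
      mem_sind_sdiff le_top hZK nZ bot_le (by simp), sup_bot_eq]
    rfl
  rw [eq] at hirr ⊢
  have hi : sind K ⊤ Z ⊥ ⊆ irr ⊤ := fun χ hχ => mem_irr_top.2 (hirr χ hχ)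
  obtain ⟨a, c⟩ := h.irr_coh ⟨by simpa using hodd, nK, bot_le, by simp, CF.BG.Nil.qt hnil _,
    by simpa using hH₁K, hKL.ne, fun k hk nk x _ => by
      rw [sup_bot_eq] at nk ⊢; exact hfrob k hk nk x⟩ hZ1
    (fun z hz => ⟨hZK hz, CF.BG.mem_cent.2 fun k hk => (hZc z hz k hk).symm⟩) nZ hi
  obtain ⟨z, hz, z1⟩ := CF.BG.exists_mem_ne_one hZ1
  obtain ⟨χ, hχ, n⟩ := exists_irrK_notMem (H := ⊤) (N := ⊥) bot_le (by simp) (g := z) z1
  have m := (a χ).2 ⟨irrK_subset hχ, fun k => n (k hz)⟩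
  refine ⟨Set.ext fun φ => (a φ).trans ?_, c.isCoherent
    (fun α k => e α (ZS_mono (sind_sub_self hZK) k)) (exists_ne_zero_of_star m (sind_star m)
    (sind_isCh le_top m) (h.star_ne χ (sind_sub_self hZK m)))⟩
  refine ⟨fun k => ⟨mem_irr_top.1 k.1, ?_⟩, fun ⟨k, y, hy, ne⟩ =>
    ⟨mem_irr_top.2 k, fun k' => ne (apply_of_mem_ker (k' hy))⟩⟩
  simpa [(isCh_of_irr k.1).le_ker_iff le_top] using k.2

end Cfsg.Agent.S1522
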