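import Cfsg.Statements.S1523
import Cfsg.Agent.PF.Cong67

set_option autoImplicit false
open Cfsg

namespace Cfsg.Agent.S1523

/-- Let G be a finite group, p a prime, P a Sylow p-subgroup whose underlying set is a TI-subset of G, with L the set normaliser of P of odd order. Let Z ≠ ⊥ be a subgroup of P, normal in L and central in P, such that the centralisers in L of any two non-identity elements of Z have the same order. If ψ is an irreducible character of G taking the same value at all non-identity elements of Z, then for z ∈ Z, z ≠ 1, the value ψ z is an integer n with Nat.card P dividing ψ(1) − n (as integers, ψ 1 being the degree). -/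
theorem result {G : Type*} [Group G] [Finite G] (p : ℕ) [Fact p.Prime] (P : Sylow p G) (hTI : Cfsg.IsTISubset ((P : Subgroup G) : Set G)) (hodd : Odd (Nat.card (Subgroup.normalizer ((P : Subgroup G) : Set G)))) (Z : Subgroup G) (hZ1 : Z ≠ ⊥) (hZP : Z ≤ P) (hZn : ∀ x ∈ Subgroup.normalizer ((P : Subgroup G) : Set G), ∀ z ∈ Z, x * z * x⁻¹ ∈ Z) (hZc : ∀ z ∈ Z, ∀ y ∈ (P : Subgroup G), z * y = y * z) (hCL : ∀ z ∈ Z, ∀ z' ∈ Z, z ≠ 1 → z' ≠ 1 → Nat.card ↥(Subgroup.normalizer ((P : Subgroup G) : Set G) ⊓ Subgroup.centralizer ({z} : Set G)) = Nat.card ↥(Subgroup.normalizer ((P : Subgroup G) : Set G) ⊓ Subgroup.centralizer ({z'} : Set G))) (ψ : G → ℂ) (hψ : Cfsg.IsIrrCharacter G ψ) (hconst : ∀ z ∈ Z, ∀ z' ∈ Z, z ≠ 1 → z' ≠ 1 → ψ z = ψ z') (z : G) (hz : z ∈ Z) (hz1 : z ≠ 1) : ∃ n d : ℤ, ψ z = n ∧ ψ 1 = d ∧ (Nat.card (P : Subgroup G) : ℤ) ∣ d - n := by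
  have hN : ∀ g x, x ∈ (P : Subgroup G) → x ≠ 1 → g * x * g⁻¹ ∈ (P : Subgroup G) →
      g ∈ Subgroup.normalizer ((P : Subgroup G) : Set G) := fun g x hx h1 h => by
    by_contra hg
    exact h1 (hTI g hg x hx h)
  refine CF.PF.const_cong_int hψ (Z := Z) (fun y hy hy1 => hconst y hy z hz hy1 hz1)
    (fun u hu hu1 y hy x hx hc => ?_) hz (fun h => ?_) ?_
  · obtain ⟨g, rfl⟩ := isConj_iff.1 hx
    by_cases hy1 : y = 1
    · simp [hy1]
    refine hZn g (hN g y (hZP hy) hy1 ?_) y hy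
    have h1 := hN (g * y * g⁻¹) u hu hu1 (by rw [← hc, mul_inv_cancel_right]; exact hu)
    obtain ⟨k, hk⟩ := P.isPGroup' ⟨y, hZP hy⟩
    have h2 : IsPGroup p (Subgroup.zpowers (g * y * g⁻¹)) := by
      rintro ⟨_, n, rfl⟩
      refine ⟨k, Subtype.ext ?_⟩
      have h3 : y ^ p ^ k = 1 := congrArg Subtype.val hk
      show ((g * y * g⁻¹) ^ n) ^ p ^ k = 1
      rw [← zpow_natCast, ← zpow_mul, mul_comm n, zpow_mul, zpow_natCast, conj_pow, h3]
      simp
    exact ((h2.inf_normalizer_sylow P).le ⟨Subgroup.mem_zpowers _, h1⟩).2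
  · obtain ⟨g, hg⟩ := isConj_iff.1 h
    exact hz1 (CF.PF.eq_one_of_conj_eq_inv (CF.PF.odd_orderOf hodd (hN g z (hZP hz) hz1
      (hg ▸ inv_mem (hZP hz)))) (CF.PF.odd_orderOf hodd (Subgroup.le_normalizer (hZP hz))) hg)
  · refine P.card_coprime_index.symm.coprime_dvd_left (Subgroup.index_dvd_of_le fun y hy => ?_)
    exact Subgroup.mem_centralizer_singleton_iff.2 (hZc z hz y hy).symm

end Cfsg.Agent.S1523
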