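import Cfsg.Statements.S1524
import Cfsg.Agent.PF.Bridge5

set_option autoImplicit false
open Cfsg

namespace Cfsg.Agent.S1524

open CF.PF
open scoped ComplexConjugate

/-- Let G be a finite group and H ≤ L subgroups with L of odd order, H ≠ ⊥ nilpotent and normal in L with a nontrivial complement W₁ in L (H ⊓ W₁ = ⊥, H ⊔ W₁ = L) acting on H without non-identity fixed points (L is a Frobenius group with kernel H), and suppose the underlying set of H is a TI-subset of G whose normaliser is L. Let S be the set of functions on L induced from the non-principal irreducible characters of H. Then (S, L minus 1, induction to G) is coherent. -/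
theorem result {G : Type*} [Group G] [Fintype G] (H L W₁ : Subgroup G) [Fintype L] (hodd : Odd (Nat.card L)) (hHL : H ≤ L) (hW₁L : W₁ ≤ L) (hH1 : H ≠ ⊥) (hW1 : W₁ ≠ ⊥) (hnil : Group.IsNilpotent H) (hHn : ∀ x ∈ L, ∀ h ∈ H, x * h * x⁻¹ ∈ H) (hinf : H ⊓ W₁ = ⊥) (hsup : H ⊔ W₁ = L) (hfpf : ∀ w ∈ W₁, w ≠ 1 → ∀ h ∈ H, w * h = h * w → h = 1) (hTI : Cfsg.IsTISubset (H : Set G)) (hN : Subgroup.normalizer (H : Set G) = L) : Cfsg.IsCoherent (Cfsg.inducedIrrAbove (H.subgroupOf L) ⊥) {1}ᶜ (fun α : L → ℂ => Cfsg.indFun L α) := by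
  have nH : CF.BG.NormalIn H L := ⟨hHL, CF.BG.le_norm_iff.2 hHn⟩
  have hF : CF.BG.Frob H W₁ L := ⟨.of_normal nH hsup hinf, hH1, hW1, CF.BG.reg_of_forall hfpf⟩
  obtain ⟨E, hE⟩ := exists_frob (L := ⊤) (K := H.subgroupOf L) (CF.BG.normalIn_top.2 nH.normal)
    (fun e => hH1 (by rw [← CF.BG.map_subgroupOf hHL, e, Subgroup.map_bot]))
    (fun e => hW1 (by rw [← hinf, inf_eq_right.2 (hW₁L.trans (Subgroup.subgroupOf_eq_top.1 e))]))
    fun k hk k1 x hx => hF.cent1_le hk (fun e => k1 (Subtype.ext e))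
      ⟨x.2, CF.BG.mem_cent1.2 (congrArg Subtype.val (CF.BG.mem_cent1.1 hx.2))⟩
  rw [inducedIrrAbove_eq bot_le, ← setOf_irr_eq hE]
  refine (sibley_frob hodd hnil (hN ▸ nti_of_isTISubset hTI) hF).isCoherent_exc hF ?_
  obtain ⟨χ, hχ, -⟩ := exists_lin_sind (M := ⊥) hHL (.bot H)
    (by simpa using (hF.nilF.sol.der_lt hH1).not_ge)
  exact Finset.one_lt_card.2 ⟨_, sind_star hχ, _, hχ, sind_star_ne hodd nH le_rfl hχ⟩

end Cfsg.Agent.S1524
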