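import Cfsg.Statements.S1526
import Cfsg.Agent.PF.Sec6
import Cfsg.Agent.PF7.Sec7b
import Cfsg.Agent.S0588
import Cfsg.Agent.BG2.I3a

set_option autoImplicit false
open Cfsg

namespace Cfsg.Agent.S1526

open CF.BG CF.PF in
theorem frob {G : Type*} [Group G] [Finite G] {H L : Subgroup G} (hHL : H < L) (hH1 : H ≠ ⊥)
    (hHn : ∀ x ∈ L, ∀ h ∈ H, x * h * x⁻¹ ∈ H)
    (hfrob : ∀ h ∈ H, h ≠ 1 → L ⊓ Subgroup.centralizer ({h} : Set G) ≤ H) : ∃ E, Frob H E L := by
  have n : L ≤ Subgroup.normalizer (H : Set G) := fun x hx =>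
    Subgroup.mem_normalizer_iff.2 fun h => ⟨hHn x hx h, fun k => by
      simpa [mul_assoc] using hHn x⁻¹ (L.inv_mem hx) _ k⟩
  have c := Cfsg.Agent.S0588.result (H.subgroupOf L) fun x hx x1 y hy =>
    hfrob x hx (fun e => x1 (Subtype.ext e)) ⟨y.2, Subgroup.mem_centralizer_singleton_iff.2
      (congrArg Subtype.val (Subgroup.mem_centralizer_singleton_iff.1 hy))⟩
  rw [Nat.card_congr (Subgroup.subgroupOfEquivOfLe hHL.le).toEquiv] at c
  obtain ⟨E, sd⟩ := exists_compl ⟨hHL.le, n⟩ c
  refine ⟨E, sd, hH1, fun e => hHL.ne (by rw [← sd.sup, e, sup_bot_eq]),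
    Reg.symm fun h hh h1 => eq_bot_mono sd.inf (le_inf ?_ inf_le_left)⟩
  exact (inf_le_inf_right _ sd.right_le).trans (hfrob h hh h1)

/-- Let G be a finite group of odd order and (L i, H i), i in a finite index type with at least two elements, pairs of subgroups with H i a nontrivial proper normal subgroup of L i such that every non-identity element of H i has its centraliser within L i contained in H i (L i is a Frobenius group with kernel H i), the orders of the H i pairwise coprime, and the underlying set of each H i a TI-subset of G with normaliser L i. If every non-identity element of G is conjugate to an element of some H i, we reach a contradiction. -/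
theorem result {G : Type*} [Group G] [Finite G] (hodd : Odd (Nat.card G)) {ι : Type*} [Fintype ι] (hι : 2 ≤ Fintype.card ι) (L H : ι → Subgroup G) (hHL : ∀ i, H i < L i) (hH1 : ∀ i, H i ≠ ⊥) (hHn : ∀ i, ∀ x ∈ L i, ∀ h ∈ H i, x * h * x⁻¹ ∈ H i) (hfrob : ∀ i, ∀ h ∈ H i, h ≠ 1 → L i ⊓ Subgroup.centralizer ({h} : Set G) ≤ H i) (hcop : ∀ i j, i ≠ j → Nat.Coprime (Nat.card (H i)) (Nat.card (H j))) (hTI : ∀ i, Cfsg.IsTISubset (H i : Set G) ∧ Subgroup.normalizer (H i : Set G) = L i) (hcover : ∀ g : G, g ≠ 1 → ∃ i, ∃ x : G, x * g * x⁻¹ ∈ H i) : False := by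
  classical
  have := Fintype.ofFinite G
  have : Nonempty ι := Fintype.card_pos_iff.1 (by omega)
  choose E hE using fun i => frob (hHL i) (hH1 i) (hHn i) (hfrob i)
  have ti : ∀ i, CF.PF.NTI ((H i : Set G) \ {1}) ⊤ (L i) := fun i =>
    ⟨fun a ha => (hHL i).le ha.1, le_top, fun x hx a ha => ⟨hHn i x hx a ha.1, fun e => ha.2 (by
      simpa using e)⟩, fun a ha g _ h => by
      by_contra k
      exact ha.2 ((hTI i).1 g ((hTI i).2 ▸ k) a ha.1 h.1)⟩
  refine CF.PF7.no_coherent_frobenius_partition hodd L H (fun i h => (hHL i).not_ge h)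
    (fun i => ?_) (fun i h hh h1 g hg e => hfrob i h hh h1
      ⟨hg, Subgroup.mem_centralizer_singleton_iff.2 e⟩) ti hcop (fun i S hS => ?_) hcover
  · have := (hE i).nil'.sol
    exact (CF.Coprime.commutator_lt_of_isSolvable (hH1 i)).not_ge
  · obtain ⟨ν, k⟩ := CF.PF.sibley_frob (hodd.of_dvd_nat (L i).card_subgroup_dvd_card) (hE i).nil'
      (ti i) (hE i)
    exact ⟨ν, hS.eq_sind ▸ k.coh7⟩

end Cfsg.Agent.S1526
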