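import Cfsg.Statements.S1527
import Cfsg.Agent.PF.Dade

set_option autoImplicit false
open Cfsg

namespace Cfsg.Agent.S1527

open CF.PF
open scoped ComplexConjugate

theorem card_dsupp {G : Type*} [Group G] [Finite G] {A : Set G} {L : Subgroup G}
    {H : G → Subgroup G} (hD : DadeHypothesis A L H) :
    (dsupp A H).ncard = L.index * A.ncard := by
  classical
  have h := dade_sum hD (F := (dsupp A H).indicator 1) ⟨fun x hx => (hx trivial).elim,
    fun h _ x => by simp only [Set.indicator, conj_mem_dsupp_iff, Pi.one_apply]⟩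
    (fun x hx => Set.indicator_of_notMem hx _)
  rw [rho_congr (ψ := triv ⊤) (fun g hg => by rw [Set.indicator_of_mem hg, triv_top]), rho_triv] at h
  have e : ∀ (B : Set G) (K : Subgroup G), B ⊆ K → ∑ g ∈ els K, B.indicator (1 : G → ℂ) g = B.ncard :=
    fun B K hB => by
      rw [Finset.sum_indicator_eq_sum_filter, Set.ncard_eq_toFinset_card B (Set.toFinite B)]
      simp only [Pi.one_apply, Finset.sum_const, nsmul_eq_mul, mul_one, Nat.cast_inj]
      congr 1; ext x; simpa using fun h => hB h
  rw [e _ _ (by simp), e _ _ hD.subset, ← L.index_mul_card] at h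
  have h1 := card_ne_zero L
  have h2 : (L.index : ℂ) ≠ 0 := by exact_mod_cast Subgroup.index_ne_zero_of_finite
  push_cast at h
  field_simp at h
  exact_mod_cast h

/-- Let G be a finite group and H i (i in a finite index type) subgroups of pairwise coprime orders, each of whose underlying sets is a TI-subset of G, such that every non-identity element of G is conjugate to an element of some H i. Then Nat.card G − 1 = Σ_i [G : N_G(H i)] · (Nat.card (H i) − 1). -/
theorem result {G : Type*} [Group G] [Finite G] {ι : Type*} [Fintype ι] (H : ι → Subgroup G) (hcop : ∀ i j, i ≠ j → Nat.Coprime (Nat.card (H i)) (Nat.card (H j))) (hTI : ∀ i, Cfsg.IsTISubset (H i : Set G)) (hcover : ∀ g : G, g ≠ 1 → ∃ i, ∃ x : G, x * g * x⁻¹ ∈ H i) : Nat.card G - 1 = ∑ i, (Subgroup.normalizer (H i : Set G)).index * (Nat.card (H i) - 1) := by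
  classical
  have h1 : ∀ i, (dsupp ((H i : Set G) \ {1}) (fun _ => ⊥)).ncard =
      (Subgroup.normalizer (H i : Set G)).index * (Nat.card (H i) - 1) := fun i => by
    rw [card_dsupp ((nti_of_isTISubset (hTI i)).dade (by simp)),
      Set.ncard_diff_singleton_of_mem (H i).one_mem]; rfl
  have hm : ∀ i g, g ∈ dsupp ((H i : Set G) \ {1}) (fun _ => ⊥) ↔
      g ≠ 1 ∧ ∃ x : G, x * g * x⁻¹ ∈ H i := fun i g => by
    constructor
    · rintro ⟨a, ha, u, hu, x, e⟩
      rw [Subgroup.mem_bot.1 hu, mul_one] at e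
      exact ⟨fun h => ha.2 (by rw [← e, h]; simp), x, e ▸ ha.1⟩
    · rintro ⟨h, x, hx⟩
      exact ⟨_, ⟨hx, by simpa using h⟩, 1, Subgroup.one_mem _, x, (mul_one _).symm⟩
  simp only [← h1]
  rw [← finsum_eq_sum_of_fintype, ← Set.ncard_iUnion_of_finite (fun _ => Set.toFinite _)]
  · rw [← Set.ncard_univ, ← Set.ncard_diff_singleton_of_mem (Set.mem_univ (1 : G))]
    congr 1; ext g
    simp only [Set.mem_diff, Set.mem_univ, true_and, Set.mem_singleton_iff, Set.mem_iUnion, hm]
    exact ⟨fun h => (hcover g h).imp fun i hi => ⟨h, hi⟩, fun ⟨_, h, _⟩ => h⟩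
  · intro i j hij
    refine Set.disjoint_left.2 fun g hi hj => ?_
    obtain ⟨h, x, hx⟩ := (hm i g).1 hi
    obtain ⟨-, y, hy⟩ := (hm j g).1 hj
    have a := orderOf_dvd_card_of_mem hx
    have b := orderOf_dvd_card_of_mem hy
    rw [← MulAut.conj_apply, MulEquiv.orderOf_eq] at a b
    exact h (orderOf_eq_one_iff.1 (Nat.eq_one_of_dvd_coprimes (hcop i j hij) a b))

end Cfsg.Agent.S1527
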