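import Cfsg.Statements.S1529
import Cfsg.Agent.PF.Virt

set_option autoImplicit false
open Cfsg

namespace Cfsg.Agent.S1529

open CF.PF
open scoped ComplexConjugate

/-- Let N be a subgroup of the finite group G, S a set of irreducible characters of N with at least two members, and τ₁ a linear isometry on the integer combinations of S with virtual-character values such that τ₁ α vanishes at 1 whenever α ∈ ℤ[S] does. Then there is ε ∈ {1, −1} such that ε • τ₁ χ is an irreducible character of G for every χ ∈ S, and distinct members of S give distinct characters. -/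
theorem result {G : Type*} [Group G] [Fintype G] (N : Subgroup G) [Fintype N] (S : Set (N → ℂ)) (hirr : ∀ χ ∈ S, Cfsg.IsIrrCharacter N χ) (htwo : ∃ χ ∈ S, ∃ ψ ∈ S, χ ≠ ψ) (τ₁ : (N → ℂ) → (G → ℂ)) (hτ₁ : Cfsg.IsLinearIsometryOn (Cfsg.zspan S) τ₁) (h0 : ∀ α ∈ Cfsg.zspan S, α 1 = 0 → τ₁ α 1 = 0) : ∃ ε : ℂ, (ε = 1 ∨ ε = -1) ∧ (∀ χ ∈ S, Cfsg.IsIrrCharacter G (ε • τ₁ χ)) ∧ (∀ χ ∈ S, ∀ ψ ∈ S, τ₁ χ = τ₁ ψ → χ = ψ) := by
  obtain ⟨h1, h2, h3, h4⟩ := hτ₁
  have hm : ∀ χ ∈ S, χ ∈ zspan S := fun χ h => Submodule.subset_span h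
  have hs : ∀ χ ∈ S, SIr ⊤ (τ₁ χ) := fun χ h => sir_of_rip_self (mem_ZIrr_top.2 (h4 χ (hm χ h)))
    (by rw [rip, ip_top, h3 χ (hm χ h) χ (hm χ h), ← ip_extendByZero,
      ip_irr_self (extendByZero_mem_irr.2 (hirr χ h))]; simp)
  have hd : ∀ χ ∈ S, ∃ n : ℕ, 0 < n ∧ χ 1 = n := fun χ h => by
    simpa only [← extendByZero_coe N, OneMemClass.coe_one] using
      irr_one_nat (extendByZero_mem_irr.2 (hirr χ h))
  obtain ⟨χ₀, h₀, -⟩ := htwo
  obtain ⟨ε, hε, e⟩ := (hs χ₀ h₀).exists_sign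
  refine ⟨ε, by rcases hε with h | h <;> simp [h], fun χ hχ => ?_, fun χ hχ ψ hψ e => ?_⟩
  · obtain ⟨a, ha, ha'⟩ := hd χ₀ h₀
    obtain ⟨b, hb, hb'⟩ := hd χ hχ
    have m1 : (a : ℤ) • χ ∈ zspan S := Submodule.smul_mem _ _ (hm χ hχ)
    have m2 : (-b : ℤ) • χ₀ ∈ zspan S := Submodule.smul_mem _ _ (hm χ₀ h₀)
    have := h0 _ (Submodule.add_mem _ m1 m2) (by simp [ha', hb', mul_comm])
    rw [h1 _ m1 _ m2, h2 _ (hm χ hχ), h2 _ (hm χ₀ h₀)] at this
    rw [Complex.coe_smul, ← mem_irr_top]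
    refine ((hs χ hχ).rsmul hε).mem_irr ?_
    have p := irr_one_re_pos e
    have q : (a : ℝ) * ((ε • τ₁ χ) 1).re = b * ((ε • τ₁ χ₀) 1).re := by
      have := congrArg Complex.re this
      simp at this ⊢
      linear_combination ε * this
    have ha : (0 : ℝ) < a := by exact_mod_cast ha
    exact nonneg_of_mul_nonneg_right (by rw [q]; positivity) ha
  · by_contra hne
    have := h3 χ (hm χ hχ) ψ (hm ψ hψ)
    rw [← e, ← ip_top, (hs χ hχ).ip_self, ← ip_extendByZero, ip_irr_ne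
      (extendByZero_mem_irr.2 (hirr χ hχ)) (extendByZero_mem_irr.2 (hirr ψ hψ))
      ((extendByZero_injective N).ne hne)] at this
    exact one_ne_zero this

end Cfsg.Agent.S1529
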