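import Cfsg.Statements.S1530
import Cfsg.Agent.PF.Bridge5

set_option autoImplicit false
open Cfsg

namespace Cfsg.Agent.S1530

open CF.PF
open scoped ComplexConjugate

/-- Let N be a subgroup of the finite group G and S₀ a finite set of irreducible characters of N, χ an irreducible character of N not in S₀, with degrees ξ 1 = d ξ. Let τ be a linear isometry on the integer combinations of S₀ ∪ {χ} vanishing at 1, with values virtual characters of G vanishing at 1, such that (S₀, N minus 1, τ) is coherent. If some ψ ∈ S₀ has d ψ dividing d χ and 2 · d ψ · d χ < Σ_{ξ ∈ S₀} (d ξ)², then (S₀ ∪ {χ}, N minus 1, τ) is coherent. -/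
theorem result {G : Type*} [Group G] [Fintype G] (N : Subgroup G) [Fintype N] (S₀ : Finset (N → ℂ)) (χ : N → ℂ) (hirr : ∀ ξ ∈ S₀, Cfsg.IsIrrCharacter N ξ) (hχ : Cfsg.IsIrrCharacter N χ) (hχS : χ ∉ S₀) (d : (N → ℂ) → ℕ) (hd : ∀ ξ ∈ insert χ S₀, ξ 1 = (d ξ : ℂ)) (τ : (N → ℂ) → (G → ℂ)) (hτ : Cfsg.IsLinearIsometryOn (Cfsg.zspanOn (↑(insert χ S₀) : Set (N → ℂ)) {1}ᶜ) τ) (hτ1 : ∀ α ∈ Cfsg.zspanOn (↑(insert χ S₀) : Set (N → ℂ)) {1}ᶜ, τ α 1 = 0) (hcoh : Cfsg.IsCoherent (↑S₀ : Set (N → ℂ)) {1}ᶜ τ) (ψ : N → ℂ) (hψ : ψ ∈ S₀) (hdvd : d ψ ∣ d χ) (hlt : 2 * d ψ * d χ < ∑ ξ ∈ S₀, d ξ ^ 2) : Cfsg.IsCoherent (↑(insert χ S₀) : Set (N → ℂ)) {1}ᶜ τ := by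
  have hi : insert χ S₀ ⊆ irr ⊤ := Finset.insert_subset (mem_irr_top.2 hχ)
    fun ξ h => mem_irr_top.2 (hirr ξ h)
  have hz := fun ξ (h : ξ ∈ insert χ S₀) => ZIrr.one_eq_int (zirr_of_irr (hi h))
  obtain ⟨τ', h, e⟩ := exists_iso0 hz hτ hτ1
  have hs := Finset.subset_insert χ S₀
  obtain ⟨a, ha⟩ := hdvd
  have m := Finset.mem_insert_self χ S₀
  obtain ⟨α, b, c⟩ := hcoh.1
  refine (h.extend_irr hi hs (coh_of_isCoherent (fun ξ k => hz ξ (hs k))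
    (fun α a => e α (ZS_mono hs a)) hcoh) hψ m (a := a)
    (by rw [hd χ m, hd ψ (hs hψ), ha]; push_cast; ring) ?_).isCoherent' e
    (fun φ k => by simpa [or_comm] using k) (fun _ k => k)
    ⟨α, zspanOn_mono (Finset.coe_subset.2 hs) _ b, c⟩
  rw [hd χ m, hd ψ (hs hψ), Finset.sum_congr rfl fun φ hφ => by
    rw [hd φ (hs hφ), rip_irr_self (hi (hs hφ))]]
  simp only [Complex.natCast_re, div_one]
  rw [mul_right_comm]
  exact_mod_cast hlt

end Cfsg.Agent.S1530
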