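import Cfsg.Statements.S1531
import Cfsg.Agent.PF.Bridge5

set_option autoImplicit false
open Cfsg

namespace Cfsg.Agent.S1531

open CF.PF
open scoped ComplexConjugate

/-- Let N be a subgroup of the finite group G, S a set of irreducible characters of N, and α a linear isometry on the integer combinations of S vanishing at 1 with values virtual characters of G vanishing at 1. Let X, Y ⊆ S be disjoint, each with at least two members, and σ, τ linear isometries on ℤ[X], ℤ[Y] into virtual characters agreeing with α on the members vanishing at 1. Then ⟨σ χ, τ η⟩ = 0 for χ ∈ X, η ∈ Y; and if for some χ₀ ∈ X, η₀ ∈ Y with degrees c = χ₀ 1, e = η₀ 1 one has α (c • η₀ − e • χ₀) = c • τ η₀ − e • σ χ₀, then (X ∪ Y, N minus 1, α) is coherent. -/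
theorem result {G : Type*} [Group G] [Fintype G] (N : Subgroup G) [Fintype N] (S X Y : Set (N → ℂ)) (hirr : ∀ ξ ∈ S, Cfsg.IsIrrCharacter N ξ) (hXS : X ⊆ S) (hYS : Y ⊆ S) (hXY : Disjoint X Y) (hX2 : ∃ a ∈ X, ∃ b ∈ X, a ≠ b) (hY2 : ∃ a ∈ Y, ∃ b ∈ Y, a ≠ b) (α : (N → ℂ) → (G → ℂ)) (hα : Cfsg.IsLinearIsometryOn (Cfsg.zspanOn S {1}ᶜ) α) (hα1 : ∀ θ ∈ Cfsg.zspanOn S {1}ᶜ, α θ 1 = 0) (σ τ : (N → ℂ) → (G → ℂ)) (hσ : Cfsg.IsLinearIsometryOn (Cfsg.zspan X) σ) (hσα : ∀ θ ∈ Cfsg.zspanOn X {1}ᶜ, σ θ = α θ) (hτ : Cfsg.IsLinearIsometryOn (Cfsg.zspan Y) τ) (hτα : ∀ θ ∈ Cfsg.zspanOn Y {1}ᶜ, τ θ = α θ) : (∀ χ ∈ X, ∀ η ∈ Y, Cfsg.classInner (σ χ) (τ η) = 0) ∧ ((∃ χ₀ ∈ X, ∃ η₀ ∈ Y, α (χ₀ 1 • η₀ - η₀ 1 • χ₀) = χ₀ 1 • τ η₀ - η₀ 1 • σ χ₀) → Cfsg.IsCoherent (X ∪ Y) {1}ᶜ α) := by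
  classical
  have hi : S ⊆ irr (⊤ : Subgroup N) := fun ξ h => Finset.mem_coe.2 (mem_irr_top.2 (hirr ξ h))
  lift S to Finset (N → ℂ) using (irr ⊤).finite_toSet.subset hi
  lift X to Finset (N → ℂ) using S.finite_toSet.subset hXS
  lift Y to Finset (N → ℂ) using S.finite_toSet.subset hYS
  have hz := fun ξ (h : ξ ∈ S) => ZIrr.one_eq_int (zirr_of_irr (hi h))
  obtain ⟨τ', h, e⟩ := exists_iso0 hz hα hα1
  obtain ⟨ν₁, h₁, e₁⟩ := cohWith_of_isometry (fun ξ k => hz ξ (hXS k))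
    (fun α a => e α (ZS_mono hXS a)) hσ hσα
  obtain ⟨ν₂, h₂, e₂⟩ := cohWith_of_isometry (fun ξ k => hz ξ (hYS k))
    (fun α a => e α (ZS_mono hYS a)) hτ hτα
  have d := Finset.disjoint_coe.1 hXY
  have c₁ := Finset.one_lt_card.2 hX2
  have o := h.ortho_irr hi hXS hYS h₁ h₂ d c₁ (Finset.one_lt_card.2 hY2)
  refine ⟨fun χ hχ η hη => ?_, fun ⟨χ, hχ, η, hη, k⟩ => ?_⟩
  · rw [← e₁ χ (mem_ZS hχ), ← e₂ η (mem_ZS hη), ← ip_top, ip_eq_rip (h₁.zirr χ hχ) (h₂.zirr η hη),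
      o χ hχ η hη, Complex.ofReal_zero]
  have a := ZS.smul (mem_ZS hη) (hz χ (hXS hχ))
  have b := ZS.smul (mem_ZS hχ) (hz η (hYS hη))
  obtain ⟨ν, c, -⟩ := CohWith.bridge ((orthS_of_irr hi).mono fun φ k => by
      rcases (by simpa using k : φ ∈ Y ∨ φ ∈ X) with k | k
      exacts [hYS k, hXS k]) h₂ h₁ d.symm (fun a ha b hb => by rw [rip_comm, o b hb a ha])
    (ZS.cs a) (ZS.cs b) (by simp [mul_comm])
    (mul_ne_zero (irr_one_ne (hi (hXS hχ))) (irr_one_ne (hi (hYS hη)))) (by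
      rw [e _ (sub_mem (ZS_mono hYS a) (ZS_mono hXS b)) (by simp [mul_comm]), k, map_smul, map_smul,
        e₁ χ (mem_ZS hχ), e₂ η (mem_ZS hη)])
  obtain ⟨β, b1, b2⟩ := exists_ne_zero_of_irr (fun ξ k => hi (hXS k)) c₁
  exact Coh.isCoherent' ⟨ν, c⟩ e (fun φ k => by simpa [or_comm] using k)
    (fun φ k => k.elim (hXS ·) (hYS ·)) ⟨β, zspanOn_mono Set.subset_union_left _ b1, b2⟩

end Cfsg.Agent.S1531
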