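import Cfsg.Statements.S1532
import Cfsg.Agent.PF.Bridge5

set_option autoImplicit false
open Cfsg

namespace Cfsg.Agent.S1532

open CF.PF
open scoped ComplexConjugate

/-- Let G be a finite group, p an odd prime and P a Sylow p-subgroup that is non-abelian, whose underlying set is a TI-subset of G, with P properly contained in its set normaliser N and C_G(x) ≤ P for every non-identity x ∈ P. Let Z be a nontrivial subgroup of the centre of P normalised by N. Then the set of irreducible characters χ of N with χ z ≠ χ 1 for some z ∈ Z is coherent for the map induced by induction from N to G. -/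
theorem result {G : Type*} [Group G] [Fintype G] (p : ℕ) [Fact p.Prime] (hp : p ≠ 2) (P : Sylow p G) (hna : ¬ IsMulCommutative (P : Subgroup G)) (hTI : Cfsg.IsTISubset ((P : Subgroup G) : Set G)) (hlt : (P : Subgroup G) < Subgroup.normalizer ((P : Subgroup G) : Set G)) (hC : ∀ k ∈ (P : Subgroup G), k ≠ 1 → Subgroup.centralizer ({k} : Set G) ≤ (P : Subgroup G)) [Fintype ↥(Subgroup.normalizer ((P : Subgroup G) : Set G))] (Z : Subgroup G) (hZ1 : Z ≠ ⊥) (hZP : ∀ z ∈ Z, z ∈ (P : Subgroup G) ∧ ∀ y ∈ (P : Subgroup G), z * y = y * z) (hZn : ∀ x ∈ Subgroup.normalizer ((P : Subgroup G) : Set G), ∀ z ∈ Z, x * z * x⁻¹ ∈ Z) : Cfsg.IsCoherent {χ : ↥(Subgroup.normalizer ((P : Subgroup G) : Set G)) → ℂ | Cfsg.IsIrrCharacter ↥(Subgroup.normalizer ((P : Subgroup G) : Set G)) χ ∧ ∃ z : ↥(Subgroup.normalizer ((P : Subgroup G) : Set G)), (z : G) ∈ Z ∧ χ z ≠ χ 1} {1}ᶜ (fun α => Cfsg.indFun (Subgroup.normalizer ((P : Subgroup G) : Set G)) α) := by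
  have nP := CF.BG.normalIn_norm (P : Subgroup G)
  have hZ : Z ≤ P := fun z hz => (hZP z hz).1
  obtain ⟨E, hF⟩ := exists_frob nP (CF.BG.ne_bot_mono hZ1 hZ) hlt.ne
    fun k hk k1 => inf_le_right.trans (hC k hk k1)
  have o : Odd (Nat.card (P : Subgroup G)) := by
    obtain ⟨n, e⟩ := P.isPGroup'.exists_card_eq
    exact e ▸ ((Fact.out : p.Prime).odd_of_ne_two hp).pow
  have oN : Odd (Nat.card (Subgroup.normalizer ((P : Subgroup G) : Set G))) := by
    refine hF.sd.card ▸ o.mul (Nat.not_even_iff_odd.1 fun h => hna ?_)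
    obtain ⟨r, hr, o⟩ := CF.BG.exists_mem_orderOf_eq Nat.prime_two h.two_dvd
    exact CF.Coprime.fpf_isMulCommutative (hF.norm hr) (hF.reg r hr (by rintro rfl; simp at o))
      (by rw [← o, pow_orderOf_eq_one]; exact one_mem _)
  refine (sibley_odd o (nti_of_isTISubset hTI) hF).isCoherent_ind (fun χ ⟨a, z, hz, b⟩ =>
    Finset.mem_coe.1 (image_extendByZero hF ▸ ⟨χ, ⟨a, z, hZ hz, b⟩, rfl⟩)) ?_
  obtain ⟨z, hz, z1⟩ := CF.BG.exists_mem_ne_one hZ1
  obtain ⟨χ, hχ, n⟩ := exists_irrK_notMem (H := ⊤) (N := ⊥) bot_le (by simp)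
    (g := (⟨z, nP.le (hZ hz)⟩ : Subgroup.normalizer ((P : Subgroup G) : Set G)))
    fun e => z1 (congrArg Subtype.val (Subgroup.mem_bot.1 e))
  have i := irrK_subset hχ
  have k := mt ((isCh_of_irr i).mem_ker trivial).2 n
  exact exists_ne_zero_of_star ⟨mem_irr_top.1 i, _, hz, k⟩ ⟨mem_irr_top.1 (star_mem_irr i), _, hz,
    fun e => k (star_injective e)⟩ (isCh_of_irr i) (star_ne_of_odd (by simpa using oN) i
    fun e => n (e ▸ le_ker_triv _ trivial))

end Cfsg.Agent.S1532
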