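import Cfsg.Statements.S1536
import Cfsg.Agent.PF.Sec1

set_option autoImplicit false
open Cfsg

namespace Cfsg.Agent.S1536

open CF.PF
open scoped ComplexConjugate

/-- Let H be a normal subgroup of the finite group M whose order is coprime to its index. For x ∈ M: some non-principal irreducible character of H is unchanged under h ↦ θ(x h x⁻¹) if and only if some non-identity element of H commutes with x. -/
theorem result {M : Type*} [Group M] [Finite M] (H : Subgroup M) [hN : H.Normal] (hHall : Nat.Coprime (Nat.card H) H.index) (x : M) : (∃ θ : H → ℂ, Cfsg.IsIrrCharacter H θ ∧ θ ≠ (fun _ => 1) ∧ (fun h : H => θ ⟨x * h * x⁻¹, hN.conj_mem h h.2 x⟩) = θ) ↔ ∃ h ∈ H, h ≠ 1 ∧ x * h = h * x := by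
  have hx := top_le_normalizer H (Subgroup.mem_top x)
  constructor
  · rintro ⟨θ, hθ, hne, e⟩
    by_contra h
    push Not at h
    refine hne (extendByZero_injective H ?_)
    rw [extendByZero_one]
    refine eq_triv_of_fixed_of_fpf hx (fun n hn e => ?_) (extendByZero_mem_irr.2 hθ)
      (by rw [cj_extendByZero, e])
    by_contra h1; exact h n hn h1 e.symm
  · rintro ⟨h, hh, h1, e⟩
    obtain ⟨χ, hχ, hne, hf⟩ := exists_fixed_irr_of_centralizes hx hh h1 e
    refine ⟨fun y => χ y, (mem_irr.1 hχ).2, fun e => hne ?_, funext fun y => congrFun hf y⟩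
    rw [← extendByZero_one, ← e, extendByZero_restrict, res_eq_self (mem_irr.1 hχ).1]

end Cfsg.Agent.S1536
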