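import Cfsg.Statements.S1546
import Cfsg.Agent.PF.Sec1

set_option autoImplicit false
open Cfsg

namespace Cfsg.Agent.S1546

open CF.PF
open scoped ComplexConjugate

/-- Let p and q be odd primes and N = (p ^ q − 1) / (p − 1) = 1 + p + ⋯ + p^(q−1). Then N is odd; if p ≡ 1 (mod q) then q ∣ N; and if p is not ≡ 1 (mod q) then N is coprime to p − 1 and every divisor of N is ≡ 1 (mod q). -/
theorem result (p q : ℕ) (hp : p.Prime) (hq : q.Prime) (hp2 : p ≠ 2) (hq2 : q ≠ 2) : Odd ((p ^ q - 1) / (p - 1)) ∧ (p % q = 1 → q ∣ (p ^ q - 1) / (p - 1)) ∧ (p % q ≠ 1 → Nat.Coprime ((p ^ q - 1) / (p - 1)) (p - 1) ∧ ∀ x : ℕ, x ∣ (p ^ q - 1) / (p - 1) → x % q = 1) := by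
  have hp1 : 1 < p := hp.one_lt
  have e : (p ^ q - 1) / (p - 1) = ∑ i ∈ Finset.range q, p ^ i := (Nat.geomSum_eq hp1 q).symm
  rw [e]
  have hmod : ∀ m, p ≡ 1 [MOD m] → ∑ i ∈ Finset.range q, p ^ i ≡ q [MOD m] := fun m hm => by
    have := Nat.ModEq.sum (s := Finset.range q) (f := fun i => p ^ i) (g := fun _ => 1)
      (n := m) fun i _ => by simpa using hm.pow i
    simpa using this
  have hmul : (p - 1) * ∑ i ∈ Finset.range q, p ^ i + 1 = p ^ q := by
    have := geom_sum_mul_add (p - 1) q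
    rw [Nat.sub_add_cancel hp1.le] at this
    rw [mul_comm, this]
  refine ⟨?_, fun h => ?_, fun h => ?_⟩
  · have := hmod 2 (Nat.odd_iff.1 (hp.odd_of_ne_two hp2))
    rw [Nat.odd_iff, this]; exact Nat.odd_iff.1 (hq.odd_of_ne_two hq2)
  · have := hmod q (by rw [Nat.ModEq, h, Nat.mod_eq_of_lt hq.one_lt])
    exact (Nat.modEq_zero_iff_dvd.1 (this.trans (Nat.modEq_zero_iff_dvd.2 dvd_rfl)))
  · have hcop : Nat.Coprime (∑ i ∈ Finset.range q, p ^ i) (p - 1) := by
      refine Nat.Coprime.symm (Nat.coprime_of_dvd fun r hr h1 h2 => h ?_)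
      have h3 : p ≡ 1 [MOD r] := ((Nat.modEq_iff_dvd' hp1.le).2 h1).symm
      have h4 : r ∣ q := (Nat.modEq_zero_iff_dvd.1
        ((hmod r h3).symm.trans (Nat.modEq_zero_iff_dvd.2 h2)))
      rw [(Nat.prime_dvd_prime_iff_eq hr hq).1 h4] at h3
      rw [h3, Nat.mod_eq_of_lt hq.one_lt]
    refine ⟨hcop, fun x hx => ?_⟩
    have h0 : (∑ i ∈ Finset.range q, p ^ i) ≠ 0 := by
      intro h0; rw [h0] at hmul
      have := Nat.one_lt_pow hq.ne_zero hp1
      omega
    have key : ∀ r : ℕ, r.Prime → r ∣ ∑ i ∈ Finset.range q, p ^ i → r ≡ 1 [MOD q] := by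
      intro r hr hd
      have : Fact r.Prime := ⟨hr⟩
      have h1 : (p : ZMod r) ^ q = 1 := by
        have := congrArg (Nat.cast : ℕ → ZMod r) hmul
        rw [Nat.cast_add, Nat.cast_mul, (ZMod.natCast_eq_zero_iff _ _).2 hd] at this
        simpa using this.symm
      have h2 : (p : ZMod r) ≠ 1 := fun h2 => by
        have h3 : p ≡ 1 [MOD r] := (ZMod.natCast_eq_natCast_iff _ _ _).1 (by simpa using h2)
        exact hr.one_lt.ne' (Nat.eq_one_of_dvd_coprimes hcop hd ((Nat.modEq_iff_dvd' hp1.le).1 h3.symm))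
      have : Fact q.Prime := ⟨hq⟩
      have h3 := orderOf_eq_prime h1 h2
      have h4 : (p : ZMod r) ≠ 0 := fun h => by
        rw [h, zero_pow hq.ne_zero] at h1; exact zero_ne_one h1
      have h5 := ZMod.orderOf_dvd_card_sub_one h4
      rw [h3] at h5
      exact ((Nat.modEq_iff_dvd' hr.one_lt.le).2 h5).symm
    have : x ≡ 1 [MOD q] := by
      induction x using Nat.recOnMul with
      | zero => exact absurd (zero_dvd_iff.1 hx) h0
      | one => rfl
      | prime r hr => exact key r hr hx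
      | mul a b ha hb =>
        simpa using (ha (dvd_of_mul_right_dvd hx)).mul (hb (dvd_of_mul_left_dvd hx))
    rw [this, Nat.mod_eq_of_lt hq.one_lt]

end Cfsg.Agent.S1546
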