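import Cfsg.Statements.S1551
import Cfsg.Agent.Leech.M24c

set_option autoImplicit false
open scoped Pointwise
open Cfsg

set_option maxRecDepth 1000000

namespace Cfsg.Agent.S1551

open CF.Comp CF.Comp.Mat CF.Bt CF.Leech CF.Leech.M MulAction

noncomputable def M : MD := ⟨[[3, 1, 3, 1, 3, 1, 4], [1, 3, 1, 4, 1, 4, 4, 2]], [(nat_lit 147496), (nat_lit 268544), (nat_lit 1082880), (nat_lit 2621632), (nat_lit 4268048), (nat_lit 8388615)], [(Net.cons (nat_lit 2) (nat_lit 1) (Net.cons (nat_lit 4) (nat_lit 3) (Net.cons (nat_lit 1) (nat_lit 16) Net.nil))), (Net.cons (nat_lit 1) (nat_lit 4) (Net.cons (nat_lit 2) (nat_lit 1) (Net.cons (nat_lit 1) (nat_lit 4) Net.nil)))], [⟨0, [[1], [3]], 4⟩, ⟨3, [[2, 3, 1], [4, 1, 3]], 3⟩, ⟨1, [[1, 4, 2, 3, 1, 3], [2, 4, 2, 3, 1, 3, 1]], 2⟩, ⟨2, [[1, 4, 1, 3, 2, 3, 2], [2, 4, 2, 2, 3, 1, 1, 3, 1]], 2⟩,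 ⟨4, [[2, 4, 2, 2, 3, 1, 1, 3, 1]], 1⟩]⟩
noncomputable def Q : PD := ⟨[[1, 3, 3, 2, 3, 2, 3, 2, 3, 2, 4, 2], [2, 2, 3, 3, 2, 3, 3, 1, 1, 1, 1, 1, 4, 4, 4], [4, 4, 1, 4, 4, 1, 1, 3, 3, 3, 2, 2, 2, 2, 2], [4, 1, 4, 4, 2, 4, 4, 2, 3, 3, 1, 4, 2, 3, 3], [3, 1, 1, 1, 4, 4, 1, 4, 1, 1, 4, 4, 1, 4, 2, 4], [3, 3, 1, 4, 1, 4, 1, 1, 1, 4, 1, 3, 1, 3, 3, 1]], [([], [[1], [3], [5], [7], [9]]), ([], [[1], [3], [5], [7]]), ([], [[1], [3], [5]]), ([], [[1], [3]]), ([], [[1]]), ([], [])], [⟨11, [[1, 3, 1, 4, 1, 4, 1, 4, 1, 4, 4, 2], [3, 3, 3, 2, 2, 2, 2, 2, 4, 4, 1, 4, 4, 1, 1], [4, 4, 1, 4, 4, 1, 1, 3, 3, 3, 2, 2, 2, 2, 2], [4, 4, 1, 3, 1, 1, 3, 2, 3, 2, 3, 2, 3, 3, 2], [2, 4, 4, 4, 1, 4, 4, 1, 3, 3, 3, 3, 3, 1, 4, 1], [2, 4, 4, 4, 1, 4, 1, 4, 4, 2, 3, 2, 2, 2, 2, 2]], 1⟩, ⟨23, [[1, 3, 1, 4, 1, 4, 1, 4, 1, 4, 4, 2], [3, 3, 3, 2, 2, 2, 2, 2,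 4, 4, 1, 4, 4, 1, 1], [4, 4, 1, 4, 4, 1, 1, 3, 3, 3, 2, 2, 2, 2, 2], [2, 2, 4, 4, 2, 3, 2, 2, 4, 1, 4, 4, 4, 2, 3, 2]], 1⟩, ⟨10, [[1, 3, 1, 4, 1, 4, 1, 4, 1, 4, 4, 2], [1, 1, 1, 4, 4, 4, 1, 4, 1, 3, 3, 1, 3, 3, 3, 1, 1]], 1⟩], [[1], [3], [5], [7, 5, 1], [9, 3], [11, 5, 1], [1], [3], [5], [11, 9, 5, 3], [1], [5, 3, 1]]⟩
noncomputable def QN : List (List (List Nat)) := [[[5, 1], [9, 7, 5, 1], [11, 7, 3], [11, 7, 1], [7, 5, 1], [3]], [[1], [3, 1], [5], [11, 7, 1], [9, 5], [11]], [[1], [3, 1], [5], [11, 7, 1], [9, 5], [11]], [[1], [3], [5, 1], [11, 7, 5, 3], [9, 3], [11, 1]], [[11, 5, 3], [11, 9, 5], [9, 7, 1], [9, 3, 1], [5], [11, 7, 3, 1]], [[7, 5, 1], [9, 7, 1], [11, 9, 7], [9, 7, 5, 3, 1], [11, 7, 5, 3, 1], [5, 3, 1]], [[1], [11, 9, 5], [11, 9, 3], [9, 3, 1], [11, 7, 5, 3, 1], [11, 7, 3, 1]], [[11, 1], [9], [9, 7, 5, 1], [9,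 7, 5], [11, 7, 5, 3, 1], [11, 7, 3, 1]], [[5, 3], [3], [3, 1], [11, 3], [11, 9, 7, 5, 3, 1], [7, 3]], [[7, 5, 1], [9, 7, 1], [11, 9, 5, 1], [11, 9, 7, 1], [11, 9, 5, 3], [7, 3]], [[7, 5], [11, 5], [3, 1], [7, 5, 3], [11, 9, 5, 3], [7, 3]], [[5, 3], [3], [3, 1], [11, 3], [11, 9, 7, 5, 3, 1], [7, 3]], [[7, 5], [11, 5], [3, 1], [7, 5, 3], [11, 9, 5, 3], [7, 3]], [[11, 1], [7, 1], [5], [11, 3, 1], [11, 9, 5], [11]]]

/-- Structure of a sextet stabiliser: it induces every permutation of the six tetrads, the subgroup fixing each tetrad setwise has order 192, and there is a normal subgroup of order 64 consisting of elements squaring to the identity. -/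
theorem result (S : Finset (Finset Cfsg.GolayPt)) (hS : S ∈ Cfsg.sextets) : (∀ e : Equiv.Perm ↥S, ∃ g ∈ MulAction.stabilizer Cfsg.M24 S, ∀ t : ↥S, (g : Equiv.Perm Cfsg.GolayPt) • (t : Finset Cfsg.GolayPt) = ((e t : ↥S) : Finset Cfsg.GolayPt)) ∧ Nat.card {g : ↥(MulAction.stabilizer Cfsg.M24 S) // ∀ t ∈ S, ((g : Cfsg.M24) : Equiv.Perm Cfsg.GolayPt) • t = t} = 192 ∧ ∃ N : Subgroup ↥(MulAction.stabilizer Cfsg.M24 S), N.Normal ∧ Nat.card N = 64 ∧ ∀ x ∈ N, x * x = 1 := by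
  obtain ⟨g, hg, rfl⟩ := tS hS
  have c1 := Cj.stab (⟨g, hg⟩ : M24) S0
  have c2 := Cj.fixF (⟨g, hg⟩ : M24) S0
  have h1 := Exact.card_eq xS (s := 138240) (by decide +kernel)
  have h2 := md_card_le r0 (M := M) (k := 6) (m := 2) (s := Nat.factorial 6) (by decide +kernel) (mem_fm (ms := [147496, 268544, 1082880, 2621632, 4268048, 8388615]) (by decide +kernel)) fix_le_stab
    fun _ => fix_mfam.1
  have h3 := card_stab_le (G := M24) (E := S0)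
  rw [S0_mem.1] at h3
  have h4 : clo m Q.qs ≤ stabilizer M24 S0 := clo_le.2 (mem_fm (by decide +kernel))
  obtain ⟨e⟩ := c1.equiv
  refine ⟨induces_of_card (by rw [hS.1]; exact (congrArg _ c2.card).trans_le (h2.trans_eq c1.card.symm)),
    (Nat.card_congr (Equiv.subtypeEquivRight fun _ => mem_fixF.symm)).trans
      ((card_sub_of fix_le_stab).trans (c2.card.trans ?_)),
    ((clo m Q.qs).subgroupOf _).map e.toMonoidHom, ((Subgroup.normal_subgroupOf_iff_le_normalizer h4).2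
      (xS.eq_clo.ge.trans (eqM.nrmAll (us := QN) (by decide +kernel)))).map _ e.surjective,
    (card_map_equiv _ _).trans ((card_sub_of h4).trans (abOK_spec xM k5 two_ne_zero (a := 6) (by decide +kernel)).2.2), ?_⟩
  · change _ ≤ Nat.card (stabilizer M24 S0) at h2
    rw [h1] at h2 h3
    exact le_antisymm (Nat.le_of_mul_le_mul_left h2 (show 0 < 720 by decide))
      (Nat.le_of_mul_le_mul_left h3 (show 0 < 720 by decide))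
  rintro _ ⟨x, hx, rfl⟩
  rw [← map_mul, ← sq, show x ^ 2 = 1 from Subtype.ext (eqM.pow_eq_one (by decide +kernel) (by decide +kernel) _ hx), map_one]

end Cfsg.Agent.S1551
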