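import Cfsg.Statements.S1552
import Cfsg.Agent.Leech.M24

set_option autoImplicit false
open scoped Pointwise
open Cfsg

set_option maxRecDepth 1000000

namespace Cfsg.Agent.S1552

open CF.Comp CF.Comp.Mat CF.Bt CF.Leech CF.Leech.M MulAction


/-- A sextet stabiliser has four orbits on the 1771 sextets, of sizes 1, 90, 240, 1440; and the stabiliser is a maximal proper subgroup. -/
theorem result (S : Finset (Finset Cfsg.GolayPt)) (hS : S ∈ Cfsg.sextets) : ∃ X₁ ∈ Cfsg.sextets, ∃ X₂ ∈ Cfsg.sextets, ∃ X₃ ∈ Cfsg.sextets, (MulAction.orbit ↥(MulAction.stabilizer Cfsg.M24 S) X₁).ncard = 90 ∧ (MulAction.orbit ↥(MulAction.stabilizer Cfsg.M24 S) X₂).ncard = 240 ∧ (MulAction.orbit ↥(MulAction.stabilizer Cfsg.M24 S) X₃).ncard = 1440 ∧ Cfsg.sextets = {S} ∪ MulAction.orbit ↥(MulAction.stabilizer Cfsg.M24 S) X₁ ∪ MulAction.orbit ↥(MulAction.stabilizer Cfsg.M24 S) X₂ ∪ MulAction.orbit ↥(MulAction.stabilizer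 Cfsg.M24 S) X₃ ∧ IsCoatom (MulAction.stabilizer Cfsg.M24 S) := by
  obtain ⟨a, h1, b, h2, c, h3, h4, h5, h6, h7⟩ := ((orbs_of xS rS' (by norm_num) fS [(1314, 0, 1), (79, 8, 90), (1, 7, 240), (0, 10, 1440)] (by decide +kernel)).exists_smul (by simp [Subgroup.smul_def]) (up (tS hS))).choose_spec.one_three (by decide) hS fun _ h => h
  refine ⟨a, h1, b, h2, c, h3, h4, h5, h6, h7, ?_⟩
  obtain ⟨g, rfl⟩ := up (tS hS)
  exact (Cj.stab g _).isCoatom (bS ▸ isCoatom_stab rS' m_top (S := ws0 cS) (b := 1314) (ts := [⟨[1], 8, 7⟩, ⟨[4], 10, 7⟩, ⟨[2, 4, 4], 8, 7⟩]) (by decide +kernel))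

end Cfsg.Agent.S1552
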