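import Cfsg.Statements.S1559
import Cfsg.Agent.Leech.M24

set_option autoImplicit false
open scoped Pointwise
open Cfsg

set_option maxRecDepth 1000000

namespace Cfsg.Agent.S1559

open CF.Comp CF.Comp.Mat CF.Bt CF.Leech CF.Leech.M MulAction


/-- A trio stabiliser has five orbits on the 3795 trios, of sizes 1, 42, 56, 1008, 2688; and the stabiliser is a maximal proper subgroup. -/
theorem result (T : Finset (Finset Cfsg.GolayPt)) (hT : T ∈ Cfsg.trios) : ∃ X₁ ∈ Cfsg.trios, ∃ X₂ ∈ Cfsg.trios, ∃ X₃ ∈ Cfsg.trios, ∃ X₄ ∈ Cfsg.trios, (MulAction.orbit ↥(MulAction.stabilizer Cfsg.M24 T) X₁).ncard = 42 ∧ (MulAction.orbit ↥(MulAction.stabilizer Cfsg.M24 T) X₂).ncard = 56 ∧ (MulAction.orbit ↥(MulAction.stabilizer Cfsg.M24 T) X₃).ncard = 1008 ∧ (MulAction.orbit ↥(MulAction.stabilizer Cfsg.M24 T) X₄).ncard = 2688 ∧ Cfsg.trios = {T} ∪ MulAction.orbit ↥(MulAction.stabilizer Cfsg.M24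 T) X₁ ∪ MulAction.orbit ↥(MulAction.stabilizer Cfsg.M24 T) X₂ ∪ MulAction.orbit ↥(MulAction.stabilizer Cfsg.M24 T) X₃ ∪ MulAction.orbit ↥(MulAction.stabilizer Cfsg.M24 T) X₄ ∧ IsCoatom (MulAction.stabilizer Cfsg.M24 T) := by
  obtain ⟨a, h1, b, h2, c, h3, d, h4, h5, h6, h7, h8, h9⟩ := ((orbs_of xT rT' (by norm_num) fT [(1376, 0, 1), (100, 5, 42), (98, 6, 56), (0, 9, 1008), (1, 10, 2688)] (by decide +kernel)).exists_smul (by simp [Subgroup.smul_def]) (up (tT hT))).choose_spec.one_four (by decide) hT fun _ h => h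
  refine ⟨a, h1, b, h2, c, h3, d, h4, h5, h6, h7, h8, h9, ?_⟩
  obtain ⟨g, rfl⟩ := up (tT hT)
  exact (Cj.stab g _).isCoatom (M.bT ▸ isCoatom_stab rT' m_top (S := ws0 cT) (b := 1376) (ts := [⟨[3], 11, 7⟩, ⟨[2], 9, 7⟩, ⟨[4, 2, 2, 2], 6, 7⟩, ⟨[4, 2, 4, 2, 2], 5, 7⟩]) (by decide +kernel))

end Cfsg.Agent.S1559
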