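import Cfsg.Statements.S1560
import Cfsg.Agent.Leech.Punct

set_option autoImplicit false
open scoped Pointwise
open Cfsg

set_option maxRecDepth 1000000

namespace Cfsg.Agent.S1560

/-- Intersection numbers of dodecads: a dodecad meets every other dodecad in 0, 4, 6 or 8 points, meeting 495 of them in 4 points, 1584 in 6 points and 495 in 8 points. -/
theorem result (d : Finset Cfsg.GolayPt) (hd : d ∈ Cfsg.dodecads) : (∀ d' ∈ Cfsg.dodecads, d' ≠ d → (d ∩ d').card = 0 ∨ (d ∩ d').card = 4 ∨ (d ∩ d').card = 6 ∨ (d ∩ d').card = 8) ∧ {d' : Finset Cfsg.GolayPt | d' ∈ Cfsg.dodecads ∧ (d ∩ d').card = 4}.ncard = 495 ∧ {d' : Finset Cfsg.GolayPt | d' ∈ Cfsg.dodecads ∧ (d ∩ d').card = 6}.ncard = 1584 ∧ {d' : Finset Cfsg.GolayPt | d' ∈ Cfsg.dodecads ∧ (d ∩ d').card = 8}.ncard = 495 := by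
  refine ⟨fun d' hd' hne => ?_, CF.Leech.dodecads_count hd⟩
  have h := CF.Leech.dodecad_inter hd hd'
  have h1 := hd.2
  have h2 := hd'.2
  have : (d ∩ d').card ≠ 12 := fun h12 => hne
    ((Finset.eq_of_subset_of_card_le (Finset.inter_subset_right (s₁ := d) (s₂ := d')) (by omega)).symm.trans
      (Finset.eq_of_subset_of_card_le (Finset.inter_subset_left (s₁ := d) (s₂ := d')) (by omega)))
  omega

end Cfsg.Agent.S1560
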