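import Cfsg.Statements.S1561
import Cfsg.Agent.Leech.M24b

set_option autoImplicit false
open scoped Pointwise
open Cfsg

set_option maxRecDepth 1000000

namespace Cfsg.Agent.S1561

open CF.Comp CF.Comp.Mat CF.Bt CF.Leech CF.Leech.M MulAction


/-- Two dodecads meeting a fixed dodecad in equally many points lie in one orbit of its stabiliser. -/
theorem result (d d' d'' : Finset Cfsg.GolayPt) (hd : d ∈ Cfsg.dodecads) (hd' : d' ∈ Cfsg.dodecads) (hd'' : d'' ∈ Cfsg.dodecads) (h : (d ∩ d').card = (d ∩ d'').card) : ∃ g : Equiv.Perm Cfsg.GolayPt, g ∈ Cfsg.M24 ∧ g • d = d ∧ g • d' = d'' := by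
  exact wlog_conj (tD hd) (R := fun o a b => a ∈ dodecads ∧ b ∈ dodecads ∧ (o ∩ a).card = (o ∩ b).card) (by simp)
    (fun y y' h =>
    let ⟨k, hk, e⟩ := conj_of_cls rD fD (Exact.mem0 xD) (Q := fun _ => True) (P := fun _ => true)
      (fun _ _ _ => rfl) (val := fun a => (sD ∩ a).card) (fun i _ => inter_sD i)
      (rs := [(22, 0), (2576, 0), (2576, 0), (2576, 0), (0, 8), (2576, 0), (1, 10), (2576, 0), (104, 9), (2576, 0), (2576, 0), (2576, 0), (2553, 0)]) (by decide +kernel) h.1 h.2.1 trivial trivial h.2.2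
    ⟨k, hk, e⟩) ⟨hd', hd'', h⟩

end Cfsg.Agent.S1561
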