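import Cfsg.Statements.S1562
import Cfsg.Agent.Leech.M24b

set_option autoImplicit false
open scoped Pointwise
open Cfsg

set_option maxRecDepth 1000000

namespace Cfsg.Agent.S1562

open CF.Comp CF.Comp.Mat CF.Bt CF.Leech CF.Leech.M MulAction


/-- Orbits of a triad stabiliser on the triads disjoint from it: the 210 triads inside a common octad with it form one orbit and the remaining 1120 another. -/
theorem result (T : Finset Cfsg.GolayPt) (hT : T.card = 3) : {U : Finset Cfsg.GolayPt | U.card = 3 ∧ Disjoint T U ∧ (∃ o ∈ Cfsg.octads, T ∪ U ⊆ o)}.ncard = 210 ∧ {U : Finset Cfsg.GolayPt | U.card = 3 ∧ Disjoint T U ∧ ¬ (∃ o ∈ Cfsg.octads, T ∪ U ⊆ o)}.ncard = 1120 ∧ ∀ U U' : Finset Cfsg.GolayPt, U.card = 3 → U'.card = 3 → Disjoint T U → Disjoint T U' → ((∃ o ∈ Cfsg.octads, T ∪ U ⊆ o) ↔ (∃ o ∈ Cfsg.octads, T ∪ U' ⊆ o)) → ∃ g : Equiv.Perm Cfsg.GolayPt, g ∈ Cfsg.M24 ∧ g • T = T ∧ g • U = U' :=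 by
  classical
  have ht := t3 hT
  have hd : ∀ i, Disjoint s3 (D3.pt i) ↔ Nat.beq (Nat.land 8388611 (column p3 i)) 0 = true := fun i => by
    rw [pt3, CF.Comp.beq_iff]; exact ofMask_disjoint_iff (by norm_num)
  have ho : ∀ i, (∃ o ∈ octads, s3 ∪ D3.pt i ⊆ o) ↔ inO (Nat.lor 8388611 (column p3 i)) = true := fun i => by
    rw [pt3, s3, ← ofMask_lor, inO_iff]
  refine ⟨(wlog_ncard ht (fun z (a : Finset GolayPt) => a.card = 3 ∧ Disjoint z a ∧ ∃ o ∈ octads, z ∪ a ⊆ o) (by simp)).trans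
      ((ncard_eq_pop D3 (by norm_num) f3 fun i _ => by rw [hd, ho, ← band2]).trans (by decide +kernel)),
    (wlog_ncard ht (fun z (a : Finset GolayPt) => a.card = 3 ∧ Disjoint z a ∧ ¬ ∃ o ∈ octads, z ∪ a ⊆ o) (by simp [-not_exists])).trans
      ((ncard_eq_pop D3 (by norm_num) f3 fun i _ => by
        rw [hd, ho, Bool.not_eq_true, ← Bool.not_eq_true', ← band2]).trans (by decide +kernel)),
    fun a b h1 h2 h3 h4 h5 => ?_⟩
  exact wlog_conj ht (R := fun z (a b : Finset GolayPt) => a.card = 3 ∧ b.card = 3 ∧ Disjoint z a ∧ Disjoint z b ∧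
    ((∃ o ∈ octads, z ∪ a ⊆ o) ↔ ∃ o ∈ octads, z ∪ b ⊆ o)) (by simp) (fun y y' h =>
    let ⟨k, hk, e⟩ := conj_of_cls r3 f3 (Exact.mem0 x3) (Q := Disjoint s3) (fun i _ h => (hd i).1 h)
      (val := fun a => if ∃ o ∈ octads, s3 ∪ a ⊆ o then 1 else 0)
      (cls := fun i => Bool.rec 0 1 (inO (Nat.lor 8388611 (column p3 i))))
      (fun i _ => by simp only [ho]; cases inO (Nat.lor 8388611 (column p3 i)) <;> rfl)
      (rs := [(3, 10), (14, 8)]) (by decide +kernel) h.1 h.2.1 h.2.2.1 h.2.2.2.1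
      (by simp only [show (∃ o ∈ octads, s3 ∪ y ⊆ o) ↔ ∃ o ∈ octads, s3 ∪ y' ⊆ o from h.2.2.2.2])
    ⟨k, hk, e⟩) ⟨h1, h2, h3, h4, h5⟩

end Cfsg.Agent.S1562
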