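import Cfsg.Statements.S1563
import Cfsg.Agent.Leech.M24

set_option autoImplicit false
open scoped Pointwise
open Cfsg

set_option maxRecDepth 1000000

namespace Cfsg.Agent.S1563

open CF.Comp CF.Comp.Mat CF.Bt CF.Leech CF.Leech.M MulAction


/-- The stabiliser of a pair of points (setwise) is a maximal proper subgroup of the group of the length-24 code. -/
theorem result (s : Finset Cfsg.GolayPt) (hs : s.card = 2) : IsCoatom (MulAction.stabilizer Cfsg.M24 s) := by
  obtain ⟨g, rfl⟩ := up (t2 hs)
  exact (Cj.stab g _).isCoatom (b2 ▸ isCoatom_stab r2 m_top (S := ws0 c2) (b := 253) (ts := [⟨[2], 6, 5⟩, ⟨[4], 7, 5⟩]) (by decide +kernel))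

end Cfsg.Agent.S1563
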