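import Cfsg.Statements.S1564
import Cfsg.Agent.Leech.M24

set_option autoImplicit false
open scoped Pointwise
open Cfsg

set_option maxRecDepth 1000000

namespace Cfsg.Agent.S1564

open CF.Comp CF.Comp.Mat CF.Bt CF.Leech CF.Leech.M MulAction


/-- The stabiliser of a set of three points (setwise) is a maximal proper subgroup of the group of the length-24 code. -/
theorem result (s : Finset Cfsg.GolayPt) (hs : s.card = 3) : IsCoatom (MulAction.stabilizer Cfsg.M24 s) := by
  obtain ⟨g, rfl⟩ := up (t3 hs)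
  exact (Cj.stab g _).isCoatom (b3 ▸ isCoatom_stab r3 m_top (S := ws0 c3) (b := 2002) (ts := [⟨[4], 9, 7⟩, ⟨[1], 6, 8⟩, ⟨[4, 2], 10, 7⟩, ⟨[3, 1, 1], 8, 7⟩]) (by decide +kernel))

end Cfsg.Agent.S1564
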