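import Cfsg.Statements.S1565
import Cfsg.Agent.Leech.M24

set_option autoImplicit false
open scoped Pointwise
open Cfsg

set_option maxRecDepth 1000000

namespace Cfsg.Agent.S1565

open CF.Comp CF.Comp.Mat CF.Bt CF.Leech CF.Leech.M MulAction


/-- The stabiliser of an octad is a maximal proper subgroup of the group of the length-24 code. -/
theorem result (o : Finset Cfsg.GolayPt) (ho : o ∈ Cfsg.octads) : IsCoatom (MulAction.stabilizer Cfsg.M24 o) := by
  obtain ⟨g, rfl⟩ := up (tO ho)
  exact (Cj.stab g _).isCoatom (bO ▸ isCoatom_stab rO m_top (S := ws0 cO) (b := 757) (ts := [⟨[3], 8, 6⟩, ⟨[1], 8, 6⟩, ⟨[4, 2, 2, 2], 5, 6⟩]) (by decide +kernel))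

end Cfsg.Agent.S1565
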