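import Cfsg.Statements.S1566
import Cfsg.Agent.Leech.M24

set_option autoImplicit false
open scoped Pointwise
open Cfsg

set_option maxRecDepth 1000000

namespace Cfsg.Agent.S1566

open CF.Comp CF.Comp.Mat CF.Bt CF.Leech CF.Leech.M MulAction

theorem tP {d : Finset GolayPt} (hd : d ∈ dodecads) :
    ∃ g ∈ M24, g • ({sD, sDᶜ} : Finset (Finset GolayPt)) = {d, dᶜ} := by
  obtain ⟨g, hg, rfl⟩ := tD hd
  exact ⟨g, hg, by rw [pair_sm', compl_sm]⟩


/-- The setwise stabiliser of a dodecad together with its complement is a maximal proper subgroup of the group of the length-24 code. -/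
theorem result (d : Finset Cfsg.GolayPt) (hd : d ∈ Cfsg.dodecads) : IsCoatom (MulAction.stabilizer Cfsg.M24 ({d, dᶜ} : Finset (Finset Cfsg.GolayPt))) := by
  obtain ⟨g, e⟩ := up (tP hd)
  rw [← e]
  exact (Cj.stab g _).isCoatom (M.bP ▸ isCoatom_stab rP' m_top (S := ws0 cP) (b := 881) (ts := [⟨[2], 9, 6⟩, ⟨[3], 8, 7⟩]) (by decide +kernel))

end Cfsg.Agent.S1566
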