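import Cfsg.Statements.S1567
import Cfsg.Agent.Leech.Lattice

set_option autoImplicit false
open Cfsg

set_option maxRecDepth 1000000

namespace Cfsg.Agent.S1567

open CF.Leech

theorem four (i : GolayPt) : (Pi.single none 4 + Pi.single i 4 : V) ∈ AddSubgroup.closure
    {x : Cfsg.GolayPt → ℤ | x ∈ Cfsg.leechLattice ∧ Cfsg.sqNorm x = 32} := by
  by_cases hi : i = none
  · subst hi
    have : (Pi.single none 4 + Pi.single none 4 : V) = (Pi.single none 4 + Pi.single (some 0) 4) +
      ((Pi.single none 4 + Pi.single (some 0) 4) + -((8 : ℤ) • (Pi.single (some 0) 1 : V))) := by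
      decide +kernel
    rw [this]
    refine AddSubgroup.add_mem _ (AddSubgroup.subset_closure ⟨four_pair_mem _ _, by decide +kernel⟩)
      (AddSubgroup.subset_closure ⟨leechLattice.add_mem (four_pair_mem _ _)
        (leechLattice.neg_mem (eight_smul_mem _)), by decide +kernel⟩)
  · refine AddSubgroup.subset_closure ⟨four_pair_mem _ _, ?_⟩
    revert i; decide +kernel


/-- The rank-24 lattice is the additive subgroup generated by its 196560 minimal vectors. -/
theorem result : AddSubgroup.closure {x : Cfsg.GolayPt → ℤ | x ∈ Cfsg.leechLattice ∧ Cfsg.sqNorm x = 32} = Cfsg.leechLattice := by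
  refine le_antisymm ((AddSubgroup.closure_le _).2 fun x hx => hx.1) (leech_le ?_ ?_ ?_)
  · exact AddSubgroup.subset_closure ⟨vecW_mem, by decide +kernel⟩
  · have hoct : ∀ o ∈ octads, (2 : ℤ) • ind o ∈ AddSubgroup.closure
        {x : Cfsg.GolayPt → ℤ | x ∈ Cfsg.leechLattice ∧ Cfsg.sqNorm x = 32} := by
      intro o ho
      refine AddSubgroup.subset_closure ⟨two_ind_mem ho.1, ?_⟩
      have : sqNorm (ind o) = ∑ i, ind o i := Finset.sum_congr rfl fun i _ => by
        rcases ind_cases o i with ⟨-, h⟩ | ⟨-, h⟩ <;> rw [h] <;> rfl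
      rw [sqNorm_smul, this, sum_ind, ho.2]; rfl
    have h4 : ∀ i, (Pi.single none 4 + Pi.single i 4 : V) ∈ AddSubgroup.closure
        {x : Cfsg.GolayPt → ℤ | x ∈ Cfsg.leechLattice ∧ Cfsg.sqNorm x = 32} := four
    intro j hj
    obtain ⟨a, ha, e⟩ := anyL_iff.1 (allLt_iff.1 basis_octad_sum j hj)
    have hj' : 2 ^ j < 4096 := Nat.pow_lt_pow_right (by norm_num) hj
    have hc := isCode_xor (isCode_of_mem_octL ha).1 (isCode_enc hj')
    have hb : Nat.xor a (enc (2 ^ j)) ∈ octL := mem_octL_iff.2 ⟨hc, beq_iff.1 e⟩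
    have : ofMask (enc (2 ^ j)) = symmDiff (ofMask a) (ofMask (Nat.xor a (enc (2 ^ j)))) := by
      rw [ofMask_xor, symmDiff_symmDiff_cancel_left]
    rw [this]
    have hs := ofMask_mem_octads ha
    have ht := ofMask_mem_octads hb
    generalize ofMask a = s at hs
    generalize ofMask (Nat.xor a (enc (2 ^ j))) = t at ht
    have : (2 : ℤ) • ind (symmDiff s t) = (2 : ℤ) • ind s + (2 : ℤ) • ind t -
        (4 : ℤ) • ind (s ∩ t) := by
      funext i
      by_cases h1 : i ∈ s <;> by_cases h2 : i ∈ t <;> simp [ind, Finset.mem_symmDiff, h1, h2]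
    rw [this]
    refine AddSubgroup.sub_mem _ (AddSubgroup.add_mem _ (hoct _ hs) (hoct _ ht))
      (four_mem_of_pairs h4 (fun i => by simp) ?_)
    obtain ⟨k, hk⟩ := even_card_inter hs.1 ht.1
    simp only [Pi.smul_apply, smul_eq_mul, ← Finset.mul_sum, sum_ind, hk]
    push_cast; omega
  · exact four

end Cfsg.Agent.S1567
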