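import Cfsg.Statements.S1568
import Cfsg.Agent.Leech.Count

set_option autoImplicit false
open Cfsg

set_option maxRecDepth 1000000

namespace Cfsg.Agent.S1568

open CF.Leech

theorem split (P : ℤ → Prop) :
    {x : V | x ∈ leechLattice ∧ sqNorm x = 48 ∧ ∃ i, P (x i)}.ncard +
      {x : V | x ∈ leechLattice ∧ sqNorm x = (48 : ℕ) ∧ ∀ i, ¬ P (x i)}.ncard = 16773120 := by
  rw [← ncard_48, ← Set.ncard_union_eq _ ((finite_norm 48).subset fun x hx => hx.2.1)
    ((finite_norm 48).subset fun x hx => hx.2.1)]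
  · congr 1
    ext x
    simp only [Set.mem_union, Set.mem_ofPred_eq, Nat.cast_ofNat]
    by_cases h : ∃ i, P (x i)
    · have : ¬ ∀ i, ¬ P (x i) := by simpa using h
      tauto
    · have : ∀ i, ¬ P (x i) := by simpa using h
      tauto
  · rw [Set.disjoint_left]
    rintro x ⟨-, -, i, hi⟩ ⟨-, -, h⟩
    exact h i hi

theorem three {x : V} (hx : x ∈ leechLattice) (hn : sqNorm x = 48) :
    (∃ i j k, i ≠ j ∧ j ≠ k ∧ i ≠ k ∧ |x i| = 3 ∧ |x j| = 3 ∧ |x k| = 3) ↔
      ∀ i, |x i| = 1 ∨ |x i| = 3 := by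
  classical
  constructor
  · rintro ⟨i, j, k, hij, hjk, hik, hi, hj, hk⟩ l
    obtain ⟨m, c, -, h⟩ := exists_LS hx
    have hodd : ∀ p, x p % 2 = 1 := fun p => by
      have h1 := h.2.1 p
      have h2 := h.2.1 i
      rcases abs_eq (by norm_num : (0 : ℤ) ≤ 3) |>.1 hi with h | h <;> omega
    by_contra hl
    have hl' : 25 ≤ x l ^ 2 := by
      have := hodd l
      have : x l ≤ -5 ∨ 5 ≤ x l := by
        rcases abs_cases (x l) with h | h <;> omega
      rcases this with h | h <;> nlinarith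
    have h9 : ∀ p, |x p| = 3 → x p ^ 2 = 9 := fun p hp => by rw [← sq_abs, hp]; rfl
    have hli : l ≠ i := fun e => hl (Or.inr (e ▸ hi))
    have hlj : l ≠ j := fun e => hl (Or.inr (e ▸ hj))
    have hlk : l ≠ k := fun e => hl (Or.inr (e ▸ hk))
    have : ∑ p ∈ ({l, i, j, k} : Finset GolayPt), x p ^ 2 ≤ sqNorm x :=
      Finset.sum_le_sum_of_subset_of_nonneg (Finset.subset_univ _) fun _ _ _ => sq_nonneg _
    rw [Finset.sum_insert (by simp [hli, hlj, hlk]), Finset.sum_insert (by simp [hij, hik]),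
      Finset.sum_pair hjk, h9 i hi, h9 j hj, h9 k hk] at this
    omega
  · intro h
    have : sqNorm x = ∑ i, (1 + 8 * ind (Finset.univ.filter fun i => |x i| = 3) i) :=
      Finset.sum_congr rfl fun i _ => by
        rw [← sq_abs]
        rcases h i with h | h <;> simp [ind, h]
    rw [Finset.sum_add_distrib, ← Finset.mul_sum, sum_ind, Finset.sum_const, Finset.card_univ,
      card_pts, hn] at this
    have h3 : (Finset.univ.filter fun i => |x i| = 3).card = 3 := by
      simp only [nsmul_eq_mul, mul_one, Nat.cast_ofNat] at this; omega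
    obtain ⟨i, j, k, hij, hik, hjk, e⟩ := Finset.card_eq_three.1 h3
    have hm : ∀ p ∈ ({i, j, k} : Finset GolayPt), |x p| = 3 := fun p hp => by
      rw [← e] at hp; exact (Finset.mem_filter.1 hp).2
    exact ⟨i, j, k, hij, hjk, hik, hm i (by simp), hm j (by simp), hm k (by simp)⟩


/-- Shape census of the lattice vectors of sum of squares 48 (customary norm 6): the four families (2^12, 0^12), (±3^3, ±1^21), (±4, ±2^8, 0^15) and (±5, ±1^23) have 5275648, 8290304, 3108864 and 98304 members. -/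
theorem result : {x : Cfsg.GolayPt → ℤ | x ∈ Cfsg.leechLattice ∧ Cfsg.sqNorm x = 48 ∧ ∀ i, x i = 0 ∨ x i = 2 ∨ x i = -2}.ncard = 5275648 ∧ {x : Cfsg.GolayPt → ℤ | x ∈ Cfsg.leechLattice ∧ Cfsg.sqNorm x = 48 ∧ ∃ i j k, i ≠ j ∧ j ≠ k ∧ i ≠ k ∧ |x i| = 3 ∧ |x j| = 3 ∧ |x k| = 3}.ncard = 8290304 ∧ {x : Cfsg.GolayPt → ℤ | x ∈ Cfsg.leechLattice ∧ Cfsg.sqNorm x = 48 ∧ ∃ i, |x i| = 4}.ncard = 3108864 ∧ {x : Cfsg.GolayPt → ℤ | x ∈ Cfsg.leechLattice ∧ Cfsg.sqNorm x = 48 ∧ ∃ i, |x i| = 5}.ncard = 98304 := by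
  refine ⟨?_, ?_, ?_, ?_⟩
  · exact (ncard_leech_pred (A := 1344) (n := 48) (by norm_num)
      (P := fun a => a = 0 ∨ a = 2 ∨ a = -2) (by decide)).trans (by decide +kernel)
  · refine Eq.trans ?_ ((ncard_leech_pred (A := 2720) (n := 48) (by norm_num)
      (P := fun a => |a| = 1 ∨ |a| = 3) (by decide)).trans (by decide +kernel))
    congr 1
    ext x
    simp only [Set.mem_ofPred_eq, Nat.cast_ofNat]
    exact and_congr_right fun hx => and_congr_right fun hn => three hx hn
  · have h1 := split fun a => |a| = 4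
    have h2 := (ncard_leech_pred (A := 126959) (n := 48) (by norm_num)
      (P := fun a => ¬ |a| = 4) (by decide)).trans (show _ = 13664256 by decide +kernel)
    exact Nat.add_right_cancel ((h2 ▸ h1).trans (show _ = 3108864 + 13664256 from rfl))
  · have h1 := split fun a => |a| = 5
    have h2 := (ncard_leech_pred (A := 122871) (n := 48) (by norm_num)
      (P := fun a => ¬ |a| = 5) (by decide)).trans (show _ = 16674816 by decide +kernel)
    exact Nat.add_right_cancel ((h2 ▸ h1).trans (show _ = 98304 + 16674816 from rfl))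

end Cfsg.Agent.S1568
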