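import Cfsg.Statements.S1571
import Cfsg.Agent.Leech.Co0

set_option autoImplicit false
open scoped Pointwise
open Cfsg

set_option maxRecDepth 1000000

namespace Cfsg.Agent.S1571

/-- The stabiliser of the standard cross in the automorphism group of the lattice is the monomial group of the code: each of its elements acts as a signed permutation with permutation part in the code's group and sign set a codeword, and it has order 4096 · 244823040. -/
theorem result : (∀ g : ↥Cfsg.Co0, (∀ v : ↥Cfsg.leechLattice, (v : Cfsg.GolayPt → ℤ) ∈ Cfsg.stdCross → ((g • v : ↥Cfsg.leechLattice) : Cfsg.GolayPt → ℤ) ∈ Cfsg.stdCross) → ∃ f ∈ Cfsg.golayMonomialMaps, ∀ v : ↥Cfsg.leechLattice, ((g • v : ↥Cfsg.leechLattice) : Cfsg.GolayPt → ℤ) = f (v : Cfsg.GolayPt → ℤ)) ∧ Nat.card {g : ↥Cfsg.Co0 // (∀ v : ↥Cfsg.leechLattice, (v : Cfsg.GolayPt → ℤ) ∈ Cfsg.stdCross → ((g • v : ↥Cfsg.leechLattice) : Cfsg.GolayPt → ℤ) ∈ Cfsg.stdCross)} = 4096 * 244823040 := by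
  open CF.Leech in
  refine ⟨fun g h => ?_, ?_⟩
  · obtain ⟨σ, c, hσ, hc, rfl⟩ :=
      CF.Leech.mem_Mon_of_forall fun i => h _ (CF.Leech.e8_mem_stdCross i)
    exact ⟨_, ⟨σ, hσ, c, hc, rfl⟩, fun v => rfl⟩
  · rw [← CF.Leech.card_Mon]
    exact Nat.card_congr (Equiv.subtypeEquivRight fun g =>
      ⟨fun h => CF.Leech.mem_Mon_of_forall fun i => h _ (CF.Leech.e8_mem_stdCross i),
        fun h v hv => CF.Leech.smul_mem_stdCross h hv⟩)

end Cfsg.Agent.S1571
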