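import Cfsg.Statements.S1573
import Cfsg.Agent.Leech.CoSt

set_option autoImplicit false
open Cfsg

set_option maxRecDepth 1000000

namespace Cfsg.Agent.S1573

open CF.Leech CF.Comp MulAction
open scoped Pointwise

/-- Census of minimal vectors by inner product with a fixed minimal vector: 4600 have customary inner product −2, 47104 have −1, and 93150 are orthogonal. -/
theorem result (v : Cfsg.GolayPt → ℤ) (hv : v ∈ Cfsg.leechLattice) (hvn : Cfsg.sqNorm v = 32) : {w : Cfsg.GolayPt → ℤ | w ∈ Cfsg.leechLattice ∧ Cfsg.sqNorm w = 32 ∧ Cfsg.dotInt v w = -16}.ncard = 4600 ∧ {w : Cfsg.GolayPt → ℤ | w ∈ Cfsg.leechLattice ∧ Cfsg.sqNorm w = 32 ∧ Cfsg.dotInt v w = -8}.ncard = 47104 ∧ {w : Cfsg.GolayPt → ℤ | w ∈ Cfsg.leechLattice ∧ Cfsg.sqNorm w = 32 ∧ Cfsg.dotInt v w = 0}.ncard = 93150 := by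
  have key : ∀ s : ℤ, {w : Cfsg.GolayPt → ℤ | w ∈ Cfsg.leechLattice ∧ Cfsg.sqNorm w = 32 ∧
      Cfsg.dotInt v w = s}.ncard = (M1 ⟨v, hv⟩ s).ncard := fun s => by
    rw [← Set.ncard_image_of_injective (M1 ⟨v, hv⟩ s) Subtype.val_injective]
    congr 1; ext w
    exact ⟨fun h => ⟨⟨w, h.1⟩, h.2, rfl⟩, by rintro ⟨x, h, rfl⟩; exact ⟨x.2, h⟩⟩
  rw [key, key, key]
  exact ncard_M1_32 hvn

end Cfsg.Agent.S1573
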