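import Cfsg.Statements.S1578
import Cfsg.Agent.Leech.CoSt

set_option autoImplicit false
open Cfsg

set_option maxRecDepth 1000000

namespace Cfsg.Agent.S1578

open CF.Leech CF.Comp MulAction
open scoped Pointwise

/-- A lattice vector of customary norm 6 is the sum of an unordered pair of minimal vectors in exactly 276 ways (552 ordered summands). -/
theorem result (u : ↥Cfsg.leechLattice) (hu : Cfsg.sqNorm (u : Cfsg.GolayPt → ℤ) = 48) : {v : ↥Cfsg.leechLattice | Cfsg.sqNorm (v : Cfsg.GolayPt → ℤ) = 32 ∧ Cfsg.sqNorm ((u - v) : Cfsg.GolayPt → ℤ) = 32}.ncard = 552 := by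
  rw [← (ncard_M1_48 (v := -u) ((nm_neg u).trans hu)).1]
  congr 1; ext v
  have := nm_sub u v
  have h2 := dt_neg_left u v
  simp only [M1, nm, dt, Set.mem_ofPred_eq, AddSubgroup.coe_sub] at *
  omega

end Cfsg.Agent.S1578
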