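import Cfsg.Statements.S1579
import Cfsg.Agent.Leech.CoSt

set_option autoImplicit false
open Cfsg

set_option maxRecDepth 1000000

namespace Cfsg.Agent.S1579

open CF.Leech CF.Comp MulAction
open scoped Pointwise

/-- The stabiliser of a vector of customary norm 6 is transitive on the 552 minimal vectors that complete it to a sum of two minimal vectors. -/
theorem result (u v v' : ↥Cfsg.leechLattice) (hu : Cfsg.sqNorm (u : Cfsg.GolayPt → ℤ) = 48) (hv : Cfsg.sqNorm (v : Cfsg.GolayPt → ℤ) = 32 ∧ Cfsg.sqNorm ((u - v) : Cfsg.GolayPt → ℤ) = 32) (hv' : Cfsg.sqNorm (v' : Cfsg.GolayPt → ℤ) = 32 ∧ Cfsg.sqNorm ((u - v') : Cfsg.GolayPt → ℤ) = 32) : ∃ g : ↥Cfsg.Co0, g • u = u ∧ g • v = v' := by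
  have h1 := nm_sub u v
  have h2 := nm_sub u v'
  simp only [nm, AddSubgroup.coe_sub] at h1 h2
  obtain ⟨g, a, b⟩ := trans_of_std
    (exists_smul_VU (u := u) (v := -v) hu ((nm_neg v).trans hv.1) (by rw [dt_neg_right]; omega))
    (exists_smul_VU (u := u) (v := -v') hu ((nm_neg v').trans hv'.1) (by rw [dt_neg_right]; omega))
  exact ⟨g, a, by rwa [smul_neg, neg_inj] at b⟩

end Cfsg.Agent.S1579
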