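import Cfsg.Statements.S1581
import Cfsg.Agent.Leech.CoSt

set_option autoImplicit false
open Cfsg

set_option maxRecDepth 1000000

namespace Cfsg.Agent.S1581

open CF.Leech CF.Comp MulAction
open scoped Pointwise

/-- The McLaughlin group acts with rank 3 and subdegrees 1, 112, 162 on its 275 points: the point stabiliser has two orbits on the remaining points, distinguished by customary inner product 1 or 2 with the fixed point. -/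
theorem result (u v x : ↥Cfsg.leechLattice) (hu : Cfsg.sqNorm (u : Cfsg.GolayPt → ℤ) = 48) (hv : Cfsg.sqNorm (v : Cfsg.GolayPt → ℤ) = 32 ∧ Cfsg.sqNorm ((u - v) : Cfsg.GolayPt → ℤ) = 32) (hx : x ∈ {x : ↥Cfsg.leechLattice | Cfsg.sqNorm (x : Cfsg.GolayPt → ℤ) = 32 ∧ Cfsg.sqNorm ((u - x) : Cfsg.GolayPt → ℤ) = 32 ∧ Cfsg.dotInt (v : Cfsg.GolayPt → ℤ) (x : Cfsg.GolayPt → ℤ) = 16}) : {y : ↥Cfsg.leechLattice | y ∈ {x : ↥Cfsg.leechLattice | Cfsg.sqNorm (x : Cfsg.GolayPt → ℤ) = 32 ∧ Cfsg.sqNorm ((u - x) : Cfsg.GolayPt → ℤ) = 32 ∧ Cfsg.dotInt (v : Cfsg.GolayPt → ℤ) (x : Cfsg.GolayPt → ℤ) = 16} ∧ Cfsg.dotInt (x : Cfsg.GolayPt → ℤ) (y : Cfsg.GolayPt → ℤ) = 8}.ncard = 112 ∧ {y : ↥Cfsg.leechLattice | y ∈ {x : ↥Cfsg.leechLattice | Cfsg.sqNorm (x : Cfsg.GolayPt → ℤ) = 32 ∧ Cfsg.sqNorm ((u - x) : Cfsg.GolayPt → ℤ) = 32 ∧ Cfsg.dotInt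 (v : Cfsg.GolayPt → ℤ) (x : Cfsg.GolayPt → ℤ) = 16} ∧ y ≠ x ∧ Cfsg.dotInt (x : Cfsg.GolayPt → ℤ) (y : Cfsg.GolayPt → ℤ) = 16}.ncard = 162 ∧ ∀ y ∈ {x : ↥Cfsg.leechLattice | Cfsg.sqNorm (x : Cfsg.GolayPt → ℤ) = 32 ∧ Cfsg.sqNorm ((u - x) : Cfsg.GolayPt → ℤ) = 32 ∧ Cfsg.dotInt (v : Cfsg.GolayPt → ℤ) (x : Cfsg.GolayPt → ℤ) = 16}, ∀ y' ∈ {x : ↥Cfsg.leechLattice | Cfsg.sqNorm (x : Cfsg.GolayPt → ℤ) = 32 ∧ Cfsg.sqNorm ((u - x) : Cfsg.GolayPt → ℤ) = 32 ∧ Cfsg.dotInt (v : Cfsg.GolayPt → ℤ) (x : Cfsg.GolayPt → ℤ) = 16}, y ≠ x → y' ≠ x → Cfsg.dotInt (x : Cfsg.GolayPt → ℤ) (y : Cfsg.GolayPt → ℤ) = Cfsg.dotInt (x : Cfsg.GolayPt → ℤ) (y' : Cfsg.GolayPt → ℤ) → ∃ g : ↥Cfsg.Co0, g • u = u ∧ g • v = v ∧ g • x = x ∧ g • y = y' := by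
  have h1 := nm_sub u v
  simp only [nm, AddSubgroup.coe_sub] at h1
  have e : {x : ↥Cfsg.leechLattice | Cfsg.sqNorm (x : Cfsg.GolayPt → ℤ) = 32 ∧ Cfsg.sqNorm ((u - x) : Cfsg.GolayPt → ℤ) = 32 ∧ Cfsg.dotInt (v : Cfsg.GolayPt → ℤ) (x : Cfsg.GolayPt → ℤ) = 16} = M2 u 24 (-v) (-16) := by
    ext x
    have := nm_sub u x
    have h2 := dt_neg_left v x
    simp only [M2, nm, dt, Set.mem_ofPred_eq, AddSubgroup.coe_sub] at *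
    omega
  rw [e] at hx ⊢
  obtain ⟨h2, h3⟩ := tr_U43 (u := u) (v := -v) hu ((nm_neg v).trans hv.1)
    (by rw [dt_neg_right]; omega) hx
  refine ⟨?_, ?_, fun y hy z hz hyx hzx hd => ?_⟩
  · rw [← h2.1]; congr 1; ext y; simp only [M2, M3, Set.mem_ofPred_eq]; tauto
  · rw [← h3.1]; congr 1; ext y; simp only [M2, M3, Set.mem_ofPred_eq]
    refine ⟨by tauto, fun h => ⟨by tauto, ?_, h.2.2.2⟩⟩
    rintro rfl
    have := dt_self y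
    omega
  · have key : ∃ g : Co0, g • u = u ∧ g • (-v) = -v ∧ g • x = x ∧ g • y = z := by
      rcases dt_summand hu hx.1 hy.1 hx.2.1 hy.2.1 with h | h | h | h
      · exact absurd h.symm hyx
      · have := dt_add_right (-v) x y
        rw [h, hx.2.2, hy.2.2, dt_neg_left, dt_comm] at this
        omega
      · exact h2.trans ⟨hy.1, hy.2.1, hy.2.2, h⟩ ⟨hz.1, hz.2.1, hz.2.2, hd.symm.trans h⟩
      · exact h3.trans ⟨hy.1, hy.2.1, hy.2.2, h⟩ ⟨hz.1, hz.2.1, hz.2.2, hd.symm.trans h⟩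
    obtain ⟨g, a, b, c⟩ := key
    exact ⟨g, a, by rwa [smul_neg, neg_inj] at b, c⟩

end Cfsg.Agent.S1581
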