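import Cfsg.Statements.S1582
import Cfsg.Agent.Leech.Psu
import Cfsg.Agent.Leech.CoSt

set_option autoImplicit false
open Cfsg

set_option maxRecDepth 1000000

namespace Cfsg.Agent.S1582

open CF.Leech CF.Comp MulAction


/-- The point stabiliser in the rank-3 action of the McLaughlin group on 275 points is isomorphic to PSU(4, 3). -/
theorem result (u v x : ↥Cfsg.leechLattice) (hu : Cfsg.sqNorm (u : Cfsg.GolayPt → ℤ) = 48) (hv : Cfsg.sqNorm (v : Cfsg.GolayPt → ℤ) = 32 ∧ Cfsg.sqNorm ((u - v) : Cfsg.GolayPt → ℤ) = 32) (hx : x ∈ {x : ↥Cfsg.leechLattice | Cfsg.sqNorm (x : Cfsg.GolayPt → ℤ) = 32 ∧ Cfsg.sqNorm ((u - x) : Cfsg.GolayPt → ℤ) = 32 ∧ Cfsg.dotInt (v : Cfsg.GolayPt → ℤ) (x : Cfsg.GolayPt → ℤ) = 16}) (F : Type) [Field F] [Fintype F] (hF : Fintype.card F = 9) : Nonempty (↥(MulAction.stabilizer ↥Cfsg.Co0 u ⊓ MulAction.stabilizer ↥Cfsg.Co0 v ⊓ MulAction.stabilizer ↥Cfsg.Co0 x) ≃*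 Cfsg.PSU 4 F 3) := by
  have h1 := nm_sub u v
  have h2 := nm_sub u x
  have h3 := dt_neg_left v x
  have h4 := dt_neg_right u v
  obtain ⟨a1, a2, a3⟩ := hx
  simp only [nm, dt, AddSubgroup.coe_sub] at h1 h2 h3 h4
  obtain ⟨g, a, b, c⟩ := exists_smul_VUX (u := u) (v := -v) (x := x) hu ((nm_neg v).trans hv.1)
    (by simp only [dt]; omega) ⟨a1, by simp only [dt]; omega, by simp only [dt]; omega⟩
  obtain ⟨e⟩ := Psu.equiv43 F hF
  rw [← a, ← b, ← c] at e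
  exact ⟨(MulEquiv.subgroupCongr (congrArg (· ⊓ _) (St2_neg u v).symm)).trans ((St3Equiv g u (-v) x).trans e)⟩

end Cfsg.Agent.S1582
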