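import Cfsg.Statements.S1584
import Cfsg.Agent.Leech.CoSt

set_option autoImplicit false
open Cfsg

set_option maxRecDepth 1000000

namespace Cfsg.Agent.S1584

open CF.Leech CF.Comp MulAction
open scoped Pointwise

/-- The Higman–Sims group acts with rank 3 and subdegrees 1, 22, 77 on its 100 points, the orbits of a point stabiliser being distinguished by customary inner product 1 with the fixed point. -/
theorem result (v w x : ↥Cfsg.leechLattice) (hv : Cfsg.sqNorm (v : Cfsg.GolayPt → ℤ) = 48) (hw : Cfsg.sqNorm (w : Cfsg.GolayPt → ℤ) = 48) (hvw : Cfsg.dotInt (v : Cfsg.GolayPt → ℤ) (w : Cfsg.GolayPt → ℤ) = -32) (hx : x ∈ {x : ↥Cfsg.leechLattice | Cfsg.sqNorm (x : Cfsg.GolayPt → ℤ) = 32 ∧ Cfsg.dotInt (v : Cfsg.GolayPt → ℤ) (x : Cfsg.GolayPt → ℤ) = 24 ∧ Cfsg.dotInt (w : Cfsg.GolayPt → ℤ) (x : Cfsg.GolayPt → ℤ) = -24}) : {y : ↥Cfsg.leechLattice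 | y ∈ {x : ↥Cfsg.leechLattice | Cfsg.sqNorm (x : Cfsg.GolayPt → ℤ) = 32 ∧ Cfsg.dotInt (v : Cfsg.GolayPt → ℤ) (x : Cfsg.GolayPt → ℤ) = 24 ∧ Cfsg.dotInt (w : Cfsg.GolayPt → ℤ) (x : Cfsg.GolayPt → ℤ) = -24} ∧ Cfsg.dotInt (x : Cfsg.GolayPt → ℤ) (y : Cfsg.GolayPt → ℤ) = 8}.ncard = 22 ∧ {y : ↥Cfsg.leechLattice | y ∈ {x : ↥Cfsg.leechLattice | Cfsg.sqNorm (x : Cfsg.GolayPt → ℤ) = 32 ∧ Cfsg.dotInt (v : Cfsg.GolayPt → ℤ) (x : Cfsg.GolayPt → ℤ) = 24 ∧ Cfsg.dotInt (w : Cfsg.GolayPt → ℤ) (x : Cfsg.GolayPt → ℤ) = -24} ∧ y ≠ x ∧ Cfsg.dotInt (x : Cfsg.GolayPt → ℤ) (y : Cfsg.GolayPt → ℤ) ≠ 8}.ncard = 77 ∧ ∀ y ∈ {x : ↥Cfsg.leechLattice | Cfsg.sqNorm (x : Cfsg.GolayPt → ℤ) = 32 ∧ Cfsg.dotInt (v : Cfsg.GolayPt → ℤ) (x : Cfsg.GolayPt → ℤ) = 24 ∧ Cfsg.dotInt (w : Cfsg.GolayPt → ℤ) (x : Cfsg.GolayPt → ℤ) = -24}, ∀ y' ∈ {x : ↥Cfsg.leechLattice | Cfsg.sqNorm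 (x : Cfsg.GolayPt → ℤ) = 32 ∧ Cfsg.dotInt (v : Cfsg.GolayPt → ℤ) (x : Cfsg.GolayPt → ℤ) = 24 ∧ Cfsg.dotInt (w : Cfsg.GolayPt → ℤ) (x : Cfsg.GolayPt → ℤ) = -24}, y ≠ x → y' ≠ x → (Cfsg.dotInt (x : Cfsg.GolayPt → ℤ) (y : Cfsg.GolayPt → ℤ) = 8 ↔ Cfsg.dotInt (x : Cfsg.GolayPt → ℤ) (y' : Cfsg.GolayPt → ℤ) = 8) → ∃ g : ↥Cfsg.Co0, g • v = v ∧ g • w = w ∧ g • x = x ∧ g • y = y' := by
  have hn : nm (-(v + w)) = 32 := by rw [nm_neg, nm_add]; simp only [nm, dt]; omega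
  have e : {x : ↥Cfsg.leechLattice | Cfsg.sqNorm (x : Cfsg.GolayPt → ℤ) = 32 ∧ Cfsg.dotInt (v : Cfsg.GolayPt → ℤ) (x : Cfsg.GolayPt → ℤ) = 24 ∧ Cfsg.dotInt (w : Cfsg.GolayPt → ℤ) (x : Cfsg.GolayPt → ℤ) = -24} = M2 v 24 (-(v + w)) 0 := by
    ext x
    simp only [M2, Set.mem_ofPred_eq, dt_neg_left, dt_add_left]
    simp only [nm, dt]
    omega
  rw [e] at hx ⊢
  have hd : dt v (-(v + w)) = -16 := by
    rw [dt_neg_right, dt_add_right, dt_self]; simp only [nm, dt]; omega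
  obtain ⟨-, -, -, h2, h3⟩ := tr_M22 (u := v) (v := -x) (w := -(v + w)) hv ((nm_neg x).trans hx.1) hn
    (by rw [dt_neg_left, dt_comm, hx.2.2]; rfl) (by rw [dt_neg_right, hx.2.1]) hd
  have key : ∀ y ∈ M2 v 24 (-(v + w)) 0, y ≠ x → dt x y = 8 ∨ dt x y = 16 := fun y hy hyx => by
    rcases dt_summand hv hx.1 hy.1 hx.2.1 hy.2.1 with h | h | h
    · exact absurd h.symm hyx
    · have := dt_add_right (-(v + w)) x y
      rw [h, hx.2.2, hy.2.2, dt_comm] at this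
      omega
    · exact h
  refine ⟨?_, ?_, fun y hy z hz hyx hzx hd => ?_⟩
  · refine Eq.trans ?_ h2.1; congr 1; ext y; simp only [M2, M3, Set.mem_ofPred_eq, dt_neg_left x, neg_inj]; tauto
  · rw [← h3.1]; congr 1; ext y
    refine ⟨fun h => ⟨h.1.1, h.1.2.1, ?_, h.1.2.2⟩, fun h => ⟨⟨h.1, h.2.1, h.2.2.2⟩, ?_, ?_⟩⟩
    · rw [dt_neg_left, (key y h.1 h.2.1).resolve_left h.2.2]
    · rintro rfl
      have := h.2.2.1
      rw [dt_neg_left, dt_self, h.1] at this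
      omega
    · have := h.2.2.1
      rw [dt_neg_left] at this
      simp only [dt] at this
      omega
  · have key2 : ∃ g : Co0, g • v = v ∧ g • (-x) = -x ∧ g • (-(v + w)) = -(v + w) ∧ g • y = z := by
      rcases key y hy hyx with h | h
      · exact h2.trans ⟨hy.1, hy.2.1, by rw [dt_neg_left, h], hy.2.2⟩
          ⟨hz.1, hz.2.1, by rw [dt_neg_left, dt, hd.1 h], hz.2.2⟩
      · have h' := (key z hz hzx).resolve_left fun h' => by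
          have := hd.2 h'
          simp only [dt] at h
          omega
        exact h3.trans ⟨hy.1, hy.2.1, by rw [dt_neg_left, h], hy.2.2⟩
          ⟨hz.1, hz.2.1, by rw [dt_neg_left, h'], hz.2.2⟩
    obtain ⟨g, a, b, c, d⟩ := key2
    exact ⟨g, a, fix_of_neg_add a c, by rwa [smul_neg, neg_inj] at b, d⟩

end Cfsg.Agent.S1584
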