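import Cfsg.Statements.S1585
import Cfsg.Agent.Leech.CoSt

set_option autoImplicit false
open Cfsg

set_option maxRecDepth 1000000

namespace Cfsg.Agent.S1585

open CF.Leech CF.Comp MulAction
open scoped Pointwise

/-- Two vectors of customary norm 6 with inner product −4 are exchanged by some automorphism of the lattice. -/
theorem result (v w : ↥Cfsg.leechLattice) (hv : Cfsg.sqNorm (v : Cfsg.GolayPt → ℤ) = 48) (hw : Cfsg.sqNorm (w : Cfsg.GolayPt → ℤ) = 48) (hvw : Cfsg.dotInt (v : Cfsg.GolayPt → ℤ) (w : Cfsg.GolayPt → ℤ) = -32) : ∃ g : ↥Cfsg.Co0, g • v = w ∧ g • w = v := by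
  have hn : nm (-(v + w)) = 32 := by rw [nm_neg, nm_add]; simp only [nm, dt]; omega
  obtain ⟨g, a, b⟩ := trans_of_std
    (exists_smul_VU' (u := v) (v := -(v + w)) hv hn
      (by rw [dt_neg_right, dt_add_right, dt_self]; simp only [nm, dt]; omega))
    (exists_smul_VU' (u := w) (v := -(v + w)) hw hn
      (by rw [dt_neg_right, dt_add_right, dt_self, dt_comm]; simp only [nm, dt]; omega))
  rw [smul_neg, neg_inj, smul_add, a, add_comm v] at b
  exact ⟨g, a, add_left_cancel b⟩

end Cfsg.Agent.S1585
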