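import Cfsg.Statements.S1586
import Cfsg.Agent.Srg.HS

set_option autoImplicit false
open Cfsg

set_option maxRecDepth 1000000

namespace Cfsg.Agent.S1586

/-- The Higman–Sims graph built from an S(3, 6, 22) has exactly 88704000 automorphisms. -/
theorem result {α : Type*} [Fintype α] [DecidableEq α] (hα : Fintype.card α = 22) {B : Set (Finset α)} (hB : Cfsg.IsSteinerSystem 3 6 B) : Nat.card (Cfsg.pointBlockGraph B ≃g Cfsg.pointBlockGraph B) = 88704000 := by
  obtain ⟨e⟩ := CF.Srg.HS.iso_row hα hB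
  obtain ⟨a⟩ := (CF.Srg.HS.mdl.of_iso e).aut_equiv
  exact (Nat.card_congr a.toEquiv).trans CF.Srg.HS.card

end Cfsg.Agent.S1586
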