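import Cfsg.Statements.S1589
import Cfsg.Agent.Leech.MIdx

set_option autoImplicit false
open scoped Pointwise
open Cfsg

set_option maxRecDepth 1000000

namespace Cfsg.Agent.S1589

open CF.Comp CF.Comp.Mat CF.Bt CF.Leech CF.Leech.M MulAction


/-- Subgroups of the group of the length-24 code of index 759, 276 and 1771 are exactly the octad, duad and sextet stabilisers, and no subgroup has index 253. -/
theorem result : (∀ H : Subgroup ↥Cfsg.M24, H.index = 759 → ∃ o ∈ Cfsg.octads, H = MulAction.stabilizer Cfsg.M24 o) ∧ (∀ H : Subgroup ↥Cfsg.M24, H.index = 276 → ∃ s : Finset Cfsg.GolayPt, s.card = 2 ∧ H = MulAction.stabilizer Cfsg.M24 s) ∧ (∀ H : Subgroup ↥Cfsg.M24, H.index = 1771 → ∃ S ∈ Cfsg.sextets, H = MulAction.stabilizer Cfsg.M24 S) ∧ ∀ H : Subgroup ↥Cfsg.M24, H.index ≠ 253 := by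
  refine ⟨fun H h => ?_, fun H h => ?_, fun H h => ?_, fun H h => idx253 (card_of_index h card_M24 (by decide))⟩
  · obtain ⟨x, e⟩ := idx759 (card_of_index h card_M24 (by decide))
    exact ⟨_, (oct_iff x).2 oO_mem, e⟩
  · obtain ⟨x, e⟩ := idx276 (card_of_index h card_M24 (by decide))
    exact ⟨_, (card_sm x _).trans s2_card, e⟩
  · obtain ⟨x, e⟩ := idx1771 (card_of_index h card_M24 (by decide))
    exact ⟨_, (sext_iff x).2 S0_mem, e⟩

end Cfsg.Agent.S1589
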