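import Cfsg.Statements.S1590
import Cfsg.Agent.Sw5.TG

set_option autoImplicit false
open Cfsg

namespace Cfsg.Agent.S1590

/-- The length-12 ternary code has 729 words with weight distribution 0^1 6^264 9^440 12^24. -/
theorem result : Nat.card ↥Cfsg.ternaryGolayCode = 729 ∧ (∀ x ∈ Cfsg.ternaryGolayCode, x ≠ 0 → (Cfsg.ternarySupport x).card = 6 ∨ (Cfsg.ternarySupport x).card = 9 ∨ (Cfsg.ternarySupport x).card = 12) ∧ {x : Cfsg.ArrayPt → ZMod 3 | x ∈ Cfsg.ternaryGolayCode ∧ (Cfsg.ternarySupport x).card = 6}.ncard = 264 ∧ {x : Cfsg.ArrayPt → ZMod 3 | x ∈ Cfsg.ternaryGolayCode ∧ (Cfsg.ternarySupport x).card = 9}.ncard = 440 ∧ {x : Cfsg.ArrayPt → ZMod 3 | x ∈ Cfsg.ternaryGolayCode ∧ (Cfsg.ternarySupport x).card = 12}.ncard = 24 := by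
  refine ⟨?_, fun x hx => ?_, ?_, ?_, ?_⟩
  · rw [← Nat.card_eq_of_bijective (fun t => (⟨_, CF.Sw5.cw_mem t⟩ : Cfsg.ternaryGolayCode))
      ⟨fun _ _ e => CF.Sw5.cw_inj (congrArg Subtype.val e),
        fun x => (CF.Sw5.mem_iff'.1 x.2).imp fun _ => Subtype.ext⟩]
    simp
  · obtain ⟨t, rfl⟩ := CF.Sw5.mem_iff'.1 hx
    rw [ne_eq, funext_iff]; clear hx; revert t; decide +kernel
  all_goals rw [CF.Sw5.ncard_tg]; decide +kernel

end Cfsg.Agent.S1590
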