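import Cfsg.Statements.S1591
import Cfsg.Agent.Sw5.TG

set_option autoImplicit false
open Cfsg

namespace Cfsg.Agent.S1591

/-- Any two words of the length-12 ternary code have dot product zero. -/
theorem result (x y : Cfsg.ArrayPt → ZMod 3) (hx : x ∈ Cfsg.ternaryGolayCode) (hy : y ∈ Cfsg.ternaryGolayCode) : ∑ p, x p * y p = 0 := by
  obtain ⟨⟨a, b, c, d, e, f⟩, rfl⟩ := CF.Sw5.mem_iff'.1 hx
  obtain ⟨⟨a', b', c', d', e', f'⟩, rfl⟩ := CF.Sw5.mem_iff'.1 hy
  have h3 : (3 : ZMod 3) = 0 := rfl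
  rw [Fintype.sum_prod_type, Fin.sum_univ_four]
  erw [Fin.sum_univ_three, Fin.sum_univ_three, Fin.sum_univ_three, Fin.sum_univ_three]
  show a * a' + b * b' + c * c' + (d * d' + e * e' + (a + b + c - d - e) * (a' + b' + c' - d' - e')) +
    (f * f' + (c - b - d + e + f) * (c' - b' - d' + e' + f') + (a - b + d - e + f) * (a' - b' + d' - e' + f')) +
    ((a - b - c - d - f) * (a' - b' - c' - d' - f') + (a + c + d + e - f) * (a' + c' + d' + e' - f') +
      (c - a - b - e - f) * (c' - a' - b' - e' - f')) = 0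
  linear_combination 2 * (a * a' + b * b' + c * c' + d * d' + e * e' + f * f') * h3

end Cfsg.Agent.S1591
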