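import Cfsg.Statements.S1597
import Cfsg.Agent.Leech.M24

set_option autoImplicit false
open scoped Pointwise
open Cfsg

set_option maxRecDepth 1000000

namespace Cfsg.Agent.S1597

open CF.Comp CF.Comp.Mat CF.Bt CF.Leech CF.Leech.M MulAction


/-- A dodecad has 220 quartets and its stabiliser is transitive on them. -/
theorem result (d : Finset Cfsg.GolayPt) (hd : d ∈ Cfsg.dodecads) : (Cfsg.quartets d).ncard = 220 ∧ ∀ Q ∈ Cfsg.quartets d, ∀ Q' ∈ Cfsg.quartets d, ∃ g : Equiv.Perm Cfsg.GolayPt, g ∈ Cfsg.M24 ∧ g • d = d ∧ g • Q = Q' := by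
  refine ⟨?_, fun Q hQ Q' hQ' => ?_⟩
  · rw [← DQ.ncard_set_full, fQ]
    exact wlog_ncard (tD hd) (fun d Q => Q ∈ quartets d) (by simp)
  · obtain ⟨g, hg, e⟩ := tQ hd hQ
    obtain ⟨k, hk, e'⟩ := tQ hd hQ'
    have : (k * g⁻¹) • (d, Q) = (d, Q') := by rw [← e, mul_smul, inv_smul_smul, e']
    exact ⟨_, mul_mem hk (inv_mem hg), congrArg Prod.fst this, congrArg Prod.snd this⟩

end Cfsg.Agent.S1597
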