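import Cfsg.Statements.S1598
import Cfsg.Agent.Leech.M24c

set_option autoImplicit false
open scoped Pointwise
open Cfsg

set_option maxRecDepth 1000000

namespace Cfsg.Agent.S1598

open CF.Comp CF.Comp.Mat CF.Bt CF.Leech CF.Leech.M MulAction

noncomputable def M : MD := ⟨[[1, 4, 1, 1, 1, 4, 4, 4, 1, 4, 4, 1, 1], [1, 3, 2, 2, 3, 1, 1, 4, 1, 3, 1, 4, 4, 2], [1, 1, 4, 4, 1, 1, 3, 2, 4, 1, 1, 1, 4, 1, 4, 2], [4, 2, 4, 1, 1, 3, 1, 3, 3, 1, 1, 3, 1, 4, 2, 4], [1, 4, 2, 4, 1, 3, 2, 3, 3, 3, 3, 3, 1, 1, 4, 1, 1], [4, 1, 3, 1, 1, 4, 2, 2, 4, 2, 3, 2, 4, 1, 3, 3, 3, 3], [1, 4, 4, 2, 3, 3, 2, 3, 2, 2, 4, 2, 3, 2, 2, 4, 2, 3, 2], [4, 1, 3, 1, 1, 4, 2, 2, 4, 2, 3, 2, 4, 1, 3, 3, 3, 3]], [(nat_lit 0x200040000000000008000000000000000000010000000000000000000000008800000020000000040000000000004000000000000000000000000000000000000000000000000000000000), (nat_lit 0x400000000090000000000000000000000000000800000000000000000080020000000000080000080000000200000000000000000000000000000000000000000000000000000000000000),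 (nat_lit 0x800000000400004000000000000000000000000000000008004000000000100000000020000000000000000a000000000000000000000000000000000000000000000000000000000000000), (nat_lit 0x100000000000200000000800000000000000000008000000000000000100400000000000000100000000100000000002000000000000000000000000000000000000000000000000000000000), (nat_lit 0x1000000000020000000000200000000000000000000000000200000080040000000000010000000000000000010000000002000000000000000000000000000000000000000000000000000000), (nat_lit 0x2000000004000000020000000000000000000000000004000000000100000000800000000080000000000000000001000020000000000000000000000000000000000000000000000000000000), (nat_lit 0x8000000000000000400100000000000000000000000020000000000008000000000008000002000000400000000000010000000000000000000000000000000000000000000000000000000000), (nat_lit 0x2000000000000000000000080000200000000000000000000008000000002008000000000000001000000000000600000000000000000000000000000000000000000000000000000000000000000)],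 [(Net.cons (nat_lit 1) (nat_lit 64) (Net.cons (nat_lit 2) (nat_lit 16) (Net.cons (nat_lit 4) (nat_lit 14) (Net.cons (nat_lit 2) (nat_lit 34) (Net.cons (nat_lit 1) (nat_lit 1) Net.nil))))), (Net.cons (nat_lit 4) (nat_lit 6) (Net.cons (nat_lit 2) (nat_lit 33) (Net.cons (nat_lit 1) (nat_lit 84) Net.nil))), (Net.cons (nat_lit 1) (nat_lit 64) (Net.cons (nat_lit 4) (nat_lit 14) (Net.cons (nat_lit 2) (nat_lit 34) (Net.cons (nat_lit 1) (nat_lit 64) Net.nil)))), (Net.cons (nat_lit 1) (nat_lit 80) (Net.cons (nat_lit 2) (nat_lit 48) (Net.cons (nat_lit 4) (nat_lit 3) (Net.cons (nat_lit 2) (nat_lit 17) (Net.cons (nat_lit 1) (nat_lit 80) Net.nil))))), (Net.cons (nat_lit 1) (nat_lit 80) (Net.cons (nat_lit 4) (nat_lit 13) (Net.cons (nat_lit 2) (nat_lit 49) (Net.cons (nat_lit 1) (nat_lit 5) Net.nil)))), (Net.cons (nat_lit 1) (nat_lit 16) (Net.cons (nat_lit 2) (nat_lit 32) (Net.cons (nat_lit 4) (nat_lit 9) (Net.cons (nat_lit 2) (nat_lit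 35) (Net.cons (nat_lit 1) (nat_lit 69) Net.nil))))), (Net.cons (nat_lit 1) (nat_lit 20) (Net.cons (nat_lit 2) (nat_lit 16) (Net.cons (nat_lit 4) (nat_lit 1) (Net.cons (nat_lit 2) (nat_lit 50) (Net.cons (nat_lit 1) (nat_lit 20) Net.nil))))), (Net.cons (nat_lit 1) (nat_lit 16) (Net.cons (nat_lit 2) (nat_lit 32) (Net.cons (nat_lit 4) (nat_lit 9) (Net.cons (nat_lit 2) (nat_lit 35) (Net.cons (nat_lit 1) (nat_lit 69) Net.nil)))))], [⟨0, [[1], [3]], 3⟩, ⟨1, [[5], [1, 4]], 2⟩]⟩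
noncomputable def MV : List (List Nat) := [[(nat_lit 6), (nat_lit 97), (nat_lit 152)],
  [(nat_lit 192), (nat_lit 11), (nat_lit 52)]]
noncomputable def MS : Net := (Net.cons (nat_lit 1) (nat_lit 64) (Net.cons (nat_lit 4) (nat_lit 7) (Net.cons (nat_lit 2) (nat_lit 34) Net.nil)))
noncomputable def MA : List (List (List Nat)) := [[[1, 2], [1, 0]],
  [[1, 1], [1, 0]],
  [[0, 1], [1, 0]],
  [[0, 2], [1, 2]],
  [[0, 1], [2, 1]],
  [[2, 0], [0, 2]],
  [[1, 0], [1, 2]],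
  [[2, 0], [0, 2]]]
noncomputable def MB : List (List (List Nat)) := [[[0, 1], [2, 1]],
  [[0, 1], [1, 2]],
  [[0, 1], [1, 0]],
  [[2, 1], [2, 0]],
  [[1, 2], [1, 0]],
  [[2, 0], [0, 2]],
  [[1, 0], [1, 2]],
  [[2, 0], [0, 2]]]

/-- A quartet stabiliser inside the dodecad stabiliser has order 432, a normal subgroup of order 9 with quotient GL(2, 3), and is transitive on the dodecad. -/
theorem result (d : Finset Cfsg.GolayPt) (hd : d ∈ Cfsg.dodecads) (Q : Finset (Finset Cfsg.GolayPt)) (hQ : Q ∈ Cfsg.quartets d) : Nat.card ↥(MulAction.stabilizer Cfsg.M24 d ⊓ MulAction.stabilizer Cfsg.M24 Q) = 432 ∧ (∃ (N : Subgroup ↥(MulAction.stabilizer Cfsg.M24 d ⊓ MulAction.stabilizer Cfsg.M24 Q)) (_ : N.Normal), Nat.card N = 9 ∧ Nonempty (↥(MulAction.stabilizer Cfsg.M24 d ⊓ MulAction.stabilizer Cfsg.M24 Q) ⧸ N ≃* GL (Fin 2) (ZMod 3))) ∧ ∀ p ∈ d, ∀ q ∈ d, ∃ g ∈ (MulAction.stabilizer Cfsg.M24 d ⊓ MulAction.stabilizer Cfsg.M24 Q),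 ((g : ↥Cfsg.M24) : Equiv.Perm Cfsg.GolayPt) p = q := by
  obtain ⟨g, hg, e⟩ := tQ hd hQ
  obtain ⟨rfl, rfl⟩ : g • sD = d ∧ g • Q0 = Q := by
    simpa [Prod.ext_iff] using e
  have c := ((Cj.stab (⟨g, hg⟩ : M24) sD).inf (Cj.stab _ Q0))
  have h := Exact.card_eq xQ (s := 432) (by decide +kernel)
  have x := exact_of_le r0 (by decide) (c := [⟨0, [[1, 4, 1, 1, 1, 4, 4, 4, 1, 4, 4, 1, 1], [1, 3, 2, 2, 3, 1, 1, 4, 1, 3, 1, 4, 4, 2]], 4⟩, ⟨3, [[1, 1, 4, 4, 1, 1, 3, 2, 4, 1, 1, 1, 4, 1, 4, 2], [4, 2, 4, 1, 1, 3, 1, 3, 3, 1, 1, 3, 1, 4, 2, 4], [1, 4, 2, 4, 1, 3, 2, 3, 3, 3, 3, 3, 1, 1, 4, 1, 1]], 2⟩, ⟨4, [[4, 1, 3, 1, 1, 4, 2, 2, 4, 2, 3, 2, 4, 1, 3, 3, 3, 3], [1, 4, 4, 2, 3, 3, 2, 3, 2, 2, 4, 2, 3, 2, 2, 4, 2, 3, 2]], 1⟩, ⟨1, [[4, 1, 3, 1, 1, 4, 2, 2, 4, 2, 3, 2, 4, 1, 3, 3, 3, 3]], 1⟩]) (mem_inf (mem_st r0 (a := 340831) (by decide +kernel)) (mem_fm (ms := [7, 336, 70144, 270344]) (by decide +kernel))) h.le (by decide +kernel)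
  obtain ⟨ψ, a, -⟩ := md_surj rO (M := M) (k := 8) (m := 8) (s := 48) (by decide +kernel) x.eq_clo
    (hasReps_vec (V := MV) (σ := MS) (As := MA) (d := 2) (by decide +kernel) (tabP_ok (ZMod 3) 3 (by decide)) (Equiv.refl _)
      (Units.coeHom _) (exists_gl (tabP_ok (ZMod 3) 3 (by decide)) _ (Bs := MB) (by decide +kernel))) (show Nat.card (GL (Fin 2) (ZMod 3)) = 48 by rw [CF.Classical.card_GL_two, ZMod.card]; rfl).le
  obtain ⟨e⟩ := c.equiv
  obtain ⟨N, hN, h1, -, h2⟩ := exists_quot e a (P := fun _ => True) fun _ _ => trivial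
  refine ⟨c.card.trans h, ⟨N, hN, h1.trans (card_ker_of_surj a (show Nat.card (GL (Fin 2) (ZMod 3)) = 48 by rw [CF.Classical.card_GL_two, ZMod.card]; rfl) h (by decide)), h2⟩, fun p hp q hq => ?_⟩
  obtain ⟨p, rfl⟩ := g.surjective p
  obtain ⟨q, rfl⟩ := g.surjective q
  exact c.exists_smul (conj_of_inOrb r0 x.mem (r := (0, 2)) (M := 340831) (by decide +kernel)
    (set_eq _ ▸ (mem_sm g p).1 hp) (set_eq _ ▸ (mem_sm g q).1 hq))

end Cfsg.Agent.S1598
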