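import Cfsg.Statements.S1600
import Cfsg.Agent.Leech.M24c

set_option autoImplicit false
open scoped Pointwise
open Cfsg

set_option maxRecDepth 1000000

namespace Cfsg.Agent.S1600

open CF.Comp CF.Comp.Mat CF.Bt CF.Leech CF.Leech.M MulAction


/-- The pointwise stabiliser of three points of a dodecad inside the dodecad stabiliser (order 72) is transitive on the complementary dodecad. -/
theorem result (d : Finset Cfsg.GolayPt) (hd : d ∈ Cfsg.dodecads) (p q r : Cfsg.GolayPt) (hp : p ∈ d) (hq : q ∈ d) (hr : r ∈ d) (hpq : p ≠ q) (hpr : p ≠ r) (hqr : q ≠ r) : Nat.card ↥(MulAction.stabilizer Cfsg.M24 d ⊓ MulAction.stabilizer Cfsg.M24 p ⊓ MulAction.stabilizer Cfsg.M24 q ⊓ MulAction.stabilizer Cfsg.M24 r) = 72 ∧ ∀ x ∉ d, ∀ y ∉ d, ∃ g ∈ (MulAction.stabilizer Cfsg.M24 d ⊓ MulAction.stabilizer Cfsg.M24 p ⊓ MulAction.stabilizer Cfsg.M24 q ⊓ MulAction.stabilizer Cfsg.M24 r), ((g : ↥Cfsg.M24) : Equiv.Perm Cfsg.GolayPt)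 x = y := by
  obtain ⟨g, hg, e⟩ := tD111 hd hp hq hr hpq hpr hqr
  obtain ⟨rfl, rfl, rfl, rfl⟩ : g • sD = d ∧ g • pt 0 = p ∧ g • pt 1 = q ∧ g • pt 2 = r := by
    simpa [Prod.ext_iff] using e
  have c := ((((Cj.stab (⟨g, hg⟩ : M24) sD).inf (Cj.stab _ (pt 0))).inf (Cj.stab _ (pt 1))).inf (Cj.stab _ (pt 2)))
  refine ⟨c.card.trans (Exact.card_eq xD3 (by decide +kernel)), fun x hx y hy => ?_⟩
  obtain ⟨x, rfl⟩ := g.surjective x
  obtain ⟨y, rfl⟩ := g.surjective y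
  have h : ∀ p, g p ∉ g • sD → p ∈ D0.set (Nat.xor 340831 16777215) := fun p hp => by
    rw [set_eq, ofMask_compl]; exact Finset.mem_compl.2 (mt (mem_sm g p).2 hp)
  exact c.exists_smul (conj_of_inOrb r0 xD3.mem (r := (23, 2)) (by decide +kernel) (h x hx) (h y hy))

end Cfsg.Agent.S1600
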