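import Cfsg.Statements.S1602
import Cfsg.Agent.Leech.M24c

set_option autoImplicit false
open scoped Pointwise
open Cfsg

set_option maxRecDepth 1000000

namespace Cfsg.Agent.S1602

open CF.Comp CF.Comp.Mat CF.Bt CF.Leech CF.Leech.M MulAction

noncomputable def M : MD := ⟨[[3, 1, 1, 1, 3, 3, 2, 3, 2, 3, 2, 3, 2], [2, 4, 2, 2, 3, 1, 4, 4, 4, 1, 1, 4, 4, 1, 1]], [(nat_lit 8), (nat_lit 16), (nat_lit 4096), (nat_lit 8192), (nat_lit 262144)], [(Net.cons (nat_lit 1) (nat_lit 4) (Net.cons (nat_lit 2) (nat_lit 1) (Net.cons (nat_lit 4) (nat_lit 1) (Net.cons (nat_lit 2) (nat_lit 3) Net.nil)))), (Net.cons (nat_lit 1) (nat_lit 1) (Net.cons (nat_lit 4) (nat_lit 1) (Net.cons (nat_lit 2) (nat_lit 3) (Net.cons (nat_lit 1) (nat_lit 1) Net.nil))))], [⟨1, [[1], [3]], 2⟩, ⟨0, [[1, 4], [4, 1, 1]], 2⟩, ⟨3, [[4, 4, 2], [2, 4, 4, 1]],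 2⟩, ⟨2, [[1, 4, 4, 1, 1]], 1⟩]⟩

/-- In the 12-point action of the smallest Mathieu group the setwise stabiliser of a pair is isomorphic to the symmetric group of degree 5. -/
theorem result (d : Finset Cfsg.GolayPt) (hd : d ∈ Cfsg.dodecads) (p q q' : Cfsg.GolayPt) (hp : p ∈ d) (hq : q ∉ d) (hq' : q' ∉ d) (hqq' : q ≠ q') : Nonempty (↥(MulAction.stabilizer Cfsg.M24 d ⊓ MulAction.stabilizer Cfsg.M24 p ⊓ MulAction.stabilizer Cfsg.M24 ({q, q'} : Finset Cfsg.GolayPt)) ≃* Equiv.Perm (Fin 5)) := by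
  obtain ⟨g, hg, e⟩ := tD12 hd hp (s := {q, q'}) ⟨Finset.card_pair hqq', by simp [hq, hq']⟩
  obtain ⟨⟨rfl, rfl⟩, h⟩ : (g • sD = d ∧ g • pt 0 = p) ∧ g • ofMask 8388640 = {q, q'} := by
    simpa [Prod.ext_iff] using e
  rw [← h]
  obtain ⟨e⟩ := (((Cj.stab (⟨g, hg⟩ : M24) sD).inf (Cj.stab _ (pt 0))).inf (Cj.stab _ (ofMask 8388640))).equiv
  obtain ⟨e'⟩ := Exact.equiv_perm (md_exact r0 (M := M) (k := 5) (m := 2) (s := 120) (by decide +kernel) (mem_inf (mem_inf (mem_st r0 (a := 340831) (by decide +kernel)) (mem_stab r0 (b := 0) (by decide +kernel))) (mem_st r0 (a := 8388640) (by decide +kernel)))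
    (Exact.card_eq (Exact.stab (Exact.stab xD r0 (by decide) (c' := [⟨1, [[2, 4, 1, 1, 4, 4, 2, 4, 1, 1, 1], [4, 2, 3, 3, 2, 2, 3, 1, 3, 1, 1]], 3⟩, ⟨2, [[1, 4, 1, 4, 4, 2, 4, 2, 4, 2, 4, 2], [1, 4, 4, 1, 4, 2, 2, 3, 3, 2, 2, 4, 1]], 3⟩, ⟨4, [[3, 2, 3, 1, 1, 1, 1, 1, 1, 1, 1, 3, 2], [4, 2, 4, 1, 1, 4, 1, 3, 2, 4, 1, 3, 2]], 3⟩, ⟨3, [[3, 2, 3, 2, 2, 4, 1, 1, 1, 1, 4, 4, 2, 4], [3, 2, 3, 1, 1, 4, 2, 2, 3, 2, 4, 2, 2, 3, 2, 3, 1]], 2⟩]) (mem_st r0 (a := 340831) (by decide +kernel)) (b := 0) (k := 5) (x := pt 0) rfl (by decide +kernel)) r2 (by decide) (c' := [⟨1, [[3, 1, 1, 1, 3, 3, 2, 3, 2, 3, 2, 3, 2], [2, 4, 2, 2, 3, 1, 4, 4, 4, 1, 1, 4, 4, 1, 1]], 3⟩, ⟨2, [[2, 3, 2, 4, 1, 1, 1, 1, 3, 1, 4, 2, 4, 4, 1, 3], [4, 1, 4, 4, 2, 2, 2, 3, 2, 3, 3, 1, 3, 3, 2, 3]], 3⟩, ⟨4, [[4, 1, 4, 4, 2, 2, 2, 3, 2, 3, 3, 1, 3, 3, 2,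 3]], 3⟩]) (mem_inf (mem_st r0 (a := 340831) (by decide +kernel)) (mem_stab r0 (b := 0) (by decide +kernel))) (b := 153) (k := 5) (x := ofMask 8388640) (pt2' (by decide +kernel)) (by decide +kernel)) (by decide +kernel)).le) (by decide +kernel)
  exact ⟨e.symm.trans e'⟩

end Cfsg.Agent.S1602
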