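import Cfsg.Statements.S1604
import Cfsg.Agent.Leech.M24b

set_option autoImplicit false
open scoped Pointwise
open Cfsg

set_option maxRecDepth 1000000

namespace Cfsg.Agent.S1604

open CF.Comp CF.Comp.Mat CF.Bt CF.Leech CF.Leech.M MulAction


/-- A hexad stabiliser in the two-point stabiliser has orbits of sizes 1, 16, 60 on the 77 hexads: the 16 hexads disjoint from it and the 60 meeting it in two points. -/
theorem result (p q : Cfsg.GolayPt) (hpq : p ≠ q) (o o' o'' : Finset Cfsg.GolayPt) (ho : o ∈ Cfsg.octads) (ho' : o' ∈ Cfsg.octads) (ho'' : o'' ∈ Cfsg.octads) (hp : p ∈ o ∧ p ∈ o' ∧ p ∈ o'') (hq : q ∈ o ∧ q ∈ o' ∧ q ∈ o'') (h : (o ∩ o').card = (o ∩ o'').card) : {x : Finset Cfsg.GolayPt | x ∈ Cfsg.octads ∧ p ∈ x ∧ q ∈ x ∧ (o ∩ x).card = 2}.ncard = 16 ∧ {x : Finset Cfsg.GolayPt | x ∈ Cfsg.octads ∧ p ∈ x ∧ q ∈ x ∧ (o ∩ x).card = 4}.ncard = 60 ∧ ∃ g : Equiv.Perm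 Cfsg.GolayPt, g ∈ Cfsg.M24 ∧ g p = p ∧ g q = q ∧ g • o = o ∧ g • o' = o'' := by
  have ht := t11O hpq ho hp.1 hq.1
  have hc : ∀ c, {a : Finset GolayPt | a ∈ octads ∧ p ∈ a ∧ q ∈ a ∧ (o ∩ a).card = c}.ncard =
      pop 759 (maskP 759 fun i => band (CF.Comp.tb (column eP i) 23) (band (CF.Comp.tb (column eP i) 0) (Nat.beq (pc (Nat.land 8536111 (column eP i))) c))) := fun c =>
    (wlog_ncard ht (fun z a => a ∈ octads ∧ z.1.1 ∈ a ∧ z.1.2 ∈ a ∧ (z.2 ∩ a).card = c) (by simp)).trans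
      (ncard_eq_pop De (by norm_num) fO fun i _ => by
        rw [inter_oO, ptO, pt_mem_iff (by norm_num), pt_mem_iff (by norm_num), band3, CF.Comp.beq_iff])
  refine ⟨(hc _).trans (by decide +kernel), (hc _).trans (by decide +kernel), ?_⟩
  obtain ⟨g, hg, e1, e2⟩ := wlog_conj ht (R := fun z a b => a ∈ octads ∧ b ∈ octads ∧ (z.1.1 ∈ a ∧ z.1.2 ∈ a) ∧
    (z.1.1 ∈ b ∧ z.1.2 ∈ b) ∧ (z.2 ∩ a).card = (z.2 ∩ b).card) (by simp) (fun y y' h =>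
    let ⟨k, hk, e⟩ := conj_of_cls rO fO (ws := [[2, 2, 4, 1, 1, 1, 3, 3, 3, 3], [3, 3, 2, 3, 1, 1, 1, 3, 3, 1, 1]]) (mem_inf (mem_inf (mem_stab r0 (b := 23) (by decide +kernel)) (mem_stab r0 (b := 0) (by decide +kernel))) (mem_st r0 (a := 8536111) (by decide +kernel)))
      (Q := fun a => pt 23 ∈ a ∧ pt 0 ∈ a) (P := fun i => band (CF.Comp.tb (column eP i) 23) (CF.Comp.tb (column eP i) 0))
      (fun i _ h => by rwa [ptO, pt_mem_iff (by norm_num), pt_mem_iff (by norm_num), ← band2] at h)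
      (val := fun a => (oO ∩ a).card) (fun i _ => inter_oO i)
      (rs := [(759, 0), (759, 0), (509, 4), (759, 0), (506, 6), (759, 0), (759, 0), (759, 0), (757, 0)]) (by decide +kernel) h.1 h.2.1 h.2.2.1 h.2.2.2.1 h.2.2.2.2
    ⟨k, Prod.ext (Prod.ext hk.1.1 hk.1.2) hk.2, e⟩) ⟨ho', ho'', ⟨hp.2.1, hq.2.1⟩, ⟨hp.2.2, hq.2.2⟩, h⟩
  exact ⟨g, hg, congrArg (·.1.1) e1, congrArg (·.1.2) e1, congrArg Prod.snd e1, e2⟩

end Cfsg.Agent.S1604
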