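import Cfsg.Statements.S1605
import Cfsg.Agent.Leech.M24b

set_option autoImplicit false
open scoped Pointwise
open Cfsg

set_option maxRecDepth 1000000

namespace Cfsg.Agent.S1605

open CF.Comp CF.Comp.Mat CF.Bt CF.Leech CF.Leech.M MulAction


/-- The two-point stabiliser acts on the 176 octads through the first point avoiding the second with rank 3 and subdegrees 1, 70, 105 (intersections 8, 2, 4). -/
theorem result (p q : Cfsg.GolayPt) (hpq : p ≠ q) : {x : Finset Cfsg.GolayPt | (x ∈ Cfsg.octads ∧ p ∈ x ∧ q ∉ x)}.ncard = 176 ∧ (∀ o o' : Finset Cfsg.GolayPt, (o ∈ Cfsg.octads ∧ p ∈ o ∧ q ∉ o) → (o' ∈ Cfsg.octads ∧ p ∈ o' ∧ q ∉ o') → ∃ g : Equiv.Perm Cfsg.GolayPt, g ∈ Cfsg.M24 ∧ g p = p ∧ g q = q ∧ g • o = o') ∧ ∀ o : Finset Cfsg.GolayPt, (o ∈ Cfsg.octads ∧ p ∈ o ∧ q ∉ o) → {x : Finset Cfsg.GolayPt | (x ∈ Cfsg.octads ∧ p ∈ x ∧ q ∉ x) ∧ (o ∩ x).card = 2}.ncard = 70 ∧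 {x : Finset Cfsg.GolayPt | (x ∈ Cfsg.octads ∧ p ∈ x ∧ q ∉ x) ∧ (o ∩ x).card = 4}.ncard = 105 ∧ ∀ o' o'' : Finset Cfsg.GolayPt, (o' ∈ Cfsg.octads ∧ p ∈ o' ∧ q ∉ o') → (o'' ∈ Cfsg.octads ∧ p ∈ o'' ∧ q ∉ o'') → (o ∩ o').card = (o ∩ o'').card → ∃ g : Equiv.Perm Cfsg.GolayPt, g ∈ Cfsg.M24 ∧ g p = p ∧ g q = q ∧ g • o = o ∧ g • o' = o'' := by
  have hi : ∀ i, (ofMask 8394986 ∩ De.pt i).card = pc (Nat.land 8394986 (column eP i)) := fun i => by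
    rw [ptO]; exact card_inter_ofMask (by norm_num) _
  refine ⟨(wlog_ncard (t11 hpq) (fun z a => a ∈ octads ∧ z.1 ∈ a ∧ z.2 ∉ a) (by simp)).trans
      ((ncard_eq_pop De (by norm_num) fO (P := fun i => band (CF.Comp.tb (column eP i) 23) (Bool.rec true false (CF.Comp.tb (column eP i) 0))) fun i _ => by
        rw [ptO, pt_mem_iff (by norm_num), not_mem_iff (by norm_num), band2]).trans (by decide +kernel)),
    fun o o' h h' => ?_, fun o h => ?_⟩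
  · obtain ⟨g, hg, e⟩ := conj_of_trans (t10O hpq h.1 h.2.1 h.2.2) (t10O hpq h'.1 h'.2.1 h'.2.2)
    exact ⟨g, hg, congrArg (·.1.1) e, congrArg (·.1.2) e, congrArg Prod.snd e⟩
  have ht := t10O hpq h.1 h.2.1 h.2.2
  have hc : ∀ c, {a : Finset GolayPt | (a ∈ octads ∧ p ∈ a ∧ q ∉ a) ∧ (o ∩ a).card = c}.ncard =
      pop 759 (maskP 759 fun i => band (CF.Comp.tb (column eP i) 23) (band (Bool.rec true false (CF.Comp.tb (column eP i) 0)) (Nat.beq (pc (Nat.land 8394986 (column eP i))) c))) := fun c => by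
    simp only [and_assoc]
    exact (wlog_ncard ht (fun z a => a ∈ octads ∧ z.1.1 ∈ a ∧ z.1.2 ∉ a ∧ (z.2 ∩ a).card = c) (by simp)).trans
      (ncard_eq_pop De (by norm_num) fO fun i _ => by
        rw [hi, ptO, pt_mem_iff (by norm_num), not_mem_iff (by norm_num), band3, CF.Comp.beq_iff])
  refine ⟨(hc _).trans (by decide +kernel), (hc _).trans (by decide +kernel), fun a b h1 h2 h3 => ?_⟩
  obtain ⟨g, hg, e1, e2⟩ := wlog_conj ht (R := fun z a b => (a ∈ octads ∧ z.1.1 ∈ a ∧ z.1.2 ∉ a) ∧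
    (b ∈ octads ∧ z.1.1 ∈ b ∧ z.1.2 ∉ b) ∧ (z.2 ∩ a).card = (z.2 ∩ b).card) (by simp) (fun y y' h =>
    let ⟨k, hk, e⟩ := conj_of_cls rO fO (ws := [[4, 2, 2, 2, 3, 3, 2, 4, 2, 4, 1, 3], [4, 4, 2, 2, 2, 3, 3, 3, 2, 2, 2, 4]]) (mem_inf (mem_inf (mem_stab r0 (b := 23) (by decide +kernel)) (mem_stab r0 (b := 0) (by decide +kernel))) (mem_st r0 (a := 8394986) (by decide +kernel)))
      (Q := fun a => pt 23 ∈ a ∧ pt 0 ∉ a) (P := fun i => band (CF.Comp.tb (column eP i) 23) (Bool.rec true false (CF.Comp.tb (column eP i) 0)))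
      (fun i _ h => by rwa [ptO, pt_mem_iff (by norm_num), not_mem_iff (by norm_num), ← band2] at h)
      (val := fun a => (ofMask 8394986 ∩ a).card) (fun i _ => hi i)
      (rs := [(759, 0), (759, 0), (0, 6), (759, 0), (17, 7), (759, 0), (759, 0), (759, 0), (437, 0)]) (by decide +kernel) h.1.1 h.2.1.1 h.1.2 h.2.1.2 h.2.2
    ⟨k, Prod.ext (Prod.ext hk.1.1 hk.1.2) hk.2, e⟩) ⟨h1, h2, h3⟩
  exact ⟨g, hg, congrArg (·.1.1) e1, congrArg (·.1.2) e1, congrArg Prod.snd e1, e2⟩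

end Cfsg.Agent.S1605
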