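import Cfsg.Statements.S1606
import Cfsg.Agent.Leech.MIdx

set_option autoImplicit false
open scoped Pointwise
open Cfsg

set_option maxRecDepth 1000000

namespace Cfsg.Agent.S1606

open CF.Comp CF.Comp.Mat CF.Bt CF.Leech CF.Leech.M MulAction


/-- The stabiliser of two points in the group of the length-24 code has no subgroups of index 56 or 210. -/
theorem result (p q : Cfsg.GolayPt) (hpq : p ≠ q) (H : Subgroup ↥(MulAction.stabilizer Cfsg.M24 p ⊓ MulAction.stabilizer Cfsg.M24 q)) : H.index ≠ 56 ∧ H.index ≠ 210 := by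
  obtain ⟨g, hg, e⟩ := t11 hpq
  obtain ⟨rfl, rfl⟩ := Prod.ext_iff.1 e
  have h := (Cj.stab (⟨g, hg⟩ : M24) (pt 23)).inf (Cj.stab (⟨g, hg⟩ : M24) (pt 0))
  exact ⟨fun t => let ⟨_, a, b, _⟩ := to_model h H t card_L2 (by decide); idx56 a b,
    fun t => let ⟨_, a, b, _⟩ := to_model h H t card_L2 (by decide); idx210 a b⟩

end Cfsg.Agent.S1606
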