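import Cfsg.Statements.S1607
import Cfsg.Agent.Leech.M24b

set_option autoImplicit false
open scoped Pointwise
open Cfsg

set_option maxRecDepth 1000000

namespace Cfsg.Agent.S1607

open CF.Comp CF.Comp.Mat CF.Bt CF.Leech CF.Leech.M MulAction


/-- The point stabiliser acts on the 253 heptads of its S(4, 7, 23) with rank 3 and subdegrees 1, 112, 140 (intersections 8, 2, 4). -/
theorem result (x : Cfsg.GolayPt) (o : Finset Cfsg.GolayPt) (ho : o ∈ Cfsg.octads) (hx : x ∈ o) : {o' : Finset Cfsg.GolayPt | o' ∈ Cfsg.octads ∧ x ∈ o' ∧ (o ∩ o').card = 2}.ncard = 112 ∧ {o' : Finset Cfsg.GolayPt | o' ∈ Cfsg.octads ∧ x ∈ o' ∧ (o ∩ o').card = 4}.ncard = 140 ∧ ∀ o' o'' : Finset Cfsg.GolayPt, o' ∈ Cfsg.octads → o'' ∈ Cfsg.octads → x ∈ o' → x ∈ o'' → (o ∩ o').card = (o ∩ o'').card → ∃ g : Equiv.Perm Cfsg.GolayPt, g ∈ Cfsg.M24 ∧ g x = x ∧ g • o = o ∧ g • o' = o'' := by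
  have ht := tO1 ho hx
  have hc : ∀ c, {a : Finset GolayPt | a ∈ octads ∧ x ∈ a ∧ (o ∩ a).card = c}.ncard =
      pop 759 (maskP 759 fun i => band (CF.Comp.tb (column eP i) 23) (Nat.beq (pc (Nat.land 8536111 (column eP i))) c)) := fun c =>
    (wlog_ncard ht (fun z a => a ∈ octads ∧ z.2 ∈ a ∧ (z.1 ∩ a).card = c) (by simp)).trans
      (ncard_eq_pop De (by norm_num) fO fun i _ => by
        rw [inter_oO, ptO, pt_mem_iff (by norm_num), band2, CF.Comp.beq_iff])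
  refine ⟨(hc _).trans (by decide +kernel), (hc _).trans (by decide +kernel), fun a b h1 h2 h3 h4 h5 => ?_⟩
  obtain ⟨g, hg, e1, e2⟩ := wlog_conj ht (R := fun z a b => a ∈ octads ∧ b ∈ octads ∧ z.2 ∈ a ∧ z.2 ∈ b ∧
    (z.1 ∩ a).card = (z.1 ∩ b).card) (by simp) (fun y y' h =>
    let ⟨k, hk, e⟩ := conj_of_cls rO fO (ws := [[2, 3, 1, 4, 4, 1, 1, 3], [4, 1, 4, 1, 3, 1, 3, 3, 1]]) (mem_inf (mem_st r0 (a := 8536111) (by decide +kernel)) (mem_stab r0 (b := 23) (by decide +kernel)))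
      (Q := (pt 23 ∈ ·)) (P := fun i => (CF.Comp.tb (column eP i) 23)) (fun i _ h => by rwa [ptO, pt_mem_iff (by norm_num)] at h)
      (val := fun a => (oO ∩ a).card) (fun i _ => inter_oO i)
      (rs := [(759, 0), (759, 0), (0, 6), (759, 0), (45, 6), (759, 0), (759, 0), (759, 0), (757, 0)]) (by decide +kernel) h.1 h.2.1 h.2.2.1 h.2.2.2.1 h.2.2.2.2
    ⟨k, Prod.ext hk.1 hk.2, e⟩) ⟨h1, h2, h3, h4, h5⟩
  exact ⟨g, hg, congrArg Prod.snd e1, congrArg Prod.fst e1, e2⟩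

end Cfsg.Agent.S1607
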