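import Cfsg.Statements.S1608
import Cfsg.Agent.Leech.M24b

set_option autoImplicit false
open scoped Pointwise
open Cfsg

set_option maxRecDepth 1000000

namespace Cfsg.Agent.S1608

open CF.Comp CF.Comp.Mat CF.Bt CF.Leech CF.Leech.M MulAction


/-- The point stabiliser acts on the 506 octads avoiding the point with rank 4 and subdegrees 1, 15, 210, 280, the suborbits being given by intersection size with the fixed octad. -/
theorem result (x : Cfsg.GolayPt) (o : Finset Cfsg.GolayPt) (ho : o ∈ Cfsg.octads) (hx : x ∉ o) : {o' : Finset Cfsg.GolayPt | o' ∈ Cfsg.octads ∧ x ∉ o' ∧ (o ∩ o').card = 0}.ncard = 15 ∧ {o' : Finset Cfsg.GolayPt | o' ∈ Cfsg.octads ∧ x ∉ o' ∧ (o ∩ o').card = 4}.ncard = 210 ∧ {o' : Finset Cfsg.GolayPt | o' ∈ Cfsg.octads ∧ x ∉ o' ∧ (o ∩ o').card = 2}.ncard = 280 ∧ ∀ o' o'' : Finset Cfsg.GolayPt, o' ∈ Cfsg.octads → o'' ∈ Cfsg.octads → x ∉ o' → x ∉ o'' → (o ∩ o').card = (o ∩ o'').card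 → ∃ g : Equiv.Perm Cfsg.GolayPt, g ∈ Cfsg.M24 ∧ g x = x ∧ g • o = o ∧ g • o' = o'' := by
  have ht := tO0 ho hx
  have hc : ∀ c, {a : Finset GolayPt | a ∈ octads ∧ x ∉ a ∧ (o ∩ a).card = c}.ncard =
      pop 759 (maskP 759 fun i => band (Bool.rec true false (CF.Comp.tb (column eP i) 4)) (Nat.beq (pc (Nat.land 8536111 (column eP i))) c)) := fun c =>
    (wlog_ncard ht (fun z a => a ∈ octads ∧ z.2 ∉ a ∧ (z.1 ∩ a).card = c) (by simp)).trans
      (ncard_eq_pop De (by norm_num) fO fun i _ => by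
        rw [inter_oO, ptO, not_mem_iff (by norm_num), band2, CF.Comp.beq_iff])
  refine ⟨(hc _).trans (by decide +kernel), (hc _).trans (by decide +kernel), (hc _).trans (by decide +kernel), fun a b h1 h2 h3 h4 h5 => ?_⟩
  obtain ⟨g, hg, e1, e2⟩ := wlog_conj ht (R := fun z a b => a ∈ octads ∧ b ∈ octads ∧ z.2 ∉ a ∧ z.2 ∉ b ∧
    (z.1 ∩ a).card = (z.1 ∩ b).card) (by simp) (fun y y' h =>
    let ⟨k, hk, e⟩ := conj_of_cls rO fO (ws := [[4, 1, 4, 1, 4, 2, 4, 1, 3], [2, 4, 4, 4, 1, 1, 3, 2, 2, 2]]) (mem_inf (mem_st r0 (a := 8536111) (by decide +kernel)) (mem_stab r0 (b := 4) (by decide +kernel)))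
      (Q := (pt 4 ∉ ·)) (P := fun i => (Bool.rec true false (CF.Comp.tb (column eP i) 4))) (fun i _ h => by rwa [ptO, not_mem_iff (by norm_num)] at h)
      (val := fun a => (oO ∩ a).card) (fun i _ => inter_oO i)
      (rs := [(6, 3), (759, 0), (0, 8), (759, 0), (45, 7), (759, 0), (759, 0), (759, 0), (757, 0)]) (by decide +kernel) h.1 h.2.1 h.2.2.1 h.2.2.2.1 h.2.2.2.2
    ⟨k, Prod.ext hk.1 hk.2, e⟩) ⟨h1, h2, h3, h4, h5⟩
  exact ⟨g, hg, congrArg Prod.snd e1, congrArg Prod.fst e1, e2⟩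

end Cfsg.Agent.S1608
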