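import Cfsg.Statements.S1609
import Cfsg.Agent.Leech.MIdx

set_option autoImplicit false
open scoped Pointwise
open Cfsg

set_option maxRecDepth 1000000

namespace Cfsg.Agent.S1609

open CF.Comp CF.Comp.Mat CF.Bt CF.Leech CF.Leech.M MulAction


/-- Subgroups of index 253 in the Mathieu group of degree 23 are exactly the duad stabilisers and the heptad stabilisers. -/
theorem result (x : Cfsg.GolayPt) (H : Subgroup ↥(MulAction.stabilizer Cfsg.M24 x)) (hH : H.index = 253) : (∃ s : Finset Cfsg.GolayPt, s.card = 2 ∧ x ∉ s ∧ H = (MulAction.stabilizer Cfsg.M24 s).subgroupOf (MulAction.stabilizer Cfsg.M24 x)) ∨ ∃ o ∈ Cfsg.octads, x ∈ o ∧ H = (MulAction.stabilizer Cfsg.M24 o).subgroupOf (MulAction.stabilizer Cfsg.M24 x) := by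
  obtain ⟨g, rfl⟩ := up (t1 x)
  obtain ⟨K, a, b, c⟩ := to_model (Cj.stab g (pt 23)) H hH (c := 40320) card_L1 (by decide)
  obtain ⟨y, t, rfl | rfl⟩ := idx23 a b
  · refine .inl ⟨g • y • ofMask 5, (card_sm g _).trans ((card_sm y _).trans (by decide +kernel)), fun e => ?_,
      eq_sub (c.eq ((Cj.stab g _).inf (Cj.stab g _)) rfl)⟩
    exact absurd ((mem_sm y _).1 ((show (y : Pm) (pt 23) = pt 23 from t).symm ▸ (mem_sm g _).1 e)) (by decide +kernel)
  · exact .inr ⟨g • y • oO, (oct_iff g).2 ((oct_iff y).2 oO_mem), (mem_sm g _).2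
      ((show (y : Pm) (pt 23) = pt 23 from t) ▸ (mem_sm y _).2 (by decide +kernel)),
      eq_sub (c.eq ((Cj.stab g _).inf (Cj.stab g _)) rfl)⟩

end Cfsg.Agent.S1609
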