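import Cfsg.Statements.S1610
import Cfsg.Agent.Sw5.Hex

set_option autoImplicit false
open Cfsg

namespace Cfsg.Agent.S1610

/-- The hexacode has 64 words, minimum weight 4, and weight distribution 0^1 4^45 6^18. -/
theorem result (F : Type*) [Field F] [Fintype F] [DecidableEq F] (hF : Fintype.card F = 4) (ω : F) (hω : ω ^ 2 + ω + 1 = 0) : Nat.card ↥(Cfsg.hexacode F ω) = 64 ∧ (∀ x ∈ Cfsg.hexacode F ω, x ≠ 0 → (Finset.univ.filter fun i => x i ≠ 0).card = 4 ∨ (Finset.univ.filter fun i => x i ≠ 0).card = 6) ∧ {x : Fin 6 → F | x ∈ Cfsg.hexacode F ω ∧ (Finset.univ.filter fun i => x i ≠ 0).card = 4}.ncard = 45 ∧ {x : Fin 6 → F | x ∈ Cfsg.hexacode F ω ∧ (Finset.univ.filter fun i => x i ≠ 0).card = 6}.ncard = 18 := by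
  obtain ⟨φ, hφ⟩ := CF.Sw5.exists_K4 hF hω
  refine ⟨?_, fun x hx h => ?_, ?_, ?_⟩
  · rw [← Nat.card_eq_of_bijective (fun t => (⟨_, (CF.Sw5.mem_hex' hφ).2 ⟨t, rfl⟩⟩ : Cfsg.hexacode F ω))
      ⟨fun _ _ e => CF.Sw5.hw_inj (congrArg Subtype.val e),
        fun x => ((CF.Sw5.mem_hex' hφ).1 x.2).imp fun _ => Subtype.ext⟩, Nat.card_eq_fintype_card]
    decide
  · obtain ⟨t, rfl⟩ := (CF.Sw5.mem_hex' hφ).1 hx
    simp only [ne_eq, funext_iff, Pi.zero_apply, map_eq_zero_iff φ φ.injective] at h ⊢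
    clear hx; revert t; decide +kernel
  all_goals rw [CF.Sw5.ncard_hex hφ]; decide +kernel

end Cfsg.Agent.S1610
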