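import Cfsg.Statements.S1612
import Cfsg.Agent.Fisch.Hyp
-- import your own Cfsg.Agent.* helpers here

set_option autoImplicit false
open Cfsg

namespace Cfsg.Agent.S1612

open CF.Fisch
open scoped commutatorElement


/-- In a 3-transposition group (no solvable normal subgroup, perfect derived group), the normaliser of a commuting set of transpositions of maximum size contains a Sylow 2-subgroup and is doubly transitive on the set. -/
theorem result {G : Type*} [Group G] [Finite G] (hsol : ∀ N : Subgroup G, N.Normal → Group.IsSolvable ↥N → N = ⊥) (hperf : ⁅commutator G, commutator G⁆ = commutator G) {D : Set G} (hD : Cfsg.IsThreeTranspositionClass D) {E : Set G} (hE : E ⊆ D) (hc : ∀ a ∈ E, ∀ b ∈ E, Commute a b) (hmax : ∀ E' : Set G, E' ⊆ D → (∀ a ∈ E', ∀ b ∈ E', Commute a b) → E'.ncard ≤ E.ncard) : (∃ P : Sylow 2 G, (P : Subgroup G) ≤ Subgroup.normalizer E) ∧ ∀ a ∈ E, ∀ b ∈ E, ∀ c ∈ E, ∀ d ∈ E, a ≠ b → c ≠ d → ∃ g ∈ Subgroup.normalizer E, g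 * a * g⁻¹ = c ∧ g * b * g⁻¹ = d := by
  have h := primTT_of_fischer hsol hperf hD
  have hj := ttc_conj hD
  refine ⟨?_, fun a ha b hb c hc' d hd e e' => ?_⟩
  · obtain ⟨P, hP⟩ := (isPGroup_two_closure (fun x hx => tt_sq hD.1 (hE hx)) hc).exists_le_sylow
    have e := mem_of_max hD.1 hE hmax P.isPGroup' fun x hx => hP (Subgroup.subset_closure hx)
    refine ⟨P, fun g hg x => ?_⟩
    rw [← e]
    exact and_congr (conj_mem_iff hj).symm
      ((Subgroup.le_normalizer (H := (P : Subgroup G)) hg) x)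
  · obtain ⟨g, e1, e2⟩ := h.pair (hE ha) (hE hb) (hE hc') (hE hd) e e' (hc a ha b hb) (hc c hc' d hd)
    have k : ∀ x ∈ E, ∀ y ∈ E, ∀ z ∈ E, x ∈ Subgroup.centralizer ({y, z} : Set G) := by
      rintro x hx y hy z hz w (rfl | rfl)
      exacts [hc _ hy _ hx, hc _ hz _ hx]
    obtain ⟨u, hu, eu⟩ := max_conj hD.1 hj (F := (fun x => g * x * g⁻¹) '' E) hE
      (by rintro _ ⟨x, hx, rfl⟩; exact hj g x (hE hx)) hc
      (by rintro _ ⟨x, hx, rfl⟩ _ ⟨y, hy, rfl⟩; exact commute_conj_iff.2 (hc x hx y hy)) hmax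
      (Set.ncard_image_of_injective _ fun _ _ => conj_inj.1)
      (H := Subgroup.centralizer ({c, d} : Set G)) (fun x hx => k x hx c hc' d hd) (by
        rintro _ ⟨x, hx, rfl⟩ w (rfl | rfl)
        · rw [← e1]; exact commute_conj_iff.2 (hc a ha x hx)
        · rw [← e2]; exact commute_conj_iff.2 (hc b hb x hx))
    have u1 : u * c * u⁻¹ = c := by rw [← hu c (by simp)]; group
    have u2 : u * d * u⁻¹ = d := by rw [← hu d (by simp)]; group
    refine ⟨u * g, fun x => ?_, ?_, ?_⟩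
    · rw [show u * g * x * (u * g)⁻¹ = u * (g * x * g⁻¹) * u⁻¹ by group, eu]
      exact ⟨fun hx => ⟨x, hx, rfl⟩, fun ⟨y, hy, e⟩ => conj_inj.1 e ▸ hy⟩
    · rw [← u1, ← e1]; group
    · rw [← u2, ← e2]; group

end Cfsg.Agent.S1612
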