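import Cfsg.Statements.S1614
import Cfsg.Agent.Geom.Fi29

set_option autoImplicit false
open Cfsg

namespace Cfsg.Agent.S1614

open CF.Geom CF.Geom.Fi CF.Fisch in

/-- If the commuting transpositions of one transposition generate a solvable group, a Fischer 3-transposition group is S5, S6, PSU(4, 2) or PSU(5, 2). -/
theorem result {G : Type*} [Group G] [Finite G] (hsol : ∀ N : Subgroup G, N.Normal → Group.IsSolvable ↥N → N = ⊥) (hperf : ⁅commutator G, commutator G⁆ = commutator G) {D : Set G} (hD : Cfsg.IsThreeTranspositionClass D) (x : G) (hx : x ∈ D) (hs : Group.IsSolvable ↥(Subgroup.closure {y : G | y ∈ D ∧ y ≠ x ∧ Commute x y})) : Nonempty (G ≃* Equiv.Perm (Fin 5)) ∨ Nonempty (G ≃* Equiv.Perm (Fin 6)) ∨ ∃ (F : Type) (_ : Field F) (_ : Fintype F), Fintype.card F = 4 ∧ (Nonempty (G ≃* Cfsg.PSU 4 F 2) ∨ Nonempty (G ≃* Cfsg.PSU 5 F 2)) := by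
  obtain ⟨X, _, _, τ, r, P⟩ := exists_prim (primTT_of_fischer hsol hperf hD)
  obtain ⟨a, ha, rfl⟩ := r.surj hx
  have hZ := center_bot_of_sol hsol
  rcases P.solv_list ha (fun e => (r.Yd ha).not_solv e hs) fun e => (r.Yd ha).prim_not_solv e hs with
    ⟨n, φ, h, m⟩ | ⟨n, B, φ, h, m⟩
  · obtain ⟨e, -⟩ := r.sym_iso hD.2.2 hZ m (by omega)
    rcases h with rfl | rfl
    exacts [.inl ⟨e⟩, .inr (.inl ⟨e⟩)]
  · obtain ⟨e, -⟩ := r.grp_u hD.2.2 hZ m P.wide
    refine .inr (.inr ⟨K4, inferInstance, inferInstance, rfl, ?_⟩)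
    rcases h with rfl | rfl
    exacts [.inl ⟨e⟩, .inr ⟨e⟩]

end Cfsg.Agent.S1614
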