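import Cfsg.Statements.S1616
import Cfsg.Agent.Geom.Fi17

set_option autoImplicit false
open Cfsg

namespace Cfsg.Agent.S1616

/-- If O₂(⟨D_x⟩) is not central in ⟨D_x⟩ for some transposition x, the 3-transposition group is some Sp(2n, 2) or PSU(n, 2). -/
theorem result {G : Type*} [Group G] [Finite G] (hsol : ∀ N : Subgroup G, N.Normal → Group.IsSolvable ↥N → N = ⊥) (hperf : ⁅commutator G, commutator G⁆ = commutator G) {D : Set G} (hD : Cfsg.IsThreeTranspositionClass D) (x : G) (hx : x ∈ D) (h : ¬ Cfsg.pCore 2 ↥(Subgroup.closure {y : G | y ∈ D ∧ y ≠ x ∧ Commute x y}) ≤ Subgroup.center ↥(Subgroup.closure {y : G | y ∈ D ∧ y ≠ x ∧ Commute x y})) : (∃ n : ℕ, Nonempty (G ≃* Matrix.symplecticGroup (Fin n) (ZMod 2))) ∨ ∃ (F : Type) (_ : Field F) (_ : Fintype F) (n : ℕ), Fintype.card F = 4 ∧ Nonempty (G ≃* Cfsg.PSU n F 2) := by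
  open CF.Geom.Fi in
  obtain ⟨X, _, _, τ, r, hP⟩ := exists_prim (CF.Fisch.primTT_of_fischer hsol hperf hD)
  obtain ⟨a, ha, rfl⟩ := r.surj hx
  have hv := mt ((r.Yd ha).vt_iff_core (hP.loc ha)).1 h
  have hZ := CF.Geom.Fi.center_bot_of_sol hsol
  open CF.Geom.Fi in
  by_cases hA : NoAf (Set.univ : Set X)
  · obtain ⟨n, B, φ, k⟩ := hP.exists_AM hA
    obtain ⟨m, -, h1, h2, ρ, r'⟩ := k.rp_Sp hP.toCls ⟨a, ha⟩ (k.sp_surj hP hA (hP.spT hA ha hv))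
    obtain ⟨e, -⟩ := r.iso r' hD.2.2 h1 hZ h2
    exact Or.inl ⟨m, ⟨e⟩⟩
  · obtain ⟨n, B, φ, k⟩ := (hP.uty (CF.Geom.Fi.not_noAf.1 hA) ha hv).exists_UM
    obtain ⟨h1, ρ, r'⟩ := k.rp_SU hP.sb (n := n) (by simp) (by simpa using k.four_le hP.sb hP.wide)
    obtain ⟨e, -⟩ := r.iso_quot r' hD.2.2 hZ h1
    exact Or.inr ⟨CF.Geom.Fi.K4, inferInstance, inferInstance, n, rfl, ⟨e⟩⟩

end Cfsg.Agent.S1616
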