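import Cfsg.Statements.S1617
import Cfsg.Agent.Geom.R3b

set_option autoImplicit false
open Cfsg

namespace Cfsg.Agent.S1617

/-- A generating conjugacy class of involutions on which the group (with trivial solvable radical) acts with rank 3 is a class of 3-transpositions. -/
theorem result {G : Type*} [Group G] [Finite G] (hsol : ∀ N : Subgroup G, N.Normal → Group.IsSolvable ↥N → N = ⊥) {D : Set G} (hinv : ∀ d ∈ D, orderOf d = 2) (hconj : ∃ d ∈ D, D = conjugatesOf d) (hgen : Subgroup.closure D = ⊤) (hrank : ∀ x ∈ D, ∃ y ∈ D, ∃ z ∈ D, {w : G | ∃ g : G, Commute g x ∧ g * y * g⁻¹ = w} ≠ {w : G | ∃ g : G, Commute g x ∧ g * x * g⁻¹ = w} ∧ {w : G | ∃ g : G, Commute g x ∧ g * z * g⁻¹ = w} ≠ {w : G | ∃ g : G, Commute g x ∧ g * x * g⁻¹ = w} ∧ {w : G | ∃ g : G, Commute g x ∧ g * y * g⁻¹ = w} ≠ {w : G | ∃ g : G, Commute g x ∧ g * z * g⁻¹ = w} ∧ D = {w : G | ∃ g : G, Commute g x ∧ g * x * g⁻¹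 = w} ∪ {w : G | ∃ g : G, Commute g x ∧ g * y * g⁻¹ = w} ∪ {w : G | ∃ g : G, Commute g x ∧ g * z * g⁻¹ = w}) : Cfsg.IsThreeTranspositionClass D := by
  obtain ⟨d, md, hd⟩ := hconj
  obtain ⟨y, hy, z, hz, -, -, -, e⟩ := hrank d md
  refine ⟨⟨hinv, CF.Geom.R3.rank_three hsol hinv hd hgen hy hz fun w hw => ?_⟩, ⟨d, md, hd⟩, hgen⟩
  rw [e] at hw
  rcases hw with (⟨g, c, rfl⟩ | h) | h
  exacts [.inl (by rw [c.eq, mul_inv_cancel_right]), .inr (.inl h), .inr (.inr h)]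

end Cfsg.Agent.S1617
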