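import Cfsg.Statements.S1618
import Cfsg.Agent.Hyp.FTProof
import Cfsg.Agent.Hyp.ZStarProof
import Cfsg.Agent.Solv.PiSep

set_option autoImplicit false
open Cfsg

namespace Cfsg.Agent.S1618


/-- A group generated by a class of involutions whose pairwise products (of distinct members) have p-power order for a fixed odd prime p has nilpotent derived subgroup. -/
theorem result {G : Type*} [Group G] [Finite G] (p : ℕ) (hp : p.Prime) (hodd : p ≠ 2) {D : Set G} (hinv : ∀ d ∈ D, orderOf d = 2) (hconj : ∃ d ∈ D, D = conjugatesOf d) (hgen : Subgroup.closure D = ⊤) (hprod : ∀ x ∈ D, ∀ y ∈ D, x ≠ y → ∃ k : ℕ, orderOf (x * y) = p ^ k) : Group.IsNilpotent ↥(commutator G) := by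
  obtain ⟨d, hd, rfl⟩ := hconj
  haveI := Fact.mk hp
  have d2 : d * d = 1 := by rw [← sq, ← hinv d hd, pow_orderOf_eq_one]
  have di : d⁻¹ = d := inv_eq_of_mul_eq_one_right d2
  have hp' : ∀ g : G, ∃ k, (d * g * d⁻¹ * g⁻¹) ^ p ^ k = 1 := fun g => by
    by_cases e : d = g * d * g⁻¹
    · exact ⟨0, by rw [pow_zero, pow_one, di, mul_assoc, mul_assoc, ← mul_assoc g, ← e, d2]⟩
    · obtain ⟨k, hk⟩ := hprod d hd _ (isConj_iff.2 ⟨g, rfl⟩) e
      exact ⟨k, by rw [di, mul_assoc, mul_assoc, ← mul_assoc g, ← hk, pow_orderOf_eq_one]⟩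
  have key : ∀ (N : Subgroup G) [N.Normal], (∀ g, d * g * d⁻¹ * g⁻¹ ∈ N) → commutator G ≤ N := by
    intro N _ h
    have h1 : (Subgroup.center (G ⧸ N)).comap (QuotientGroup.mk' N) = ⊤ := by
      rw [eq_top_iff, ← hgen, Subgroup.closure_le]
      have hc : (d : G ⧸ N) ∈ Subgroup.center (G ⧸ N) := Subgroup.mem_center_iff.2 fun y => by
        obtain ⟨y, rfl⟩ := QuotientGroup.mk_surjective y
        have := (QuotientGroup.eq_one_iff _).2 (h y)
        simp only [QuotientGroup.mk_mul, QuotientGroup.mk_inv] at this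
        exact (commutatorElement_eq_one_iff_mul_comm.1 this).symm
      intro x hx
      obtain ⟨g, rfl⟩ := isConj_iff.1 hx
      exact ((inferInstance : (Subgroup.center (G ⧸ N)).Normal).comap (QuotientGroup.mk' N)).conj_mem d hc g
    refine Subgroup.commutator_le.2 fun x _ y _ => (QuotientGroup.eq_one_iff _).1 ?_
    have := Subgroup.mem_center_iff.1 (show (x : G ⧸ N) ∈ Subgroup.center (G ⧸ N) from
      (h1 ▸ Subgroup.mem_top x : x ∈ (Subgroup.center _).comap (QuotientGroup.mk' N))) (y : G ⧸ N)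
    exact commutatorElement_eq_one_iff_mul_comm.2 this.symm
  obtain ⟨N, hN, ho, h⟩ := CF.Hyp.zstar (hinv d hd) fun g hg => by
    obtain ⟨k, hk⟩ := hp' g
    rw [di, mul_assoc, mul_assoc, ← mul_assoc g] at hk
    have h2 : (d * (g * d * g⁻¹)) ^ 2 = 1 := by
      rw [Commute.mul_pow hg, sq, d2, one_mul, conj_pow, sq, d2, mul_one, mul_inv_cancel]
    have := pow_gcd_eq_one.2 ⟨hk, h2⟩
    rw [(Nat.Coprime.pow_left k ((Nat.coprime_primes hp Nat.prime_two).2 hodd)).gcd_eq_one, pow_one,
      mul_eq_one_iff_inv_eq, di] at this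
    exact this.symm
  haveI := CF.Hyp.isSolvable_of_odd ho
  haveI : Group.IsSolvable (G ⧸ N) := Group.isSolvable_of_comm fun a b => by
    obtain ⟨a, rfl⟩ := QuotientGroup.mk_surjective a
    obtain ⟨b, rfl⟩ := QuotientGroup.mk_surjective b
    exact commutatorElement_eq_one_iff_mul_comm.1 ((QuotientGroup.eq_one_iff _).2
      (key N h (Subgroup.commutator_mem_commutator trivial trivial)))
  haveI : Group.IsSolvable G := Group.isSolvable_of_ker_le_range N.subtype (QuotientGroup.mk' N) (by simp)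
  set π := QuotientGroup.mk' (pCore p G)
  have h0 : ∀ x ∈ pPrimeCore p (G ⧸ pCore p G), ∀ g, x = π (d * g * d⁻¹ * g⁻¹) → x = 1 := by
    rintro _ hx g rfl
    obtain ⟨k, hk⟩ := hp' g
    have := pow_gcd_eq_one.2 ⟨(by rw [← map_pow, hk, map_one] : π (d * g * d⁻¹ * g⁻¹) ^ p ^ k = 1),
      congrArg Subtype.val (pow_card_eq_one' (x := (⟨_, hx⟩ : pPrimeCore p (G ⧸ pCore p G))))⟩
    rwa [(Nat.Coprime.pow_left k CF.Solv.pPrimeCore_coprime.symm).gcd_eq_one, pow_one] at this
  have h1 : π d ∈ pPrimeCore p (G ⧸ pCore p G) :=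
    CF.Solv.centralizer_pPrimeCore_le_of_isPSolvable (CF.Solv.isPSolvable_of_isSolvable p)
      CF.Solv.pCore_quotient_pCore fun y hy => by
        obtain ⟨y, rfl⟩ := QuotientGroup.mk'_surjective _ y
        refine (commutatorElement_eq_one_iff_mul_comm.1 (h0 _ ?_ y (by simp [commutatorElement_def, π]))).symm
        exact mul_mem (Subgroup.Normal.conj_mem inferInstance _ hy _) (inv_mem hy)
  have h2 : commutator G ≤ pCore p G := key _ fun g => (QuotientGroup.eq_one_iff _).1 (h0 _ (by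
    simp only [QuotientGroup.mk_mul, QuotientGroup.mk_inv, mul_assoc]
    exact mul_mem h1 (by
      have := Subgroup.Normal.conj_mem inferInstance _ (inv_mem h1) (g : G ⧸ pCore p G)
      rw [mul_assoc] at this
      exact this)) g rfl)
  exact (CF.Solv.pCore_isPGroup.to_le h2).isNilpotent

end Cfsg.Agent.S1618
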