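import Cfsg.Statements.S1622
import Cfsg.Agent.Comp.J2.Main

set_option autoImplicit false
open Quaternion
open Cfsg

namespace Cfsg.Agent.S1622

open CF.Comp CF.Comp.J2 in

/-- The reflection group is transitive on its 315 reflections by conjugation. -/
theorem result (f f' : Equiv.Perm ↥Cfsg.Spor.icoLeech) (hf : Cfsg.Spor.IsIcoReflection f) (hf' : Cfsg.Spor.IsIcoReflection f') : ∃ g ∈ Cfsg.Spor.twoJ2, g * f * g⁻¹ = f' := by
  obtain ⟨w, rfl⟩ := exists_conj hf
  obtain ⟨w', rfl⟩ := exists_conj hf'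
  exact ⟨_, (ev ρ w' * (ev ρ w)⁻¹).2, by simp [mul_assoc]⟩

end Cfsg.Agent.S1622
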