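import Cfsg.Statements.S1623
import Cfsg.Agent.Comp.J2.Cnt

set_option autoImplicit false
open Quaternion
open Cfsg

namespace Cfsg.Agent.S1623

open CF.Comp CF.Comp.J2 in

/-- A reflection centraliser in the Hall–Janko group is an extension of an extraspecial group of order 32 by the alternating group of degree 5. -/
theorem result (f : Equiv.Perm ↥Cfsg.Spor.icoLeech) (hf : Cfsg.Spor.IsIcoReflection f) (hfm : f ∈ Cfsg.Spor.twoJ2) : ∃ (Q : Subgroup ↥(Subgroup.centralizer {(QuotientGroup.mk ⟨f, hfm⟩ : Cfsg.Spor.J2)})) (_ : Q.Normal), Nat.card Q = 32 ∧ Cfsg.IsExtraspecial 2 Q ∧ Nonempty (↥(Subgroup.centralizer {(QuotientGroup.mk ⟨f, hfm⟩ : Cfsg.Spor.J2)}) ⧸ Q ≃* alternatingGroup (Fin 5)) := by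
  obtain ⟨w, rfl⟩ := exists_conj hf
  obtain ⟨e⟩ := cent.2
  obtain ⟨e'⟩ := nonempty_centralizer_equiv (mk_conj (ev ρ w))
  obtain ⟨Q, h1, h2, h3, -, -, h4, -⟩ := HCen.shape (e.trans e')
  exact ⟨Q, h1, h3, h2, h4⟩

end Cfsg.Agent.S1623
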