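import Cfsg.Statements.S1624
import Cfsg.Agent.Comp.J2.Main
import Cfsg.Agent.J23.P2U

set_option autoImplicit false
open Quaternion
open Cfsg

namespace Cfsg.Agent.S1624

open CF.Comp CF.Comp.J2 CF.J23 in

/-- The Hall–Janko group contains PSU(3, 3) with index 100 and acts on the 100 cosets with rank 3 and subdegrees 1, 36, 63. -/
theorem result : ∃ H : Subgroup Cfsg.Spor.J2, H.index = 100 ∧ (∃ (F : Type) (_ : Field F) (_ : Fintype F), Fintype.card F = 9 ∧ Nonempty (↥H ≃* Cfsg.PSU 3 F 3)) ∧ ∃ c₁ c₂ : Cfsg.Spor.J2 ⧸ H, (MulAction.orbit ↥H c₁).ncard = 36 ∧ (MulAction.orbit ↥H c₂).ncard = 63 := by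
  have h := (Exact.tail (L := P2.C.head (by simp [P2.C])) (t := P2.C.tail) exact).eq_clo
  have : Fact (Nat.Prime 3) := ⟨Nat.prime_three⟩
  let _ := Fintype.ofFinite (GaloisField 3 2)
  have hF : Fintype.card (GaloisField 3 2) = 9 := by
    rw [← Nat.card_eq_fintype_card, GaloisField.card 3 2 two_ne_zero]; rfl
  exact ⟨_, (index_eq_of_stab h).trans ((Exact.ncard_orbit (L := P2.C.head (by simp [P2.C])) exact).trans
      (by decide +kernel)), ⟨_, _, _, hF, h ▸ P2.stab_equiv exact _ hF⟩, _, _,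
    reps0.ncard_orbit_coset (by decide) h (by decide +kernel) (t := [7]) (k := 8) (b' := 3)
      (by decide +kernel) (by decide +kernel),
    reps0.ncard_orbit_coset (by decide) h (by decide +kernel) (t := [1]) (k := 8) (b' := 1)
      (by decide +kernel) (by decide +kernel)⟩

end Cfsg.Agent.S1624
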