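import Cfsg.Statements.S1626
import Cfsg.Agent.Comp.J3.Lines

set_option autoImplicit false
open scoped MatrixGroups
open Matrix
open Cfsg

namespace Cfsg.Agent.S1626

open CF.Comp CF.Comp.J3 in

/-- Orbits of the triple cover of the third Janko group on lines of its 9-space over the field with 4 elements: the line through the first basis vector has exactly 23256 images, and the isotropic lines (nonzero v with Σ v_z³ = 0) form a single orbit. -/
theorem result (F : Type) [Field F] [Fintype F] (hF : Fintype.card F = 4) (ω : F) (hω : ω ^ 2 + ω + 1 = 0) : {L : Submodule F (Cfsg.Spor.F9 → F) | ∃ g ∈ Cfsg.Spor.threeJ3 F ω, L = F ∙ ((g : Matrix Cfsg.Spor.F9 Cfsg.Spor.F9 F) *ᵥ (Pi.single (0 : Cfsg.Spor.F9) (1 : F) : Cfsg.Spor.F9 → F))}.ncard = 23256 ∧ ∀ v w : Cfsg.Spor.F9 → F, v ≠ 0 → w ≠ 0 → ∑ z, (v z) ^ 3 = 0 → ∑ z, (w z) ^ 3 = 0 → ∃ g ∈ Cfsg.Spor.threeJ3 F ω, ∃ c : F, c ≠ 0 ∧ (g : Matrix Cfsg.Spor.F9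 Cfsg.Spor.F9 F) *ᵥ v = c • w := by
  have hT := ok hF hω
  refine ⟨?_, fun v w hv hw h1 h2 => ?_⟩
  · refine Eq.trans ?_ ((DL hT).ncard_ivl (a := 0) (b := 23256) (by decide))
    rw [← orbit1, pt_zero]
    exact congrArg _ (Set.ext fun L => ⟨fun ⟨g, h, e⟩ => ⟨⟨g, h⟩, trivial, (smul_span _ _).trans e.symm⟩,
      fun ⟨g, _, e⟩ => ⟨g.1, g.2, e.symm.trans (smul_span _ _)⟩⟩)
  · obtain ⟨g, -, e⟩ := exists_smul_of_mem_orbIn (Ω := LinM (glMat (Cfsg.Spor.threeJ3 F ω)))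
      (mem_orbit3 hT hF hv h1) (mem_orbit3 hT hF hw h2)
    obtain ⟨c, hc⟩ := Submodule.span_singleton_eq_span_singleton.1 (e.symm.trans (smul_span g v))
    exact ⟨g.1, g.2, c, c.ne_zero, hc.symm⟩

end Cfsg.Agent.S1626
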