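import Cfsg.Statements.S1631
import Cfsg.Agent.Geom.TT

set_option autoImplicit false
open scoped MatrixGroups
open Cfsg

namespace Cfsg.Agent.S1631

/-- The unitary transvections of SU(n, 2), n ≥ 4, form a generating conjugacy class of 3-transpositions. -/
theorem result (F : Type) [Field F] [Fintype F] [DecidableEq F] (hF : Fintype.card F = 4) (n : ℕ) (hn : 4 ≤ n) : Cfsg.IsThreeTranspositionClass {g : ↥(Cfsg.SU n F 2) | (((g : Matrix.SpecialLinearGroup (Fin n) F) : Matrix (Fin n) (Fin n) F) - 1).rank = 1} := by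
  open CF.Geom in
  obtain ⟨σ, hσ, h1, h2⟩ := exists_conj (q := 2) hF
  have e : ∀ a : F, a ≠ 0 → σ a * a = 1 := fun a ha => by
    rw [hσ, ← pow_succ]; simpa [hF] using FiniteField.pow_card_sub_one_eq_one a ha
  have f : ∀ a : F, a ≠ 0 → σ a = a → a = 1 := fun a ha h =>
    mul_left_cancel₀ ha (by rw [hσ] at h; linear_combination h)
  have t : (2 : F) = 0 := by
    have : (4 : F) = 0 := by simpa [hF] using FiniteField.cast_card_eq_zero F
    exact pow_eq_zero_iff two_ne_zero |>.1 (by linear_combination this)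
  open CF.Geom in
  refine threeTransp_of_equiv (suEquiv n hσ) (fun g => (rank_sub_one_iff
    (suEquiv_apply n hσ g)).trans ((rank_one_SU_iff (isHerm_hermSesq h1 h2)
      (hermSesq_nondegenerate σ) _).trans ?_))
    (threeTransp_SU (isHerm_hermSesq h1 h2) (hermSesq_nondegenerate σ) t e f (by simpa))
  refine exists_congr fun v => ⟨fun ⟨s, v0, s0, hv, hs, h⟩ => ⟨v0, hv, ?_⟩, fun ⟨v0, hv, h⟩ =>
    ⟨1, v0, one_ne_zero, hv, by rw [map_one]; linear_combination t, by simpa using h⟩⟩
  simpa [f s s0 (by linear_combination hs - s * t)] using h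

end Cfsg.Agent.S1631
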