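import Cfsg.Statements.S1633
import Cfsg.Agent.Leech.Psu
import Cfsg.Agent.Leech.CoSt

set_option autoImplicit false
open Cfsg

set_option maxRecDepth 1000000

namespace Cfsg.Agent.S1633

open CF.Leech CF.Comp MulAction
open scoped Pointwise


/-- The Higman–Sims group acts transitively on 352 vectors, a set closed under x ↦ −w − x, with vector stabiliser isomorphic to PSU(3, 5). -/
theorem result (v w : ↥Cfsg.leechLattice) (hv : Cfsg.sqNorm (v : Cfsg.GolayPt → ℤ) = 48) (hw : Cfsg.sqNorm (w : Cfsg.GolayPt → ℤ) = 48) (hvw : Cfsg.dotInt (v : Cfsg.GolayPt → ℤ) (w : Cfsg.GolayPt → ℤ) = -32) (F : Type) [Field F] [Fintype F] (hF : Fintype.card F = 25) : {x : ↥Cfsg.leechLattice | Cfsg.sqNorm (x : Cfsg.GolayPt → ℤ) = 32 ∧ Cfsg.dotInt (v : Cfsg.GolayPt → ℤ) (x : Cfsg.GolayPt → ℤ) = 16 ∧ Cfsg.dotInt (w : Cfsg.GolayPt → ℤ) (x : Cfsg.GolayPt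 → ℤ) = -24}.ncard = 352 ∧ (∀ x ∈ {x : ↥Cfsg.leechLattice | Cfsg.sqNorm (x : Cfsg.GolayPt → ℤ) = 32 ∧ Cfsg.dotInt (v : Cfsg.GolayPt → ℤ) (x : Cfsg.GolayPt → ℤ) = 16 ∧ Cfsg.dotInt (w : Cfsg.GolayPt → ℤ) (x : Cfsg.GolayPt → ℤ) = -24}, -w - x ∈ {x : ↥Cfsg.leechLattice | Cfsg.sqNorm (x : Cfsg.GolayPt → ℤ) = 32 ∧ Cfsg.dotInt (v : Cfsg.GolayPt → ℤ) (x : Cfsg.GolayPt → ℤ) = 16 ∧ Cfsg.dotInt (w : Cfsg.GolayPt → ℤ) (x : Cfsg.GolayPt → ℤ) = -24}) ∧ (∀ x ∈ {x : ↥Cfsg.leechLattice | Cfsg.sqNorm (x : Cfsg.GolayPt → ℤ) = 32 ∧ Cfsg.dotInt (v : Cfsg.GolayPt → ℤ) (x : Cfsg.GolayPt → ℤ) = 16 ∧ Cfsg.dotInt (w : Cfsg.GolayPt → ℤ) (x : Cfsg.GolayPt → ℤ) = -24}, ∀ x' ∈ {x : ↥Cfsg.leechLattice | Cfsg.sqNorm (x : Cfsg.GolayPt → ℤ) = 32 ∧ Cfsg.dotInt (v : Cfsg.GolayPt → ℤ) (x : Cfsg.GolayPt → ℤ) = 16 ∧ Cfsg.dotInt (w : Cfsg.GolayPt → ℤ) (x : Cfsg.GolayPt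 → ℤ) = -24}, ∃ g : ↥Cfsg.Co0, g • v = v ∧ g • w = w ∧ g • x = x') ∧ ∀ x ∈ {x : ↥Cfsg.leechLattice | Cfsg.sqNorm (x : Cfsg.GolayPt → ℤ) = 32 ∧ Cfsg.dotInt (v : Cfsg.GolayPt → ℤ) (x : Cfsg.GolayPt → ℤ) = 16 ∧ Cfsg.dotInt (w : Cfsg.GolayPt → ℤ) (x : Cfsg.GolayPt → ℤ) = -24}, Nonempty (↥(MulAction.stabilizer ↥Cfsg.Co0 v ⊓ MulAction.stabilizer ↥Cfsg.Co0 w ⊓ MulAction.stabilizer ↥Cfsg.Co0 x) ≃* Cfsg.PSU 3 F 5) := by
  have h1 := nm_add v w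
  have h2 := dt_add_right v v w
  have h3 := dt_self v
  have h4 : nm (-(v + w)) = 32 := by rw [nm_neg]; simp only [nm, dt] at *; omega
  have h5 : dt v (-(v + w)) = -16 := by rw [dt_neg_right]; simp only [nm, dt] at *; omega
  have e : {x : ↥Cfsg.leechLattice | Cfsg.sqNorm (x : Cfsg.GolayPt → ℤ) = 32 ∧ Cfsg.dotInt (v : Cfsg.GolayPt → ℤ) (x : Cfsg.GolayPt → ℤ) = 16 ∧ Cfsg.dotInt (w : Cfsg.GolayPt → ℤ) (x : Cfsg.GolayPt → ℤ) = -24} = M2 v 16 (-(v + w)) 8 := by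
    ext x
    have := dt_neg_left (v + w) x
    have := dt_add_left v w x
    simp only [M2, nm, dt, Set.mem_ofPred_eq] at *
    omega
  have t := (tr_HS hv h4 h5).1
  refine ⟨e ▸ t.1, fun x hx => ?_, fun x hx y hy => ?_, fun x hx => ?_⟩
  · have := nm_sub (-w) x
    have := nm_neg w
    have := dt_neg_left w x
    have := dt_sub_right v (-w) x
    have := dt_neg_right v w
    have := dt_sub_right w (-w) x
    have := dt_neg_right w w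
    have := dt_self w
    simp only [nm, dt, Set.mem_ofPred_eq] at *
    omega
  · obtain ⟨g, a, b, c⟩ := t.trans (e ▸ hx) (e ▸ hy)
    exact ⟨g, a, fix_of_neg_add a b, c⟩
  · obtain ⟨g, a, b⟩ := exists_smul_VU' hv h4 h5
    obtain ⟨k, c, d, s⟩ := Tr2.trans orb_352' (x := g • x) (by rw [← a, ← b, ← smul_M2]; exact Set.smul_mem_smul_set (e ▸ hx))
      Psu.Y_mem
    obtain ⟨ε⟩ := Psu.equiv35 F hF
    rw [← s, ← c, ← d, ← a, ← b, ← mul_smul, ← mul_smul, ← mul_smul] at ε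
    exact ⟨(MulEquiv.subgroupCongr (congrArg (· ⊓ _) (St2_neg_add v w).symm)).trans ((St3Equiv _ v _ x).trans ε)⟩

end Cfsg.Agent.S1633
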