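import Cfsg.Statements.S1635
import Cfsg.Agent.Leech.Coset

set_option autoImplicit false
open Cfsg

set_option maxRecDepth 1000000

namespace Cfsg.Agent.S1635

/-- Coset leaders of the length-24 code: a coset contains a unique word of weight ≤ 3, or else exactly six words of weight 4 and none lighter. -/
theorem result (w : Cfsg.GolayPt → ZMod 2) : ({v : Cfsg.GolayPt → ZMod 2 | hammingNorm v ≤ 4 ∧ w - v ∈ Cfsg.golayCode}.ncard = 1 ∧ ∃ v : Cfsg.GolayPt → ZMod 2, hammingNorm v ≤ 3 ∧ w - v ∈ Cfsg.golayCode) ∨ ({v : Cfsg.GolayPt → ZMod 2 | hammingNorm v ≤ 4 ∧ w - v ∈ Cfsg.golayCode}.ncard = 6 ∧ ∀ v : Cfsg.GolayPt → ZMod 2, w - v ∈ Cfsg.golayCode → hammingNorm v ≤ 4 → hammingNorm v = 4) := by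
  open CF.Leech in
  have key : ∀ v : GolayPt → ZMod 2, w - v ∈ golayCode ↔ symmDiff (support₂ w) (support₂ v) ∈ CS :=
    fun v => by
      rw [mem_golayCode_iff, ← support₂_add, sub_eq_add_neg, show -v = v from
        funext fun p => ZMod.neg_eq_self_mod_two _]
  obtain ⟨t, ht, hc⟩ := exists_small (support₂ w)
  simp only [key, hammingNorm_eq]
  by_cases h3 : t.card ≤ 3
  · refine Or.inl ⟨Set.ncard_eq_one.2 ⟨word t, Set.ext fun v => ⟨fun hv => ?_, ?_⟩⟩, word t,
      by simpa using h3, by simpa using hc⟩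
    · by_contra hne
      have := close_of_mem_CS (symmDiff_mem_trans hc hv.2)
        (fun e => hne (by rw [e, word_support₂]; rfl)) ht hv.1
      omega
    · rintro rfl
      exact ⟨by simpa using ht, by simpa using hc⟩
  · have h4 : t.card = 4 := by omega
    have h5 : ∀ v : GolayPt → ZMod 2, symmDiff (support₂ w) (support₂ v) ∈ CS →
        (support₂ v).card ≤ 4 → (support₂ v).card = 4 := fun v h1 h2 => by
      by_cases e : t = support₂ v
      · rw [← e, h4]
      · exact (close_of_mem_CS (symmDiff_mem_trans hc h1) e ht h2).2.1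
    refine Or.inr ⟨?_, h5⟩
    rw [← card_sextetOf h4, ← Set.ncard_coe_finset, ← Set.ncard_image_of_injective _ word_injective]
    refine congrArg Set.ncard (Set.ext fun v => ⟨fun hv => ⟨support₂ v, ?_, word_support₂ v⟩, ?_⟩)
    · exact mem_sextetOf.2 ⟨h5 v hv.2 hv.1, symmDiff_mem_trans hc hv.2⟩
    · rintro ⟨u, hu, rfl⟩
      have hu := mem_sextetOf.1 hu
      refine ⟨by simpa using hu.1.le, ?_⟩
      rw [support₂_word]
      exact symmDiff_mem_trans (symmDiff_comm _ t ▸ hc) hu.2

end Cfsg.Agent.S1635
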