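import Cfsg.Statements.S1638
import Cfsg.Agent.Leech.M24b

set_option autoImplicit false
open scoped Pointwise
open Cfsg

set_option maxRecDepth 1000000

namespace Cfsg.Agent.S1638

open CF.Comp CF.Comp.Mat CF.Bt CF.Leech CF.Leech.M MulAction


/-- Fix two points p ≠ q and a pair s of two further points. Among the pairs avoiding p, q and disjoint from s, exactly 30 lie in an octad together with p, q and s and exactly 160 do not; and any two pairs other than s that meet s in equally many points and agree on that octad property are carried to one another by an element of the group of the length-24 code fixing p, q and s. -/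
theorem result (p q : Cfsg.GolayPt) (hpq : p ≠ q) (s : Finset Cfsg.GolayPt) (hs : (s.card = 2 ∧ p ∉ s ∧ q ∉ s)) : {t : Finset Cfsg.GolayPt | (t.card = 2 ∧ p ∉ t ∧ q ∉ t) ∧ Disjoint s t ∧ (∃ o ∈ Cfsg.octads, p ∈ o ∧ q ∈ o ∧ s ∪ t ⊆ o)}.ncard = 30 ∧ {t : Finset Cfsg.GolayPt | (t.card = 2 ∧ p ∉ t ∧ q ∉ t) ∧ Disjoint s t ∧ ¬ (∃ o ∈ Cfsg.octads, p ∈ o ∧ q ∈ o ∧ s ∪ t ⊆ o)}.ncard = 160 ∧ ∀ t t' : Finset Cfsg.GolayPt, (t.card = 2 ∧ p ∉ t ∧ q ∉ t) → (t'.card = 2 ∧ p ∉ t' ∧ q ∉ t') → t ≠ s → t' ≠ s → (s ∩ t).card = (s ∩ t').card → ((∃ o ∈ Cfsg.octads, p ∈ o ∧ q ∈ o ∧ s ∪ t ⊆ o) ↔ (∃ o ∈ Cfsg.octads, p ∈ o ∧ q ∈ o ∧ s ∪ t' ⊆ o)) → ∃ g : Equiv.Perm Cfsg.GolayPt, g ∈ Cfsg.M24 ∧ g p = p ∧ g q = q ∧ g • s = s ∧ g • t = t' := by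
  classical
  have ht := t112 hpq hs
  have e0 : ∀ (p q : GolayPt) (s o : Finset GolayPt), (p ∈ o ∧ q ∈ o ∧ s ⊆ o) ↔ insert p (insert q s) ⊆ o := by
    simp [Finset.insert_subset_iff]
  simp only [e0, and_assoc]
  have hn : ∀ i, (pt 23 ∉ D2.pt i ∧ pt 0 ∉ D2.pt i) ↔ band (Bool.rec true false (CF.Comp.tb (column p2 i) 23)) (Bool.rec true false (CF.Comp.tb (column p2 i) 0)) = true := fun i => by
    rw [pt2, not_mem_iff (by norm_num), not_mem_iff (by norm_num), band2]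
  have hd : ∀ i, Disjoint (ofMask 6) (D2.pt i) ↔ Nat.beq (Nat.land 6 (column p2 i)) 0 = true := fun i => by
    rw [pt2, CF.Comp.beq_iff]; exact ofMask_disjoint_iff (by norm_num)
  have ho : ∀ i, (∃ o ∈ octads, insert (pt 23) (insert (pt 0) (ofMask 6 ∪ D2.pt i)) ⊆ o) ↔
      inO (Nat.lor (2 ^ 23) (Nat.lor (2 ^ 0) (Nat.lor 6 (column p2 i)))) = true := fun i => by
    rw [pt2, ← inO_iff, ofMask_lor, ofMask_lor, ofMask_lor, ofMask_two_pow (by norm_num),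
      ofMask_two_pow (by norm_num), ← Finset.insert_eq, ← Finset.insert_eq]
  refine ⟨(wlog_ncard ht (fun z (a : Finset GolayPt) => a.card = 2 ∧ z.1.1 ∉ a ∧ z.1.2 ∉ a ∧ Disjoint z.2 a ∧
      ∃ o ∈ octads, insert z.1.1 (insert z.1.2 (z.2 ∪ a)) ⊆ o) (by simp)).trans
      ((ncard_eq_pop D2 (by norm_num) f2 fun i _ => by
        rw [← and_assoc, hn, hd, ho, ← band3]).trans (by decide +kernel)),
    (wlog_ncard ht (fun z (a : Finset GolayPt) => a.card = 2 ∧ z.1.1 ∉ a ∧ z.1.2 ∉ a ∧ Disjoint z.2 a ∧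
      ¬ ∃ o ∈ octads, insert z.1.1 (insert z.1.2 (z.2 ∪ a)) ⊆ o) (by simp [-not_exists])).trans
      ((ncard_eq_pop D2 (by norm_num) f2 fun i _ => by
        rw [← and_assoc, hn, hd, ho, Bool.not_eq_true, ← Bool.not_eq_true', ← band3]).trans (by decide +kernel)),
    fun a b h1 h2 _ _ h3 h4 => ?_⟩
  obtain ⟨g, hg, e1, e2⟩ := wlog_conj ht (R := fun z (a b : Finset GolayPt) => (a.card = 2 ∧ z.1.1 ∉ a ∧ z.1.2 ∉ a) ∧
    (b.card = 2 ∧ z.1.1 ∉ b ∧ z.1.2 ∉ b) ∧ (z.2 ∩ a).card = (z.2 ∩ b).card ∧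
    ((∃ o ∈ octads, insert z.1.1 (insert z.1.2 (z.2 ∪ a)) ⊆ o) ↔
      ∃ o ∈ octads, insert z.1.1 (insert z.1.2 (z.2 ∪ b)) ⊆ o)) (by simp) (fun y y' h =>
    let ⟨k, hk, e⟩ := conj_of_cls r2 f2 (ws := [[3, 2, 2, 3, 3, 1, 1, 3, 1, 3, 1], [4, 2, 4, 1, 1, 1, 3, 2, 2, 4, 2]]) (mem_inf (mem_inf (mem_stab r0 (b := 23) (by decide +kernel)) (mem_stab r0 (b := 0) (by decide +kernel))) (mem_st r0 (a := 6) (by decide +kernel)))
      (Q := fun a => pt 23 ∉ a ∧ pt 0 ∉ a) (fun i _ h => (hn i).1 h)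
      (val := fun a => 2 * (ofMask 6 ∩ a).card +
        if ∃ o ∈ octads, insert (pt 23) (insert (pt 0) (ofMask 6 ∪ a)) ⊆ o then 1 else 0)
      (cls := fun i => 2 * pc (Nat.land 6 (column p2 i)) +
        Bool.rec 0 1 (inO (Nat.lor (2 ^ 23) (Nat.lor (2 ^ 0) (Nat.lor 6 (column p2 i))))))
      (fun i _ => by
        simp only [ho]
        rw [pt2, card_inter_ofMask (by norm_num)]
        cases inO (Nat.lor (2 ^ 23) (Nat.lor (2 ^ 0) (Nat.lor 6 (column p2 i)))) <;> rfl)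
      (rs := [(2, 8), (8, 4), (276, 0), (211, 4), (276, 0), (252, 0)]) (by decide +kernel) h.1.1 h.2.1.1 h.1.2 h.2.1.2
      (by simp only [show (∃ o ∈ octads, insert (pt 23) (insert (pt 0) (ofMask 6 ∪ y)) ⊆ o) ↔
        ∃ o ∈ octads, insert (pt 23) (insert (pt 0) (ofMask 6 ∪ y')) ⊆ o from h.2.2.2,
        show (ofMask 6 ∩ y).card = (ofMask 6 ∩ y').card from h.2.2.1])
    ⟨k, Prod.ext (Prod.ext hk.1.1 hk.1.2) hk.2, e⟩) ⟨h1, h2, h3, h4⟩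
  exact ⟨g, hg, congrArg (·.1.1) e1, congrArg (·.1.2) e1, congrArg Prod.snd e1, e2⟩

end Cfsg.Agent.S1638
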