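import Cfsg.Statements.S1639
import Cfsg.Agent.Leech.M24b

set_option autoImplicit false
open scoped Pointwise
open Cfsg

set_option maxRecDepth 1000000

namespace Cfsg.Agent.S1639

open CF.Comp CF.Comp.Mat CF.Bt CF.Leech CF.Leech.M MulAction


/-- The point stabiliser acts on the 1288 dodecads through the point with rank 4 and subdegrees 1, 165, 330, 792, distinguished by intersection 4, 8, 6 with the fixed dodecad. -/
theorem result (x : Cfsg.GolayPt) (d : Finset Cfsg.GolayPt) (hd : d ∈ Cfsg.dodecads) (hx : x ∈ d) : {d' : Finset Cfsg.GolayPt | d' ∈ Cfsg.dodecads ∧ x ∈ d' ∧ (d ∩ d').card = 4}.ncard = 165 ∧ {d' : Finset Cfsg.GolayPt | d' ∈ Cfsg.dodecads ∧ x ∈ d' ∧ (d ∩ d').card = 8}.ncard = 330 ∧ {d' : Finset Cfsg.GolayPt | d' ∈ Cfsg.dodecads ∧ x ∈ d' ∧ (d ∩ d').card = 6}.ncard = 792 ∧ ∀ d' d'' : Finset Cfsg.GolayPt, d' ∈ Cfsg.dodecads → d'' ∈ Cfsg.dodecads → x ∈ d' → x ∈ d'' → (d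 ∩ d').card = (d ∩ d'').card → ∃ g : Equiv.Perm Cfsg.GolayPt, g ∈ Cfsg.M24 ∧ g x = x ∧ g • d = d ∧ g • d' = d'' := by
  have ht := tD1 hd hx
  have hc : ∀ c, {a : Finset GolayPt | a ∈ dodecads ∧ x ∈ a ∧ (d ∩ a).card = c}.ncard =
      pop 2576 (maskP 2576 fun i => band (CF.Comp.tb (column fP i) 0) (Nat.beq (pc (Nat.land 340831 (column fP i))) c)) := fun c =>
    (wlog_ncard ht (fun z a => a ∈ dodecads ∧ z.2 ∈ a ∧ (z.1 ∩ a).card = c) (by simp)).trans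
      (ncard_eq_pop Df (by norm_num) fD fun i _ => by
        rw [inter_sD, ptD, pt_mem_iff (by norm_num), band2, CF.Comp.beq_iff])
  refine ⟨(hc _).trans (by decide +kernel), (hc _).trans (by decide +kernel), (hc _).trans (by decide +kernel), fun a b h1 h2 h3 h4 h5 => ?_⟩
  obtain ⟨g, hg, e1, e2⟩ := wlog_conj ht (R := fun z a b => a ∈ dodecads ∧ b ∈ dodecads ∧ z.2 ∈ a ∧ z.2 ∈ b ∧
    (z.1 ∩ a).card = (z.1 ∩ b).card) (by simp) (fun y y' h =>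
    let ⟨k, hk, e⟩ := conj_of_cls rD fD (ws := [[2, 4, 1, 1, 4, 4, 2, 4, 1, 1, 1], [4, 2, 3, 3, 2, 2, 3, 1, 3, 1, 1]]) (mem_inf (mem_st r0 (a := 340831) (by decide +kernel)) (mem_stab r0 (b := 0) (by decide +kernel)))
      (Q := (pt 0 ∈ ·)) (P := fun i => (CF.Comp.tb (column fP i) 0)) (fun i _ h => by rwa [ptD, pt_mem_iff (by norm_num)] at h)
      (val := fun a => (sD ∩ a).card) (fun i _ => inter_sD i)
      (rs := [(2576, 0), (2576, 0), (2576, 0), (2576, 0), (1289, 7), (2576, 0), (1288, 9), (2576, 0), (1304, 8), (2576, 0), (2576, 0), (2576, 0), (2553, 0)]) (by decide +kernel) h.1 h.2.1 h.2.2.1 h.2.2.2.1 h.2.2.2.2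
    ⟨k, Prod.ext hk.1 hk.2, e⟩) ⟨h1, h2, h3, h4, h5⟩
  exact ⟨g, hg, congrArg Prod.snd e1, congrArg Prod.fst e1, e2⟩

end Cfsg.Agent.S1639
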