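import Cfsg.Statements.S1641
import Cfsg.Agent.Leech.CoSt

set_option autoImplicit false
open Cfsg

set_option maxRecDepth 1000000

namespace Cfsg.Agent.S1641

open CF.Leech CF.Comp MulAction
open scoped Pointwise

/-- The third Conway group acts on the 11178 cosets of the Higman–Sims group with rank 5 and subdegrees 1, 352, 1100, 4125, 5600. -/
theorem result (u x : ↥Cfsg.leechLattice) (hu : Cfsg.sqNorm (u : Cfsg.GolayPt → ℤ) = 48) (hx : x ∈ {x : ↥Cfsg.leechLattice | Cfsg.sqNorm (x : Cfsg.GolayPt → ℤ) = 32 ∧ Cfsg.dotInt (u : Cfsg.GolayPt → ℤ) (x : Cfsg.GolayPt → ℤ) = -16}) : ∃ y₁ ∈ {x : ↥Cfsg.leechLattice | Cfsg.sqNorm (x : Cfsg.GolayPt → ℤ) = 32 ∧ Cfsg.dotInt (u : Cfsg.GolayPt → ℤ) (x : Cfsg.GolayPt → ℤ) = -16}, ∃ y₂ ∈ {x : ↥Cfsg.leechLattice | Cfsg.sqNorm (x : Cfsg.GolayPt → ℤ) = 32 ∧ Cfsg.dotInt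 (u : Cfsg.GolayPt → ℤ) (x : Cfsg.GolayPt → ℤ) = -16}, ∃ y₃ ∈ {x : ↥Cfsg.leechLattice | Cfsg.sqNorm (x : Cfsg.GolayPt → ℤ) = 32 ∧ Cfsg.dotInt (u : Cfsg.GolayPt → ℤ) (x : Cfsg.GolayPt → ℤ) = -16}, ∃ y₄ ∈ {x : ↥Cfsg.leechLattice | Cfsg.sqNorm (x : Cfsg.GolayPt → ℤ) = 32 ∧ Cfsg.dotInt (u : Cfsg.GolayPt → ℤ) (x : Cfsg.GolayPt → ℤ) = -16}, (MulAction.orbit ↥(MulAction.stabilizer ↥Cfsg.Co0 u ⊓ MulAction.stabilizer ↥Cfsg.Co0 x) y₁).ncard = 352 ∧ (MulAction.orbit ↥(MulAction.stabilizer ↥Cfsg.Co0 u ⊓ MulAction.stabilizer ↥Cfsg.Co0 x) y₂).ncard = 1100 ∧ (MulAction.orbit ↥(MulAction.stabilizer ↥Cfsg.Co0 u ⊓ MulAction.stabilizer ↥Cfsg.Co0 x) y₃).ncard = 4125 ∧ (MulAction.orbit ↥(MulAction.stabilizer ↥Cfsg.Co0 u ⊓ MulAction.stabilizer ↥Cfsg.Co0 x) y₄).ncard = 5600 ∧ {x : ↥Cfsg.leechLattice | Cfsg.sqNorm (x :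 Cfsg.GolayPt → ℤ) = 32 ∧ Cfsg.dotInt (u : Cfsg.GolayPt → ℤ) (x : Cfsg.GolayPt → ℤ) = -16} = {x} ∪ MulAction.orbit ↥(MulAction.stabilizer ↥Cfsg.Co0 u ⊓ MulAction.stabilizer ↥Cfsg.Co0 x) y₁ ∪ MulAction.orbit ↥(MulAction.stabilizer ↥Cfsg.Co0 u ⊓ MulAction.stabilizer ↥Cfsg.Co0 x) y₂ ∪ MulAction.orbit ↥(MulAction.stabilizer ↥Cfsg.Co0 u ⊓ MulAction.stabilizer ↥Cfsg.Co0 x) y₃ ∪ MulAction.orbit ↥(MulAction.stabilizer ↥Cfsg.Co0 u ⊓ MulAction.stabilizer ↥Cfsg.Co0 x) y₄ := by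
  obtain ⟨-, h2, h4, h3, h1⟩ := tr_HS hu hx.1 hx.2
  obtain ⟨y1, k1⟩ := h1.exists_mem
  obtain ⟨y2, k2⟩ := h2.exists_mem
  obtain ⟨y3, k3⟩ := h3.exists_mem
  obtain ⟨y4, k4⟩ := h4.exists_mem
  refine ⟨y1, ⟨k1.1, k1.2.1⟩, y2, ⟨k2.1, k2.2.1⟩, y3, ⟨k3.1, k3.2.1⟩, y4, ⟨k4.1, k4.2.1⟩, ?_⟩
  simp only [← orbIn_eq]
  rw [h1.2 _ k1, h2.2 _ k2, h3.2 _ k3, h4.2 _ k4]
  refine ⟨h1.1, h2.1, h3.1, h4.1, ?_⟩
  ext y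
  simp only [M2, Set.mem_ofPred_eq, Set.mem_union, Set.mem_singleton_iff]
  refine ⟨fun hy => ?_, ?_⟩
  · rcases dt_cases hx.1 hy.1 with h | h | h | h | h | h | h
    · simp [h]
    · have := hx.2
      have h5 := dt_neg_right u y
      rw [← h] at h5
      simp only [dt] at h5
      omega
    · tauto
    · tauto
    · tauto
    · tauto
    · have h5 := nm_cases (u + (x + y))
      rw [← nm_eq_zero, nm_add, nm_add, dt_add_right, h] at h5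
      have := hx.1
      have := hx.2
      simp only [nm, dt] at h5
      omega
  · rintro ((((rfl | h) | h) | h) | h)
    exacts [hx, ⟨h.1, h.2.1⟩, ⟨h.1, h.2.1⟩, ⟨h.1, h.2.1⟩, ⟨h.1, h.2.1⟩]

end Cfsg.Agent.S1641
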