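import Cfsg.Statements.S1644
import Cfsg.Agent.JR.J1

set_option autoImplicit false
open Cfsg

namespace Cfsg.Agent.S1644

/-- The first Janko group recognised by an involution centraliser, at the level of isomorphism: a finite simple group with abelian Sylow 2-subgroups of order 8 and an involution whose centraliser is isomorphic to Z/2 × A₅ is isomorphic to the subgroup of GL(7, 11) generated by the two explicit Janko matrices. -/
theorem result {G : Type*} [Group G] [Finite G] [IsSimpleGroup G] (S : Sylow 2 G) (hS : IsMulCommutative (S : Subgroup G)) (h8 : Nat.card S = 8) (t : G) (ht : orderOf t = 2) (e : (Subgroup.centralizer ({t} : Set G)) ≃* Multiplicative (ZMod 2) × alternatingGroup (Fin 5)) : Cfsg.Spor.IsoJ1 G := by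
  haveI : Fact (Nat.Prime 2) := ⟨Nat.prime_two⟩
  obtain ⟨P, hP⟩ := (IsPGroup.of_card (p := 2) (n := 1)
    ((Nat.card_zpowers t).trans (ht.trans (pow_one 2).symm))).exists_le_sylow
  obtain ⟨g, rfl⟩ := MulAction.exists_smul_eq G S P
  refine CF.JR.isoJ1_simple ⟨ht, g • S, hP (Subgroup.mem_zpowers t), fun x hx => ?_⟩ e
  have h := hS.is_comm.comm ⟨_, Subgroup.mem_pointwise_smul_iff_inv_smul_mem.1 hx⟩
    ⟨_, Subgroup.mem_pointwise_smul_iff_inv_smul_mem.1 (hP (Subgroup.mem_zpowers t))⟩
  have h' := congrArg Subtype.val h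
  simp only [Subgroup.coe_mul, ← smul_mul'] at h'
  exact smul_left_cancel _ h'

end Cfsg.Agent.S1644
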