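import Cfsg.Statements.S1647
import Cfsg.Agent.MonU.A3
import Cfsg.Agent.Mon.Cert

set_option autoImplicit false
open Cfsg

namespace Cfsg.Agent.S1647

/-- In a finite simple group, if some involution y has centraliser C with a normal subgroup Q, extraspecial of order 2 ^ 25 and containing an elementary abelian subgroup of order 2 ^ 13, whose centraliser in C lies in Q, such that C / Q is isomorphic to the first Conway group, then some involution x has centraliser a non-split double cover of the Baby Monster. -/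
theorem result {G : Type*} [Group G] [Finite G] [IsSimpleGroup G] (y : G) (hy : orderOf y = 2) (Q : Subgroup (Subgroup.centralizer ({y} : Set G))) [Q.Normal] (hQ : Cfsg.IsExtraspecial 2 Q) (hcard : Nat.card Q = 2 ^ 25) (hplus : ∃ E : Subgroup Q, Cfsg.IsElementaryAbelian 2 E ∧ Nat.card E = 2 ^ 13) (h2c : Subgroup.centralizer (Q : Set (Subgroup.centralizer ({y} : Set G))) ≤ Q) (hCo1 : Cfsg.Spor.IsoCo1 ((Subgroup.centralizer ({y} : Set G)) ⧸ Q)) : ∃ x : G, orderOf x = 2 ∧ Cfsg.IsNonsplitDoubleCover (Subgroup.centralizer ({x} : Set G)) Cfsg.Spor.BabyMonster := by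
  obtain ⟨ρ, τ, O, -⟩ := CF.MonU.exists_out CF.Mon.certs.c hy Q hQ hcard h2c hCo1
  refine ⟨_, O.orderOf_t, ?_⟩
  rw [O.cA]
  exact ⟨O.nonsplit.1, CF.Mon.certs.equivB O, O.nonsplit.2.2⟩

end Cfsg.Agent.S1647
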