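import Cfsg.Statements.S1648
import Cfsg.Agent.MonU.A3
import Cfsg.Agent.Mon.Cert

set_option autoImplicit false
open Cfsg

namespace Cfsg.Agent.S1648

/-- Let a finite simple group contain involutions x and y such that the centraliser of x is a non-split double cover of the Baby Monster and the centraliser C of y has a normal subgroup Q, extraspecial of order 2 ^ 25 with an elementary abelian subgroup of order 2 ^ 13, whose centraliser in C lies in Q, with C / Q isomorphic to the first Conway group. Then the group has exactly two conjugacy classes of involutions and order 2^46·3^20·5^9·7^6·11^2·13^3·17·19·23·29·31·41·47·59·71. -/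
theorem result {G : Type*} [Group G] [Finite G] [IsSimpleGroup G] (x : G) (hx : orderOf x = 2) (hcovx : Cfsg.IsNonsplitDoubleCover (Subgroup.centralizer ({x} : Set G)) Cfsg.Spor.BabyMonster) (y : G) (hy : orderOf y = 2) (Q : Subgroup (Subgroup.centralizer ({y} : Set G))) [Q.Normal] (hQ : Cfsg.IsExtraspecial 2 Q) (hcard : Nat.card Q = 2 ^ 25) (hplus : ∃ E : Subgroup Q, Cfsg.IsElementaryAbelian 2 E ∧ Nat.card E = 2 ^ 13) (h2c : Subgroup.centralizer (Q : Set (Subgroup.centralizer ({y} : Set G))) ≤ Q) (hCo1 : Cfsg.Spor.IsoCo1 ((Subgroup.centralizer ({y} : Set G)) ⧸ Q)) : Cfsg.IsM G ∧ ∃ x y : G, orderOf x = 2 ∧ orderOf y = 2 ∧ ¬ IsConj x y ∧ ∀ z : G, orderOf z = 2 → IsConj z x ∨ IsConj z y := by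
  obtain ⟨ρ, τ, O, -⟩ := CF.MonU.exists_out CF.Mon.certs.c hy Q hQ hcard h2c hCo1
  refine ⟨O.isM, _, _, O.orderOf_x, O.orderOf_t, O.not_conj, fun z hz => ?_⟩
  exact (CF.MonU.two_cls O (CF.Even.mul_self_of_invol hz) (by rintro rfl; simp at hz)).imp IsConj.symm IsConj.symm

end Cfsg.Agent.S1648
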