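import Cfsg.Statements.S1649
import Cfsg.Agent.ThR.Main

set_option autoImplicit false
open Cfsg

namespace Cfsg.Agent.S1649

/-- The Thompson sporadic group from an involution centraliser: if a finite simple group has an involution t whose centraliser C has a normal subgroup Q, extraspecial of order 2 ^ 9 and containing an elementary abelian subgroup of order 2 ^ 5, whose centraliser in C lies in Q, with C / Q isomorphic to the alternating group of degree 9, then all involutions of the group are conjugate and its order is 2^15·3^10·5^3·7^2·13·19·31. -/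
theorem result {G : Type*} [Group G] [Finite G] [IsSimpleGroup G] (t : G) (ht : orderOf t = 2) (Q : Subgroup (Subgroup.centralizer ({t} : Set G))) [Q.Normal] (hQ : Cfsg.IsExtraspecial 2 Q) (hcard : Nat.card Q = 2 ^ 9) (hplus : ∃ E : Subgroup Q, Cfsg.IsElementaryAbelian 2 E ∧ Nat.card E = 2 ^ 5) (h2c : Subgroup.centralizer (Q : Set (Subgroup.centralizer ({t} : Set G))) ≤ Q) (e : (Subgroup.centralizer ({t} : Set G)) ⧸ Q ≃* alternatingGroup (Fin 9)) : Cfsg.IsTh G ∧ ∀ x y : G, orderOf x = 2 → orderOf y = 2 → IsConj x y := by
  obtain ⟨⟨i⟩, k⟩ := CF.ThR.simple_main ht hQ hcard h2c e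
  exact ⟨CF.ThR.isTh_of i, k⟩

end Cfsg.Agent.S1649
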