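import Cfsg.Statements.S1651
import Cfsg.Agent.J23.M0
import Cfsg.Agent.J23.P2F
import Cfsg.Agent.J23.P2U

set_option autoImplicit false
open Cfsg

namespace Cfsg.Agent.S1651

/-- A group of Hall–Janko type contains U₃(3): let a finite simple group have exactly two conjugacy classes of involutions and an involution t whose centraliser C has a normal extraspecial subgroup Q of order 32 with no elementary abelian subgroup of order 8, whose centraliser in C lies in Q, with C / Q isomorphic to the alternating group of degree 5. Then the group has a subgroup isomorphic to PSU(3, 3), realised over a field with 9 elements. -/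
theorem result {G : Type*} [Group G] [Finite G] [IsSimpleGroup G] (t : G) (ht : orderOf t = 2) (Q : Subgroup (Subgroup.centralizer ({t} : Set G))) [Q.Normal] (hQ : Cfsg.IsExtraspecial 2 Q) (hcard : Nat.card Q = 32) (hminus : ∀ E : Subgroup Q, Cfsg.IsElementaryAbelian 2 E → Nat.card E ≤ 2 ^ 2) (h2c : Subgroup.centralizer (Q : Set (Subgroup.centralizer ({t} : Set G))) ≤ Q) (e : (Subgroup.centralizer ({t} : Set G)) ⧸ Q ≃* alternatingGroup (Fin 5)) (htwo : ∃ x y : G, orderOf x = 2 ∧ orderOf y = 2 ∧ ¬ IsConj x y ∧ ∀ z : G, orderOf z = 2 → IsConj z x ∨ IsConj z y) : ∃ (H : Subgroup G) (K : Type) (_ : Field K) (_ : Fintype K), Fintype.card K = 9 ∧ Nonempty (H ≃* Cfsg.PSU 3 K 3) := by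
  obtain ⟨M, _, g, m, -⟩ := CF.J23.exists_mod0
  obtain ⟨x, y, hx, hy, n, -⟩ := htwo
  obtain ⟨f, -⟩ := (CF.J23.hyp_le ht hQ hcard h2c e).two m ⟨x, y, hx, hy, n⟩
  obtain ⟨ψ, hE⟩ := CF.J23.P2.exists_exact f
  have : Fact (Nat.Prime 3) := ⟨by norm_num⟩
  letI : Fintype (GaloisField 3 2) := Fintype.ofFinite _
  have hK : Fintype.card (GaloisField 3 2) = 9 := by
    rw [← Nat.card_eq_fintype_card, GaloisField.card 3 2 (by norm_num)]; norm_num
  exact ⟨_, GaloisField 3 2, inferInstance, inferInstance, hK, CF.J23.P2.stab_equiv hE _ hK⟩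

end Cfsg.Agent.S1651
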