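import Cfsg.Statements.S1654
import Cfsg.Agent.Recog.Ly.Main
import Cfsg.Agent.Dce.Ly.G2

set_option autoImplicit false
open Cfsg

namespace Cfsg.Agent.S1654

/-- A group of Lyons type contains G₂(5): if a finite simple group has an involution whose centraliser is a non-split double cover of the alternating group of degree 11, then it has a subgroup isomorphic to the adjoint Chevalley group of type G₂ over a field with 5 elements. -/
theorem result {G : Type*} [Group G] [Finite G] [IsSimpleGroup G] (t : G) (ht : orderOf t = 2) (hcov : Cfsg.IsNonsplitDoubleCover (Subgroup.centralizer ({t} : Set G)) (alternatingGroup (Fin 11))) : ∃ (H : Subgroup G) (K : Type) (_ : Field K) (_ : Fintype K), Fintype.card K = 5 ∧ Nonempty (H ≃* Cfsg.Lie.chevG2.group K) := by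
  have ⟨e⟩ := CF.Recog.Ly.equiv_L ht hcov
  have ⟨k⟩ := CF.Dce.Ly.equivG2
  exact ⟨_, ZMod 5, inferInstance, inferInstance, ZMod.card 5,
    ⟨(e.symm.subgroupMap _).symm.trans (CF.Dce.Ly.eK0.trans k)⟩⟩

end Cfsg.Agent.S1654
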