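import Cfsg.Statements.S1655
import Cfsg.Agent.S1661
import Cfsg.Agent.Comp.ON.L37

set_option autoImplicit false
open Cfsg

namespace Cfsg.Agent.S1655

/-- A group of O'Nan type contains L₃(7):2: let a finite simple group have an involution t whose centraliser has a normal subgroup M of index 2, containing its own centraliser in the involution centraliser, which is perfect, has cyclic centre of order 4, and has central quotient isomorphic to PSL(3, 4). Then some subgroup H has a normal subgroup of index 2 isomorphic to PSL(3, 7). -/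
theorem result {G : Type*} [Group G] [Finite G] [IsSimpleGroup G] (t : G) (ht : orderOf t = 2) (M : Subgroup (Subgroup.centralizer ({t} : Set G))) [M.Normal] (hM : M.index = 2) (hout : Subgroup.centralizer (M : Set (Subgroup.centralizer ({t} : Set G))) ≤ M) (hZc : IsCyclic (Subgroup.center M)) (hZ4 : Nat.card (Subgroup.center M) = 4) (hperf : commutator M = ⊤) (F : Type) [Field F] [Fintype F] (hF : Fintype.card F = 4) (e : M ⧸ Subgroup.center M ≃* Matrix.ProjectiveSpecialLinearGroup (Fin 3) F) : ∃ (H : Subgroup G) (N : Subgroup H), N.Normal ∧ N.index = 2 ∧ Nonempty (N ≃* Matrix.ProjectiveSpecialLinearGroup (Fin 3) (ZMod 7)) := by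
  obtain ⟨ε⟩ := Cfsg.Agent.S1661.result t ht M hM hout hZc hZ4 hperf F hF e
  obtain ⟨N, h1, ⟨ψ⟩⟩ := CF.Comp.ON.exists_L37
  let η := ε.symm.subgroupMap (CF.Comp.clo CF.Comp.ON.f CF.Comp.ON.H1)
  have h2 : (N.map η.toMonoidHom).index = 2 := (N.index_map_equiv η).trans h1
  exact ⟨_, N.map η.toMonoidHom, Subgroup.normal_of_index_eq_two h2, h2, ⟨(η.subgroupMap N).symm.trans ψ⟩⟩

end Cfsg.Agent.S1655
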