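import Cfsg.Statements.S1659
import Cfsg.Agent.Held.IdB

set_option autoImplicit false
open Cfsg

namespace Cfsg.Agent.S1659

open CF.Held

/-- Uniqueness of the Held group at the level of isomorphism: a finite simple group of order 4030387200 with exactly two conjugacy classes of involutions, having an involution t whose centraliser C has a normal subgroup Q, extraspecial of order 2 ^ 7 with an elementary abelian subgroup of order 16, whose centraliser in C lies in Q, and with C / Q isomorphic to SL(3, 2), is isomorphic to the presented Held group. -/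
theorem result {G : Type*} [Group G] [Finite G] [IsSimpleGroup G] (t : G) (ht : orderOf t = 2) (Q : Subgroup (Subgroup.centralizer ({t} : Set G))) [Q.Normal] (hQ : Cfsg.IsExtraspecial 2 Q) (hcard : Nat.card Q = 2 ^ 7) (hplus : ∃ E : Subgroup Q, Cfsg.IsElementaryAbelian 2 E ∧ Nat.card E = 2 ^ 4) (h2c : Subgroup.centralizer (Q : Set (Subgroup.centralizer ({t} : Set G))) ≤ Q) (e : (Subgroup.centralizer ({t} : Set G)) ⧸ Q ≃* Matrix.SpecialLinearGroup (Fin 3) (ZMod 2)) (hG : Nat.card G = 4030387200) (htwo : ∃ x y : G, orderOf x = 2 ∧ orderOf y = 2 ∧ ¬ IsConj x y ∧ ∀ z : G, orderOf z = 2 → IsConj z x ∨ IsConj z y) : Cfsg.Spor.IsoHe G := by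
  exact he_of ht Q hQ hcard hplus h2c e hG htwo

end Cfsg.Agent.S1659
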