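import Cfsg.Statements.S1666
import Cfsg.Agent.Srg.HS
import Cfsg.Agent.Comp.Mat

set_option autoImplicit false
open Cfsg

set_option maxRecDepth 1000000

namespace Cfsg.Agent.S1666

/-- Recognition of the Higman–Sims group as a rank 3 permutation group: a transitive permutation group on 100 points in which the stabiliser of a point is isomorphic to the Mathieu group M₂₂ and has two further orbits, of sizes 22 and 77, is isomorphic to the Higman–Sims group. -/
theorem result {Ω : Type*} [Fintype Ω] [DecidableEq Ω] (hΩ : Fintype.card Ω = 100) (G : Subgroup (Equiv.Perm Ω)) [MulAction.IsPretransitive G Ω] (a : Ω)  (e : MulAction.stabilizer G a ≃* Cfsg.Spor.M22) (b c : Ω) (hb : (MulAction.orbit (MulAction.stabilizer G a) b).ncard = 22) (hc : (MulAction.orbit (MulAction.stabilizer G a) c).ncard = 77) : Cfsg.Spor.IsoHS G := by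
  obtain ⟨Γ, l, μ, h, hG, -⟩ := CF.Srg.rank3 G a b c hb hc hΩ (by decide) (by decide) (by decide)
  haveI : Nonempty Ω := ⟨a⟩
  have h1 := h.param
  have h2 := h.lt a (by decide)
  have h3 := h.loc a
  rw [hΩ] at h1
  obtain ⟨rfl, rfl⟩ | ⟨rfl, rfl⟩ | ⟨rfl, rfl⟩ : l = 0 ∧ μ = 6 ∨ l = 7 ∧ μ = 4 ∨ l = 21 ∧ μ = 0 := by omega
  · obtain ⟨φ, hφ⟩ := (CF.Srg.HS.mdl_of_sr h hΩ).exists_hom G hG
    obtain ⟨ψ, hψ⟩ := CF.Srg.HS.hom
    have := CF.Srg.HS.simple
    exact CF.Srg.nonempty_equiv_of_simple φ ψ hφ hψ (by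
      rw [CF.Srg.card_eq_of_trans G a, hΩ, Nat.card_congr e.toEquiv, CF.Comp.Mat.card_M22]) CF.Srg.HS.cardHS
      CF.Srg.HS.card.le (by decide)
  · exact absurd (h.trace 3 (by norm_num) 4 12 (-1) hΩ (by decide) (by decide) (by decide)) (by decide)
  · exact absurd (h.trace 23 (by norm_num) 1 1 0 hΩ (by decide) (by decide) (by decide)) (by decide)

end Cfsg.Agent.S1666
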