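import Cfsg.Statements.S1667
import Cfsg.Agent.Srg.McL

set_option autoImplicit false
open Cfsg

set_option maxRecDepth 1000000

namespace Cfsg.Agent.S1667

/-- Recognition of the McLaughlin group as a rank 3 permutation group: a transitive permutation group on 275 points in which the stabiliser of a point is isomorphic to the unitary group U₄(3) and has two further orbits, of sizes 112 and 162, is isomorphic to the McLaughlin group. -/
theorem result {Ω : Type*} [Fintype Ω] [DecidableEq Ω] (hΩ : Fintype.card Ω = 275) (G : Subgroup (Equiv.Perm Ω)) [MulAction.IsPretransitive G Ω] (a : Ω) (K : Type) [Field K] [Fintype K] (hK : Fintype.card K = 9) (e : MulAction.stabilizer G a ≃* Cfsg.PSU 4 K 3) (b c : Ω) (hb : (MulAction.orbit (MulAction.stabilizer G a) b).ncard = 112) (hc : (MulAction.orbit (MulAction.stabilizer G a) c).ncard = 162) : Cfsg.Spor.IsoMcL G := by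
  obtain ⟨ε⟩ := CF.Leech.Psu.equiv43 K hK
  obtain ⟨_, Γ, l, μ, h, hG, hR, hb, hc⟩ := CF.Srg.setup G a b c hb hc hΩ (by decide) (by decide) (by decide)
    (ε.trans e.symm)
  haveI : Nonempty Ω := ⟨a⟩
  have h1 := h.param
  have h2 := h.lt a (by decide)
  have h3 := h.loc a
  rw [hΩ] at h1
  obtain ⟨rfl, rfl⟩ | ⟨rfl, rfl⟩ : l = 30 ∧ μ = 56 ∨ l = 111 ∧ μ = 0 := by omega
  · obtain ⟨φ, hφ⟩ := (CF.Srg.McL.main h hΩ hR hb hc).exists_hom G hG
    obtain ⟨ψ, hψ⟩ := CF.Srg.McL.hom
    have := CF.Leech.simple_McL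
    have := CF.Leech.McLEquiv.symm.isSimpleGroup
    have := CF.Srg.McL.le.1
    exact CF.Srg.nonempty_equiv_of_simple φ ψ hφ hψ (by
      rw [CF.Srg.card_eq_of_trans G a, hΩ, ← Nat.card_congr (ε.trans e.symm).toEquiv, CF.Leech.card_U43])
      ((Nat.card_congr CF.Leech.McLEquiv.toEquiv).symm.trans CF.Leech.card_McL) CF.Srg.McL.le.2 (by decide)
  · exact absurd (h.trace 113 (by norm_num) 1 1 0 hΩ (by decide) (by decide) (by decide)) (by decide)

end Cfsg.Agent.S1667
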