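import Cfsg.Statements.S1668
import Cfsg.Agent.Srg.Suz
import Cfsg.Agent.Comp.Suz.G2

set_option autoImplicit false
open Cfsg

set_option maxRecDepth 1000000

namespace Cfsg.Agent.S1668

/-- Recognition of the sporadic Suzuki group as a rank 3 permutation group: a transitive permutation group on 1782 points in which the stabiliser of a point is isomorphic to the Chevalley group G₂(4) and has two further orbits, of sizes 416 and 1365, is isomorphic to the sporadic Suzuki group. -/
theorem result {Ω : Type*} [Fintype Ω] [DecidableEq Ω] (hΩ : Fintype.card Ω = 1782) (G : Subgroup (Equiv.Perm Ω)) [MulAction.IsPretransitive G Ω] (a : Ω) (K : Type) [Field K] [Fintype K] (hK : Fintype.card K = 4) (e : MulAction.stabilizer G a ≃* Cfsg.Lie.chevG2.group K) (b c : Ω) (hb : (MulAction.orbit (MulAction.stabilizer G a) b).ncard = 416) (hc : (MulAction.orbit (MulAction.stabilizer G a) c).ncard = 1365) : Cfsg.Spor.IsoSuz G := by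
  obtain ⟨ε⟩ := CF.Comp.Suz.equivG2 K hK
  obtain ⟨_, Γ, l, μ, h, hG, hR, hb, hc⟩ := CF.Srg.setup G a b c hb hc hΩ (by decide) (by decide) (by decide)
    (((MulEquiv.subgroupCongr CF.Srg.Suz.hH).symm.trans ε).trans e.symm)
  haveI : Nonempty Ω := ⟨a⟩
  have h1 := h.param
  have h2 := h.lt a (by decide)
  have h3 := h.loc a
  rw [hΩ] at h1
  obtain ⟨rfl, rfl⟩ | ⟨rfl, rfl⟩ | ⟨rfl, rfl⟩ : l = 100 ∧ μ = 96 ∨ l = 205 ∧ μ = 64 ∨ l = 415 ∧ μ = 0 := by omega
  · obtain ⟨φ, hφ⟩ := (CF.Srg.Suz.main h hΩ hR hb hc).exists_hom G hG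
    obtain ⟨ψ, hψ⟩ := CF.Srg.Suz.hom
    have := CF.Comp.Suz.simple
    have := CF.Srg.Suz.le.1
    exact CF.Srg.nonempty_equiv_of_simple φ ψ hφ hψ (by
      rw [CF.Srg.card_eq_of_trans G a, hΩ, Nat.card_congr e.toEquiv, CF.Comp.Suz.card_G2 K hK]) CF.Comp.Suz.card
      CF.Srg.Suz.le.2 (by decide)
  · exact absurd (h.trace 61 (by norm_num) 1 21 18 hΩ (by decide +kernel) (by decide +kernel) (by decide +kernel))
      (by decide +kernel)
  · exact absurd (h.trace 139 (by norm_num) 1 1 0 hΩ (by decide +kernel) (by decide +kernel) (by decide +kernel))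
      (by decide +kernel)

end Cfsg.Agent.S1668
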