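import Cfsg.Statements.S1669
import Cfsg.Agent.Srg.Ru
import Cfsg.Agent.Comp.Ru.Tits
import Cfsg.Agent.Comp.Ru.Main

set_option autoImplicit false
open Cfsg

set_option maxRecDepth 1000000

namespace Cfsg.Agent.S1669

/-- Recognition of the Rudvalis group as a rank 3 permutation group: a transitive permutation group on 4060 points in which the stabiliser of a point is isomorphic to the Ree group ²F₄(2) and has two further orbits, of sizes 1755 and 2304, is isomorphic to the Rudvalis group. -/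
theorem result {Ω : Type*} [Fintype Ω] [DecidableEq Ω] (hΩ : Fintype.card Ω = 4060) (G : Subgroup (Equiv.Perm Ω)) [MulAction.IsPretransitive G Ω] (a : Ω)  (e : MulAction.stabilizer G a ≃* Cfsg.Lie.twistedF4 (ZMod 2) 1) (b c : Ω) (hb : (MulAction.orbit (MulAction.stabilizer G a) b).ncard = 1755) (hc : (MulAction.orbit (MulAction.stabilizer G a) c).ncard = 2304) : Cfsg.Spor.IsoRu G := by
  obtain ⟨ε, -⟩ := CF.Comp.Ru.exists_equiv
  obtain ⟨_, Γ, l, μ, h, hG, hR, hc, hb⟩ := CF.Srg.setup G a c b hc hb hΩ (by decide) (by decide) (by decide)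
    (ε.trans e.symm)
  haveI : Nonempty Ω := ⟨a⟩
  have h1 := h.param
  have h2 := h.lt a (by decide)
  have h3 := h.loc a
  rw [hΩ] at h1
  obtain ⟨t, rfl⟩ : ∃ t, μ = 256 * t := ⟨μ / 256, by omega⟩
  obtain rfl : l = 2303 - 195 * t := by omega
  have h4 : t = 0 ∨ 4 ≤ t := by omega
  have h5 : t ≤ 11 := by omega
  have tr : ∀ (p : ℕ) (α β γ : ZMod p), p.Prime → ¬ (α ^ 2 * ((2304 : ℕ) - (256 * t : ℕ)) + β ^ 2 = 0 ∧
      α ^ 2 * ((2303 - 195 * t : ℕ) - (256 * t : ℕ)) + 2 * α * β = 0 ∧ α ^ 2 * (256 * t : ℕ) + 2 * α * γ * (2304 : ℕ) +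
      2 * β * γ + (4060 : ℕ) * γ ^ 2 = 0 ∧ ((4060 : ℕ) : ZMod p) * (β + γ) ≠ 0) :=
    fun p α β γ hp c => c.2.2.2 (h.trace p hp α β γ hΩ c.1 c.2.1 c.2.2.1)
  interval_cases t
  · exact absurd (by decide +kernel) (tr 461 1 1 0 (by norm_num))
  · omega
  · omega
  · omega
  · exact absurd (by decide +kernel) (tr 12101 2 11602 7656 (by norm_num))
  · obtain ⟨φ, hφ⟩ := (CF.Srg.Ru.main h hΩ hR hc hb).exists_hom G hG
    exact ⟨(MulEquiv.ofBijective φ ((Nat.bijective_iff_injective_and_card φ).2 ⟨hφ, by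
      rw [CF.Srg.card_eq_of_trans G a, hΩ, ← Nat.card_congr (ε.trans e.symm).toEquiv, CF.Comp.Ru.card1,
        CF.Comp.Ru.card]⟩)).trans CF.Comp.Ru.eqv.symm⟩
  · exact absurd (by decide +kernel) (tr 127 1 11 39 (by norm_num))
  · exact absurd (by decide +kernel) (tr 59 1 14 23 (by norm_num))
  · exact absurd (by decide +kernel) (tr 1021 1 142 187 (by norm_num))
  · exact absurd (by decide +kernel) (tr 439 1 0 438 (by norm_num))
  · exact absurd (by decide +kernel) (tr 2239 1 2223 359 (by norm_num))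
  · exact absurd (by decide +kernel) (tr 31 1 27 6 (by norm_num))

end Cfsg.Agent.S1669
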