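import Cfsg.Statements.S1672
import Cfsg.Agent.ThR.Main
import Cfsg.Agent.ThR.E8

set_option autoImplicit false
open Cfsg

namespace Cfsg.Agent.S1672

/-- A finite simple group of Thompson type (an involution t whose centraliser C has a normal subgroup Q, extraspecial of order 2 ^ 9 with an elementary abelian subgroup of order 2 ^ 5, whose centraliser in C lies in Q, and with C / Q isomorphic to the alternating group of degree 9) embeds in the adjoint Chevalley group of type E₈ over a field with 3 elements. -/
theorem result {G : Type*} [Group G] [Finite G] [IsSimpleGroup G] (t : G) (ht : orderOf t = 2) (Q : Subgroup (Subgroup.centralizer ({t} : Set G))) [Q.Normal] (hQ : Cfsg.IsExtraspecial 2 Q) (hcard : Nat.card Q = 2 ^ 9) (hplus : ∃ E : Subgroup Q, Cfsg.IsElementaryAbelian 2 E ∧ Nat.card E = 2 ^ 5) (h2c : Subgroup.centralizer (Q : Set (Subgroup.centralizer ({t} : Set G))) ≤ Q) (e : (Subgroup.centralizer ({t} : Set G)) ⧸ Q ≃* alternatingGroup (Fin 9)) : ∃ (K : Type) (_ : Field K) (_ : Fintype K), Fintype.card K = 3 ∧ ∃ f :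 G →* Cfsg.Lie.chevE8.group K, Function.Injective f := by
  obtain ⟨e'⟩ := (CF.ThR.simple_main ht hQ hcard h2c e).1
  obtain ⟨f, hf⟩ := CF.ThR.exists_Th_E8
  exact ⟨ZMod 3, inferInstance, inferInstance, ZMod.card 3, f.comp e'.toMonoidHom, hf.comp e'.injective⟩

end Cfsg.Agent.S1672
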