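import Cfsg.Statements.S1676
import Cfsg.Agent.S1675

set_option autoImplicit false
open Cfsg

namespace Cfsg.Agent.S1676

open CF.Comp CF.Leech CF.Leech.Dat Pointwise in
theorem r3 : ∃ H : Subgroup (MulAction.stabilizer Co0 Spor.leechU), IsCoatom H ∧ H.index = 2300 ∧
    ∃ a b : MulAction.stabilizer Co0 Spor.leechU, (MulAction.orbit H (a : _ ⧸ H)).ncard = 891 ∧
      (MulAction.orbit H (b : _ ⧸ H)).ncard = 1408 := by
  have hE := CF.Bt.exact_sub_top aExact (slp_mem aMem aW (llen aY))
  have k := (Exact.tail (L := aC.head (by simp [aC])) (t := aC.tail) hE).eq_clo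
  have m := Exact.maxIn (L := aC.head (by simp [aC])) (t := aC.tail) hE (ts := aS0) (fun _ _ => Subgroup.mem_top _)
    (by decide +kernel) (by decide +kernel)
  refine ⟨_, ⟨k ▸ m.2.1, fun K l => (m.2.2 K (k ▸ l.le) le_top).resolve_left (k ▸ l.ne')⟩,
    (index_eq_of_stab k).trans ((Exact.ncard_orbit (L := aC.head (by simp [aC])) (t := aC.tail) hE).trans
      (by decide +kernel)), _, _,
    hE.reps.ncard_orbit_coset (by decide) k (by decide +kernel) (t := [2]) (k := 4)
      (b' := Nat.log2 (imgW aN 1 [2] (2 ^ 488))) (by decide +kernel) (by decide +kernel),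
    hE.reps.ncard_orbit_coset (by decide) k (by decide +kernel) (t := [4]) (k := 4)
      (b' := Nat.log2 (imgW aN 1 [4] (2 ^ 488))) (by decide +kernel) (by decide +kernel)⟩

theorem tr {G K : Type*} [Group G] [Group K] (φ : G ≃* K) (H : Subgroup K) (a : K) :
    (MulAction.orbit (H.comap φ.toMonoidHom) (φ.symm a : G ⧸ H.comap φ.toMonoidHom)).ncard =
      (MulAction.orbit H (a : K ⧸ H)).ncard := by
  let := MulAction.compHom (K ⧸ H) φ.toMonoidHom
  have s : ∀ (g : G) (x : K), g • (x : K ⧸ H) = (φ g * x : K) := fun _ _ => rfl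
  rw [CF.Comp.ncard_orbit_coset (x := ((1 : K) : K ⧸ H)) (Subgroup.ext fun g => by
    simp [CF.Comp.stabIn, s, eq_comm (b := ((1 : K) : K ⧸ H)), QuotientGroup.eq])]
  congr 1
  ext x
  exact ⟨fun ⟨g, h, e⟩ => ⟨⟨φ g, h⟩, show ((φ g * a : K) : K ⧸ H) = x by simpa [s] using e⟩,
    fun ⟨g, e⟩ => ⟨φ.symm g, by simp, by simpa [s] using (show ((g * a : K) : K ⧸ H) = x from e)⟩⟩

/-- A step in recognising the second Conway group: let G be a finite group with no non-trivial normal subgroup of odd order and trivial centre, with an involution t whose centraliser C is 2-constrained, O₂(C) extraspecial of order 2 ^ 9 and C / O₂(C) isomorphic to Sp(6, 2). Then G has a maximal subgroup H of index 2300 such that H has orbits of sizes 891 and 1408 on the cosets of H other than H itself. -/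
theorem result {G : Type*} [Group G] [Finite G] (hO : Cfsg.oddCore G = ⊥) (hZ : Subgroup.center G = ⊥) (t : G) (ht : orderOf t = 2) (hcon : Cfsg.IsPConstrained 2 (Subgroup.centralizer ({t} : Set G))) (hQ : Cfsg.IsExtraspecial 2 (Cfsg.pCore 2 (Subgroup.centralizer ({t} : Set G)))) (hcard : Nat.card (Cfsg.pCore 2 (Subgroup.centralizer ({t} : Set G))) = 2 ^ 9) (e : (Subgroup.centralizer ({t} : Set G)) ⧸ Cfsg.pCore 2 (Subgroup.centralizer ({t} : Set G)) ≃* Matrix.symplecticGroup (Fin 3) (ZMod 2)) : ∃ H : Subgroup G, IsCoatom H ∧ H.index = 2300 ∧ ∃ q₁ q₂ : G ⧸ H, (MulAction.orbit H q₁).ncard = 891 ∧ (MulAction.orbit H q₂).ncard = 1408 := by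
  obtain ⟨ψ⟩ := Cfsg.Agent.S1675.result hO hZ t ht hcon hQ hcard e
  obtain ⟨H, h1, h2, a, b, h3, h4⟩ := r3
  have φ := ψ.trans CF.Leech.Co2Equiv.symm
  exact ⟨H.comap φ.toMonoidHom, (OrderIso.isCoatom_iff φ.symm.comapSubgroup.symm _).2 h1,
    (H.index_comap_of_surjective φ.surjective).trans h2, _, _, (tr φ H a).trans h3, (tr φ H b).trans h4⟩

end Cfsg.Agent.S1676
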