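import Cfsg.Statements.S1677
import Cfsg.Agent.XT.Wc1
import Cfsg.Agent.XT.Co3
import Cfsg.Agent.PLocal.Constraint
import Cfsg.Agent.Char.ZStarCor

set_option autoImplicit false
open Cfsg

namespace Cfsg.Agent.S1677

/-- The first Conway group from an involution centraliser: let G be a finite group with no non-trivial normal subgroup of odd order and trivial centre, and let t be an involution whose centraliser C is 2-constrained with O₂(C) extraspecial of order 2 ^ 9 and C / O₂(C) isomorphic to Ω⁺(8, 2), the commutator subgroup of the isometry group of the hyperbolic quadratic form in dimension 8 over the field with 2 elements. Then G is isomorphic to the first Conway group (the Leech lattice automorphism group modulo its centre). -/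
theorem result {G : Type*} [Group G] [Finite G] (hO : Cfsg.oddCore G = ⊥) (hZ : Subgroup.center G = ⊥) (t : G) (ht : orderOf t = 2) (hcon : Cfsg.IsPConstrained 2 (Subgroup.centralizer ({t} : Set G))) (hQ : Cfsg.IsExtraspecial 2 (Cfsg.pCore 2 (Subgroup.centralizer ({t} : Set G)))) (hcard : Nat.card (Cfsg.pCore 2 (Subgroup.centralizer ({t} : Set G))) = 2 ^ 9) (e : (Subgroup.centralizer ({t} : Set G)) ⧸ Cfsg.pCore 2 (Subgroup.centralizer ({t} : Set G)) ≃* Cfsg.Omega (ZMod 2) (Cfsg.quadFormPlus 4 (ZMod 2))) : Cfsg.Spor.IsoCo1 G := by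
  haveI := CF.Solv.pCore_characteristic 2 (Subgroup.centralizer ({t} : Set G))
  haveI := CF.Bt.simple_O8p
  haveI : Finite (Cfsg.Omega (ZMod 2) (Cfsg.quadFormPlus 4 (ZMod 2))) := Finite.of_equiv _ e.toEquiv
  have o : pPrimeCore 2 (Subgroup.centralizer ({t} : Set G)) = ⊥ := by
    have k := CF.Solv.pPrimeCore_map_le (p := 2) (f := e.toMonoidHom.comp (QuotientGroup.mk' _))
      (e.surjective.comp (QuotientGroup.mk'_surjective _))
    rw [CF.Char.oddCore_eq_bot_of_simple (G := Cfsg.Omega (ZMod 2) (Cfsg.quadFormPlus 4 (ZMod 2))) (by rw [CF.Bt.card_O8p]; decide),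
      le_bot_iff, Subgroup.map_eq_bot_iff] at k
    refine le_bot_iff.1 ((le_inf (fun x hx => ?_) le_rfl).trans (CF.Solv.pCore_inf_pPrimeCore (p := 2)).le)
    exact (QuotientGroup.eq_one_iff x).1 (e.injective ((k hx).trans e.map_one.symm))
  have k := (pCore 2 (Subgroup.centralizer ({t} : Set G))).equivMapOfInjective _
    (Subgroup.centralizer ({t} : Set G)).subtype_injective
  have l := CF.LX.lq_of_core ht (CF.Even.isExtraspecial_of_equiv hQ k) (by
    rw [pCoreOf, ← CF.Loc.centralizer_map_subtype]
    exact Subgroup.map_mono ((CF.PLocal.isPConstrained_iff_of_eq_bot o).1 hcon))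
  have c := (Nat.card_congr k.toEquiv).symm.trans hcard
  have cz : Nat.card (Subgroup.centralizer ({t} : Set G)) = 89181388800 := by
    rw [Subgroup.card_eq_card_quotient_mul_card_subgroup (pCore 2 _), hcard, Nat.card_congr e.toEquiv,
      CF.Bt.card_O8p]
    decide
  obtain ⟨g, h1, h2⟩ := CF.XT.Wc.fused l c cz fun i => by
    have z := (CF.Char.inZStar_iff_mem_center hO).1 (CF.Char.inZStar_of_isolated i)
    rw [hZ, Subgroup.mem_bot] at z
    simp [z] at ht
  obtain ⟨φ, -⟩ := CF.XT.Co.main l c cz h1 h2
  exact ⟨φ.symm⟩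

end Cfsg.Agent.S1677
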