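import Cfsg.Statements.S1680
import Cfsg.Agent.Comp.Suz.Main

set_option autoImplicit false
open Cfsg

namespace Cfsg.Agent.S1680

open CF.Comp CF.Comp.Suz Cfsg.Spor.Suz in
theorem sub : (Subgroup.closure ({a, b, c, d, e, Cfsg.Spor.Suz.f} : Set (FreeGroup Gen))).map
    (PresentedGroup.mk (Cfsg.Spor.coxRelators edges ∪ {r | r ∈ extra})) = clo CF.Comp.Suz.f H1 :=
  (map_closure_eq_clo cox.mem _ [a, b, c, d, e, Cfsg.Spor.Suz.f] (by simp) (by decide +kernel)).trans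
    (clo_f (by decide +kernel)).symm

open CF.Comp CF.Comp.Suz in

/-- In the presented sporadic Suzuki group, let H be the subgroup generated by the images of a, …, f. Then H has index 1782, H has orbits of sizes 416 and 1365 on the cosets of H other than H itself (with the index 1782 this makes the action rank 3). -/
theorem result : (((Subgroup.closure ({Cfsg.Spor.Suz.a, Cfsg.Spor.Suz.b, Cfsg.Spor.Suz.c, Cfsg.Spor.Suz.d, Cfsg.Spor.Suz.e, Cfsg.Spor.Suz.f} : Set (FreeGroup Cfsg.Spor.Suz.Gen))).map (PresentedGroup.mk (Cfsg.Spor.coxRelators Cfsg.Spor.Suz.edges ∪ {r | r ∈ Cfsg.Spor.Suz.extra})))).index = 1782 ∧ ∃ q₁ q₂ : Cfsg.Spor.Suz ⧸ (((Subgroup.closure ({Cfsg.Spor.Suz.a, Cfsg.Spor.Suz.b, Cfsg.Spor.Suz.c, Cfsg.Spor.Suz.d, Cfsg.Spor.Suz.e, Cfsg.Spor.Suz.f} : Set (FreeGroup Cfsg.Spor.Suz.Gen))).map (PresentedGroup.mk (Cfsg.Spor.coxRelators Cfsg.Spor.Suz.edges ∪ {r | r ∈ Cfsg.Spor.Suz.extra})))),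 (MulAction.orbit (((Subgroup.closure ({Cfsg.Spor.Suz.a, Cfsg.Spor.Suz.b, Cfsg.Spor.Suz.c, Cfsg.Spor.Suz.d, Cfsg.Spor.Suz.e, Cfsg.Spor.Suz.f} : Set (FreeGroup Cfsg.Spor.Suz.Gen))).map (PresentedGroup.mk (Cfsg.Spor.coxRelators Cfsg.Spor.Suz.edges ∪ {r | r ∈ Cfsg.Spor.Suz.extra})))) q₁).ncard = 416 ∧ (MulAction.orbit (((Subgroup.closure ({Cfsg.Spor.Suz.a, Cfsg.Spor.Suz.b, Cfsg.Spor.Suz.c, Cfsg.Spor.Suz.d, Cfsg.Spor.Suz.e, Cfsg.Spor.Suz.f} : Set (FreeGroup Cfsg.Spor.Suz.Gen))).map (PresentedGroup.mk (Cfsg.Spor.coxRelators Cfsg.Spor.Suz.edges ∪ {r | r ∈ Cfsg.Spor.Suz.extra})))) q₂).ncard = 1365 := by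
  rw [sub]
  exact ⟨(index_eq_of_stab stab.1).trans stab.2, _, _,
    reps.ncard_orbit_coset (by decide) stab.1 (by decide) (t := [13, 3, 5, 7, 5, 3, 13]) (k := 8) (b' := 1)
      (by decide +kernel) (by decide +kernel),
    reps.ncard_orbit_coset (by decide) stab.1 (by decide) (t := [13]) (k := 8) (b' := 417)
      (by decide +kernel) (by decide +kernel)⟩

end Cfsg.Agent.S1680
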