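import Cfsg.Statements.S1681
import Cfsg.Agent.Comp.Suz.Main

set_option autoImplicit false
open Cfsg

namespace Cfsg.Agent.S1681

open CF.Comp CF.Comp.Suz Cfsg.Spor.Suz in
theorem sub : (Subgroup.closure ({a, b, c, d, Cfsg.Spor.Suz.f, g} : Set (FreeGroup Gen))).map
    (PresentedGroup.mk (Cfsg.Spor.coxRelators edges ∪ {r | r ∈ extra})) = clo CF.Comp.Suz.f HU :=
  (map_closure_eq_clo cox.mem _ [a, b, c, d, Cfsg.Spor.Suz.f, g] (by simp) (by decide +kernel)).trans
    (clo_f (by decide +kernel)).symm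

open CF.Comp CF.Comp.Suz in

/-- In the presented sporadic Suzuki group (generators a, …, g), the subgroup generated by the images of a, b, c, d, f, g has index 22880. -/
theorem result : (((Subgroup.closure ({Cfsg.Spor.Suz.a, Cfsg.Spor.Suz.b, Cfsg.Spor.Suz.c, Cfsg.Spor.Suz.d, Cfsg.Spor.Suz.f, Cfsg.Spor.Suz.g} : Set (FreeGroup Cfsg.Spor.Suz.Gen))).map (PresentedGroup.mk (Cfsg.Spor.coxRelators Cfsg.Spor.Suz.edges ∪ {r | r ∈ Cfsg.Spor.Suz.extra})))).index = 22880 := by
  rw [sub]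
  have h := (clo f HU).card_mul_index
  rw [cardU, card] at h
  omega

end Cfsg.Agent.S1681
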