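import Cfsg.Statements.S1684
import Cfsg.Agent.Comp.Fi22.Cl

set_option autoImplicit false
open Cfsg

namespace Cfsg.Agent.S1684

open CF.Comp CF.Comp.Fi22 Cfsg.Spor.Fi22 in
theorem sub : (Subgroup.closure ({a, c, d, e, Cfsg.Spor.Fi22.f, g, h, i, (a * b * c * d * e * h) ^ 5} :
    Set (FreeGroup Gen))).map
    (PresentedGroup.mk (Cfsg.Spor.coxRelators edges ∪ {r | r ∈ extra})) = clo CF.Comp.Fi22.f HU :=
  (map_closure_eq_clo cox.mem _ [a, c, d, e, Cfsg.Spor.Fi22.f, g, h, i, (a * b * c * d * e * h) ^ 5]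
    (by simp) (by decide +kernel)).trans clo_HU

/-- In the presented Fischer group Fi₂₂, the subgroup generated by the images of a, c, d, e, f, g, h, i and (abcdeh)^5 is a non-split double cover of PSU(6, 2) (realised over a field with four elements). -/
theorem result : ∃ (K : Type) (_ : Field K) (_ : Fintype K), Fintype.card K = 4 ∧ Cfsg.IsNonsplitDoubleCover (((Subgroup.closure ({Cfsg.Spor.Fi22.a, Cfsg.Spor.Fi22.c, Cfsg.Spor.Fi22.d, Cfsg.Spor.Fi22.e, Cfsg.Spor.Fi22.f, Cfsg.Spor.Fi22.g, Cfsg.Spor.Fi22.h, Cfsg.Spor.Fi22.i, (Cfsg.Spor.Fi22.a * Cfsg.Spor.Fi22.b * Cfsg.Spor.Fi22.c * Cfsg.Spor.Fi22.d * Cfsg.Spor.Fi22.e * Cfsg.Spor.Fi22.h) ^ 5} : Set (FreeGroup Cfsg.Spor.Fi22.Gen))).map (PresentedGroup.mk (Cfsg.Spor.coxRelators Cfsg.Spor.Fi22.edges ∪ {r | r ∈ Cfsg.Spor.Fi22.extra})))) (Cfsg.PSU 6 K 2) := by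
  rw [sub]
  let _ := Fintype.ofFinite (GaloisField 2 2)
  have h : Fintype.card (GaloisField 2 2) = 4 := by
    rw [← Nat.card_eq_fintype_card, GaloisField.card 2 2 (by decide)]; rfl
  exact ⟨_, _, _, h, CF.Comp.Fi22.coverU _ h⟩

end Cfsg.Agent.S1684
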