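import Cfsg.Statements.S1685
import Cfsg.Agent.Comp.Fi22.Main

set_option autoImplicit false
open Cfsg

namespace Cfsg.Agent.S1685

open CF.Comp CF.Comp.Fi22 Cfsg.Spor.Fi22 in
theorem sub : (Subgroup.closure ({b, c, d, e, Cfsg.Spor.Fi22.f, g, h, i} : Set (FreeGroup Gen))).map
    (PresentedGroup.mk (Cfsg.Spor.coxRelators edges ∪ {r | r ∈ extra})) = clo CF.Comp.Fi22.f H1 :=
  (map_closure_eq_clo cox.mem _ [b, c, d, e, Cfsg.Spor.Fi22.f, g, h, i] (by simp) (by decide +kernel)).trans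
    (clo_f (by decide +kernel)).symm

open CF.Comp CF.Comp.Fi22 in

/-- In the presented Fischer group Fi₂₂ (generators a, …, i), the subgroup generated by the images of b, c, d, e, f, g, h, i has index 14080. -/
theorem result : (((Subgroup.closure ({Cfsg.Spor.Fi22.b, Cfsg.Spor.Fi22.c, Cfsg.Spor.Fi22.d, Cfsg.Spor.Fi22.e, Cfsg.Spor.Fi22.f, Cfsg.Spor.Fi22.g, Cfsg.Spor.Fi22.h, Cfsg.Spor.Fi22.i} : Set (FreeGroup Cfsg.Spor.Fi22.Gen))).map (PresentedGroup.mk (Cfsg.Spor.coxRelators Cfsg.Spor.Fi22.edges ∪ {r | r ∈ Cfsg.Spor.Fi22.extra})))).index = 14080 := by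
  rw [sub]
  have h := (clo f H1).card_mul_index
  rw [card1, card] at h
  omega

end Cfsg.Agent.S1685
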