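import Cfsg.Statements.S1719
import Cfsg.Agent.XT.Sz3

set_option autoImplicit false
open Cfsg

namespace Cfsg.Agent.S1719

/-- Uniqueness of the sporadic Suzuki group under the large-extraspecial hypothesis: let G be a finite group with an involution z whose centraliser C has generalised Fitting subgroup Q extraspecial of order 2 ^ 7, with C / Q isomorphic to Ω⁻(6, 2) (the commutator subgroup of the isometry group of the elliptic quadratic form x₁y₁ + x₂y₂ + z₁² + z₁z₂ + z₂² over the field with 2 elements), and suppose some conjugate of z different from z lies in Q. Then G is isomorphic to the presented sporadic Suzuki group. -/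
theorem result {G : Type*} [Group G] [Finite G] (z : G) (hz : orderOf z = 2) (Q : Subgroup (Subgroup.centralizer ({z} : Set G))) [Q.Normal] (hF : Cfsg.generalizedFittingSubgroup (Subgroup.centralizer ({z} : Set G)) = Q) (hQ : Cfsg.IsExtraspecial 2 Q) (hcard : Nat.card Q = 2 ^ 7) (e : (Subgroup.centralizer ({z} : Set G)) ⧸ Q ≃* Cfsg.Omega (ZMod 2) (Cfsg.quadFormMinus 2 (ZMod 2) 1 1)) (hnwc : ∃ g : G, (∃ hq : g * z * g⁻¹ ∈ Subgroup.centralizer ({z} : Set G), (⟨g * z * g⁻¹, hq⟩ : Subgroup.centralizer ({z} : Set G)) ∈ Q) ∧ g * z * g⁻¹ ≠ z) : Cfsg.Spor.IsoSuz G := by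
  obtain ⟨φ, -⟩ := CF.XT.Sz.of_hyp hz Q hF hQ hcard e hnwc
  exact ⟨φ.symm⟩

end Cfsg.Agent.S1719
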