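import Cfsg.Statements.S1725
import Cfsg.Agent.XT.Sz4

set_option autoImplicit false
open Cfsg

namespace Cfsg.Agent.S1725

/-- A 3-local step in the uniqueness proof for the sporadic Suzuki group: let G satisfy the large-extraspecial hypothesis with Q of order 2 ^ 7, quotient Ω⁻(6, 2) and z not weakly closed in Q, and let X be a subgroup of order 3 of the centraliser C of z with the commutator subgroup of Q and X of order 8 and non-abelian (a quaternion group). Then for any Sylow 3-subgroup P of the normaliser of X in G, P is a Sylow 3-subgroup of G (its index in G is prime to 3), and P contains an elementary abelian subgroup A of order 3 ^ 5 with C_G(A) = A and N_G(A) / A isomorphic to the Mathieu group M₁₁. -/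
theorem result {G : Type*} [Group G] [Finite G] (z : G) (hz : orderOf z = 2) (Q : Subgroup (Subgroup.centralizer ({z} : Set G))) [Q.Normal] (hF : Cfsg.generalizedFittingSubgroup (Subgroup.centralizer ({z} : Set G)) = Q) (hQ : Cfsg.IsExtraspecial 2 Q) (hcard : Nat.card Q = 2 ^ 7) (e : (Subgroup.centralizer ({z} : Set G)) ⧸ Q ≃* Cfsg.Omega (ZMod 2) (Cfsg.quadFormMinus 2 (ZMod 2) 1 1)) (hnwc : ∃ g : G, (∃ hq : g * z * g⁻¹ ∈ Subgroup.centralizer ({z} : Set G), (⟨g * z * g⁻¹, hq⟩ : Subgroup.centralizer ({z} : Set G)) ∈ Q) ∧ g * z * g⁻¹ ≠ z) (X : Subgroup (Subgroup.centralizer ({z} : Set G))) (hX : Nat.card X = 3) (hQX : Nat.card ↥⁅Q, X⁆ = 8) (hQXna : ¬ IsMulCommutative ↥⁅Q, X⁆) (P : Sylow 3 ↥(Subgroup.normalizer ((X.map (Subgroup.subtype (Subgroup.centralizer ({z} : Set G))) : Subgroup G) : Set G))) : ¬ 3 ∣ (((P : Subgroup ↥(Subgroup.normalizer ((X.map (Subgroup.subtype (Subgroup.centralizer ({z} : Set G))) : Subgroup G) : Set G))).map (Subgroup.subtype (Subgroup.normalizer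 ((X.map (Subgroup.subtype (Subgroup.centralizer ({z} : Set G))) : Subgroup G) : Set G)))).index) ∧ ∃ A : Subgroup G, A ≤ (P : Subgroup ↥(Subgroup.normalizer ((X.map (Subgroup.subtype (Subgroup.centralizer ({z} : Set G))) : Subgroup G) : Set G))).map (Subgroup.subtype (Subgroup.normalizer ((X.map (Subgroup.subtype (Subgroup.centralizer ({z} : Set G))) : Subgroup G) : Set G))) ∧ Cfsg.IsElementaryAbelian 3 A ∧ Nat.card A = 3 ^ 5 ∧ Subgroup.centralizer (A : Set G) = A ∧ ∃ _ : (A.subgroupOf (Subgroup.normalizer (A : Set G))).Normal, Cfsg.Spor.IsoM11 (↥(Subgroup.normalizer (A : Set G)) ⧸ A.subgroupOf (Subgroup.normalizer (A : Set G))) := by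
  obtain ⟨φ, k⟩ := CF.XT.Sz.of_hyp hz Q hF hQ hcard e hnwc
  obtain ⟨_, _, h, k'⟩ := CF.XT.SzL.bridge hz Q hF hQ hcard k hX hQX
  exact CF.XT.SzL.syl3 h k' P

end Cfsg.Agent.S1725
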