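import Cfsg.Statements.S1733
import Cfsg.Agent.StdZ.Sp
import Cfsg.Agent.S1678

set_option autoImplicit false
open Cfsg

namespace Cfsg.Agent.S1733

/-- Let G be a non-abelian finite simple group which is locally balanced (the centralizer of every involution has no nontrivial normal subgroup of odd order) and has the strong B-property (every section of G has the B-property), and let L be a standard subgroup of G whose centre has order 2 with quotient isomorphic to the symplectic group of dimension 6 over the field with 2 elements. Then G is isomorphic to the third Conway group. -/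
theorem result {G : Type*} [Group G] [Finite G] [IsSimpleGroup G] (hG : ¬ IsMulCommutative G)
    (hbal : ∀ t : G, orderOf t = 2 → Cfsg.centralizerPPrimeCore 2 t = ⊥) (hB : Cfsg.HasStrongBProperty G)
    (L : Subgroup G) (hL : Cfsg.IsStandardSubgroup L)
    {F : Type*} [Field F] [Fintype F] (hF : Fintype.card F = 2) (hLX : (Nat.card ↥(Subgroup.center ↥L) = 2 ∧ Nonempty (↥L ⧸ Subgroup.center ↥L ≃* Cfsg.PSp 3 F))) :
    Cfsg.Spor.IsoCo3 G := by
  obtain ⟨c, ⟨e⟩⟩ := hLX
  obtain ⟨z, o, h⟩ := CF.StdZ.Sp.cent hG hbal hL c ((e.trans (CF.Classical.pspCongr 3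
    (FiniteField.ringEquivOfCardEq (hF.trans (ZMod.card 2).symm)))).trans
    ((QuotientGroup.quotientMulEquivOfEq CF.Recog.Co3.center_Sp).trans QuotientGroup.quotientBot))
  exact Cfsg.Agent.S1678.result (CF.Char.oddCore_eq_bot_of_simple (even_iff_two_dvd.2 (o ▸ orderOf_dvd_natCard _)))
    (CF.StdZ.center_simple (S := G) fun c => hG ⟨⟨c⟩⟩) z o h

end Cfsg.Agent.S1733
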