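import Cfsg.Statements.S1737
import Cfsg.Agent.StdZ.BmI

set_option autoImplicit false
open Cfsg

namespace Cfsg.Agent.S1737

/-- Let G be a non-abelian finite simple group which is locally balanced (the centralizer of every involution has no nontrivial normal subgroup of odd order) and has the strong B-property (every section of G has the B-property), and let L be a standard subgroup of G whose centre has order 2 with quotient isomorphic to the Baby Monster. Then G is isomorphic to the Monster. -/
theorem result {G : Type*} [Group G] [Finite G] [IsSimpleGroup G] (hG : ¬ IsMulCommutative G)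
    (hbal : ∀ t : G, orderOf t = 2 → Cfsg.centralizerPPrimeCore 2 t = ⊥) (hB : Cfsg.HasStrongBProperty G)
    (L : Subgroup G) (hL : Cfsg.IsStandardSubgroup L)
    (hLX : (Nat.card ↥(Subgroup.center ↥L) = 2 ∧ Nonempty (↥L ⧸ Subgroup.center ↥L ≃* Cfsg.Spor.BabyMonster))) :
    Cfsg.Spor.IsoM G := by
  exact hLX.2.elim (CF.StdZ.Bm.main hG hbal hL hLX.1)

end Cfsg.Agent.S1737
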