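import Cfsg.Statements.S1749
import Cfsg.Agent.StdZ.OnE

set_option autoImplicit false
open Cfsg

namespace Cfsg.Agent.S1749

/-- Let G be a non-abelian finite simple group with the strong B-property (every section of G has the B-property) possessing a standard subgroup L whose centre is cyclic of order 4 with quotient isomorphic to the projective special linear group of dimension 3 over the field with 4 elements. Then G is a group of Lie type in characteristic 3, or an alternating group of degree at least 9, or G is isomorphic to the O'Nan group. -/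
theorem result {G : Type*} [Group G] [Finite G] [IsSimpleGroup G] (hG : ¬ IsMulCommutative G)
    (hB : Cfsg.HasStrongBProperty G) (L : Subgroup G) (hL : Cfsg.IsStandardSubgroup L)
    {F : Type*} [Field F] [Fintype F] (hF : Fintype.card F = 4)
    (hLX : IsCyclic ↥(Subgroup.center ↥L) ∧ Nat.card ↥(Subgroup.center ↥L) = 4 ∧
      Nonempty (↥L ⧸ Subgroup.center ↥L ≃* Matrix.ProjectiveSpecialLinearGroup (Fin 3) F)) :
    Cfsg.IsLieTypeChar 3 G ∨ (∃ n : ℕ, 9 ≤ n ∧ Nonempty (G ≃* ↥(alternatingGroup (Fin n)))) ∨ Cfsg.Spor.IsoON G := by
  obtain ⟨c, z, ⟨e⟩⟩ := hLX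
  let _ := Fintype.ofFinite (GaloisField 2 2)
  have k : Fintype.card (GaloisField 2 2) = 4 := by
    rw [← Nat.card_eq_fintype_card, GaloisField.card 2 2 (by decide)]; rfl
  exact .inr (.inr (CF.StdZ.On.main hG hL c z k
    (e.trans (CF.Classical.pslCongr _ (FiniteField.ringEquivOfCardEq (hF.trans k.symm))))))

end Cfsg.Agent.S1749
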