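import Cfsg.Statements.S1753
import Cfsg.Agent.Even.TI

set_option autoImplicit false
universe u
open Cfsg

namespace Cfsg.Agent.S1753
open Subgroup CF.Loc CF.Even
open scoped commutatorElement Pointwise
theorem aux (K : ∀ (X : Type u) [Group X], Prop) (G : Type u) [Group G] [Finite G]
    (h : ∀ (X : Type u) [Group X] [Finite X],
      IsSimpleGroup X → ¬ IsMulCommutative X → Nat.card X < Nat.card G → K X) :
    IsKProperWith K G := by
  intro H hH H' N _ hs hn
  exact h _ hs hn ((Nat.le_of_dvd Nat.card_pos N.card_quotient_dvd_card).trans_lt
    ((Nat.le_of_dvd Nat.card_pos H'.card_subgroup_dvd_card).trans_lt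
      (CF.Solv.card_lt_of_ne_top hH)))

/-- Let K be any property of groups. (1) If G is a minimal counterexample relative to K — a finite non-abelian simple group not satisfying K such that every finite non-abelian simple group of smaller order satisfies K — then every proper subgroup of G is a K-group (all its non-abelian simple sections satisfy K), since such sections have smaller order than G. (2) Consequently (induction on the order), if every finite non-abelian simple group all of whose proper subgroups are K-groups satisfies K, then every finite non-abelian simple group satisfies K. -/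
theorem result (K : ∀ (X : Type u) [Group X], Prop) :
    (∀ (G : Type u) [Group G], Cfsg.IsMinCounterexampleWith K G → Cfsg.IsKProperWith K G) ∧
      ((∀ (X : Type u) [Group X] [Finite X], IsSimpleGroup X → ¬ IsMulCommutative X → Cfsg.IsKProperWith K X → K X) →
        ∀ (G : Type u) [Group G] [Finite G], IsSimpleGroup G → ¬ IsMulCommutative G → K G) := by
  refine ⟨fun G _ ⟨_, _, _, _, h⟩ => aux K G h, fun h => ?_⟩
  suffices H : ∀ n, ∀ (G : Type u) [Group G] [Finite G], Nat.card G = n → IsSimpleGroup G →
      ¬ IsMulCommutative G → K G from fun G _ _ => H _ G rfl
  intro n
  induction n using Nat.strong_induction_on with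
  | _ n ih =>
    intro G _ _ hn hs hc
    exact h G hs hc (aux K G fun X _ _ a b c => ih _ (hn ▸ c) X rfl a b)

end Cfsg.Agent.S1753
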