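import Cfsg.Statements.S1755
import Cfsg.Agent.Even.TI
import Cfsg.Agent.Sig.FStar
import Cfsg.Agent.Invol.Four

set_option autoImplicit false
open Cfsg

namespace Cfsg.Agent.S1755
open Subgroup CF.Loc CF.Even
open scoped commutatorElement Pointwise

/-- Let G be a finite group and let z be an involution of G such that Q, the generalized Fitting subgroup of the centralizer C of z, is a 2-group of symplectic type (every characteristic abelian subgroup of Q is cyclic). Let B be a characteristic abelian subgroup of Q, viewed as a subgroup of G. Then for every g in G, the conjugate of B by g either equals B or meets B trivially. -/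
theorem result {G : Type*} [Group G] [Finite G] (z : G) (hz : orderOf z = 2) (hQ : Cfsg.IsOfSymplecticType ↥(Cfsg.generalizedFittingSubgroup ↥(Subgroup.centralizer ({z} : Set G))))
    (B : Subgroup ↥(Cfsg.generalizedFittingSubgroup ↥(Subgroup.centralizer ({z} : Set G)))) (hBc : B.Characteristic) (hBa : IsMulCommutative ↥B) (g : G) :
    ((B.map (Cfsg.generalizedFittingSubgroup ↥(Subgroup.centralizer ({z} : Set G))).subtype).map (Subgroup.centralizer ({z} : Set G)).subtype).map (MulAut.conj g).toMonoidHom =
        (B.map (Cfsg.generalizedFittingSubgroup ↥(Subgroup.centralizer ({z} : Set G))).subtype).map (Subgroup.centralizer ({z} : Set G)).subtype ∨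
      ((B.map (Cfsg.generalizedFittingSubgroup ↥(Subgroup.centralizer ({z} : Set G))).subtype).map (Subgroup.centralizer ({z} : Set G)).subtype).map (MulAut.conj g).toMonoidHom ⊓
        (B.map (Cfsg.generalizedFittingSubgroup ↥(Subgroup.centralizer ({z} : Set G))).subtype).map (Subgroup.centralizer ({z} : Set G)).subtype = ⊥ := by
  let C := centralizer ({z} : Set G)
  let B' := (B.map (generalizedFittingSubgroup C).subtype).map C.subtype
  refine or_iff_not_imp_right.2 fun h => ?_
  have hzC : z ∈ C := mem_centralizer_singleton_iff.2 rfl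
  have hzc : (⟨z, hzC⟩ : C) ∈ center C :=
    mem_center_iff.2 fun c => Subtype.ext (mem_centralizer_singleton_iff.1 c.2)
  have hzQ : (⟨z, hzC⟩ : C) ∈ generalizedFittingSubgroup C :=
    CF.Sig.fitting_le_fstar (CF.Solv.center_le_fitting hzc)
  have hcyc : IsCyclic (B ⊔ center _ : Subgroup (generalizedFittingSubgroup C)) :=
    hQ.2 _ (characteristic_iff_map_eq.2 fun φ => by
      rw [Subgroup.map_sup, characteristic_iff_map_eq.1 hBc,
        characteristic_iff_map_eq.1 inferInstance]) (CF.Solv.isMulCommutative_sup (center_le_centralizer _ |> le_centralizer_comm.1))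
  have key : ∀ x ∈ B', orderOf x = 2 → x = z := by
    rintro _ ⟨_, ⟨b, hb, rfl⟩, rfl⟩ h2
    have := CF.Invol.eq_of_invol_of_isCyclic hcyc (mem_sup_left hb)
      (mem_sup_right (x := ⟨⟨z, hzC⟩, hzQ⟩) (mem_center_iff.2 fun c =>
        Subtype.ext (mem_center_iff.1 hzc c)))
      (by rw [← orderOf_coe, ← orderOf_coe]; exact h2) (by rw [← orderOf_coe, ← orderOf_coe]; exact hz)
    rw [this]; rfl
  have hB2 : IsPGroup 2 B' := ((hQ.1.to_subgroup B).map _).map _
  obtain ⟨x, hx, hx2⟩ := exists_orderOf_eq_of_isPGroup (hB2.to_le inf_le_right) h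
  have e1 := key x hx.2 hx2
  have e2 := key _ (mem_cj.1 hx.1) (by rw [← hx2]; simpa using orderOf_conj g⁻¹ x)
  have hg : g ∈ C := mem_centralizer_singleton_iff.2 (by
    rw [e1] at e2
    calc g * z = g * (g⁻¹ * z * g) := by rw [e2]
      _ = z * g := by group)
  exact cj_eq_self (le_normalizer_map_subtype _ hg)

end Cfsg.Agent.S1755
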