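import Cfsg.Statements.S1756
import Cfsg.Agent.Even.Extra

set_option autoImplicit false
open Cfsg

namespace Cfsg.Agent.S1756
open Subgroup CF.Loc CF.Even
open scoped commutatorElement Pointwise

/-- Let Q be an extraspecial 2-subgroup of the finite group G (special with centre of order 2) and t an involution of G normalizing Q such that the centralizer of t in Q has index at most 2 in Q. Then t lies in the product of Q with the centralizer of Q. -/
theorem result {G : Type*} [Group G] [Finite G] (Q : Subgroup G)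
    (hQ : Cfsg.IsExtraspecial 2 ↥Q) (t : G) (ht : orderOf t = 2) (htN : t ∈ Subgroup.normalizer (Q : Set G))
    (hi : (Subgroup.centralizer ({t} : Set G) ⊓ Q).relIndex Q ≤ 2) :
    t ∈ Q ⊔ Subgroup.centralizer (Q : Set G) := by
  obtain ⟨z, X, e⟩ := exists_xs hQ
  rw [inf_relIndex_right] at hi
  have hN : Q ⊔ zpowers t ≤ 𝐍(Q) := sup_le le_normalizer (zpowers_le.2 htN)
  have hZ : zpowers z ≤ 𝐂(Q ⊔ zpowers t) := zpowers_le.2 (mem_centralizer_iff.2 fun x hx =>
    mul_inv_eq_iff_eq_mul.1 (X.conj_z (hN hx)))
  have hn : Q ⊔ zpowers t ≤ 𝐍(zpowers z) :=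
    (le_centralizer_comm.1 hZ).trans (centralizer_le_normalizer _)
  have := CF.Solv.sup_centralizer_eq_of_commutator_le (p := 2) (E := Q) (K := Q ⊔ zpowers t)
    (Z := zpowers z) le_sup_left (by rw [Nat.card_zpowers, X.ord]) hZ (e ▸ hZ)
    (commutator_sup_right_le (le_sup_left.trans hn) (le_sup_right.trans hn) X.commutator_le
      ((le_secCent_iff.1 (zpowers_le.2 ⟨hn (mem_sup_right (mem_zpowers t)), fun q hq => by
        simpa [commutatorElement_def, mul_assoc] using
          inv_mem (X.comm_mem_center (mul_self_of_invol ht) htN hi hq)⟩)).2))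
  exact sup_le_sup_left inf_le_right Q (this.ge (mem_sup_right (mem_zpowers t)))

end Cfsg.Agent.S1756
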