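import Cfsg.Statements.S1774
import Cfsg.Agent.Even.Large

set_option autoImplicit false
open Cfsg

namespace Cfsg.Agent.S1774
open Subgroup CF.Loc CF.Even
open scoped commutatorElement Pointwise

/-- Let G be a finite group and let z be an involution of G such that Q, the generalized Fitting subgroup of the centralizer C of z, is a 2-group of symplectic type (every characteristic abelian subgroup of Q is cyclic); suppose every element of Q has order dividing 4. Let g ∈ G with z' = g z g⁻¹ ≠ z and z' ∈ Q. Then z lies in the conjugate g Q g⁻¹, and the subgroup X generated by Q and g Q g⁻¹ induces every automorphism of the four-group generated by z and z': for any two distinct non-identity elements u, v of that four-group there is x ∈ X with x z x⁻¹ = u and x z' x⁻¹ = v. -/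
theorem result {G : Type*} [Group G] [Finite G] (z : G) (hz : orderOf z = 2) (hQ : Cfsg.IsOfSymplecticType ↥(Cfsg.generalizedFittingSubgroup ↥(Subgroup.centralizer ({z} : Set G))))
    (h4 : ∀ q ∈ (Cfsg.generalizedFittingSubgroup ↥(Subgroup.centralizer ({z} : Set G))).map (Subgroup.centralizer ({z} : Set G)).subtype, q ^ 4 = 1) (g : G) (hne : g * z * g⁻¹ ≠ z) (hin : g * z * g⁻¹ ∈ (Cfsg.generalizedFittingSubgroup ↥(Subgroup.centralizer ({z} : Set G))).map (Subgroup.centralizer ({z} : Set G)).subtype) :
    z ∈ ((Cfsg.generalizedFittingSubgroup ↥(Subgroup.centralizer ({z} : Set G))).map (Subgroup.centralizer ({z} : Set G)).subtype).map (MulAut.conj g).toMonoidHom ∧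
      ∀ u ∈ Subgroup.closure ({z, g * z * g⁻¹} : Set G), ∀ v ∈ Subgroup.closure ({z, g * z * g⁻¹} : Set G),
        u ≠ 1 → v ≠ 1 → u ≠ v →
          ∃ x ∈ (Cfsg.generalizedFittingSubgroup ↥(Subgroup.centralizer ({z} : Set G))).map (Subgroup.centralizer ({z} : Set G)).subtype ⊔ ((Cfsg.generalizedFittingSubgroup ↥(Subgroup.centralizer ({z} : Set G))).map (Subgroup.centralizer ({z} : Set G)).subtype).map (MulAut.conj g).toMonoidHom, x * z * x⁻¹ = u ∧ x * (g * z * g⁻¹) * x⁻¹ = v := by
  obtain ⟨hc, e⟩ := fstar_map_eq hQ.1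
  have hs : IsOfSymplecticType ↥((generalizedFittingSubgroup (centralizer ({z} : Set G))).map
      (centralizer ({z} : Set G)).subtype) := by
    let f := (generalizedFittingSubgroup (centralizer ({z} : Set G))).equivMapOfInjective _
      (centralizer ({z} : Set G)).subtype_injective
    refine ⟨hQ.1.of_equiv f, fun A hA hA' => ?_⟩
    have := hQ.2 (A.comap f.toMonoidHom) (characteristic_iff_comap_eq.2 fun φ => by
      ext x
      have := characteristic_iff_comap_eq.1 hA ((f.symm.trans φ).trans f)
      simpa using (SetLike.ext_iff.1 this (f x))) (comap_injective_isMulCommutative A f.injective)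
    exact isCyclic_of_surjective (f.toMonoidHom.subgroupComap A)
      (f.toMonoidHom.subgroupComap_surjective_of_surjective A f.surjective)
  rw [e] at hs h4 hin ⊢
  have L : LX z := ⟨hc, xs_of_symplectic hs hz (mem_pCoreOf_centralizer hz)
    (le_centralizer_singleton_iff.1 (pCoreOf_le _ _)) h4⟩
  have h1 := L.mem_core_conj hne hin
  have Y := (L.cj g).xs
  have X := L.xs
  rw [cj_core]
  refine ⟨h1, ?_⟩
  generalize g * z * g⁻¹ = t at *
  obtain ⟨q, hq, hqt⟩ := X.exists_conj hin fun c => (X.uniq t hin c Y.zz).elim Y.z_ne hne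
  obtain ⟨p, hp, hpz⟩ := Y.exists_conj h1 fun c => (Y.uniq z h1 c X.zz).elim X.z_ne hne.symm
  have hqz : q * z * q⁻¹ = z := X.conj_mem hq (mem_zpowers z)
  have hpt : p * t * p⁻¹ = t := Y.conj_mem hp (mem_zpowers t)
  have tz : t * z = z * t := X.zc hin
  rw [tz] at hpz
  have hqzt : q * (z * t) * q⁻¹ = t := by
    calc _ = (q * z * q⁻¹) * (q * t * q⁻¹) := by group
      _ = t := by rw [hqz, hqt, ← mul_assoc, X.zz, one_mul]
  have hpzt : p * (z * t) * p⁻¹ = z := by
    calc _ = (p * z * p⁻¹) * (p * t * p⁻¹) := by group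
      _ = z := by rw [hpz, hpt, mul_assoc, Y.zz, mul_one]
  have c : ∀ a b x : G, a * b * x * (a * b)⁻¹ = a * (b * x * b⁻¹) * a⁻¹ := fun a b x => by group
  have hq' := mem_sup_left (T := 𝐎[2](centralizer ({t} : Set G))) hq
  have hp' := mem_sup_right (S := 𝐎[2](centralizer ({z} : Set G))) hp
  intro u hu v hv hu1 hv1 huv
  rw [CF.Invol.mem_closure_four X.zz Y.zz tz.symm] at hu hv
  rcases hu with rfl | hu | hu | hu <;> rcases hv with rfl | hv | hv | hv <;>
    first | contradiction | exact (huv (hu.trans hv.symm)).elim | rw [hu, hv]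
  · exact ⟨1, one_mem _, by simp, by simp⟩
  · exact ⟨q, hq', hqz, hqt⟩
  · exact ⟨q * (p * q), mul_mem hq' (mul_mem hp' hq'), by rw [c, c, hqz, hpz, hqzt],
      by rw [c, c, hqt, hpzt, hqz]⟩
  · exact ⟨q * p, mul_mem hq' hp', by rw [c, hpz, hqzt], by rw [c, hpt, hqt]⟩
  · exact ⟨p * q, mul_mem hp' hq', by rw [c, hqz, hpz], by rw [c, hqt, hpzt]⟩
  · exact ⟨p, hp', hpz, hpt⟩

end Cfsg.Agent.S1774
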