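import Cfsg.Statements.S1775
import Cfsg.Agent.CT.Std

set_option autoImplicit false
open Cfsg

namespace Cfsg.Agent.S1775
open CF.BG Subgroup
open scoped commutatorElement Pointwise
open CF.Sig CF.CT

/-- Let G be a finite group whose generalized Fitting subgroup is a non-abelian simple group and in which every proper section (every quotient H/N of a proper subgroup H, or of G by a nontrivial normal subgroup) has the B-property. Let x, y be commuting involutions, let D be the intersection of the 2-layer of C_G(x) with C_G(y), and let J be a 2-component of D. Write Q for the quotient of C_G(y) by its largest normal odd-order subgroup. Then (i) the image of J in Q is a component of the centralizer in Q of the image of x; and (ii) for every J-invariant subgroup E of odd order of C_G(x) ∩ C_G(y), the commutator subgroup [J, E] lies in the largest normal odd-order subgroup of C_G(y). -/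
theorem result {G : Type*} [Group G] [Finite G]
    (hF : IsSimpleGroup ↥(Cfsg.generalizedFittingSubgroup G)) (hF' : ¬ IsMulCommutative ↥(Cfsg.generalizedFittingSubgroup G))
    (hsec : ∀ (H : Subgroup G) (N : Subgroup ↥H) [N.Normal], (H ≠ ⊤ ∨ N ≠ ⊥) → Cfsg.HasBProperty (↥H ⧸ N))
    (x y : G) (hx : orderOf x = 2) (hy : orderOf y = 2) (hxy : x * y = y * x)
    (J : Subgroup ↥((Cfsg.pLayer 2 ↥(Subgroup.centralizer ({x} : Set G))).map (Subgroup.centralizer ({x} : Set G)).subtype ⊓ Subgroup.centralizer ({y} : Set G)))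
    (hJ : Cfsg.IsPComponent 2 J) :
    Cfsg.IsComponent
        ((((J.map (Subgroup.subtype _)).subgroupOf (Subgroup.centralizer ({y} : Set G))).map (QuotientGroup.mk' (Cfsg.oddCore ↥(Subgroup.centralizer ({y} : Set G))))).subgroupOf
          (Subgroup.centralizer ({(QuotientGroup.mk' (Cfsg.oddCore ↥(Subgroup.centralizer ({y} : Set G))) ⟨x, Subgroup.mem_centralizer_singleton_iff.mpr hxy⟩ : ↥(Subgroup.centralizer ({y} : Set G)) ⧸ Cfsg.oddCore ↥(Subgroup.centralizer ({y} : Set G)))} : Set _))) ∧
      ∀ E : Subgroup G, E ≤ Subgroup.centralizer ({x} : Set G) ⊓ Subgroup.centralizer ({y} : Set G) → Odd (Nat.card ↥E) →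
        (∀ j ∈ J.map (Subgroup.subtype _), ∀ e ∈ E, j * e * j⁻¹ ∈ E) →
          ⁅J.map (Subgroup.subtype _), E⁆ ≤ (Cfsg.oddCore ↥(Subgroup.centralizer ({y} : Set G))).map (Subgroup.centralizer ({y} : Set G)).subtype := by
  let C := 𝐂₁ y
  let f := QuotientGroup.mk' (oddCore C)
  let x' : C := ⟨x, mem_centralizer_singleton_iff.mpr hxy⟩
  have ne : C ≠ ⊤ := fun e => by
    have a : zpowers y ⊴ ⊤ := normalIn_of_le_center (le_inf le_top (zpowers_le.2
      (le_cent1_iff.1 e.ge)))
    have l : zpowers y ≤ Fst ⊤ := (subN_le_F a.subN (abel_zpowers y).nil).trans (F_le_Fst _)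
    rw [← Fst_top] at hF hF'
    rcases hF.eq_bot_or_eq_top_of_normal _ (a.of_le l le_top).normal with k | k
    · exact ne_of hy (zpowers_eq_bot.1 ((inf_eq_left.2 l).symm.trans
        (subgroupOf_eq_bot.1 k).eq_bot))
    · exact hF' ((abel_zpowers y).mono (subgroupOf_eq_top.1 k)).comm
  have b := hsec C (oddCore C) (.inl ne)
  have sj := QuotientGroup.mk'_surjective (oddCore C)
  have ok : PiGrp {2}ᶜ f.ker := by rw [QuotientGroup.ker_mk']; exact pPrimeCore_pi p2
  have h0 : 𝐎 {2}ᶜ (⊤ : Subgroup (C ⧸ oddCore C)) = ⊥ :=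
    (pPrimeCore_eq p2).symm.trans CF.Solv.pPrimeCore_quotient_pPrimeCore
  have ox : orderOf x' = 2 := (orderOf_coe x').symm.trans hx
  have o : orderOf (f x') = 2 := orderOf_eq_prime (by rw [← map_pow, sq_of ox, map_one]) fun e =>
    not_pi_of_mem p2 ox e ok
  let J0 := J.map (Subgroup.subtype _)
  have k : PComp 2 J0 (𝐂₁ x ⊓ C) := (pcomp_map_subtype.2 hJ).trans p2
    (subN_inf (PLay_normal p2 _).subN _)
  have JC : J0 ≤ C := k.le.trans inf_le_right
  have k1 : PComp 2 (J0.subgroupOf C) (𝐂₁ x') := by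
    rw [← pcomp_map_iff p2 C.subtype_injective, map_subgroupOf JC, ← top_inf_eq (𝐂₁ x'),
      map_inf_cent1 C.subtype_injective, map_top_subtype, inf_comm]
    exact k
  have k2 := PComp.map k1 p2 f fun e => k1.not_pi' p2 (ok.le ((Subgroup.map_eq_bot_iff _).1 e))
  rw [map_cent1_of_ker sj ok (pi_of ox p2)] at k2
  have c := bp_comp b h0 o k2
  refine ⟨c.2, fun E hE oE nE => ?_⟩
  have EC : E ≤ C := hE.trans inf_le_right
  have l : (E.subgroupOf C).map f ≤ 𝐂₁ (f x') := by
    rintro _ ⟨e, he, rfl⟩
    exact mem_cent1.2 (by rw [← map_mul, ← map_mul]; exact congrArg f (Subtype.ext (mem_cent1.1 (hE he).1)))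
  rcases c.le_or_cent l (map_norm (subgroupOf_norm C (le_norm_iff.2 nE)) f) with m | m
  · exact (Comp.not_odd c (PiGrp.le (PiGrp.map (by
      rw [PiGrp, card_subgroupOf' EC]; exact CF.Bender.pi_of_odd oE) f) m)).elim
  · rw [← comm_eq_bot, ← map_commutator, Subgroup.map_eq_bot_iff, QuotientGroup.ker_mk',
      ← subgroupOf_comm JC EC] at m
    rw [← map_subgroupOf (H := ⁅J0, E⁆) (L := C) ((commutator_mono JC EC).trans (der_le _))]
    exact map_mono m

end Cfsg.Agent.S1775
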