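import Cfsg.Statements.S1780
import Cfsg.Agent.Even.TI

set_option autoImplicit false
open Cfsg

namespace Cfsg.Agent.S1780
open Subgroup CF.Loc CF.Even
open scoped commutatorElement Pointwise

/-- Let A be a finite abelian 2-group and t an automorphism of A whose order is a power of 2. If every element of A fixed by t² is fixed by t, then t fixes every element of A. -/
theorem result {A : Type*} [CommGroup A] [Finite A]
    (hA : IsPGroup 2 A) (t : MulAut A) (ht : ∃ k : ℕ, orderOf t = 2 ^ k) (hC : ∀ a : A, t (t a) = a → t a = a) :
    ∀ a : A, t a = a := by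
  obtain ⟨k, hk⟩ := ht
  refine fix_of_fix_sq hA t.toMonoidHom (k := k) (fun a => ?_) hC
  have : ∀ n, (t.toMonoidHom)^[n] a = (t ^ n) a := fun n => by
    induction n with
    | zero => rfl
    | succ n ih => rw [Function.iterate_succ_apply', ih, pow_succ']; rfl
  rw [this, ← hk, pow_orderOf_eq_one]; rfl

end Cfsg.Agent.S1780
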