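import Cfsg.Statements.S1783
import Cfsg.Agent.Even.TI
import Cfsg.Agent.Sig.FStar

set_option autoImplicit false
open Cfsg

namespace Cfsg.Agent.S1783
open Subgroup CF.Loc CF.Even
open scoped commutatorElement Pointwise

/-- Let X be a finite group whose generalized Fitting subgroup equals its largest normal 2-subgroup Q, and let A be an abelian 2-subgroup of X such that every conjugate of A equals A or meets A trivially. Let B be the subgroup generated by the squares of the elements of A. Then B lies in Q, and if B is not an elementary abelian 2-group then the normal closure of B in X is commutative. -/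
theorem result {X : Type*} [Group X] [Finite X]
    (hX : Cfsg.generalizedFittingSubgroup X = Cfsg.pCore 2 X) (A : Subgroup X) (hA2 : IsPGroup 2 ↥A) (hAa : IsMulCommutative ↥A)
    (hti : ∀ h : X, A.map (MulAut.conj h).toMonoidHom = A ∨ A.map (MulAut.conj h).toMonoidHom ⊓ A = ⊥) :
    Subgroup.closure ((fun a : X => a ^ 2) '' (A : Set X)) ≤ Cfsg.pCore 2 X ∧
      (¬ Cfsg.IsElementaryAbelian 2 (Subgroup.closure ((fun a : X => a ^ 2) '' (A : Set X))) →
        IsMulCommutative ↥(Subgroup.normalClosure ((fun a : X => a ^ 2) '' (A : Set X)))) := by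
  have hG : IsCharP 2 (⊤ : Subgroup X) := isCharP_top_iff.2 (CF.Sig.fstar_eq_pCore_iff.1 hX)
  have hc := le_centralizer_of_comm hAa
  set B := closure ((fun a : X => a ^ 2) '' (A : Set X)) with hB
  have h1 : B ≤ pCore 2 X := (closure_le _).2 (by
    rintro _ ⟨a, ha, rfl⟩; exact sq_mem_pCore_of_ti hG hA2 hti hc ha)
  have hBA : B ≤ A := (closure_le _).2 (by rintro _ ⟨a, ha, rfl⟩; exact A.pow_mem ha 2)
  have hcB : B ≤ 𝐂(B) := hBA.trans (hc.trans (centralizer_anti hBA))
  refine ⟨h1, fun hn => ?_⟩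
  obtain ⟨b, hb, hb2⟩ := exists_sq_ne_one hcB hn
  have hN : 𝐍(A) ≤ 𝐍(B) := fun g hg => mem_normalizer_of_cj_le (by
    rw [hB, MonoidHom.map_closure]
    refine closure_mono ?_
    rintro _ ⟨_, ⟨a, ha, rfl⟩, rfl⟩
    exact ⟨_, conj_mem_of_mem_normalizer hg ha, by simp⟩)
  have ti : ∀ g : X, cj[g] B = B ∨ cj[g] B ⊓ B = ⊥ := fun g => (hti g).imp
    (fun e => cj_eq_self (hN (cj_eq_self_iff.1 e)))
    fun e => le_bot_iff.1 ((inf_le_inf (cj_mono g hBA) hBA).trans (le_of_eq e))
  have fam := commutator_eq_bot_of_family (isPGroup_pCore 2 X)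
    (Δ := Set.range fun g : X => cj[g] B)
    (by rintro s - _ ⟨g, rfl⟩; exact ⟨s * g, cj_mul _ _ _⟩)
    (by rintro _ ⟨g, rfl⟩; exact ⟨_, conj_mem_cj g hb, fun e => hb2 (by simpa using e)⟩)
    (by rintro _ ⟨g, rfl⟩ _ ⟨h, rfl⟩; simp only [card_cj])
    (by rintro _ ⟨g, rfl⟩ _ ⟨h, rfl⟩; exact ti_cj ti g h)
  have hle : ∀ g : X, cj[g] B ≤ pCore 2 X := fun g => (cj_mono g h1).trans (cj_normal g _).le
  have cc : ∀ g h : X, cj[g] B ≤ 𝐂(cj[h] B) := fun g h => by
    by_cases e : cj[g] B = cj[h] B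
    · rw [e, ← cj_centralizer]; exact cj_mono h hcB
    · exact commutator_eq_bot_iff_le_centralizer.1 (fam _ ⟨g, rfl⟩ _ ⟨h, rfl⟩ (hle g) (hle h) e)
  have hs : ∀ x ∈ Group.conjugatesOfSet ((fun a : X => a ^ 2) '' (A : Set X)),
      ∃ g : X, x ∈ cj[g] B := fun x hx => by
    obtain ⟨a, ha, h⟩ := Group.mem_conjugatesOfSet_iff.1 hx
    obtain ⟨g, rfl⟩ := isConj_iff.1 h
    exact ⟨g, conj_mem_cj g (subset_closure ha)⟩
  refine comm_of_le_centralizer ((closure_le _).2 fun x hx => ?_)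
  rw [normalClosure, centralizer_closure]
  intro y hy
  obtain ⟨g, hg⟩ := hs x hx
  obtain ⟨h, hh⟩ := hs y hy
  exact cc g h hg y hh

end Cfsg.Agent.S1783
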