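import Cfsg.Statements.S1784
import Cfsg.Agent.Even.Large

set_option autoImplicit false
open Cfsg

namespace Cfsg.Agent.S1784
open Subgroup CF.Loc CF.Even
open scoped commutatorElement Pointwise

/-- Let G be a finite group and let z be an involution of G such that Q, the generalized Fitting subgroup of the centralizer C of z, is a 2-group of symplectic type (every characteristic abelian subgroup of Q is cyclic); suppose Q is extraspecial, and view Q inside G. Let α be an involution of C that is not in Q, and let Q₀ be the subgroup of those q ∈ Q whose commutator with α lies in the subgroup generated by z. Then (a) the subgroup generated by the commutators α q α⁻¹ q⁻¹, q ∈ Q, equals the centre of Q₀; and (b) if Q₀ is not contained in the product of the centralizer of α in Q with the subgroup generated by z, then some element of Q conjugates α to α z. -/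
theorem result {G : Type*} [Group G] [Finite G] (z : G) (hz : orderOf z = 2) (hQ : Cfsg.IsOfSymplecticType ↥(Cfsg.generalizedFittingSubgroup ↥(Subgroup.centralizer ({z} : Set G)))) (hE : Cfsg.IsExtraspecial 2 ↥(Cfsg.generalizedFittingSubgroup ↥(Subgroup.centralizer ({z} : Set G))))
    (α : G) (hα : orderOf α = 2) (hαC : α ∈ Subgroup.centralizer ({z} : Set G)) (hαQ : α ∉ (Cfsg.generalizedFittingSubgroup ↥(Subgroup.centralizer ({z} : Set G))).map (Subgroup.centralizer ({z} : Set G)).subtype)
    (Q₀ : Subgroup G) (hQ₀ : ∀ q : G, q ∈ Q₀ ↔ (q ∈ (Cfsg.generalizedFittingSubgroup ↥(Subgroup.centralizer ({z} : Set G))).map (Subgroup.centralizer ({z} : Set G)).subtype ∧ α * q * α⁻¹ * q⁻¹ ∈ Subgroup.zpowers z)) :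
    Subgroup.closure ((fun q : G => α * q * α⁻¹ * q⁻¹) '' ((Cfsg.generalizedFittingSubgroup ↥(Subgroup.centralizer ({z} : Set G))).map (Subgroup.centralizer ({z} : Set G)).subtype : Set G)) = (Subgroup.center ↥Q₀).map Q₀.subtype ∧
      (¬ Q₀ ≤ ((Cfsg.generalizedFittingSubgroup ↥(Subgroup.centralizer ({z} : Set G))).map (Subgroup.centralizer ({z} : Set G)).subtype ⊓ Subgroup.centralizer ({α} : Set G)) ⊔ Subgroup.zpowers z →
        ∃ q ∈ (Cfsg.generalizedFittingSubgroup ↥(Subgroup.centralizer ({z} : Set G))).map (Subgroup.centralizer ({z} : Set G)).subtype, q * α * q⁻¹ = α * z) := by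
  obtain ⟨hc, e⟩ := fstar_map_eq hQ.1
  have hE' : IsExtraspecial 2 ↥((generalizedFittingSubgroup (centralizer ({z} : Set G))).map
      (centralizer ({z} : Set G)).subtype) :=
    isExtraspecial_of_equiv hE (equivMapOfInjective _ _ (subtype_injective _))
  rw [e] at hE' hαQ hQ₀ ⊢
  set Q := 𝐎[2](centralizer ({z} : Set G)) with hQ'
  obtain ⟨z', X, eZ⟩ := exists_xs hE'
  obtain rfl : z = z' := (X.uniq z (mem_pCoreOf_centralizer hz)
    (le_centralizer_singleton_iff.1 (pCoreOf_le _ _)) (mul_self_of_invol hz)).resolve_left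
    (ne_one_of_orderOf_eq hz)
  have hαN : α ∈ 𝐍(Q) := le_normalizer_pCoreOf _ _ hαC
  refine ⟨?_, fun h => ?_⟩
  · set W := closure ((fun q : G => α * q * α⁻¹ * q⁻¹) '' (Q : Set G)) with hW
    have gen : ∀ q ∈ Q, α * q * α⁻¹ * q⁻¹ ∈ W := fun q hq => Subgroup.subset_closure ⟨q, hq, rfl⟩
    have hWQ : W ≤ Q := (closure_le _).2 (by
      rintro _ ⟨q, hq, rfl⟩
      exact Q.mul_mem (conj_mem_of_mem_normalizer hαN hq) (Q.inv_mem hq))
    have hW' : W = ⁅zpowers α, Q⁆ := le_antisymm ((closure_le _).2 (by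
      rintro _ ⟨q, hq, rfl⟩; exact commutator_mem_commutator (mem_zpowers α) hq))
      (commutator_le.2 fun a ha q hq => by
        rcases (mem_zpowers_invol hα).1 ha with rfl | rfl
        · simp
        · exact gen q hq)
    have hle : Q₀ ≤ Q := fun x hx => ((hQ₀ x).1 hx).1
    have hZα : ⁅zpowers z, zpowers α⁆ = ⊥ := commutator_eq_bot_iff_le_centralizer'.2
      (zpowers_le.2 ((centralizer_zpowers z).ge hαC))
    have hZQ : ⁅zpowers z, Q⁆ = ⊥ := commutator_eq_bot_iff_le_centralizer.2 (zpowers_le.2 X.cent)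
    have eq₀ : Q₀ = Q ⊓ 𝐂(W) := by
      refine le_antisymm (le_inf hle (commutator_eq_bot_iff_le_centralizer'.1 ?_)) fun x hx => ?_
      · rw [hW']
        refine commutator_commutator_eq_bot_of_rotate
          (le_bot_iff.1 ((commutator_mono ((commutator_mono le_rfl hle).trans X.commutator_le)
            le_rfl).trans hZα.le)) (le_bot_iff.1 ((commutator_mono ?_ le_rfl).trans hZQ.le))
        refine commutator_le.2 fun x hx a ha => ?_
        rcases (mem_zpowers_invol hα).1 ha with rfl | rfl
        · simp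
        · simpa [commutatorElement_def, mul_assoc] using inv_mem ((hQ₀ x).1 hx).2
      · have := commutator_commutator_eq_bot_of_rotate (H₁ := Q ⊓ 𝐂(W)) (H₂ := zpowers α) (H₃ := Q)
          (hW' ▸ commutator_eq_bot_iff_le_centralizer'.2 inf_le_right)
          (le_bot_iff.1 ((commutator_mono ((commutator_mono le_rfl inf_le_left).trans
            X.commutator_le) le_rfl).trans hZα.le))
        have h2 := commutator_eq_bot_iff_le_centralizer.1 this
          (commutator_mem_commutator hx (mem_zpowers α))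
        refine (hQ₀ x).2 ⟨hx.1, eZ ▸ ⟨hWQ (gen x hx.1), ?_⟩⟩
        simpa [commutatorElement_def, mul_assoc] using inv_mem h2
    have hzW : Q ⊓ 𝐂(Q) ≤ W := by
      obtain ⟨x, hx, hx2⟩ := exists_orderOf_eq_of_isPGroup ((X.isPGroup.to_le hWQ).to_le inf_le_left)
        (inf_centralizer_ne_bot (X.isPGroup.to_le hWQ) X.isPGroup
          (hW' ▸ normalizer_commutator_ge_right _ _) fun b => hαQ (hc.le_pCoreOf
            (zpowers_le.2 hαC) (commutator_eq_bot_iff_le_centralizer.1 (hW' ▸ b)) (mem_zpowers α)))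
      rw [eZ, zpowers_le, ← (X.uniq x (hWQ hx.1) hx.2 (mul_self_of_invol hx2)).resolve_left
        (ne_one_of_orderOf_eq hx2)]
      exact hx.1
    have dd := inf_centralizer_inf_centralizer hE' hzW hWQ
    rw [← eq₀] at dd
    rw [CF.Sig.map_center_subtype]
    refine le_antisymm (le_inf ((closure_le _).2 ?_) (dd.ge.trans inf_le_right))
      ((inf_le_inf_right _ hle).trans dd.le)
    rintro _ ⟨q, hq, rfl⟩
    refine (hQ₀ _).2 ⟨hWQ (gen q hq), ?_⟩
    have := inv_mem (X.sq_mem (hWQ (gen q hq)))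
    convert this using 1
    calc _ = (α * α) * q * α⁻¹ * q⁻¹ * α⁻¹ * (α * q * α⁻¹ * q⁻¹)⁻¹ := by group
      _ = q * α⁻¹⁻¹ * q⁻¹ * α⁻¹ * (α * q * α⁻¹ * q⁻¹)⁻¹ := by
        rw [mul_self_of_invol hα, one_mul, inv_inv, inv_of_invol hα]
      _ = _ := by group
  · obtain ⟨q, hq, hn⟩ := SetLike.not_le_iff_exists.1 h
    obtain ⟨h1, h2⟩ := (hQ₀ q).1 hq
    refine ⟨q, h1, ?_⟩
    rcases (mem_zpowers_invol hz).1 h2 with f | f
    · exact (hn (mem_sup_left ⟨h1, mem_centralizer_singleton_iff.2
        (commutatorElement_eq_one_iff_mul_comm.1 f).symm⟩)).elim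
    · calc q * α * q⁻¹ = α⁻¹ * (α * q * α⁻¹⁻¹ * q⁻¹) := by group
        _ = α * z := by rw [← f, inv_of_invol hα, inv_of_invol hα]

end Cfsg.Agent.S1784
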