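import Cfsg.Statements.S1786
import Cfsg.Agent.RI.GF
import Cfsg.Agent.Sig.FStar

set_option autoImplicit false
open Cfsg

namespace Cfsg.Agent.S1786

/-- Let G be a finite group, V an elementary abelian 2-subgroup of G and M the normalizer of V; write Q for the largest normal 2-subgroup of M. Suppose (1) the generalized Fitting subgroup of M equals Q; (2) V is a maximal abelian normal subgroup of M; (3) every conjugate of V equals V or meets V trivially, and for some g ∈ G the conjugate V' = g V g⁻¹ is different from V and contained in Q. Let P be the centralizer of V in Q, W the subgroup generated by V and V', and H the subgroup generated by P and g P g⁻¹. Then: (a) V is contained in g Q g⁻¹; (b) every non-identity element of W lies in exactly one conjugate of V contained in W, H normalizes W, and H modulo the centralizer of W in H is isomorphic to the special linear group of dimension 2 over the field with |V| elements; (c) P = Q, and V equals the Frattini subgroup, the centre and the commutator subgroup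 of Q. -/
theorem result {G : Type*} [Group G] [Finite G] (V : Subgroup G)
    (hV : Cfsg.IsElementaryAbelian 2 V)
    (h1 : (Cfsg.generalizedFittingSubgroup ↥(Subgroup.normalizer (V : Set G))).map (Subgroup.normalizer (V : Set G)).subtype =
      (Cfsg.pCore 2 ↥(Subgroup.normalizer (V : Set G))).map (Subgroup.normalizer (V : Set G)).subtype)
    (h2 : ∀ A : Subgroup G, V ≤ A → A ≤ Subgroup.normalizer (V : Set G) → IsMulCommutative ↥A →
      (∀ m ∈ Subgroup.normalizer (V : Set G), ∀ a ∈ A, m * a * m⁻¹ ∈ A) → A = V)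
    (hti : ∀ x : G, V.map (MulAut.conj x).toMonoidHom = V ∨ V.map (MulAut.conj x).toMonoidHom ⊓ V = ⊥)
    (g : G) (hg : V.map (MulAut.conj g).toMonoidHom ≠ V)
    (hgQ : V.map (MulAut.conj g).toMonoidHom ≤ (Cfsg.pCore 2 ↥(Subgroup.normalizer (V : Set G))).map (Subgroup.normalizer (V : Set G)).subtype) :
    let Q : Subgroup G := (Cfsg.pCore 2 ↥(Subgroup.normalizer (V : Set G))).map (Subgroup.normalizer (V : Set G)).subtype
    let P : Subgroup G := Q ⊓ Subgroup.centralizer (V : Set G)
    let W : Subgroup G := V ⊔ V.map (MulAut.conj g).toMonoidHom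
    let H : Subgroup G := P ⊔ P.map (MulAut.conj g).toMonoidHom
    V ≤ Q.map (MulAut.conj g).toMonoidHom ∧
      (∀ w ∈ W, w ≠ 1 → ∃! U : Subgroup G, (∃ x : G, U = V.map (MulAut.conj x).toMonoidHom) ∧ U ≤ W ∧ w ∈ U) ∧
      H ≤ Subgroup.normalizer (W : Set G) ∧
      (∀ hN : ((Subgroup.centralizer (W : Set G)).subgroupOf H).Normal, ∃ (F : Type) (_ : Field F) (_ : Fintype F), Fintype.card F = Nat.card ↥V ∧
        Nonempty (↥H ⧸ (Subgroup.centralizer (W : Set G)).subgroupOf H ≃* Matrix.SpecialLinearGroup (Fin 2) F)) ∧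
      P = Q ∧ (frattini ↥Q).map Q.subtype = V ∧ (Subgroup.center ↥Q).map Q.subtype = V ∧ (commutator ↥Q).map Q.subtype = V := by
  open CF.BG CF.Rt.GF Subgroup in
  have eQ := map_pCore Nat.prime_two (𝐍 V)
  have tv : TV V := ⟨.of_isEA Nat.prime_two hV, fun x hx => by
      show x ∈ 𝐎 {2} (𝐍 V)
      rw [← eQ, ← h1]
      refine ⟨⟨x, hx.1⟩, CF.Sig.centralizer_fstar_le fun y hy => Subtype.ext (mem_cent.1 hx.2 y ?_), rfl⟩
      show (y : G) ∈ 𝐎 {2} (𝐍 V)
      rw [← eQ, ← h1]
      exact ⟨y, hy, rfl⟩,
    fun A a n b => h2 A a n.le (Subgroup.le_centralizer_iff_isMulCommutative.1 b) fun m hm x hx => n.conj_mem hm hx,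
    fun k v hv n e => cj_eq_self.1 ((hti k).resolve_right fun b =>
      n (by simpa using (b.le ⟨(conj_mem_cj.2 hv : _ ∈ cj k V), e⟩ : k * v * k⁻¹ = 1)))⟩
  rw [eQ] at hgQ
  have h : Arr V (cj g V) := ⟨tv, conj_cj V g, hg, hgQ⟩
  rw [eQ]
  intro Q P W H
  have eH : H = PP V ⊔ PP (cj g V) := congrArg (PP V ⊔ ·) (cj_PP g V)
  have eP : Q = PP V := h.P_eq.symm
  clear_value H
  subst eH
  refine ⟨h.symm_le.trans (cj_QQ g V).ge, fun w hw n => ?_, h.nH, fun k => @Arr.sl2 _ _ _ _ _ h k, h.P_eq, ?_, ?_, ?_⟩
  · have := h.uniq hw n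
    simp only [Conj, eq_comm] at this ⊢
    exact this
  all_goals clear_value Q; subst eP
  · exact h.Phi_eq
  · rw [center_map_subtype, h.Z_eq]
  · rw [_root_.commutator_def, map_commutator, map_top_subtype, h.der_eq]

end Cfsg.Agent.S1786
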