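import Cfsg.Statements.S1824
import Cfsg.Agent.QT.Qrc2

set_option autoImplicit false
open Cfsg

namespace Cfsg.Agent.S1824

open CF.Loc CF.QT Subgroup in

/-- The qrc-lemma in the form used for simple QTKE-groups. Let G be a non-abelian finite simple QTKE-group, T a Sylow 2-subgroup of G and M a maximal 2-local subgroup of G containing T. Let T ≤ M₀ ≤ M, let H be a minimal member of the set of subgroups of G with nontrivial 2-core that contain T and are not contained in M, and let V be a 2-reduced elementary abelian normal 2-subgroup of M₀ with O₂(M₀) = C_T(V). Suppose H ∩ M normalizes O²(M₀) or normalizes V. Then one of the following holds: (1) some nontrivial subgroup of O₂(M₀) is normalized by both M₀ and H; (2) V ≰ O₂(H) and q̂(M₀/C_{M₀}(V), V) ≤ 2; (3) q(M₀/C_{M₀}(V), V) ≤ 2. Here q (resp. q̂) ≤ 2 means that some subgroup of M₀ inducing a nontrivial elementary abelian 2-group A on V acts quadratically (resp.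 cubically) on V with |V : C_V(A)| ≤ |A|². -/
theorem result {G : Type*} [Group G] [Finite G] [IsSimpleGroup G]
    (hG : ¬ IsMulCommutative G) (hQ : Cfsg.IsQTKE G) (T : Sylow 2 G) (M M₀ H V : Subgroup G)
    (hM : M ∈ Cfsg.maxTwoLocalsContaining (T : Subgroup G))
    (hTM₀ : (T : Subgroup G) ≤ M₀) (hM₀M : M₀ ≤ M) (hH : H ∈ Cfsg.calHMin (T : Subgroup G) M)
    (hV : V ∈ Cfsg.calR2 M₀)
    (hR : (Cfsg.pCore 2 ↥M₀).map M₀.subtype = (T : Subgroup G) ⊓ Subgroup.centralizer (V : Set G))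
    (hI : H ⊓ M ≤ Subgroup.normalizer (Cfsg.oddGenerated M₀ : Set G) ∨
      H ⊓ M ≤ Subgroup.normalizer (V : Set G)) :
    (∃ R₀ : Subgroup G, R₀ ≠ ⊥ ∧ R₀ ≤ (Cfsg.pCore 2 ↥M₀).map M₀.subtype ∧
        M₀ ⊔ H ≤ Subgroup.normalizer (R₀ : Set G)) ∨
      (¬ V ≤ (Cfsg.pCore 2 ↥H).map H.subtype ∧ Cfsg.CubicParamLE M₀ V 2) ∨
      Cfsg.QuadParamLE M₀ V 2 := by
  have k : ∀ B, Of3 V B → InducesElemAbelianTwoGroupOn B V ∧
      (V ⊓ centralizer (B : Set G)).relIndex V ≤ (centralizer (V : Set G)).relIndex B ^ 2 := fun B h =>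
    ⟨⟨h.nt, h.sq, fun b hb c hc => h.cm (commutator_mem_commutator hb hc)⟩, by rw [inf_relIndex_left]; exact h.card⟩
  obtain ⟨P, p1, p2, p3⟩ := hM.1.1
  rw [odd_eq] at hI
  refine (qrc (parChar_of_even hQ.2.2) (isSyl_top T) (pCoreOf_ne_bot_of_normal p1 p2 (p3 ▸ le_normalizer) p3.le) hTM₀ hM₀M
    (mt pCoreOf_eq_bot_iff.1 hH.1.1.1) (uMax_of_min (isSyl_top T) hM.2 hH) hV.2.2.1 hV.1 hV.2.1 hR hI).imp_right
      (Or.imp (fun ⟨a, B, b, c⟩ => ⟨a, B, b.trans hTM₀, (k B c).1, c.cub, (k B c).2⟩)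
        fun ⟨B, b, c⟩ => ⟨B, b.trans hTM₀, (k B c.1).1, c.2, (k B c.1).2⟩)

end Cfsg.Agent.S1824
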