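import Cfsg.Statements.S1850
import Cfsg.Agent.Even.TI

set_option autoImplicit false
open Cfsg

namespace Cfsg.Agent.S1850
open Subgroup CF.Loc CF.Even
open scoped commutatorElement Pointwise

/-- Let G be a non-abelian finite simple QTKE-group and T a Sylow 2-subgroup of G. If U is a nontrivial 2-subgroup of G with U ∩ Z(T) ≠ 1, then F*(N_G(U)) = O₂(N_G(U)). -/
theorem result {G : Type*} [Group G] [Finite G] [IsSimpleGroup G]
    (hG : ¬ IsMulCommutative G) (hQ : Cfsg.IsQTKE G) (T : Sylow 2 G) (U : Subgroup G)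
    (hU : IsPGroup 2 ↥U) (hZ : U ⊓ ((T : Subgroup G) ⊓ Subgroup.centralizer ((T : Subgroup G) : Set G)) ≠ ⊥) :
    Subgroup.normalizer (U : Set G) ∈ Cfsg.calHe G := by
  obtain ⟨z, hz, hz2⟩ := exists_orderOf_eq_of_isPGroup (hU.to_le inf_le_left) hZ
  have hz1 := ne_one_of_orderOf_eq hz2
  have hN : IsCharP 2 𝐍(zpowers z) := isCharP_iff.2 (hQ.2.2 _
    ⟨_, isPGroup_zpowers_of_prime hz2, by simpa using hz1, rfl⟩
    ⟨T, (le_centralizer_comm.1 (zpowers_le.2 hz.2.2)).trans (centralizer_le_normalizer _)⟩)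
  refine isCharP_iff_fstar.1 ?_
  by_contra hn
  obtain ⟨M, ⟨h1, h2, h3⟩, hM⟩ := exists_max_card (L := U)
    (fun K => z ∈ K ∧ K ≤ U ∧ IsCharP 2 𝐍(K)) (fun K hK => hK.2.1) (K₀ := zpowers z)
    ⟨mem_zpowers z, zpowers_le.2 hz.1, hN⟩ (fun K => Nat.card K)
  have hlt := lt_inf_normalizer hU (lt_of_le_of_ne h2 fun e => hn (e ▸ h3))
  exact absurd (hM _ ⟨hlt.le h1, inf_le_left, h3.normalizer_of_le (hU.to_le inf_le_left)
    inf_le_right (centralizer_le_normalizer_of_le hlt.le)⟩) (not_le.2 (card_lt_card_of_lt hlt))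

end Cfsg.Agent.S1850
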