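import Cfsg.Statements.S1957
import Cfsg.Agent.Even.Large
import Cfsg.Agent.Coprime.Abelian

set_option autoImplicit false
open Cfsg

namespace Cfsg.Agent.S1957
open Subgroup CF.Loc CF.Even
open scoped commutatorElement Pointwise
theorem key {G : Type*} [Group G] [Finite G] {U S : Subgroup G} {u : G} (hU4 : IsKleinFour U)
    (hu : u ∈ U) (h1 : u ≠ 1) (hc : IsCharP 2 (centralizer ({u} : Set G)))
    (hS : IsSyl 2 S (centralizer ({u} : Set G))) (hn : S ≤ 𝐍(U)) :
    U ≤ 𝐎[2](centralizer ({u} : Set G)) := by
  have hu2 := CF.Invol.klein_orderOf hU4 hu h1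
  have hUC : U ≤ centralizer ({u} : Set G) := fun x hx =>
    mem_centralizer_singleton_iff.2 (CF.Invol.klein_commute hU4 hx hu)
  have hn' : centralizer ({u} : Set G) ≤ 𝐍(zpowers u) :=
    (centralizer_zpowers u).ge.trans (centralizer_le_normalizer _)
  refine le_trans (le_inf hUC (le_secCent_iff.2 ⟨hUC.trans hn', commutator_le.2 fun q hq x hx => ?_⟩))
    (le_pCoreOf (Q := centralizer {u} ⊓ secCent 𝐎[2](centralizer ({u} : Set G)) (zpowers u))
    (hc.isPGroup_of_chain inf_le_left (A := zpowers u) (B := ⊥)
      ((commutator_mono le_rfl inf_le_right).trans (commutator_secCent_le _ _))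
      (commutator_eq_bot_iff_le_centralizer'.2 (inf_le_left.trans (centralizer_zpowers u).ge)).le
      (commutator_bot_left _)) inf_le_left
    (le_normalizer_inf le_normalizer (le_normalizer_secCent (le_normalizer_pCoreOf _ _) hn')))
  have hqu := conj_eq_of_mem_centralizer_singleton (pCoreOf_le _ _ hq)
  have hx' := conj_mem_of_mem_normalizer (hn (hS.pCoreOf_le hq)) hx
  by_cases a : x = 1
  · simp [a]
  by_cases b : x = u
  · simp [commutatorElement_def, b, hqu]
  rcases (CF.Invol.klein_mem_iff hU4 hu hx h1 a (Ne.symm b)).1 hx' with e | e | e | e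
  · exact (a (by simpa using e)).elim
  · exact (b (by simpa using e.trans hqu.symm)).elim
  · simp [commutatorElement_def, e]
  · simp [commutatorElement_def, e]

/-- Let `G` be a finite non-abelian simple group in which every local subgroup is solvable and which is of characteristic 2 type. Let `P` be a Sylow 2-subgroup of `G` and `U` a normal subgroup of `P` that is a four-group, with `U` central in `P` if the centre of `P` is not cyclic. Then `U` centralizes every subgroup of odd order of `G` that it normalizes. -/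
theorem result {G : Type*} [Group G] [Finite G]
    [IsSimpleGroup G] (hna : ¬ IsMulCommutative G) (hN : Cfsg.IsNGroup G) (h2 : Cfsg.IsCharacteristicTwoType G)
    (P : Sylow 2 G) (U : Subgroup G) (hUP : U ≤ (P : Subgroup G)) (hUn : (P : Subgroup G) ≤ Subgroup.normalizer (U : Set G))
    (hU4 : IsKleinFour ↥U)
    (hUZ : ¬ IsCyclic ↥((P : Subgroup G) ⊓ Subgroup.centralizer ((P : Subgroup G) : Set G)) →
      U ≤ Subgroup.centralizer ((P : Subgroup G) : Set G))
    (K : Subgroup G) (hK : Odd (Nat.card K)) (hUK : U ≤ Subgroup.normalizer (K : Set G)) :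
    U ≤ Subgroup.centralizer (K : Set G) := by
  have hUU := CF.Invol.klein_le_centralizer hU4
  have hU2 := CF.Invol.klein_isPGroup hU4
  have hP2 : IsPGroup 2 (P : Subgroup G) := P.isPGroup'
  have main : ∀ u ∈ U, u ≠ 1 → U ≤ 𝐎[2](centralizer ({u} : Set G)) := fun u hu h1 => by
    have hu2 := CF.Invol.klein_orderOf hU4 hu h1
    have hc : IsCharP 2 (centralizer ({u} : Set G)) := by
      have := isCharP_iff.2 (h2.2 _ (isPGroup_zpowers_of_prime hu2) (by simpa using h1))
      exact centralizer_zpowers u ▸ this.of_normal (centralizer_le_normalizer _)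
        (normalizer_le_normalizer_centralizer _)
    by_cases hz : u ∈ 𝐂((P : Subgroup G))
    · exact key hU4 hu h1 hc (isSyl_of_le P (le_centralizer_singleton_iff.2 hz)) hUn
    have hcyc : IsCyclic ↥((P : Subgroup G) ⊓ 𝐂((P : Subgroup G))) := by_contra fun h => hz (hUZ h hu)
    obtain ⟨z, hz1, hz2⟩ := exists_orderOf_eq_of_isPGroup (hU2.to_le inf_le_left)
      (inf_centralizer_ne_bot hU2 hP2 hUn fun e => h1 (mem_bot.1 (e ▸ hu)))
    have z1 := ne_one_of_orderOf_eq hz2
    have zu : z ≠ u := fun e => hz (e ▸ hz1.2)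
    have memU : ∀ {x}, x ∈ U ↔ x = 1 ∨ x = z ∨ x = u ∨ x = z * u :=
      CF.Invol.klein_mem_iff hU4 hz1.1 hu z1 h1 zu
    -- elements of `P` fix `u` or send it to `z u`
    have cu : ∀ y ∈ (P : Subgroup G), y * u * y⁻¹ = u ∨ y * u * y⁻¹ = z * u := fun y hy => by
      have a := conj_eq_of_mem_centralizer (le_centralizer_comm.1 (zpowers_le.2 hz1.2) hy)
        (mem_zpowers z)
      rcases memU.1 (conj_mem_of_mem_normalizer (hUn hy) hu) with e | e | e | e
      · exact (h1 (by simpa using e)).elim
      · exact (zu (by simpa using a.trans e.symm)).elim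
      · exact .inl e
      · exact .inr e
    obtain ⟨y, hy, hyu⟩ : ∃ y ∈ (P : Subgroup G), y * u * y⁻¹ = z * u := by
      by_contra hc; push Not at hc
      exact hz (mem_centralizer_iff.2 fun y hy =>
        mul_inv_eq_iff_eq_mul.1 ((cu y hy).resolve_right (hc y hy)))
    set T := (P : Subgroup G) ⊓ centralizer ({u} : Set G) with hT
    have cosP : ∀ x ∈ (P : Subgroup G), x ∈ T ∨ y⁻¹ * x ∈ T := fun x hx =>
      (cu x hx).imp (fun e => ⟨hx, mem_centralizer_singleton_of_conj e⟩) fun e =>
        ⟨(P : Subgroup G).mul_mem (inv_mem hy) hx, mem_centralizer_singleton_of_conj (by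
          calc _ = y⁻¹ * (x * u * x⁻¹) * y := by group
            _ = u := by rw [e, ← hyu]; group)⟩
    have hUT : U ≤ T := le_inf hUP fun x hx =>
      mem_centralizer_singleton_iff.2 (CF.Invol.klein_commute hU4 hx hu)
    have hUc : U ≤ 𝐂(T) := fun x hx => by
      have a : z ∈ 𝐂(T) := centralizer_anti inf_le_left hz1.2
      have b : u ∈ 𝐂(T) := le_centralizer_singleton_iff.1 inf_le_right
      rcases memU.1 hx with rfl | rfl | rfl | rfl
      exacts [one_mem _, a, b, mul_mem a b]
    have hTn : (P : Subgroup G) ≤ 𝐍(T) := by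
      have : T = (P : Subgroup G) ⊓ 𝐂(U) := le_antisymm (le_inf inf_le_left
        (le_centralizer_comm.1 hUc)) (inf_le_inf_left _ fun x hx =>
          mem_centralizer_singleton_iff.2 (hx u hu).symm)
      rw [this]; exact le_normalizer_inf le_normalizer (le_normalizer_centralizer hUn)
    have fixed : ∀ v ∈ omegaOneCenter 2 T, y * v * y⁻¹ = v → v = 1 ∨ v = z := fun v hv e => by
      obtain ⟨a, b, c⟩ := mem_omegaOneCenter.1 hv
      refine or_iff_not_imp_left.2 fun d => CF.Invol.eq_of_invol_of_isCyclic hcyc
        ⟨a.1, mem_centralizer_iff.2 fun x hx => ?_⟩ ⟨hUP hz1.1, hz1.2⟩ (orderOf_eq_prime c d) hz2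
      rcases cosP x hx with f | f
      · exact b x f
      · calc x * v = y * (y⁻¹ * x * v) := by group
          _ = y * v * y⁻¹ * x := by rw [b _ f]; group
          _ = v * x := by rw [e]
    have hyy : y * y ∈ T := (cosP _ (mul_mem hy hy)).resolve_right fun e => z1 (by
      have := conj_eq_of_mem_centralizer_singleton e.2
      rw [inv_mul_cancel_left, hyu] at this; simpa using this)
    have hΩ : omegaOneCenter 2 T = U := by
      refine le_antisymm (fun v hv => ?_) (le_omegaOneCenter
        (isElementaryAbelian_iff.2 ⟨hUU, fun x hx => by rw [sq, CF.Invol.klein_mul_self hU4 hx]⟩)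
        hUT hUc)
      have el := isElemAb_omegaOneCenter 2 T
      have hv' := conj_mem_of_mem_normalizer (normalizer_le_normalizer_omegaOneCenter 2 T (hTn hy)) hv
      have hu' : u ∈ omegaOneCenter 2 T :=
        mem_omegaOneCenter.2 ⟨hUT hu, hUc hu, by rw [← hu2, pow_orderOf_eq_one]⟩
      have e1 : y * (y * v * y⁻¹ * v) * y⁻¹ = y * v * y⁻¹ * v := by
        calc _ = (y * y * v * (y * y)⁻¹) * (y * v * y⁻¹) := by group
          _ = _ := by
            rw [conj_eq_of_mem_centralizer (le_centralizer_omegaOneCenter 2 T hyy) hv,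
              comm_of_elemAb el hv hv']
      have vv := mul_self_of_elemAb el hv
      rcases fixed _ (mul_mem hv' hv) e1 with f | f
      · rcases fixed v hv (by rw [eq_inv_of_mul_eq_one_left f, inv_eq_of_mul_eq_one_left vv])
          with rfl | rfl
        exacts [one_mem _, hz1.1]
      · have : y * (v * u) * y⁻¹ = v * u := by
          calc _ = (y * v * y⁻¹ * v) * v⁻¹ * (y * u * y⁻¹) := by group
            _ = (z * v⁻¹ * z⁻¹) * (z * z) * u := by rw [f, hyu]; group
            _ = v * u := by
              rw [mul_self_of_invol hz2, inv_eq_of_mul_eq_one_left vv, mul_one,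
                conj_eq_of_mem_centralizer (le_centralizer_omegaOneCenter 2 T (hUT hz1.1)) hv]
        have h3 : v * u ∈ U := by
          rcases fixed _ (mul_mem hv hu') this with f | f <;> rw [f]
          exacts [one_mem _, hz1.1]
        simpa using U.mul_mem h3 (U.inv_mem hu)
    obtain ⟨S, hS, hTS⟩ := exists_isSyl_ge (hP2.to_le inf_le_left) (inf_le_right (a := (P : Subgroup G))
      (b := centralizer ({u} : Set G)))
    refine key hU4 hu h1 hc hS (hΩ ▸ le_trans ?_ (normalizer_le_normalizer_omegaOneCenter 2 T))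
    have i2 : T.relIndex P = 2 := relIndex_eq_two_iff_exists_notMem_and'.2 ⟨y⁻¹, inv_mem hy,
      fun e => z1 (by
        have := conj_eq_of_mem_centralizer_singleton (inv_mem e).2
        rw [inv_inv, hyu] at this; simpa using this), fun b hb => (cosP b hb).symm⟩
    have c1 := card_mul_relIndex (inf_le_left : T ≤ P)
    have c2 := card_mul_relIndex hTS
    have c3 := (isSyl_top P).card_le hS.isPGroup le_top
    rw [← c1, ← c2, i2] at c3
    have c4 : T.relIndex S ≤ 2 := Nat.le_of_mul_le_mul_left c3 Nat.card_pos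
    have c5 : T.relIndex S ≠ 0 := index_ne_zero_of_finite
    by_cases c6 : T.relIndex S = 1
    · exact (relIndex_eq_one.1 c6).trans le_normalizer
    · exact le_normalizer_of_subgroupOf_normal hTS (normal_of_index_eq_two (by
        change T.relIndex S = 2; omega))
  have := comm_of_le_centralizer hUU
  refine le_centralizer_comm.1 (CF.Coprime.le_of_forall_centralizer_le U K
    (CF.Invol.klein_not_isCyclic hU4) hUK (by
      rw [hU4.card_four]; exact Nat.Coprime.pow_left 2 (Nat.coprime_two_left.2 hK)) _
    fun a ha h1 x hx => mem_centralizer_iff.2 fun v hv => ?_)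
  have : v * x * v⁻¹ * x⁻¹ ∈ 𝐎[2](centralizer ({a} : Set G)) ⊓ K :=
    ⟨by simpa [mul_assoc] using mul_mem (main a ha h1 hv) (conj_mem_of_mem_normalizer
      (le_normalizer_pCoreOf _ _ hx.2) (inv_mem (main a ha h1 hv))),
      K.mul_mem (conj_mem_of_mem_normalizer (hUK hv) hx.1) (K.inv_mem hx.1)⟩
  rw [inf_eq_bot_of_coprime_card (isPGroup_pCoreOf _ _) (Nat.coprime_two_right.2 hK), mem_bot] at this
  exact commutatorElement_eq_one_iff_mul_comm.1 this

end Cfsg.Agent.S1957
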