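import Cfsg.Statements.S1966
import Cfsg.Agent.Transfer.Functor2

set_option autoImplicit false
open Cfsg

namespace Cfsg.Agent.S1966

/-- Let p be a prime, G a finite group with Sylow p-subgroup S and 𝓕 a conjugation family for S in G. Then the members of 𝓕 containing O_p(G) still form a conjugation family for S in G. -/
theorem result {G : Type*} [Group G] [Finite G] {p : ℕ} [Fact p.Prime] (S : Sylow p G) (𝓕 : Set (Subgroup G)) (h : Cfsg.IsConjugationFamily 𝓕 (S : Subgroup G)) : Cfsg.IsConjugationFamily {T : Subgroup G | T ∈ 𝓕 ∧ Cfsg.pCore p G ≤ T} (S : Subgroup G) := by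
  open CF.Transfer Subgroup in
  rw [isConjugationFamily_iff] at h ⊢
  refine ⟨fun T hT => h.1 T hT.1, fun A g hA hAS hgA => ?_⟩
  have hQ := CF.Solv.pCore_le_sylow S
  have hn : ∀ x a : G, a ∈ Cfsg.pCore p G → x⁻¹ * a * x ∈ Cfsg.pCore p G := fun x a ha => by
    simpa using Normal.conj_mem inferInstance a ha x⁻¹
  have h1 := h.2 (A ∪ Cfsg.pCore p G) g hA.inl (Set.union_subset hAS hQ) (by
    rw [Set.image_union]
    refine Set.union_subset hgA ?_
    rintro _ ⟨a, ha, rfl⟩
    exact hQ (hn g a ha))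
  have h2 : ∀ (B : Set G) (g : G), Chain (fun T : Subgroup G => (T : Set G))
      (fun T x => T ∈ 𝓕 ∧ x ∈ normalizer (T : Set G)) B g → (Cfsg.pCore p G : Set G) ⊆ B →
      Chain (fun T : Subgroup G => (T : Set G))
        (fun T x => T ∈ {T : Subgroup G | T ∈ 𝓕 ∧ Cfsg.pCore p G ≤ T} ∧ x ∈ normalizer (T : Set G)) B g := by
    intro B g hc
    induction hc with
    | nil B => exact fun _ => Chain.nil B
    | cons B T x g hx hB _ ih =>
      intro hQB
      refine Chain.cons B T x g ⟨⟨hx.1, hQB.trans hB⟩, hx.2⟩ hB (ih fun a ha => ?_)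
      exact ⟨x * a * x⁻¹, hQB (Normal.conj_mem inferInstance a ha x), by group⟩
  exact (h2 _ g h1 Set.subset_union_right).mono Set.subset_union_left

end Cfsg.Agent.S1966
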