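import Cfsg.Statements.S1992
import Cfsg.Agent.Transfer.KInf3
import Cfsg.Agent.Char.Integral

set_option autoImplicit false
open Cfsg

namespace Cfsg.Agent.S1992

/-- Let G be a finite group in which, for every prime q dividing the order of G, every Sylow q-subgroup is its own normalizer. Then the order of G is a power of a single prime (G is a q-group for some prime q; for G trivial any prime works). -/
theorem result {G : Type*} [Group G] [Finite G] (h : ∀ q : ℕ, q.Prime → q ∣ Nat.card G → ∀ Q : Sylow q G, Subgroup.normalizer ((Q : Subgroup G) : Set G) = Q) : ∃ q : ℕ, q.Prime ∧ IsPGroup q G := by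
  open CF.Transfer Subgroup in
  have key : ∀ (N : Subgroup G) [N.Normal], N.index.Prime → ∃ q : ℕ, q.Prime ∧ IsPGroup q G := by
    intro N _ hp
    have := Fact.mk hp
    refine ⟨N.index, hp, IsPGroup.iff_card.2 ⟨_, Nat.eq_prime_pow_of_unique_prime_dvd
      Nat.card_pos.ne' fun {q} hq hd => ?_⟩⟩
    by_contra hne
    have := Fact.mk hq
    let Q : Sylow q G := default
    have hQ : (Q : Subgroup G) ≤ N := by
      refine le_trans (fun x hx => ?_) (pResidual_le_of_index (p := N.index) (k := 1) (pow_one _).symm)
      obtain ⟨k, hk⟩ := orderOf_eq_pow_of_mem Q.isPGroup' hx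
      exact mem_pResidual_of_coprime (hk ▸ ((Nat.coprime_primes hq hp).2 hne).pow_left k)
    have h1 : N = ⊤ := by
      rw [eq_top_iff]
      intro g _
      obtain ⟨n, hn, y, hy, rfl⟩ := (isSylowIn_of_le Q hQ).frattini (h := g)
        (le_normalizer_of_normal (mem_top g))
      rw [h q hq hd Q] at hy
      exact N.mul_mem hn (hQ hy)
    rw [h1, index_top] at hp
    exact Nat.not_prime_one hp
  by_cases h5 : ∃ p : ℕ, p.Prime ∧ 5 ≤ p ∧ p ∣ Nat.card G
  · obtain ⟨p, hp, hp5, hd⟩ := h5
    have := Fact.mk hp
    let S : Sylow p G := default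
    obtain ⟨N, hN, hi⟩ := exists_normal_index_of_five_le hp5 S (S.ne_bot_of_dvd_card hd)
      fun g hg hc => by
        rw [h p hp hd S] at hg
        rw [eq_one_of_mem_pGroup_of_coprime S.isPGroup' hg hc]
        exact one_mem _
    exact key N (hi ▸ hp)
  · obtain ⟨a, m, hm, e1⟩ := Nat.exists_eq_pow_mul_and_not_dvd (Nat.card_pos (α := G)).ne' 2 (by norm_num)
    obtain ⟨b, k, hk, e2⟩ := Nat.exists_eq_pow_mul_and_not_dvd (n := m) (by rintro rfl; simp at hm) 3
      (by norm_num)
    have hk1 : k = 1 := by
      by_contra hk1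
      have h1 := Nat.minFac_prime hk1
      have h2 := Nat.minFac_dvd k
      refine h5 ⟨_, h1, ?_, e1 ▸ e2 ▸ (h2.mul_left _).mul_left _⟩
      have h3 := h1.two_le
      generalize k.minFac = r at *
      by_contra h4
      have h6 : r < 5 := by omega
      interval_cases r
      · exact hm (e2 ▸ h2.mul_left _)
      · exact hk h2
      · norm_num at h1
    rw [hk1, mul_one] at e2
    have := CF.Char.burnside_paqb Nat.prime_two Nat.prime_three (e2 ▸ e1)
    rcases subsingleton_or_nontrivial G with hG | hG
    · exact ⟨2, Nat.prime_two, fun g => ⟨0, Subsingleton.elim _ _⟩⟩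
    · obtain ⟨M, hM, hle⟩ := CF.Solv.exists_isCoatom_ge
        (Group.IsSolvable.commutator_lt_top_of_nontrivial G).ne
      have : M.Normal := Subgroup.Normal.of_commutator_le G hle
      exact key M (CF.Solv.index_prime_of_isCoatom_of_normal hM)

end Cfsg.Agent.S1992
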