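import Cfsg.Statements.S1997
import Cfsg.Agent.Transfer.Section2
import Cfsg.Agent.Loc.Core

set_option autoImplicit false
universe u
open Cfsg

namespace Cfsg.Agent.S1997

/-- Let p be a prime, G a finite group with Sylow p-subgroup S, and W₁, W₂ two isomorphism-invariant p-group functors (W assigns to every group Q a subgroup W(Q), nontrivial whenever Q is a nontrivial finite p-group, and every isomorphism from a finite p-group Q onto a group R carries W(Q) onto W(R)). Suppose that G* = C_{G*}(Ω₁Z(S*)) N_{G*}(W₁(S*)) = C_{G*}(Ω₁Z(S*)) N_{G*}(W₂(S*)) = N_{G*}(W₁(S*)) N_{G*}(W₂(S*)) whenever G* = K/R is a section of G with C_{G*}(O_p(G*)) ≤ O_p(G*) and S* is a Sylow p-subgroup of G*, where Ω₁Z denotes the subgroup generated by the elements of order dividing p in the centre. Suppose also Ω₁Z(S) ≤ W₁(S) ∩ W₂(S), and let A be the normal closure of Ω₁Z(S) in N_G(W₁(S)). Then A is an elementary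 abelian subgroup of S, strongly closed in S with respect to G, and A controls strong fusion in G. -/
theorem result {G : Type u} [Group G] [Finite G] {p : ℕ} [Fact p.Prime] (S : Sylow p G) (W₁ W₂ : ∀ (Q : Type u) [Group Q], Subgroup Q) (hW₁ : Cfsg.IsCharPFunctor.{u} p W₁) (hW₂ : Cfsg.IsCharPFunctor.{u} p W₂) (hfac : ∀ (K R : Subgroup G) [hR : (R.subgroupOf K).Normal], Subgroup.centralizer ((Cfsg.pCore p (↥K ⧸ R.subgroupOf K) : Subgroup (↥K ⧸ R.subgroupOf K)) : Set (↥K ⧸ R.subgroupOf K)) ≤ Cfsg.pCore p (↥K ⧸ R.subgroupOf K) → ∀ T : Sylow p (↥K ⧸ R.subgroupOf K), (∀ x : (↥K ⧸ R.subgroupOf K), ∃ a ∈ Subgroup.centralizer ((Cfsg.omegaOne p ((T : Subgroup (↥K ⧸ R.subgroupOf K)) ⊓ Subgroup.centralizer (((T : Subgroup (↥K ⧸ R.subgroupOf K)) : Subgroup (↥K ⧸ R.subgroupOf K)) : Set (↥K ⧸ R.subgroupOf K))) : Subgroup (↥K ⧸ R.subgroupOf K)) : Set (↥K ⧸ R.subgroupOf K)), ∃ b ∈ Subgroup.normalizer ((Cfsg.inducedFunctor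 (G := (↥K ⧸ R.subgroupOf K)) W₁ (T : Subgroup (↥K ⧸ R.subgroupOf K)) : Subgroup (↥K ⧸ R.subgroupOf K)) : Set (↥K ⧸ R.subgroupOf K)), x = a * b) ∧ (∀ x : (↥K ⧸ R.subgroupOf K), ∃ a ∈ Subgroup.centralizer ((Cfsg.omegaOne p ((T : Subgroup (↥K ⧸ R.subgroupOf K)) ⊓ Subgroup.centralizer (((T : Subgroup (↥K ⧸ R.subgroupOf K)) : Subgroup (↥K ⧸ R.subgroupOf K)) : Set (↥K ⧸ R.subgroupOf K))) : Subgroup (↥K ⧸ R.subgroupOf K)) : Set (↥K ⧸ R.subgroupOf K)), ∃ b ∈ Subgroup.normalizer ((Cfsg.inducedFunctor (G := (↥K ⧸ R.subgroupOf K)) W₂ (T : Subgroup (↥K ⧸ R.subgroupOf K)) : Subgroup (↥K ⧸ R.subgroupOf K)) : Set (↥K ⧸ R.subgroupOf K)), x = a * b) ∧ (∀ x : (↥K ⧸ R.subgroupOf K), ∃ a ∈ Subgroup.normalizer ((Cfsg.inducedFunctor (G := (↥K ⧸ R.subgroupOf K)) W₁ (T : Subgroup (↥K ⧸ R.subgroupOf K)) : Subgroup (↥K ⧸ R.subgroupOf K)) : Set (↥K ⧸ R.subgroupOf K)), ∃ b ∈ Subgroup.normalizer ((Cfsg.inducedFunctor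 (G := (↥K ⧸ R.subgroupOf K)) W₂ (T : Subgroup (↥K ⧸ R.subgroupOf K)) : Subgroup (↥K ⧸ R.subgroupOf K)) : Set (↥K ⧸ R.subgroupOf K)), x = a * b)) (hZ : Cfsg.omegaOne p ((S : Subgroup G) ⊓ Subgroup.centralizer (((S : Subgroup G) : Subgroup G) : Set G)) ≤ Cfsg.inducedFunctor (G := G) W₁ (S : Subgroup G) ⊓ Cfsg.inducedFunctor (G := G) W₂ (S : Subgroup G)) (N₁ : Subgroup G) (hN₁ : N₁ = Subgroup.normalizer ((Cfsg.inducedFunctor (G := G) W₁ (S : Subgroup G) : Subgroup G) : Set G)) (A : Subgroup G) (hA : A = (Subgroup.normalClosure (((Cfsg.omegaOne p ((S : Subgroup G) ⊓ Subgroup.centralizer (((S : Subgroup G) : Subgroup G) : Set G))).subgroupOf N₁ : Subgroup ↥N₁) : Set ↥N₁)).map N₁.subtype) : A ≤ (S : Subgroup G) ∧ Cfsg.IsElementaryAbelian p A ∧ Cfsg.IsStronglyClosed A (S : Subgroup G) ∧ Cfsg.ControlsStrongFusion p A := by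
  open CF.Transfer Subgroup in
  have hV := omegaZ_isCharPFunctor.{u} p
  rw [← ind_omegaZ] at hZ hA
  set Z := Cfsg.inducedFunctor (omegaZ p) (S : Subgroup G) with hZdef
  set N₂ := normalizer (Cfsg.inducedFunctor W₂ (S : Subgroup G) : Set G) with hN₂
  have hS1 : (S : Subgroup G) ≤ N₁ := hN₁ ▸ cf_le_normalizer (ind_isConj hW₁) S.isPGroup'
  have hS2 : (S : Subgroup G) ≤ N₂ := cf_le_normalizer (ind_isConj hW₂) S.isPGroup'
  have hW1S := cf_le (ind_isConj hW₁) S.isPGroup'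
  have hW2S := cf_le (ind_isConj hW₂) S.isPGroup'
  have hZS : Z ≤ S := (hZ.trans inf_le_left).trans hW1S
  have f1 : ∀ x ∈ N₂, ∃ a ∈ N₂ ⊓ centralizer (Z : Set G), ∃ b ∈ N₂ ⊓ N₁, x = a * b := fun x hx =>
    hN₁ ▸ factorization_of_le_pCore hV hW₁ (fun K R _ h T => by
      rw [ind_omegaZ]; exact (hfac K R h T).1) (isSylowIn_of_le S hS2) hW2S le_rfl
      (hZ.trans inf_le_right) hx
  have f2 : ∀ x ∈ N₁, ∃ a ∈ N₁ ⊓ centralizer (Z : Set G), ∃ b ∈ N₁ ⊓ N₂, x = a * b := fun x hx =>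
    factorization_of_le_pCore hV hW₂ (fun K R _ h T => by
      rw [ind_omegaZ]; exact (hfac K R h T).2.1) (isSylowIn_of_le S hS1) hW1S hN₁.le
      (hZ.trans inf_le_left) hx
  have hAeq : A = ⨆ x ∈ N₁, cj x Z := by
    rw [hA]
    apply le_antisymm
    · rw [map_le_iff_le_comap]
      have : (comap N₁.subtype (⨆ x ∈ N₁, cj x Z)).Normal := by
        refine normal_subgroupOf_of_le_normalizer fun y hy => mem_normalizer_of_cj_le ?_
        simp only [cj_iSup, cj_cj]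
        exact iSup₂_le fun x hx => le_iSup₂_of_le (f := fun x (_ : x ∈ N₁) => cj x Z) _ (mul_mem hy hx) le_rfl
      refine normalClosure_le_normal fun z hz => ?_
      exact le_iSup₂_of_le (f := fun x (_ : x ∈ N₁) => cj x Z) 1 (one_mem _) (by rw [cj_one]) hz
    · refine iSup₂_le fun x hx => cj_le_iff_forall.2 fun z hz => ?_
      exact ⟨⟨x, hx⟩ * ⟨z, hS1 (hZS hz)⟩ * (⟨x, hx⟩ : N₁)⁻¹,
        Normal.conj_mem inferInstance (⟨z, hS1 (hZS hz)⟩ : N₁) (subset_normalClosure hz) _, rfl⟩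
  have hle : ∀ x ∈ N₁, cj x Z ≤ A := fun x hx =>
    hAeq ▸ le_iSup₂_of_le (f := fun x (_ : x ∈ N₁) => cj x Z) x hx le_rfl
  have hn1 : N₁ ≤ normalizer (A : Set G) := fun y hy => mem_normalizer_of_cj_le (by
    conv_lhs => rw [hAeq]
    simp only [cj_iSup, cj_cj]
    exact iSup₂_le fun x hx => hle _ (mul_mem hy hx))
  have hn2 : N₂ ≤ normalizer (A : Set G) := fun y hy => mem_normalizer_of_cj_le (by
    conv_lhs => rw [hAeq]
    simp only [cj_iSup, cj_cj]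
    refine iSup₂_le fun x hx => ?_
    obtain ⟨a, ha, b, hb, e⟩ := f2 x⁻¹ (inv_mem hx)
    obtain ⟨c, hc, d, hd, e'⟩ := f1 (b * y⁻¹) (mul_mem hb.2 (inv_mem hy))
    have e2 : y * x = d⁻¹ * (c⁻¹ * a⁻¹) := by
      rw [← inv_inv x, e, ← mul_assoc, ← mul_inv_rev, ← e']; group
    rw [e2, cj_mul, cj_eq_of_mem_centralizer (mul_mem (inv_mem hc.2) (inv_mem ha.2))]
    exact hle _ (inv_mem hd.2))
  have hAW : A ≤ Cfsg.omegaOne p (Cfsg.inducedFunctor W₁ (S : Subgroup G) ⊓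
      centralizer (Cfsg.inducedFunctor W₁ (S : Subgroup G) : Set G)) := by
    rw [hAeq, ← ind_omegaZ]
    refine iSup₂_le fun x hx => ?_
    rw [hN₁] at hx
    rw [← cj_eq_of_mem_normalizer (cf_normalizer_le (ind_isConj hV) (S.isPGroup'.to_le hW1S) hx)]
    refine cj_mono x ?_
    rw [ind_omegaZ, hZdef, ind_omegaZ, CF.Loc.omegaOne_le_iff]
    intro z hz hzp
    have hzZ : z ∈ Z := by rw [hZdef, ind_omegaZ]; exact CF.Loc.mem_omegaOne hz hzp
    exact CF.Loc.mem_omegaOne ⟨(hZ hzZ).1, centralizer_le hW1S hz.2⟩ hzp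
  have hAS : A ≤ S := hAW.trans (((CF.Loc.omegaOne_le _ _).trans inf_le_left).trans hW1S)
  have h𝓦 : ∀ W ∈ ({W₁, W₂} : Set (∀ (Q : Type u) [Group Q], Subgroup Q)), Cfsg.IsCharPFunctor.{u} p W := by
    rintro _ (rfl | rfl) <;> assumption
  have hctl : FCF (indSet {W₁, W₂} G) S ⊤ := by
    refine (familyControlsStrongFusionIn_iff (indSet_isConj h𝓦) (isSylowIn_top S)).1
      (famFusion_of_charP_sections' h𝓦 (fun K R _ h => ?_) G (involves_self G))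
    obtain ⟨T⟩ : Nonempty (Sylow p (K ⧸ R.subgroupOf K)) := inferInstance
    refine (familyControlsStrongFusionIn_iff (indSet_isConj h𝓦) (isSylowIn_top T)).2
      (ctrlIn_reach_of_factorization (isSylowIn_top T) (cf_le_normalizer (ind_isConj hW₁) T.isPGroup')
        (cf_le_normalizer (ind_isConj hW₂) T.isPGroup')
        (fun x hx => ⟨_, ⟨W₁, Or.inl rfl, rfl⟩, hx⟩) (fun x hx => ⟨_, ⟨W₂, Or.inr rfl, rfl⟩, hx⟩)
        fun x _ => ?_)
    obtain ⟨a, ha, b, hb, e⟩ := (hfac K R h T).2.2 x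
    exact ⟨a, ⟨mem_top a, ha⟩, b, hb, e⟩
  have hctl2 : ∀ B ≤ (S : Subgroup G), ∀ g : G, cj g B ≤ S →
      ∃ n ∈ normalizer (A : Set G), ∃ c ∈ centralizer (B : Set G), g = n * c := by
    intro B hB g hg
    refine (hctl B hB g (mem_top g) hg).exists_mul ?_
    rintro x ⟨_, ⟨_, rfl | rfl, rfl⟩, hx⟩
    · exact hn1 (hN₁ ▸ hx.2)
    · exact hn2 hx.2
  refine ⟨hAS, CF.Loc.isElemAb_of_le (CF.Loc.isElemAb_omegaOne (CF.Loc.center_le_centralizer_self _)) hAW,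
    ⟨hAS, fun x hx g hg => ?_⟩, (controlsStrongFusion_iff S hAS (hS1.trans hn1)).2 hctl2⟩
  obtain ⟨n, hn, c, hc, rfl⟩ := hctl2 (zpowers x) (zpowers_le.2 (hAS hx)) g (by rwa [cj_zpowers, zpowers_le])
  rw [← conj_eq_of_mem_centralizer hc (mem_zpowers x)]
  exact conj_mem_of_mem_normalizer hn hx

end Cfsg.Agent.S1997
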