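import Cfsg.Statements.S1998
import Cfsg.Agent.Transfer.Engel

set_option autoImplicit false
universe u
open Cfsg

namespace Cfsg.Agent.S1998

/-- Let p be a prime, G a finite group with Sylow p-subgroup S, and 𝓦 a nonempty set of isomorphism-invariant p-group functors (W assigns to every group Q a subgroup W(Q), nontrivial whenever Q is a nontrivial finite p-group, and every isomorphism from a finite p-group Q onto a group R carries W(Q) onto W(R)). Suppose the induced conjugacy functors control transfer in every section of G other than G itself, but not in G. Let T be the subgroup generated by the S ∩ (N_G(W(S)))', W ∈ 𝓦, and M = N_G(T ∩ O_p(G)). Then: C_G(O_p(G)) ≤ O_p(G); M is a proper subgroup of G containing every proper subgroup of G that contains S (the unique maximal subgroup over S); [O_p(G), M] ≤ O_p(G) ∩ M' ≤ O_p(G) ∩ T; and every element u of S outside O_p(G) satisfies [X, u, …, u] ≰ Y with p − 1 entries u, for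 some chief factor X/Y of G with X ≤ O_p(G). -/
theorem result {G : Type u} [Group G] [Finite G] {p : ℕ} [Fact p.Prime] (S : Sylow p G) (𝓦 : Set (∀ (Q : Type u) [Group Q], Subgroup Q)) (h𝓦 : ∀ W ∈ 𝓦, Cfsg.IsCharPFunctor.{u} p W) (hne : 𝓦.Nonempty) (hsec : ∀ (K R : Subgroup G) [hR : (R.subgroupOf K).Normal], (K = ⊤ → R ≠ ⊥) → Cfsg.FamilyControlsTransferIn p ((fun W => Cfsg.inducedFunctor (G := (↥K ⧸ R.subgroupOf K)) W) '' 𝓦) ⊤) (hG : ¬ Cfsg.FamilyControlsTransferIn p ((fun W => Cfsg.inducedFunctor (G := G) W) '' 𝓦) ⊤) (T M : Subgroup G) (hT : T = (⨆ W ∈ 𝓦, (S : Subgroup G) ⊓ ⁅Subgroup.normalizer ((Cfsg.inducedFunctor (G := G) W (S : Subgroup G) : Subgroup G) : Set G), Subgroup.normalizer ((Cfsg.inducedFunctor (G := G) W (S : Subgroup G) : Subgroup G) : Set G)⁆)) (hM : M = Subgroup.normalizer ((T ⊓ Cfsg.pCore p G : Subgroup G) : Set G)) : Subgroup.centralizer ((Cfsg.pCore p G : Subgroup G) : Set G) ≤ Cfsg.pCore p G ∧ (M ≠ ⊤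 ∧ ∀ H : Subgroup G, (S : Subgroup G) ≤ H → H ≠ ⊤ → H ≤ M) ∧ (⁅Cfsg.pCore p G, M⁆ ≤ Cfsg.pCore p G ⊓ ⁅M, M⁆ ∧ Cfsg.pCore p G ⊓ ⁅M, M⁆ ≤ Cfsg.pCore p G ⊓ T) ∧ ∀ u : G, u ∈ (S : Subgroup G) → u ∉ Cfsg.pCore p G → ∃ U V : Subgroup G, Cfsg.IsChiefFactor U V ∧ U ≤ Cfsg.pCore p G ∧ ¬ Cfsg.iterCommutator U (Subgroup.zpowers u) (p - 1) ≤ V := by
  open CF.Transfer Subgroup in
  have hsec' : ∀ (Y : Type u) [Group Y] [Finite Y], Cfsg.Involves Y G → Nat.card Y < Nat.card G →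
      Cfsg.FamilyControlsTransferIn p (indSet 𝓦 Y) ⊤ := by
    intro Y _ _ h1 h2
    obtain ⟨K, R, _, h3, ⟨e⟩⟩ := exists_section_of_card_lt h1 h2
    exact famTransfer_of_equiv h𝓦 e (hsec K R h3)
  have hD : T = famFocal (indSet 𝓦 G) S ⊤ := by
    rw [hT, famFocal, indSet, iSup_image]
    simp only [top_inf_eq]
  obtain ⟨h1, h2, h3, h4⟩ := transfer_minimal_structure h𝓦 hne hsec' hG S
  rw [← hD, ← hM] at h3 h4
  have hS : (S : Subgroup G) ≠ ⊤ := by
    intro e
    obtain ⟨W, hW⟩ := hne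
    refine hG (famTransfer_of_normal h𝓦 hW S ?_)
    rw [← normalizer_eq_top_iff, eq_top_iff, ← e]
    exact cf_le_normalizer (ind_isConj (h𝓦 W hW)) S.isPGroup'
  have hSM := h4 _ le_rfl hS
  have hQS : Cfsg.pCore p G ≤ S := CF.Solv.pCore_le_sylow S
  refine ⟨h1, ⟨h3, h4⟩, ⟨le_inf (commutator_le_left _ _) (commutator_mono (hQS.trans hSM) le_rfl),
    le_inf inf_le_left ((inf_le_inf_right _ hQS).trans ?_)⟩,
    fun u hu huQ => transfer_minimal_engel h𝓦 hne hsec' hG S hu huQ⟩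
  exact hD ▸ inf_commutator_le_famFocal_of_ne_top h𝓦 hsec' S M h3 hSM

end Cfsg.Agent.S1998
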