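import Cfsg.Statements.S2009
import Cfsg.Agent.Even.TI
import Cfsg.Agent.Coprime.SemiReg
import Cfsg.Agent.Invol.Four

set_option autoImplicit false
open Cfsg

namespace Cfsg.Agent.S2009
open Subgroup CF.Loc CF.Even
open scoped commutatorElement Pointwise

/-- Let H be a finite group and z an involution such that every proper normal subgroup of H meets the centralizer of z trivially, and suppose z lies in a Klein four-subgroup E of H all three of whose involutions are conjugate to z in H. Then H is simple. -/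
theorem result {H : Type*} [Group H] [Finite H] (z : H) (hz : orderOf z = 2) (hN : ∀ N : Subgroup H, N.Normal → N ≠ ⊤ → N ⊓ Subgroup.centralizer ({z} : Set H) = ⊥) (E : Subgroup H) (hE : IsKleinFour ↥E) (hzE : z ∈ E) (hc : ∀ e ∈ E, e ≠ 1 → IsConj z e) : IsSimpleGroup H := by
  have hz1 : z ≠ 1 := ne_one_of_orderOf_eq hz
  have : Nontrivial H := ⟨z, 1, hz1⟩
  refine ⟨fun N hNn => or_iff_not_imp_right.2 fun h => ?_⟩
  have f := hN N hNn h
  have inv : ∀ e ∈ E, e ≠ 1 → ∀ n ∈ N, e * n * e⁻¹ = n⁻¹ := fun e he h1 n hn => by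
    obtain ⟨g, rfl⟩ := isConj_iff.1 (hc e he h1)
    exact CF.Coprime.fpf_conj_eq_inv (le_normalizer_of_normal' ⊤ N trivial)
      (CF.Coprime.fpf_conj f (le_normalizer_of_normal' ⊤ N trivial))
      (by rw [sq, CF.Invol.klein_mul_self hE he]; exact one_mem _) hn
  obtain ⟨b, hb, hb1, hbz⟩ := CF.Invol.klein_exists_ne hE z
  refine eq_bot_iff.2 fun n hn => f ▸ ⟨hn, mem_centralizer_singleton_iff.2 ?_⟩
  have e1 := inv z hzE hz1 _ (N.inv_mem hn)
  have e2 := inv b hb hb1 n hn
  have e3 := inv (z * b) (E.mul_mem hzE hb) (CF.Invol.klein_mul_ne_one hE hzE hbz.symm) n hn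
  have e4 : n = n⁻¹ := by
    calc n = z * (b * n * b⁻¹) * z⁻¹ := by rw [e2]; exact (e1.trans (inv_inv n)).symm
      _ = z * b * n * (z * b)⁻¹ := by group
      _ = n⁻¹ := e3
  have e5 := (inv z hzE hz1 n hn).trans e4.symm
  calc n * z = z * n * z⁻¹ * z := by rw [e5]
    _ = z * n := by group

end Cfsg.Agent.S2009
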