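import Cfsg.Statements.S2094
import Cfsg.Agent.Chev.Spin

set_option autoImplicit false
open Cfsg

namespace Cfsg.Agent.S2094

/-- Schur multipliers of the odd-dimensional orthogonal groups: for m ≥ 3 and a field F of odd order q with (m, q) ≠ (3, 3), the Schur multiplier of PΩ_(2m+1)(F) (for the form x₀² + Σ xᵢyᵢ) is cyclic of order 2 = gcd(2, q − 1); here the Schur multiplier is described through stem extensions, as in the definitions. -/
theorem result {F : Type*} [Field F] [Fintype F] {q : ℕ} (hF : Fintype.card F = q) (hq : Odd q) (m : ℕ) (hm : 3 ≤ m) (hexc : ¬ (m = 3 ∧ q = 3)) : Cfsg.HasCyclicSchurMultiplier (Cfsg.POmega F (Cfsg.quadFormOdd m F)) 2 := by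
  have hc : Nat.card F = q := Nat.card_eq_fintype_card.trans hF
  obtain ⟨e⟩ := CF.Chev.nonempty_mu_equiv F 2
  have h2 : Nat.gcd 2 (Nat.card F - 1) = 2 := by
    obtain ⟨k, hk⟩ := hq
    exact Nat.gcd_eq_left ⟨k, by omega⟩
  rw [h2] at e
  exact CF.Schur.HasSchur.congr_right (CF.Chev.schur_POmega_odd
    (CF.Geom.two_ne_zero_of_odd_card (hF ▸ hq)) hm (by omega)) e

end Cfsg.Agent.S2094
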