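import Cfsg.Statements.S2095
import Cfsg.Agent.Schur.O73
import Cfsg.Agent.S0292

set_option autoImplicit false
open Cfsg

namespace Cfsg.Agent.S2095

/-- Exceptional Schur multiplier: over the field with 3 elements, PΩ₇ (for the form x₀² + Σ xᵢyᵢ) has Schur multiplier cyclic of order 6 (the product of cyclic groups of orders 3 and 2; here the Schur multiplier is described through stem extensions, as in the definitions). -/
theorem result {F : Type*} [Field F] [Fintype F] (hF : Fintype.card F = 3) : Cfsg.HasCyclicSchurMultiplier (Cfsg.POmega F (Cfsg.quadFormOdd 3 F)) 6 := by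
  have h := Cfsg.Agent.S0292.result hF (by decide) 3 (by norm_num)
  have h2 := CF.Geom.two_ne_zero_of_odd_card (F := F) (by rw [hF]; decide)
  refine CF.Schur.O73.schur_of (CF.Schur.O73.linU.hasReps_POmega (CF.Schur.Pc.exists_ok_prime Nat.prime_three hF)
    ((Equiv.sumCongr finOneEquiv.symm finSumFinEquiv).trans (finSumFinEquiv (m := 1) (n := 3 + 3)))
    (Q := CF.Geom.qOdd 3 F) (CF.Geom.qOdd_nondegenerate h2 3) (by norm_num) (B := CF.Schur.O73.UB) (fun v => ?_)
    CF.Schur.O73.memU) ?_
  · show Cfsg.quadFormOdd 3 F v = _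
    have e : ∀ i j, CF.Comp.ent CF.Schur.O73.UB
        (((Equiv.sumCongr finOneEquiv.symm finSumFinEquiv).trans (finSumFinEquiv (m := 1) (n := 3 + 3))) i)
        (((Equiv.sumCongr finOneEquiv.symm finSumFinEquiv).trans (finSumFinEquiv (m := 1) (n := 3 + 3))) j) =
        (Matrix.fromBlocks 1 0 0 (Matrix.fromBlocks 0 1 0 0) :
          Matrix (Unit ⊕ (Fin 3 ⊕ Fin 3)) (Unit ⊕ (Fin 3 ⊕ Fin 3)) ℕ) i j := by
      simp only [Sum.forall]
      decide +kernel
    simp only [CF.Comp.mat, e]
    simp [Cfsg.quadFormOdd, dotProduct, Matrix.mulVec, Matrix.one_apply, sq]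
  · simp [Finset.prod_range_succ] at h
    show Nat.card (Cfsg.POmega F (Cfsg.quadFormOdd 3 F)) = _
    omega

end Cfsg.Agent.S2095
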