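import Cfsg.Statements.S2096
import Cfsg.Agent.Chev.Spin

set_option autoImplicit false
open Cfsg

namespace Cfsg.Agent.S2096

/-- Schur multipliers of the even-dimensional orthogonal groups of plus type and odd rank: for odd l ≥ 5 and a field F with q elements, the Schur multiplier of PΩ⁺_2l(F) (for the form Σ xᵢyᵢ) is cyclic of order gcd(4, q^l − 1); here the Schur multiplier is described through stem extensions, as in the definitions. -/
theorem result {F : Type*} [Field F] [Fintype F] {q : ℕ} (hF : Fintype.card F = q) (l : ℕ) (hl : 5 ≤ l) (hodd : Odd l) : Cfsg.HasCyclicSchurMultiplier (Cfsg.POmega F (Cfsg.quadFormPlus l F)) (Nat.gcd 4 (q ^ l - 1)) := by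
  have hc : Nat.card F = q := Nat.card_eq_fintype_card.trans hF
  obtain ⟨e⟩ := CF.Chev.nonempty_mu_equiv F 4
  obtain ⟨e'⟩ := CF.Chev.nonempty_kerD_odd (K := F) (n := l) (by omega) hodd
  have h1 : 1 ≤ q := hc ▸ Nat.card_pos
  have h2 : Nat.gcd 4 (Nat.card F - 1) = Nat.gcd 4 (q ^ l - 1) := by
    obtain ⟨k, rfl⟩ := hodd
    have h3 : q ^ (2 * k + 1) % 4 = q % 4 ∨ (q % 2 = 0 ∧ q ^ (2 * k + 1) % 2 = 0) := by
      rw [pow_succ, pow_mul, Nat.mul_mod, Nat.pow_mod, Nat.pow_mod q, Nat.mul_mod _ _ 2]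
      have : q % 4 = 1 ∨ q % 4 = 3 ∨ q % 2 = 0 := by omega
      rcases this with h | h | h <;> simp [h]
    have h4 : 1 ≤ q ^ (2 * k + 1) := Nat.one_le_pow _ _ h1
    rw [hc, Nat.gcd_rec 4, Nat.gcd_rec 4 (_ - 1)]
    rcases h3 with h | h
    · congr 1; omega
    · have h5 : (q - 1) % 4 = 1 ∨ (q - 1) % 4 = 3 := by omega
      have h6 : (q ^ (2 * k + 1) - 1) % 4 = 1 ∨ (q ^ (2 * k + 1) - 1) % 4 = 3 := by omega
      rcases h5 with h5 | h5 <;> rcases h6 with h6 | h6 <;> simp [h5, h6]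
  rw [h2] at e
  exact CF.Chev.schur_POmega_plus (by omega) (fun _ => hl) (e'.symm.trans e)

end Cfsg.Agent.S2096
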