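import Cfsg.Statements.S2097
import Cfsg.Agent.Chev.Spin

set_option autoImplicit false
open Cfsg

namespace Cfsg.Agent.S2097

/-- Schur multipliers of the even-dimensional orthogonal groups of plus type and even rank: for even l ≥ 4 and a field F with q elements, (l, q) ≠ (4, 2), the Schur multiplier of PΩ⁺_2l(F) (for the form Σ xᵢyᵢ) is the product of two cyclic groups of order gcd(2, q^l − 1) (so trivial for q even and a four-group for q odd; here the Schur multiplier is described through stem extensions, as in the definitions). -/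
theorem result {F : Type*} [Field F] [Fintype F] {q : ℕ} (hF : Fintype.card F = q) (l : ℕ) (hl : 4 ≤ l) (heven : Even l) (hexc : ¬ (l = 4 ∧ q = 2)) : Cfsg.HasSchurMultiplier (Cfsg.POmega F (Cfsg.quadFormPlus l F)) (Multiplicative (ZMod (Nat.gcd 2 (q ^ l - 1)) × ZMod (Nat.gcd 2 (q ^ l - 1)))) := by
  have hc : Nat.card F = q := Nat.card_eq_fintype_card.trans hF
  obtain ⟨e⟩ := CF.Chev.nonempty_mu_equiv F 2
  obtain ⟨e'⟩ := CF.Chev.nonempty_kerD_even (K := F) (n := l) (by omega) heven
  have h1 : 1 ≤ q := hc ▸ Nat.card_pos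
  have h2 : Nat.gcd 2 (Nat.card F - 1) = Nat.gcd 2 (q ^ l - 1) := by
    have h3 : q ^ l % 2 = q % 2 := by
      rcases Nat.mod_two_eq_zero_or_one q with h | h <;> simp [Nat.pow_mod, h, show l ≠ 0 by omega]
    have h4 : 1 ≤ q ^ l := Nat.one_le_pow _ _ h1
    rw [hc, Nat.gcd_rec 2, Nat.gcd_rec 2 (_ - 1)]
    congr 1; omega
  rw [h2] at e
  exact CF.Chev.schur_POmega_plus (by omega) (by omega)
    (e'.symm.trans ((e.prodCongr e).trans (MulEquiv.prodMultiplicative _ _).symm))

end Cfsg.Agent.S2097
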