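import Cfsg.Statements.S2107
import Cfsg.Agent.Chev.Mult

set_option autoImplicit false
open Cfsg

namespace Cfsg.Agent.S2107

/-- Schur multipliers of the Chevalley groups of type E₈: over every finite field the Schur multiplier of E₈(q) is trivial (here the Schur multiplier is described through stem extensions, as in the definitions). -/
theorem result {F : Type*} [Field F] [Fintype F] : Cfsg.HasCyclicSchurMultiplier ↥(Cfsg.Lie.chevE8.group F) 1 := by
  exact CF.Chev.goodE8.hasSchur_zero F (CF.Chev.torE8 F)
    (CF.Chev.liftsE8 (CF.Chev.linkE8.faithful_stRep F _) (CF.Chev.linkE8.stRep_Gp F _))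
    (.inr (.inl CF.Chev.a2NbE8)) CF.Chev.cenE8

end Cfsg.Agent.S2107
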