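import Cfsg.Statements.S2108
import Cfsg.Agent.BN.TGr2
import Cfsg.Agent.BN.TwMaxE6

set_option autoImplicit false
open Cfsg

namespace Cfsg.Agent.S2108

open CF.BN CF.Chev CF.Schur

set_option synthInstance.maxSize 1024 in
theorem sep : ∀ r, cE6.Pos r → ∀ s, cE6.Pos s → s ∈ [r, pmE6 r, pmE6 (pmE6 r)] ∨ ∃ γ,
    (cE6.A γ r = 0 ∧ cE6.A (pmE6 γ) r = 0) ∧ cE6.A γ s = 1 ∧ |cE6.A (pmE6 γ) s| ≤ 1 := by
  decide +kernel

set_option synthInstance.maxSize 1024 in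
theorem self : ∀ r, cE6.Pos r → (∃ γ, cE6.A γ r = 1 ∧ cE6.A (pmE6 γ) r = 0) ∨ pmE6 r = r ∧
    ∃ s u, cE6.Pos u ∧ pmE6 s = s ∧ pmE6 u = u ∧ cE6.vec r = cE6.vec s + cE6.vec u := by
  decide +kernel

theorem fpf : ∀ r, ∃ γ, cE6.A γ r = 1 ∧ |cE6.A (pmE6 γ) r| ≤ 1 := by decide +kernel

theorem main {K G : Type*} [Field K] [Fintype K] [Group G] {ρ : StRep cE6 K G} {T : Tw ρ}
    {φ : K →+* K} {q : ℕ} (h : T.IsGr pE6 φ) (hφ : ∀ t, φ t = t ^ q) (h4 : ∀ t, φ (φ t) = t)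
    (hU : Univ ρ) (hK : Fintype.card K = q ^ 2) (h3 : 3 ≤ q) (p : ℕ) [Fact p.Prime]
    (M : LT p T T.Fix 1) :
    ¬ p ∣ Nat.card (Mult T.Fix) ∧ ∀ l, l.Prime → l ≠ p → ∀ i, R1 T T.Fix l i := by
  refine ⟨?_, fun l hl hp i => ?_⟩
  · have e := mdE6.π_eq h
    have X : ∀ γ, Ex T.Fix M.r3 fun s => cE6.A γ s + q * cE6.A (pmE6 γ) s := fun γ => by
      simpa [e] using ex₂ (T := T) (h3 := M.r3) (e := fun _ => q) (r := γ) (by simp [h.φ_eq, hφ])
        (by rw [e]; revert γ; decide) fun t => Units.ext (by simpa [hφ] using h4 t)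
    have h6 : ∀ b : ℤ, |b| ≤ 1 → ¬ ((Nat.card K : ℤ) - 1) ∣ 1 + q * b := fun b hb => by
      rw [Nat.card_eq_fintype_card, hK]
      obtain rfl | rfl | rfl : b = -1 ∨ b = 0 ∨ b = 1 := by rw [abs_le] at hb; omega
      all_goals exact not_dvd_of_abs_lt (by omega) (by rw [abs_lt]; push_cast; constructor <;> nlinarith)
    refine not_dvd_mult_gr M sameLenE6 (by rw [e]; decide +kernel) (e ▸ mdE6.h3) (e ▸ mdE6.hO) h.c_eq
      (by simp only [(dataE6 h.p_eq).mem_orb, carE6']; decide) (fun r _ => ?_) (fun r hr s hs => ?_)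
      fun r hr => ?_
    · obtain ⟨γ, a, b⟩ := fpf r
      exact (X γ).fpf (a ▸ h6 _ b)
    · exact e ▸ (sep r hr s hs).imp_right fun ⟨γ, a, b, c⟩ => (X γ).nf (by simp [a]) (b ▸ h6 _ c)
    · exact e ▸ (self r hr).imp_left fun ⟨γ, a, b⟩ => (X γ).nf_self (by simp [a, b])
        (by rw [Nat.card_eq_fintype_card]; nlinarith)
  · have := M.char
    obtain e | e : pE6 i = i ∨ pE6 i ≠ i ∧ pE6 (pE6 i) = i ∧ cE6.car i (pE6 i) = 0 ∧
        cE6.car (pE6 i) i = 0 := by simp only [carE6']; revert i; decide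
    exacts [r1₁ h M.form hU hl hp e, r1₂ h M.form hU hl hp e.1 e.2.1 e.2.2.1 e.2.2.2 h4]

/-- Schur multipliers of the twisted groups of type ²E₆: for a prime power q ≠ 2, with the group realised over the field with q² elements, the Schur multiplier of ²E₆(q) is cyclic of order gcd(3, q + 1) (here the Schur multiplier is described through stem extensions, as in the definitions); q = 2 is exceptional. -/
theorem result {K : Type*} [Field K] [Fintype K] {q : ℕ} (hq : IsPrimePow q) (hK : Fintype.card K = q ^ 2) (h2 : q ≠ 2) : Cfsg.HasCyclicSchurMultiplier ↥(Cfsg.Lie.twistedE6 K q) (Nat.gcd 3 (q + 1)) := by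
  have h3 : 3 ≤ q := by have := hq.two_le; omega
  have : Nonempty (Fin Lie.chevE6.rank) := ⟨(0 : Fin 6)⟩
  refine hasSchur_tw goodE6 (torE6 K) (π := pE6) (by decide +kernel) hq hK
    fun T φ h hφ h4 G e => ?_
  obtain rfl : G = gE6 _ q := e
  have hU := univ_stRep goodE6 K (torE6 K)
  have := hU.r3.finite hU.faith hU.top
  have h5 := card_ker_E6 h hφ hK
  refine ⟨⟨_, simpE6 h hφ h4⟩, gE6_le_Gen h hφ h4, fun _ hc => tor_memE6 hφ _ (h.mem_TF.1 hc),
    commutator_E6 h hφ h4 hU.r3 (by nlinarith), isCyclic_of_card_dvd_prime (hp := ⟨Nat.prime_three⟩)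
    (h5.dvd.trans (Nat.gcd_dvd_left ..)), h5, fun p _ M _ => main h hφ h4 hU hK h3 p M⟩

end Cfsg.Agent.S2108
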