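import Cfsg.Statements.S2143
import Cfsg.Agent.Classical.MinIdxO7

set_option autoImplicit false
open Cfsg

namespace Cfsg.Agent.S2143

/-- Minimal index of a proper subgroup of the odd-dimensional orthogonal groups: for m ≥ 3 and a field F with q elements, q odd and q ≥ 5, every proper subgroup of PΩ_(2m+1)(F) (for the form x₀² + Σ xᵢyᵢ) has index at least (q^(2m) − 1)/(q − 1), and that index is attained. -/
theorem result {F : Type*} [Field F] [Fintype F] {q : ℕ} (hF : Fintype.card F = q) (hodd : Odd q) (h5 : 5 ≤ q) (m : ℕ) (hm : 3 ≤ m) : (∀ H : Subgroup (Cfsg.POmega F (Cfsg.quadFormOdd m F)), H ≠ ⊤ → (q ^ (2 * m) - 1) / (q - 1) ≤ H.index) ∧ (∃ H : Subgroup (Cfsg.POmega F (Cfsg.quadFormOdd m F)), H.index = (q ^ (2 * m) - 1) / (q - 1)) := by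
  open CF.Classical CF.Geom in
  rw [← Nat.card_eq_fintype_card] at hF
  subst hF
  have hQ := qOdd_nondegenerate (F := F) (CF.Geom.two_ne_zero_of_odd_card (by rwa [← Nat.card_eq_fintype_card])) m
  have h1 : (nS (qOdd m F) ⊤ 0).ncard = Nat.card F ^ (2 * m) - 1 := by
    rw [ncard_nS_top, ← card_singular_odd hQ (m := m) (by simp; omega), ← card_sing_add_one]; rfl
  exact pomega_min_index hQ (by simp; omega) (Or.inl rfl) h1
    (Nat.sub_ne_zero_of_lt (Nat.one_lt_pow (by omega) (by omega))) h1.ge (by omega)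

end Cfsg.Agent.S2143
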