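import Cfsg.Statements.S2144
import Cfsg.Agent.Classical.MinIdxO7

set_option autoImplicit false
open Cfsg

namespace Cfsg.Agent.S2144

/-- Minimal index of a proper subgroup of the odd-dimensional orthogonal groups over the field with 3 elements: for m ≥ 3, every proper subgroup of PΩ_(2m+1)(3) (for the form x₀² + Σ xᵢyᵢ) has index at least 3^m(3^m − 1)/2, and that index is attained. -/
theorem result {F : Type*} [Field F] [Fintype F] (hF : Fintype.card F = 3) (m : ℕ) (hm : 3 ≤ m) : (∀ H : Subgroup (Cfsg.POmega F (Cfsg.quadFormOdd m F)), H ≠ ⊤ → 3 ^ m * (3 ^ m - 1) / 2 ≤ H.index) ∧ (∃ H : Subgroup (Cfsg.POmega F (Cfsg.quadFormOdd m F)), H.index = 3 ^ m * (3 ^ m - 1) / 2) := by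
  open CF.Classical CF.Geom in
  rw [← Nat.card_eq_fintype_card] at hF
  have hQ := qOdd_nondegenerate (two_ne_zero_of_card_three hF) m
  have h1 : (nS (qOdd m F) ⊤ 0).ncard = Nat.card F ^ (2 * m) - 1 := by
    rw [ncard_nS_top, ← card_singular_odd hQ (m := m) (by simp; omega), ← card_sing_add_one]; rfl
  obtain ⟨h2, c, hc, h3⟩ := card_quad_odd hQ (m := m) (by simp; omega) (by omega)
  have h4 : 1 < 3 ^ m := Nat.one_lt_pow (by omega) (by omega)
  have := pomega_min_index hQ (by simp; omega) (Or.inr hF.le) ((ncard_nS_top_of_ne hc).trans h3)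
    (by rw [hF]; exact mul_ne_zero (by omega) (by omega))
    (by rw [h1, hF, Nat.mul_sub_one, two_mul, pow_add]; omega)
    fun _ c hc => (h2 c).trans_eq (ncard_nS_top_of_ne hc).symm
  rwa [hF] at this

end Cfsg.Agent.S2144
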