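import Cfsg.Statements.S2146
import Cfsg.Agent.Classical.MinIdxO7

set_option autoImplicit false
open Cfsg

namespace Cfsg.Agent.S2146

/-- Minimal index of a proper subgroup of the even-dimensional orthogonal groups of plus type over the field with 2 elements: for m ≥ 4, every proper subgroup of Ω⁺_2m(2) (for the form Σ xᵢyᵢ) has index at least 2^(m−1)(2^m − 1), and that index is attained. -/
theorem result {F : Type*} [Field F] [Fintype F] (hF : Fintype.card F = 2) (m : ℕ) (hm : 4 ≤ m) : (∀ H : Subgroup (Cfsg.POmega F (Cfsg.quadFormPlus m F)), H ≠ ⊤ → 2 ^ (m - 1) * (2 ^ m - 1) ≤ H.index) ∧ (∃ H : Subgroup (Cfsg.POmega F (Cfsg.quadFormPlus m F)), H.index = 2 ^ (m - 1) * (2 ^ m - 1)) := by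
  open CF.Classical CF.Geom in
  rw [← Nat.card_eq_fintype_card] at hF
  obtain ⟨m, rfl⟩ : ∃ k, m = k + 1 := ⟨m - 1, by omega⟩
  have hQ := qPlus_nondegenerate (F := F) (m + 1)
  have h1 : (nS (qPlus (m + 1) F) ⊤ 0).ncard = (Nat.card F ^ (m + 1) - 1) * (Nat.card F ^ m + 1) := by
    have := card_singular_plus hQ (isPlus_qPlus _) (m := m) (by simp; omega)
    rw [← card_sing_add_one] at this
    rw [ncard_nS_top]; omega
  have h2 := fun c (hc : c ≠ 0) => (ncard_nS_top_of_ne hc).trans
    (card_quad_plus hQ (isPlus_qPlus _) (m := m) (by simp; omega) hc)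
  have h4 : 1 < 2 ^ (m + 1) := Nat.one_lt_pow (by omega) (by omega)
  have := pomega_min_index hQ (by simp; omega) (Or.inr (by omega)) (h2 1 one_ne_zero)
    (by rw [hF]; exact mul_ne_zero (by positivity) (by omega))
    (by rw [h1, mul_comm]; gcongr; omega) fun _ c hc => (h2 c hc).ge
  rwa [hF, Nat.div_one] at this

end Cfsg.Agent.S2146
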