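import Cfsg.Statements.S2147
import Cfsg.Agent.Classical.MinIdxO7

set_option autoImplicit false
open Cfsg

namespace Cfsg.Agent.S2147

/-- Minimal index of a proper subgroup of the even-dimensional orthogonal groups of minus type: for m ≥ 4 and a field F with q elements, every proper subgroup of PΩ⁻_2m(F) (for the form Σ_{i<m−1} xᵢyᵢ + z₁² + a z₁z₂ + b z₂² with anisotropic binary part) has index at least (q^m + 1)(q^(m−1) − 1)/(q − 1), and that index is attained. -/
theorem result {F : Type*} [Field F] [Fintype F] {q : ℕ} (hF : Fintype.card F = q) (m : ℕ) (hm : 4 ≤ m) (a b : F) (hab : ∀ z₁ z₂ : F, z₁ ^ 2 + a * z₁ * z₂ + b * z₂ ^ 2 = 0 → z₁ = 0 ∧ z₂ = 0) : (∀ H : Subgroup (Cfsg.POmega F (Cfsg.quadFormMinus (m - 1) F a b)), H ≠ ⊤ → (q ^ m + 1) * (q ^ (m - 1) - 1) / (q - 1) ≤ H.index) ∧ (∃ H : Subgroup (Cfsg.POmega F (Cfsg.quadFormMinus (m - 1) F a b)), H.index = (q ^ m + 1) * (q ^ (m - 1) - 1) / (q - 1)) := by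
  open CF.Classical CF.Geom in
  rw [← Nat.card_eq_fintype_card] at hF
  subst hF
  have hq : 2 ≤ Nat.card F := Finite.one_lt_card
  obtain ⟨m, rfl⟩ : ∃ k, m = k + 1 := ⟨m - 1, by omega⟩
  simp only [Nat.add_sub_cancel]
  have hQ := qMinus_nondegenerate m hab
  have h1 : (nS (qMinus m F a b) ⊤ 0).ncard = (Nat.card F ^ (m + 1) + 1) * (Nat.card F ^ m - 1) := by
    have := card_singular_minus hQ (not_isPlus_qMinus _ hab) (m := m) (by simp; omega)
    rw [← card_sing_add_one] at this
    rw [ncard_nS_top]; omega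
  exact pomega_min_index hQ (by simp; omega) (Or.inl rfl) h1
    (mul_ne_zero (by positivity) (Nat.sub_ne_zero_of_lt (Nat.one_lt_pow (by omega) (by omega))))
    h1.ge fun _ c hc => by
      rw [ncard_nS_top_of_ne hc, card_quad_minus hQ (not_isPlus_qMinus _ hab) (m := m)
        (by simp; omega) hc, mul_comm]
      gcongr; omega

end Cfsg.Agent.S2147
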