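import Cfsg.Statements.S2153
import Cfsg.Agent.Classical.MinIdxU5

set_option autoImplicit false
open Cfsg

namespace Cfsg.Agent.S2153

/-- Minimal index of a proper subgroup of the unitary groups PSU_n(2) with n divisible by 6, realised over the field with 4 elements: every proper subgroup has index at least 2^(n−1)(2^n − 1)/3, and that index is attained. -/
theorem result {F : Type*} [Field F] [Fintype F] (hF : Fintype.card F = 4) (n : ℕ) (hn : 6 ∣ n) (hpos : 6 ≤ n) : (∀ H : Subgroup (Cfsg.PSU n F 2), H ≠ ⊤ → 2 ^ (n - 1) * (2 ^ n - 1) / 3 ≤ H.index) ∧ (∃ H : Subgroup (Cfsg.PSU n F 2), H.index = 2 ^ (n - 1) * (2 ^ n - 1) / 3) := by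
  open CF.Classical in
  obtain ⟨j, rfl⟩ : ∃ j, n = j + 5 := ⟨n - 5, by omega⟩
  have h1 : Iq 2 (j + 5) = (2 ^ (j + 5) - 1) * (2 ^ (j + 5 - 1) + 1) := by
    rw [Iq, if_pos (even_iff_two_dvd.2 (Dvd.dvd.trans (by norm_num) hn))]
  have h2 : 2 ^ (j + 5 - 1) * (2 ^ (j + 5) - 1) + Iq 2 (j + 5) + 1 = 2 ^ (j + 5) * 2 ^ (j + 5) := by
    rw [h1, show j + 5 - 1 = j + 4 from rfl]
    zify [Nat.one_le_two_pow]; ring
  exact psu_min_index (q := 2) (Nat.card_eq_fintype_card.trans hF) j (Or.inr h2)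
    (by rw [h1, mul_comm]; exact Nat.mul_le_mul_left _ (by omega)) h2.le

end Cfsg.Agent.S2153
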