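import Cfsg.Statements.S2154
import Cfsg.Agent.Chev.Opt

set_option autoImplicit false
open Cfsg

namespace Cfsg.Agent.S2154

/-- The Borel–Tits property of the finite Chevalley groups of types G₂, B₂, D₄, F₄, E₆, E₇, E₈ over a finite field of characteristic p: for every non-trivial p-subgroup U of the group G there are an element g of G and a proper set J of fundamental roots such that the normaliser of U in G lies in the conjugate by g of the standard parabolic subgroup P_J and U lies in the conjugate by g of its unipotent radical U_J. -/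
theorem result {F : Type*} [Field F] [Fintype F] (p : ℕ) [Fact p.Prime] [CharP F p] (D : Cfsg.Lie.ChevalleyDatum) (hD : D ∈ [Cfsg.Lie.chevG2, Cfsg.Lie.chevB2, Cfsg.Lie.chevD4, Cfsg.Lie.chevF4, Cfsg.Lie.chevE6, Cfsg.Lie.chevE7, Cfsg.Lie.chevE8]) (U : Subgroup (GL D.Idx F)) (hUG : U ≤ D.group F) (hU : IsPGroup p ↥U) (hne : U ≠ ⊥) : ∃ g ∈ D.group F, ∃ J : Set ℕ, (∃ i, i < D.rank ∧ i ∉ J) ∧ Subgroup.normalizer (U : Set (GL D.Idx F)) ⊓ D.group F ≤ (D.parabolicSubgroup F J).map (MulAut.conj g).toMonoidHom ∧ U ≤ (D.unipotentRadical F J).map (MulAut.conj g).toMonoidHom := by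
  obtain ⟨C, L⟩ := CF.Chev.exists_link hD
  rw [L.group_eq] at hUG ⊢
  obtain ⟨g, hg, h⟩ := CF.Chev.StRep.r3_adSt.exists_conj_le_Up' CF.Chev.StRep.faithful_adSt hU hUG
  obtain ⟨y, hy, h1⟩ := (Subgroup.bot_or_exists_ne_one U).resolve_left hne
  obtain ⟨g, hg, J, hJ, h2, h3⟩ :=
    CF.Chev.StRep.borel_tits (X := (U : Set _)) CF.Chev.StRep.faithful_adSt hg h hy h1
  have e : Fin.val ⁻¹' (Fin.val '' J) = J := Set.preimage_image_eq _ Fin.val_injective
  refine ⟨g⁻¹, inv_mem hg, Fin.val '' J, ?_, fun y hy => ?_, fun y hy => ?_⟩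
  · obtain ⟨i, hi⟩ := (Set.ne_univ_iff_exists_notMem J).1 hJ
    exact ⟨i, i.2, fun h => hi (e ▸ h)⟩
  · rw [L.parabolicSubgroup_eq, e]
    exact ⟨_, h3 y hy.2 fun z hz => (Subgroup.mem_normalizer_iff.1 hy.1 z).1 hz, by
      simp [mul_assoc]⟩
  · rw [L.unipotentRadical_eq, e]
    exact ⟨_, h2 y hy, by simp [mul_assoc]⟩

end Cfsg.Agent.S2154
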