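import Cfsg.Statements.S2155
import Cfsg.Agent.Chev.LT
import Cfsg.Agent.Sig.FStar

set_option autoImplicit false
open Cfsg

namespace Cfsg.Agent.S2155

/-- In a Chevalley group of type G₂, B₂, D₄, F₄, E₆, E₇ or E₈ over a finite field of characteristic p (for types G₂ and B₂ the field is assumed to have at least 3 elements, so that the group is simple), the generalized Fitting subgroup of every proper standard parabolic subgroup P_J is a p-group (P_J is p-constrained with trivial largest normal subgroup of order prime to p). -/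
theorem result {F : Type*} [Field F] [Fintype F] (p : ℕ) [Fact p.Prime] [CharP F p] (D : Cfsg.Lie.ChevalleyDatum) (hD : D ∈ [Cfsg.Lie.chevG2, Cfsg.Lie.chevB2, Cfsg.Lie.chevD4, Cfsg.Lie.chevF4, Cfsg.Lie.chevE6, Cfsg.Lie.chevE7, Cfsg.Lie.chevE8]) (hq : (D = Cfsg.Lie.chevG2 ∨ D = Cfsg.Lie.chevB2) → 3 ≤ Fintype.card F) (J : Set ℕ) (hJ : ∃ i, i < D.rank ∧ i ∉ J) : IsPGroup p ↥(Cfsg.generalizedFittingSubgroup ↥(D.parabolicSubgroup F J)) := by
  obtain ⟨C, h⟩ := CF.Chev.exists_good hD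
  have := h.nonempty
  have L := h.link
  obtain ⟨i, hi, hi'⟩ := hJ
  have M := CF.Chev.lt_triv (p := p) (L.faithful_gpRep F) (L.gpRep_Gp F) h.conn (L.r3_gpRep F)
  have h1 := M.isCharP_PJ (L.center_group F) (J := Fin.val ⁻¹' J) (fun _ => Iff.rfl)
    ((Set.ne_univ_iff_exists_notMem _).2 ⟨⟨i, hi⟩, hi'⟩)
  have := M.finite
  have h2 : D.parabolicSubgroup F J ≤ D.group F := by
    rw [L.parabolicSubgroup_eq, L.group_eq]; exact CF.Chev.StRep.PJ_le_Gp _ _
  have := CF.Loc.finite_of_le h2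
  rw [inf_top_eq, L.gpRep_PJ F, CF.Loc.isCharP_subgroupOf_iff h2, CF.Loc.isCharP_iff] at h1
  exact CF.Sig.fstar_eq_pCore_iff_isPGroup.1 (CF.Sig.fstar_eq_pCore_iff.2 h1)

end Cfsg.Agent.S2155
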