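import Cfsg.Statements.S2156
import Cfsg.Agent.Chev.AutT

set_option autoImplicit false
open Cfsg

namespace Cfsg.Agent.S2156

/-- Over a finite field, every automorphism of the Chevalley group of type G₂, B₂, D₄, F₄, E₆, E₇ or E₈ is the composite of a field automorphism, a graph automorphism, a diagonal automorphism and an inner automorphism: `θ y = x · d(g(f y)) · x⁻¹` for some group element `x`, diagonal `d`, graph `g` and field `f` (each possibly the identity; diagonal here includes conjugation by elements of the diagonal subgroup H). -/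
theorem result {F : Type*} [Field F] [Finite F] (D : Cfsg.Lie.ChevalleyDatum) (hD : D ∈ [Cfsg.Lie.chevG2, Cfsg.Lie.chevB2, Cfsg.Lie.chevD4, Cfsg.Lie.chevF4, Cfsg.Lie.chevE6, Cfsg.Lie.chevE7, Cfsg.Lie.chevE8]) (θ : ↥(D.group F) ≃* ↥(D.group F)) :
    ∃ (x : ↥(D.group F)) (d g f : ↥(D.group F) ≃* ↥(D.group F)),
      D.IsDiagonalAut d ∧ D.IsGraphAut g ∧ D.IsFieldAut f ∧ ∀ y : ↥(D.group F), θ y = x * d (g (f y)) * x⁻¹ := by
  obtain ⟨C, h, hD', hg, -⟩ := CF.Chev.exists_good_gr hD F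
  have A := h.link.isAdj F
  obtain ⟨x, hx⟩ := CF.Chev.StRep.exists_conj_mul_mem_Stab A.r3 A.faithful A.gp θ
  obtain ⟨a, f, hθ⟩ := A.exists_std ⟨_, hx⟩
  obtain ⟨γ, f', hγ, hγ'⟩ := hg _ ⟨⟨_, hx⟩, rfl⟩
  obtain ⟨χ, σ, e⟩ := A.exists_decomp h.conn hθ hγ
  refine ⟨x⁻¹, A.diagAut χ, γ, A.fieldAut σ, (h.link.isDiagonalAut_iff hD').2 ⟨χ, rfl⟩, hγ',
    h.link.isFieldAut_iff.2 ⟨σ, rfl⟩, fun y => ?_⟩
  have : x * θ y * x⁻¹ = A.diagAut χ (γ (A.fieldAut σ y)) := DFunLike.congr_fun e y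
  rw [← this]; group

end Cfsg.Agent.S2156
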