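import Cfsg.Statements.S2159
import Cfsg.Agent.Chev.AutT
import Cfsg.Agent.Chev.FF

set_option autoImplicit false
open Cfsg

namespace Cfsg.Agent.S2159

/-- Structure of the outer automorphism group of the Chevalley group `G` of type G₂, B₂, D₄, F₄, E₆, E₇ or E₈ over a finite field. Let `D̄` be the image in `Out(G)` of the subgroup generated by the diagonal automorphisms and `F̄` the image of the subgroup generated by the field automorphisms. Then `D̄` is a normal abelian subgroup of `Out(G)`, `F̄` is cyclic, `D̄F̄` is a normal subgroup, and the quotient of `Out(G)` by `D̄F̄` is trivial, of order 2, or non-abelian of order 6 (so isomorphic to the symmetric group on three letters): its index is 1 or 2, or it is 6 with the commutator subgroup of `Out(G)` not inside `D̄F̄`. -/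
theorem result {F : Type*} [Field F] [Finite F] (D : Cfsg.Lie.ChevalleyDatum) (hD : D ∈ [Cfsg.Lie.chevG2, Cfsg.Lie.chevB2, Cfsg.Lie.chevD4, Cfsg.Lie.chevF4, Cfsg.Lie.chevE6, Cfsg.Lie.chevE7, Cfsg.Lie.chevE8])
    (Dbar Fbar : Subgroup (Cfsg.Out ↥(D.group F)))
    (hDbar : Dbar = (Subgroup.closure {φ : MulAut ↥(D.group F) | D.IsDiagonalAut φ}).map (QuotientGroup.mk' (Cfsg.Inn ↥(D.group F))))
    (hFbar : Fbar = (Subgroup.closure {φ : MulAut ↥(D.group F) | D.IsFieldAut φ}).map (QuotientGroup.mk' (Cfsg.Inn ↥(D.group F)))) :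
    Dbar.Normal ∧ IsMulCommutative ↥Dbar ∧ IsCyclic ↥Fbar ∧ (Dbar ⊔ Fbar).Normal ∧
      ((Dbar ⊔ Fbar).index = 1 ∨ (Dbar ⊔ Fbar).index = 2 ∨
        ((Dbar ⊔ Fbar).index = 6 ∧ ¬ commutator (Cfsg.Out ↥(D.group F)) ≤ Dbar ⊔ Fbar)) := by
  obtain ⟨C, h, hD', -, hc⟩ := CF.Chev.exists_good_gr hD F
  have A := h.link.isAdj F
  rw [show {φ : MulAut ↥(D.group F) | D.IsDiagonalAut φ} = A.diagAut.range from
    Set.ext fun _ => h.link.isDiagonalAut_iff hD', Subgroup.closure_eq] at hDbar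
  rw [show {φ : MulAut ↥(D.group F) | D.IsFieldAut φ} = A.fieldAut.range from
    Set.ext fun _ => h.link.isFieldAut_iff, Subgroup.closure_eq] at hFbar
  have hk : Dbar ⊔ Fbar = A.outPerm.ker := by rw [A.ker_outPerm h.conn, hDbar, hFbar]
  have := CF.Chev.isCyclic_ringAut (F := F)
  refine ⟨hDbar ▸ A.normal_diag, ?_, ?_, hk ▸ inferInstance, ?_⟩
  · rw [hDbar, MonoidHom.map_range]
    refine ⟨⟨?_⟩⟩
    rintro ⟨_, a, rfl⟩ ⟨_, b, rfl⟩
    exact Subtype.ext (by simp only [Subgroup.coe_mul, ← map_mul]; rw [mul_comm a b])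
  · rw [hFbar, MonoidHom.map_range]
    exact isCyclic_of_surjective _ (MonoidHom.rangeRestrict_surjective _)
  rw [hk, Subgroup.index_ker, A.range_outPerm]
  refine hc.imp_right fun hc => hc.imp_right fun ⟨h6, π, hπ, π', hπ', hne⟩ => ⟨h6, fun hle => hne ?_⟩
  rw [← A.range_outPerm] at hπ hπ'
  obtain ⟨o, rfl⟩ := hπ
  obtain ⟨o', rfl⟩ := hπ'
  have := hle (Subgroup.commutator_mem_commutator (Subgroup.mem_top o) (Subgroup.mem_top o'))
  rwa [MonoidHom.mem_ker, map_commutatorElement, commutatorElement_eq_one_iff_mul_comm] at this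

end Cfsg.Agent.S2159
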