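import Cfsg.Statements.S2161
import Cfsg.Agent.Chev.AutT
import Cfsg.Agent.Chev.Univ

set_option autoImplicit false
open Cfsg

namespace Cfsg.Agent.S2161

open CF.Chev Cfsg.Lie in
theorem aux {F : Type*} [Field F] {D : ChevalleyDatum} {C : ChevBasis (Fin D.rank) (Fin D.nroots)}
    (h : Good D C) (hS : C.SL) (hcv : ∀ r, C.cov r = C.vec r) (π : Equiv.Perm (Fin D.rank))
    (hπ : D.IsDiagramSymmetry π) (φ : MulAut (D.group F))
    (hφ : (∀ i t, φ ((h.link.gpRep F).x (C.simple i) t) = (h.link.gpRep F).x (C.simple (π i)) t) ∧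
      ∀ i t, φ ((h.link.gpRep F).x (C.neg (C.simple i)) t) =
        (h.link.gpRep F).x (C.neg (C.simple (π i))) t) (r : Fin D.nroots) :
    ∃ ε : F, (ε = 1 ∨ ε = -1) ∧ ∀ (g : ↥(D.group F)) (t : F),
      ((g : GL D.Idx F) : Matrix D.Idx D.Idx F) = D.x F r t →
        ((φ g : GL D.Idx F) : Matrix D.Idx D.Idx F) = D.x F (D.permRoot π r) (ε * t) := by
  have hs := h.link.mem_Sym_of_SL hS hπ
  obtain ⟨E, hE, α, hα⟩ := h.exists_graph_aut F π (by rw [← h.link.car_eq]; exact hs) π.surjective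
  have e : φ = α := MulEquiv.toMonoidHom_injective (StRep.hom_ext_simple (h.link.gpRep_Gp F)
    (fun i t => by simp [hφ.1, hα, hE, E.eU_simple])
    fun i t => by simp [hφ.2, hα, E.f_neg, hE, E.eU_neg, E.eU_simple])
  have hv : ∀ i, C.vec (E.f r) (π i) = C.vec r i := fun i => by
    simp [E.vec_f, E.L_apply, hE, C.vec_simple, Pi.single_apply]
  have hr : D.permRoot π r = E.f r := by
    unfold ChevalleyDatum.permRoot
    cases hf : (List.range D.nroots).find? _ with
    | none =>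
      refine absurd ?_ (List.find?_eq_none.1 hf (E.f r) (List.mem_range.2 (E.f r).2))
      simp [h.link.cov_eq, hcv, hv, -Array.getD_eq_getD_getElem?]
    | some s =>
      have h1 := List.mem_range.1 (List.mem_of_find?_eq_some hf)
      have h2 := List.find?_some hf
      simp only [List.all_eq_true, beq_iff_eq, List.mem_finRange, forall_const] at h2
      refine congrArg Fin.val (C.vec_inj (a₁ := ⟨s, h1⟩) (funext fun i => ?_))
      obtain ⟨i, rfl⟩ := π.surjective i
      rw [hv, ← hcv, ← hcv, ← h.link.cov_eq, ← h.link.cov_eq, h2]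
  refine ⟨E.eU F r, ?_, fun g t hg => ?_⟩
  · rw [E.val_eU]; rcases Int.units_eq_one_or (E.ε r) with h | h <;> simp [h]
  · rw [h.link.eq_gpRep_x_iff.1 hg, e, hα, hr, h.link.val_gpRep_x]

/-- For the Chevalley groups of types D₄ and E₆ (one root length) over any field: if `π` is a symmetry of the Dynkin diagram and `φ` is an automorphism sending `x_{p_i}(t)` to `x_{p_{π i}}(t)` and `x_{-p_i}(t)` to `x_{-p_{π i}}(t)` for every fundamental root `p_i`, then for every root `r` there is a sign `ε = ±1` with `φ(x_r(t)) = x_{π·r}(ε t)` for all `t`, where `π·r` is the root whose coefficients are those of `r` permuted by `π`. -/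
theorem result {F : Type*} [Field F] (D : Cfsg.Lie.ChevalleyDatum) (hD : D ∈ [Cfsg.Lie.chevD4, Cfsg.Lie.chevE6])
    (π : Equiv.Perm (Fin D.rank)) (hπ : D.IsDiagramSymmetry π) (φ : ↥(D.group F) ≃* ↥(D.group F))
    (hφ : ∀ (g : ↥(D.group F)) (i : Fin D.rank) (t : F),
      (((g : GL D.Idx F) : Matrix D.Idx D.Idx F) = D.x F (D.simple i) t →
        ((φ g : GL D.Idx F) : Matrix D.Idx D.Idx F) = D.x F (D.simple (π i)) t) ∧
      (((g : GL D.Idx F) : Matrix D.Idx D.Idx F) = D.x F (D.neg (D.simple i)) t →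
        ((φ g : GL D.Idx F) : Matrix D.Idx D.Idx F) = D.x F (D.neg (D.simple (π i))) t))
    (r : ℕ) (hr : r < D.nroots) :
    ∃ ε : F, (ε = 1 ∨ ε = -1) ∧ ∀ (g : ↥(D.group F)) (t : F),
      ((g : GL D.Idx F) : Matrix D.Idx D.Idx F) = D.x F r t →
        ((φ g : GL D.Idx F) : Matrix D.Idx D.Idx F) = D.x F (D.permRoot π r) (ε * t) := by
  simp only [List.mem_cons, List.not_mem_nil, or_false] at hD
  rcases hD with rfl | rfl
  · exact aux CF.Chev.goodD4 CF.Chev.slD4 (by decide +kernel) π hπ φ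
      ((CF.Chev.linkD4.graph_iff (F := fun _ t => t)).1 hφ) ⟨r, hr⟩
  · exact aux CF.Chev.goodE6 CF.Chev.slE6 (by decide +kernel) π hπ φ
      ((CF.Chev.linkE6.graph_iff (F := fun _ t => t)).1 hφ) ⟨r, hr⟩

end Cfsg.Agent.S2161
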