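import Cfsg.Statements.S2298
import Cfsg.Agent.Classical.GL2Char

set_option autoImplicit false
open Cfsg

namespace Cfsg.Agent.S2298

/-- Over a finite field F with q elements, every irreducible complex character of GL₂ has degree 1, q − 1, q or q + 1; and when q ≥ 3 (so that these four numbers are distinct) there are exactly q − 1 irreducible characters of degree 1, exactly q − 1 of degree q, exactly (q − 1)(q − 2)/2 of degree q + 1 and exactly q(q − 1)/2 of degree q − 1. -/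
theorem result {F : Type*} [Field F] [Fintype F] :
    (∀ χ : Matrix.GeneralLinearGroup (Fin 2) F → ℂ, Cfsg.IsIrrCharacter (Matrix.GeneralLinearGroup (Fin 2) F) χ →
      χ 1 = 1 ∨ χ 1 = (Fintype.card F : ℂ) - 1 ∨ χ 1 = (Fintype.card F : ℂ) ∨ χ 1 = (Fintype.card F : ℂ) + 1) ∧
    (3 ≤ Fintype.card F →
      Nat.card {χ : Cfsg.IrrCharacter (Matrix.GeneralLinearGroup (Fin 2) F) // (χ : Matrix.GeneralLinearGroup (Fin 2) F → ℂ) 1 = 1} = Fintype.card F - 1 ∧
      Nat.card {χ : Cfsg.IrrCharacter (Matrix.GeneralLinearGroup (Fin 2) F) // (χ : Matrix.GeneralLinearGroup (Fin 2) F → ℂ) 1 = (Fintype.card F : ℂ)} = Fintype.card F - 1 ∧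
      Nat.card {χ : Cfsg.IrrCharacter (Matrix.GeneralLinearGroup (Fin 2) F) // (χ : Matrix.GeneralLinearGroup (Fin 2) F → ℂ) 1 = (Fintype.card F : ℂ) + 1} = (Fintype.card F - 1) * (Fintype.card F - 2) / 2 ∧
      Nat.card {χ : Cfsg.IrrCharacter (Matrix.GeneralLinearGroup (Fin 2) F) // (χ : Matrix.GeneralLinearGroup (Fin 2) F → ℂ) 1 = (Fintype.card F : ℂ) - 1} = Fintype.card F * (Fintype.card F - 1) / 2) := by
  open CF.Classical in
  classical
  rw [← Nat.card_eq_fintype_card] at *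
  obtain ⟨g₀, h₀⟩ := exists_noEig F
  refine ⟨fun χ hχ => ?_, fun hq => ?_⟩
  · rcases h₀.irr_GL2_cases hχ with ⟨α, rfl⟩ | ⟨α, rfl⟩ | ⟨α, β, -, rfl⟩ | ⟨θ, -, rfl⟩
    exacts [Or.inl (lin_one α), Or.inr (Or.inr (Or.inl (stb_one α))),
      Or.inr (Or.inr (Or.inr (prin_one α β))), Or.inr (Or.inl (h₀.cusp_one θ))]
  have h1 : ∀ n : ℕ, n < 3 → (Nat.card F : ℂ) ≠ n := fun n hn e => by
    have := Nat.cast_injective e; omega
  have h2 := h1 0 (by norm_num)
  have h3 := h1 1 (by norm_num)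
  have h4 := h1 2 (by norm_num)
  push_cast at h2 h3 h4
  refine ⟨?_, ?_, ?_, ?_⟩
  · rw [card_irr_of_injective (p := fun χ => χ 1 = 1) lin (fun α => ⟨irr_lin α, lin_one α⟩)
      (fun χ hχ e => ?_) lin_injective, card_mulChar]
    rcases h₀.irr_GL2_cases hχ with h | ⟨α, rfl⟩ | ⟨α, β, -, rfl⟩ | ⟨θ, -, rfl⟩
    · exact h
    · exact absurd (stb_one α ▸ e) h3
    · exact absurd (by linear_combination e - prin_one α β) h2
    · exact absurd (by linear_combination e - h₀.cusp_one θ) h4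
  · rw [card_irr_of_injective (p := fun χ => χ 1 = Nat.card F) stb (fun α => ⟨irr_stb α, stb_one α⟩)
      (fun χ hχ e => ?_) stb_injective, card_mulChar]
    rcases h₀.irr_GL2_cases hχ with ⟨α, rfl⟩ | h | ⟨α, β, -, rfl⟩ | ⟨θ, -, rfl⟩
    · exact absurd (lin_one α ▸ e).symm h3
    · exact h
    · exact absurd (by linear_combination e - prin_one α β) (one_ne_zero' ℂ)
    · exact absurd (by linear_combination h₀.cusp_one θ - e) (one_ne_zero' ℂ)
  · rw [card_irr_of_two (p := fun χ => χ 1 = Nat.card F + 1)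
      (fun x : {x : MulChar F ℂ × MulChar F ℂ // ¬ x.1 = x.2} => prin x.1.1 x.1.2)
      (fun x => ⟨irr_prin x.2, prin_one _ _⟩) (fun χ hχ e => ?_) (fun x => ⟨x.1.swap, Ne.symm x.2⟩)
      (fun x e => x.2 (congrArg (·.1.2) e)) fun x y => by
        rw [prin_eq_prin_iff]; simp [Subtype.ext_iff, Prod.ext_iff, eq_comm, and_comm]]
    · rw [card_subtype_not, Nat.card_prod, ← Nat.card_congr (Equiv.ofBijective
        (fun α : MulChar F ℂ => (⟨(α, α), rfl⟩ : {x : MulChar F ℂ × MulChar F ℂ // x.1 = x.2}))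
        ⟨fun _ _ e => congrArg (·.1.1) e, fun x => ⟨x.1.1, Subtype.ext (Prod.ext rfl x.2)⟩⟩),
        card_mulChar, ← Nat.mul_sub_one]
      rfl
    rcases h₀.irr_GL2_cases hχ with ⟨α, rfl⟩ | ⟨α, rfl⟩ | ⟨α, β, h, rfl⟩ | ⟨θ, -, rfl⟩
    · exact absurd (by linear_combination lin_one α - e) h2
    · exact absurd (by linear_combination stb_one α - e) (one_ne_zero' ℂ)
    · exact ⟨⟨(α, β), h⟩, rfl⟩
    · exact absurd (by linear_combination h₀.cusp_one θ - e) (two_ne_zero' ℂ)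
  · rw [card_irr_of_two (p := fun χ => χ 1 = Nat.card F - 1)
      (fun x : {θ : nsT g₀ →* ℂˣ // θ.comp h₀.adjT ≠ θ} => cusp x.1)
      (fun x => ⟨h₀.irr_cusp x.2, h₀.cusp_one _⟩) (fun χ hχ e => ?_)
      (fun x => ⟨x.1.comp h₀.adjT, fun e => x.2 (MonoidHom.ext fun t => by
        simpa [h₀.adjT_adjT] using (DFunLike.congr_fun e t).symm)⟩)
      (fun x e => x.2 (congrArg (·.1) e)) fun x y => by
        rw [eq_comm, h₀.cusp_eq_cusp_iff, Subtype.ext_iff, Subtype.ext_iff], h₀.card_comp_adjT_ne]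
    rcases h₀.irr_GL2_cases hχ with ⟨α, rfl⟩ | ⟨α, rfl⟩ | ⟨α, β, h, rfl⟩ | ⟨θ, h, rfl⟩
    · exact absurd (by linear_combination lin_one α - e) h4
    · exact absurd (by linear_combination e - stb_one α) (one_ne_zero' ℂ)
    · exact absurd (by linear_combination e - prin_one α β) (two_ne_zero' ℂ)
    · exact ⟨⟨θ, h⟩, rfl⟩

end Cfsg.Agent.S2298
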