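import Cfsg.Statements.S2301
import Cfsg.Agent.Classical.SL2Torus

set_option autoImplicit false
open Cfsg

namespace Cfsg.Agent.S2301

/-- Over a finite field with q elements of odd characteristic p, the elements of order p of SL₂ (the non-identity unipotent elements) fall into exactly two conjugacy classes, each of size (q² − 1)/2; two upper unitriangular matrices with non-zero off-diagonal entries b and b′ are conjugate exactly when bb′ is a square. -/
theorem result {F : Type*} [Field F] [Fintype F] (p : ℕ) [Fact p.Prime] [CharP F p] (hp : p ≠ 2) :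
    Nat.card {C : ConjClasses (Matrix.SpecialLinearGroup (Fin 2) F) // ∃ g : Matrix.SpecialLinearGroup (Fin 2) F, orderOf g = p ∧ ConjClasses.mk g = C} = 2 ∧
    (∀ g : Matrix.SpecialLinearGroup (Fin 2) F, orderOf g = p → Nat.card (ConjClasses.mk g).carrier = (Fintype.card F ^ 2 - 1) / 2) ∧
    ∀ g h : Matrix.SpecialLinearGroup (Fin 2) F, (g : Matrix (Fin 2) (Fin 2) F) 0 0 = 1 → (g : Matrix (Fin 2) (Fin 2) F) 1 1 = 1 → (g : Matrix (Fin 2) (Fin 2) F) 1 0 = 0 → (g : Matrix (Fin 2) (Fin 2) F) 0 1 ≠ 0 →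
      (h : Matrix (Fin 2) (Fin 2) F) 0 0 = 1 → (h : Matrix (Fin 2) (Fin 2) F) 1 1 = 1 → (h : Matrix (Fin 2) (Fin 2) F) 1 0 = 0 → (h : Matrix (Fin 2) (Fin 2) F) 0 1 ≠ 0 →
      (IsConj g h ↔ IsSquare ((g : Matrix (Fin 2) (Fin 2) F) 0 1 * (h : Matrix (Fin 2) (Fin 2) F) 0 1)) := by
  open CF.Classical in
  rw [← Nat.card_eq_fintype_card] at *
  have h2 : (2 : F) ≠ 0 := two_ne_zero_of_char_ne_two F p hp
  have h3 : ringChar F ≠ 2 := by rwa [ringChar.eq F p]
  have h4 : ∀ x : F, x ≠ 0 → orderOf (sbor 1 x) = p := fun x hx => (orderOf_eq_char_iff p).2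
    ⟨by rw [toGL_sbor]; exact hasEig_bor 1 1 x, by simp [toGL_sbor, isScal_bor, hx]⟩
  refine ⟨?_, fun g hg => ?_, fun g h h1 _ h5 h6 h7 _ h8 h9 => ?_⟩
  · obtain ⟨a, ha⟩ := FiniteField.exists_nonsquare h3
    have ha0 : a ≠ 0 := fun e => ha (by simp [e])
    refine Nat.card_eq_two_iff.2 ⟨⟨ConjClasses.mk (sbor 1 1), _, h4 1 one_ne_zero, rfl⟩,
      ⟨ConjClasses.mk (sbor 1 a), _, h4 a ha0, rfl⟩, fun e => ha ?_, Set.eq_univ_of_forall ?_⟩
    · simpa using (isConj_sbor_jor (one_pow 2) one_ne_zero ha0).1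
        (ConjClasses.mk_eq_mk_iff_isConj.1 (congrArg Subtype.val e))
    · rintro ⟨_, g, hg, rfl⟩
      obtain ⟨h5, h6⟩ := (orderOf_eq_char_iff p).1 hg
      obtain ⟨x, hx, e⟩ := HasEig.exists_isConj_sbor (e := 1) h5 h6
      by_cases h7 : IsSquare x
      · exact Or.inl (Subtype.ext (ConjClasses.mk_eq_mk_iff_isConj.2 (e.trans
          ((isConj_sbor_jor (one_pow 2) hx one_ne_zero).2 (by simpa using h7)))))
      · refine Or.inr (Subtype.ext (ConjClasses.mk_eq_mk_iff_isConj.2 (e.trans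
          ((isConj_sbor_jor (one_pow 2) hx ha0).2 ?_))))
        classical
        rw [← quadraticChar_one_iff_isSquare (mul_ne_zero hx ha0), map_mul,
          quadraticChar_neg_one_iff_not_isSquare.2 h7, quadraticChar_neg_one_iff_not_isSquare.2 ha]
        rfl
  · obtain ⟨h3, h4⟩ := (orderOf_eq_char_iff p).1 hg
    have h7 := (Subgroup.centralizer {g}).card_mul_index
    rw [← nsT1_toGL, HasEig.card_nsT1_jor (a := 1) h3 h4, card_units_sq_of_odd h2, card_SL2,
      nsT1_toGL, mul_comm 2, mul_assoc] at h7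
    rw [CF.Char.card_carrier_eq_index, ← mul_left_cancel₀ Nat.card_pos.ne' h7,
      Nat.mul_div_cancel_left _ two_pos]
  · obtain ⟨a, ha⟩ := eq_sbor h5
    obtain ⟨b, hb⟩ := eq_sbor h8
    obtain rfl : a = 1 := Units.ext (by rw [ha] at h1; exact h1)
    obtain rfl : b = 1 := Units.ext (by rw [hb] at h7; exact h7)
    rw [← isConj_sbor_jor (one_pow 2) h6 h9, ← ha, ← hb]

end Cfsg.Agent.S2301
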