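import Cfsg.Statements.S2308
import Cfsg.Agent.Classical.GL2Char

set_option autoImplicit false
open Cfsg

namespace Cfsg.Agent.S2308

/-- Values of the permutation character of GL₂ over a finite field F with q elements on the cosets of its upper triangular subgroup (equivalently, the number of lines of F² that an element maps to themselves): q + 1 at a scalar matrix, 2 at a diagonal matrix with two different diagonal entries, 0 at an element with no eigenvector in F², and 1 at an upper triangular matrix with equal diagonal entries and non-zero upper right entry. -/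
theorem result {F : Type*} [Field F] [Fintype F] (g : Matrix.GeneralLinearGroup (Fin 2) F) :
    ((∃ a : F, (g : Matrix (Fin 2) (Fin 2) F) = a • (1 : Matrix (Fin 2) (Fin 2) F)) → Cfsg.fixedPointCharacter (Cfsg.upperTriangularGL 2 F) g = Fintype.card F + 1) ∧
    ((g : Matrix (Fin 2) (Fin 2) F) 0 1 = 0 → (g : Matrix (Fin 2) (Fin 2) F) 1 0 = 0 → (g : Matrix (Fin 2) (Fin 2) F) 0 0 ≠ (g : Matrix (Fin 2) (Fin 2) F) 1 1 →
      Cfsg.fixedPointCharacter (Cfsg.upperTriangularGL 2 F) g = 2) ∧
    ((∀ (c : F) (v : Fin 2 → F), v ≠ 0 → (g : Matrix (Fin 2) (Fin 2) F).mulVec v ≠ c • v) → Cfsg.fixedPointCharacter (Cfsg.upperTriangularGL 2 F) g = 0) ∧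
    ((g : Matrix (Fin 2) (Fin 2) F) 1 0 = 0 → (g : Matrix (Fin 2) (Fin 2) F) 0 0 = (g : Matrix (Fin 2) (Fin 2) F) 1 1 → (g : Matrix (Fin 2) (Fin 2) F) 0 1 ≠ 0 →
      Cfsg.fixedPointCharacter (Cfsg.upperTriangularGL 2 F) g = 1) := by
  open CF.Classical in
  classical
  have h0 : Cfsg.fixedPointCharacter (Cfsg.upperTriangularGL 2 F) g = prin 1 1 g := by
    refine (congrFun (CF.Char.indFun_one_eq_fixedBy _) g).symm.trans (congrFun (congrArg _ ?_) g)
    funext b
    have := (hasEig_of_10 (mem_borel_iff.1 b.2)).ne_zero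
    rw [MulChar.one_apply this.1.isUnit, MulChar.one_apply this.2.isUnit, one_mul]
  rw [← Nat.card_eq_fintype_card, h0]
  refine ⟨fun ⟨a, h⟩ => ?_, fun _ h1 h2 => ?_, fun h => (noEig_iff.2 h).prin_eq _ _, fun h1 h2 h3 => ?_⟩
  · obtain ⟨a, rfl⟩ := isScal_iff.1 (show IsScal g by simp [IsScal, h])
    simp [prin_scal]
  · have := (hasEig_of_10 h1).ne_zero
    rw [(hasEig_of_10 h1).prin_split h2, MulChar.one_apply this.1.isUnit,
      MulChar.one_apply this.2.isUnit]
    norm_num
  · have h4 := hasEig_of_10 h1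
    rw [← h2] at h4
    rw [h4.prin_jor fun e => h3 e.1, MulChar.one_apply h4.ne_zero.1.isUnit, one_mul]

end Cfsg.Agent.S2308
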