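import Cfsg.Statements.S2309
import Cfsg.Agent.Classical.GL2Char

set_option autoImplicit false
open Cfsg

namespace Cfsg.Agent.S2309

/-- Over a finite field F with q elements: every irreducible complex character of GL₂ of degree q − 1 vanishes at every diagonal matrix with two distinct entries, and every irreducible complex character of degree q + 1 vanishes at every element with no eigenvector in F². -/
theorem result {F : Type*} [Field F] [Fintype F] (χ : Matrix.GeneralLinearGroup (Fin 2) F → ℂ) (hχ : Cfsg.IsIrrCharacter (Matrix.GeneralLinearGroup (Fin 2) F) χ) (g : Matrix.GeneralLinearGroup (Fin 2) F) :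
    (χ 1 = (Fintype.card F : ℂ) - 1 → (g : Matrix (Fin 2) (Fin 2) F) 0 1 = 0 → (g : Matrix (Fin 2) (Fin 2) F) 1 0 = 0 → (g : Matrix (Fin 2) (Fin 2) F) 0 0 ≠ (g : Matrix (Fin 2) (Fin 2) F) 1 1 → χ g = 0) ∧
    (χ 1 = (Fintype.card F : ℂ) + 1 → (∀ (c : F) (v : Fin 2 → F), v ≠ 0 → (g : Matrix (Fin 2) (Fin 2) F).mulVec v ≠ c • v) → χ g = 0) := by
  open CF.Classical in
  classical
  rw [← Nat.card_eq_fintype_card]
  obtain ⟨g₀, h₀⟩ := exists_noEig F
  have h1 : (Nat.card F : ℂ) ≠ 0 := Nat.cast_ne_zero.2 Nat.card_pos.ne'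
  rcases h₀.irr_GL2_cases hχ with ⟨α, rfl⟩ | ⟨α, rfl⟩ | ⟨α, β, -, rfl⟩ | ⟨θ, -, rfl⟩
  · rw [lin_one]
    refine ⟨fun e _ h2 h3 => ?_, fun e => absurd (by linear_combination -e) h1⟩
    have h4 : Nat.card F = 2 := by exact_mod_cast (by linear_combination -e : (Nat.card F : ℂ) = 2)
    have h5 := (hasEig_of_10 h2).ne_zero
    obtain ⟨x, -, hx⟩ := (Nat.card_eq_two_iff' (0 : F)).1 h4
    exact absurd ((hx _ h5.1).trans (hx _ h5.2).symm) h3
  · rw [stb_one]
    exact ⟨fun e => absurd (by linear_combination e) (one_ne_zero' ℂ),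
      fun e => absurd (by linear_combination -e) (one_ne_zero' ℂ)⟩
  · rw [prin_one]
    exact ⟨fun e => absurd (by linear_combination e) (two_ne_zero' ℂ),
      fun _ h => (noEig_iff.2 h).prin_eq _ _⟩
  · rw [h₀.cusp_one]
    exact ⟨fun _ _ h2 h3 => h₀.cusp_split _ (hasEig_of_10 h2) h3,
      fun e => absurd (by linear_combination -e) (two_ne_zero' ℂ)⟩

end Cfsg.Agent.S2309
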