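import Cfsg.Statements.S2310
import Cfsg.Agent.Classical.GL2Char

set_option autoImplicit false
open Cfsg

namespace Cfsg.Agent.S2310

/-- Over a finite field F with q ≥ 3 elements, let u be the upper unitriangular matrix of GL₂ with off-diagonal entry 1. An irreducible complex character χ of GL₂ takes at u the value 1 if χ has degree 1 or q + 1, the value −1 if χ has degree q − 1, and the value 0 if χ has degree q. -/
theorem result {F : Type*} [Field F] [Fintype F] (hq : 3 ≤ Fintype.card F) (χ : Matrix.GeneralLinearGroup (Fin 2) F → ℂ) (hχ : Cfsg.IsIrrCharacter (Matrix.GeneralLinearGroup (Fin 2) F) χ)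
    (u : Matrix.GeneralLinearGroup (Fin 2) F) (hu : (u : Matrix (Fin 2) (Fin 2) F) = !![1, 1; 0, 1]) :
    (χ 1 = 1 → χ u = 1) ∧ (χ 1 = (Fintype.card F : ℂ) + 1 → χ u = 1) ∧
    (χ 1 = (Fintype.card F : ℂ) - 1 → χ u = -1) ∧ (χ 1 = (Fintype.card F : ℂ) → χ u = 0) := by
  open CF.Classical in
  classical
  rw [← Nat.card_eq_fintype_card] at *
  obtain ⟨g₀, h₀⟩ := exists_noEig F
  obtain rfl : u = bor 1 1 1 := Units.ext hu
  have h1 : ∀ n : ℕ, n < 3 → (Nat.card F : ℂ) ≠ n := fun n hn e => by
    have := Nat.cast_injective e; omega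
  have h2 := h1 0 (by norm_num)
  have h3 := h1 1 (by norm_num)
  have h4 := h1 2 (by norm_num)
  have h5 : ¬ IsScal (bor (1 : Fˣ) 1 1) := by simp [isScal_bor]
  rcases h₀.irr_GL2_cases hχ with ⟨α, rfl⟩ | ⟨α, rfl⟩ | ⟨α, β, -, rfl⟩ | ⟨θ, -, rfl⟩
  · rw [lin_one, (hasEig_bor 1 1 1).lin_eq]
    exact ⟨by simp, by simp, fun e => absurd (by push_cast; linear_combination -e) h4,
      fun e => absurd (by push_cast; linear_combination -e) h3⟩
  · rw [stb_one, (hasEig_bor 1 1 1).stb_jor h5]
    exact ⟨fun e => absurd (by push_cast; linear_combination e) h3,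
      fun e => absurd (by linear_combination -e) (one_ne_zero' ℂ),
      fun e => absurd (by linear_combination e) (one_ne_zero' ℂ), by simp⟩
  · rw [prin_one, prin_bor_jor]
    exact ⟨by simp, by simp, fun e => absurd (by linear_combination e) (two_ne_zero' ℂ),
      fun e => absurd (by linear_combination e) (one_ne_zero' ℂ)⟩
  · rw [h₀.cusp_one, h₀.cusp_bor_jor]
    exact ⟨fun e => absurd (by push_cast; linear_combination e) h4,
      fun e => absurd (by linear_combination -e) (two_ne_zero' ℂ), by simp,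
      fun e => absurd (by linear_combination -e) (one_ne_zero' ℂ)⟩

end Cfsg.Agent.S2310
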