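import Cfsg.Statements.S2315
import Cfsg.Agent.Chev.Flag
import Cfsg.Agent.Chev.ClsA

set_option autoImplicit false
open Cfsg

namespace Cfsg.Agent.S2315

/-- Steinberg's count of unipotent elements for the general linear group: over a finite field with q elements of characteristic p, the number of elements of GL_n of p-power order (the unipotent matrices) is q^(n(n−1)). -/
theorem result {F : Type*} [Field F] [Fintype F] (p : ℕ) [Fact p.Prime] [CharP F p] (n : ℕ) :
    Nat.card {g : Matrix.GeneralLinearGroup (Fin n) F // ∃ k : ℕ, orderOf g = p ^ k} = Fintype.card F ^ (n * (n - 1)) := by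
  classical
  have key : Nat.card {g : Matrix.GeneralLinearGroup (Fin n) F // ∃ k : ℕ, orderOf g = p ^ k} =
      Nat.card {g : Matrix.SpecialLinearGroup (Fin n) F // ∃ k : ℕ, orderOf g = p ^ k} := by
    have hi := Matrix.SpecialLinearGroup.toGL_injective (n := Fin n) (R := F)
    symm
    refine (Nat.card_eq_of_bijective (fun g => ⟨Matrix.SpecialLinearGroup.toGL g.1, by
      simpa only [orderOf_injective _ hi] using g.2⟩)
      ⟨fun a b e => Subtype.ext (hi (congrArg Subtype.val e)), fun ⟨g, k, hk⟩ => ?_⟩)
    have h1 : g.1.det = 1 := by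
      have : g.1.det ^ p ^ k = 1 := by
        rw [← Matrix.det_pow, ← Units.val_pow_eq_pow_val, ← hk, pow_orderOf_eq_one]; simp
      rw [← sub_eq_zero, ← pow_eq_zero_iff (pow_ne_zero k (Fact.out : p.Prime).ne_zero),
        sub_pow_char_pow, this, one_pow, sub_self]
    exact ⟨⟨⟨g.1, h1⟩, k, (orderOf_injective _ hi _).symm.trans
      (by convert hk; exact Units.ext rfl)⟩,
      Subtype.ext (Units.ext rfl)⟩
  rw [key]
  rcases Nat.lt_or_ge n 2 with h | h
  · have : Subsingleton (Matrix.SpecialLinearGroup (Fin n) F) := by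
      interval_cases n <;> infer_instance
    rw [show n * (n - 1) = 0 by interval_cases n <;> rfl]
    exact (Nat.card_eq_one_iff_unique.2 ⟨inferInstance, ⟨⟨1, 0, by simp⟩⟩⟩).trans (pow_zero _).symm
  obtain ⟨m, rfl⟩ : ∃ m, n = m + 1 := ⟨n - 1, by omega⟩
  have h1 : Fintype.card (CF.Chev.RtA m) = (m + 1) * m := by
    rw [Fintype.card_subtype, show Finset.filter _ _ = Finset.univ.offDiag from Finset.ext fun _ => by simp,
      Finset.offDiag_card]
    simp [mul_add]
  rw [CF.Chev.StRep.card_unip (CF.Chev.faithful_slRep m F (by omega)) (CF.Chev.slRep_Gp m F), h1,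
    Nat.mul_div_cancel' (mul_comm m _ ▸ (Nat.even_mul_succ_self m).two_dvd), Nat.card_eq_fintype_card]
  rfl

end Cfsg.Agent.S2315
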