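import Cfsg.Statements.S2316
import Cfsg.Agent.Chev.Flag
import Cfsg.Agent.Chev.ClsSp
import Cfsg.Agent.Geom.Orders

set_option autoImplicit false
open Cfsg

namespace Cfsg.Agent.S2316

/-- Steinberg's count of unipotent elements for the symplectic group: over a finite field with q elements of characteristic p, the number of elements of Sp_{2m} of p-power order is q^(2m²). -/
theorem result {F : Type*} [Field F] [Fintype F] (p : ℕ) [Fact p.Prime] [CharP F p] (m : ℕ) :
    Nat.card {g : ↥(Matrix.symplecticGroup (Fin m) F) // ∃ k : ℕ, orderOf g = p ^ k} = Fintype.card F ^ (2 * m ^ 2) := by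
  rcases Nat.eq_zero_or_pos m with rfl | hm
  · have : Subsingleton (Matrix.symplecticGroup (Fin 0) F) := ⟨fun _ _ => Subtype.ext (Subsingleton.elim _ _)⟩
    simpa using Nat.card_eq_one_iff_unique.2 ⟨inferInstance, ⟨⟨1, 0, by simp⟩⟩⟩
  obtain ⟨a, hp, ha⟩ := FiniteField.card F p
  rw [CF.Chev.StRep.card_unip' (CF.Chev.faithful_spRep m F hm) (CF.Chev.spRep_Gp m F),
    CF.Geom.card_symplecticGroup, Nat.card_eq_fintype_card, ha, Nat.factorization_mul (by
      have := hp.pos; positivity) (Finset.prod_ne_zero_iff.2 fun i _ => Nat.sub_ne_zero_of_lt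
      (Nat.one_lt_pow (by omega) (Nat.one_lt_pow a.ne_zero hp.one_lt))), Finsupp.add_apply,
    Nat.factorization_eq_zero_of_not_dvd (n := ∏ _ ∈ _, _) (hp.prime.not_dvd_finsetProd fun i _ h =>
      hp.one_lt.ne' (Nat.dvd_one.1 ((Nat.dvd_sub_iff_right (Nat.one_le_pow _ _ (pow_pos hp.pos _))
        (dvd_pow (dvd_pow_self p a.ne_zero) (by omega))).1 h))), ← pow_mul p a, hp.factorization_pow]
  simp only [Finsupp.single_eq_same, add_zero, ← pow_mul]
  ring

end Cfsg.Agent.S2316
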