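import Cfsg.Statements.S2317
import Cfsg.Agent.Cls.UnipGL

set_option autoImplicit false
open Cfsg

namespace Cfsg.Agent.S2317

open CF.Cls

/-- Over a finite field of characteristic p, the conjugacy classes of GL_n consisting of elements of p-power order (the unipotent classes) are as many as the partitions of n. -/
theorem result {F : Type*} [Field F] [Fintype F] (p : ℕ) [Fact p.Prime] [CharP F p] (n : ℕ) :
    Nat.card {C : ConjClasses (Matrix.GeneralLinearGroup (Fin n) F) //
      ∃ g : Matrix.GeneralLinearGroup (Fin n) F, (∃ k : ℕ, orderOf g = p ^ k) ∧ ConjClasses.mk g = C} =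
      Fintype.card (Nat.Partition n) := by
  simp only [and_comm (b := _ = _)]
  rw [card_unip_classes _ (fun _ => True) (fun g => by rw [GL_unip_iff, and_true])]
  simp

end Cfsg.Agent.S2317
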