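import Cfsg.Statements.S2320
import Cfsg.Agent.Classical.GL2Char

set_option autoImplicit false
open Cfsg

namespace Cfsg.Agent.S2320

/-- Over a finite field F with q elements, every irreducible complex character of GL₂ of degree q takes a value of absolute value 1 at every diagonal matrix with two different diagonal entries and at every element with no eigenvector in F². -/
theorem result {F : Type*} [Field F] [Fintype F] (χ : Matrix.GeneralLinearGroup (Fin 2) F → ℂ) (hχ : Cfsg.IsIrrCharacter (Matrix.GeneralLinearGroup (Fin 2) F) χ) (hdeg : χ 1 = (Fintype.card F : ℂ)) (g : Matrix.GeneralLinearGroup (Fin 2) F) :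
    ((g : Matrix (Fin 2) (Fin 2) F) 0 1 = 0 → (g : Matrix (Fin 2) (Fin 2) F) 1 0 = 0 → (g : Matrix (Fin 2) (Fin 2) F) 0 0 ≠ (g : Matrix (Fin 2) (Fin 2) F) 1 1 → ‖χ g‖ = 1) ∧
    ((∀ (c : F) (v : Fin 2 → F), v ≠ 0 → (g : Matrix (Fin 2) (Fin 2) F).mulVec v ≠ c • v) → ‖χ g‖ = 1) := by
  open CF.Classical in
  classical
  rw [← Nat.card_eq_fintype_card] at *
  obtain ⟨g₀, h₀⟩ := exists_noEig F
  have h1 : ∀ α : MulChar F ℂ, ‖lin α g‖ = 1 := fun α => by rw [lin_eq]; exact CF.Char.linear_norm _ _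
  rcases h₀.irr_GL2_cases hχ with ⟨α, rfl⟩ | ⟨α, rfl⟩ | ⟨α, β, -, rfl⟩ | ⟨θ, -, rfl⟩
  · exact ⟨fun _ _ _ => h1 α, fun _ => h1 α⟩
  · exact ⟨fun _ h2 h3 => by rw [(hasEig_of_10 h2).stb_split h3, h1],
      fun h => by rw [(noEig_iff.2 h).stb_eq, norm_neg, h1]⟩
  · rw [prin_one] at hdeg
    exact absurd (by linear_combination hdeg) (one_ne_zero' ℂ)
  · rw [h₀.cusp_one] at hdeg
    exact absurd (by linear_combination -hdeg) (one_ne_zero' ℂ)

end Cfsg.Agent.S2320
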