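import Cfsg.Statements.S2322
import Cfsg.Agent.Classical.SL2Deg

set_option autoImplicit false
open Cfsg

namespace Cfsg.Agent.S2322

/-- Over a finite field F with q elements, q odd: every irreducible complex character of SL₂ of degree q − 1 or (q − 1)/2 vanishes at every diagonal matrix whose diagonal entry a has a² ≠ 1, and every irreducible complex character of degree q + 1 or (q + 1)/2 vanishes at every element with no eigenvector in F². -/
theorem result {F : Type*} [Field F] [Fintype F] (hodd : Odd (Fintype.card F)) (χ : Matrix.SpecialLinearGroup (Fin 2) F → ℂ) (hχ : Cfsg.IsIrrCharacter (Matrix.SpecialLinearGroup (Fin 2) F) χ) (g : Matrix.SpecialLinearGroup (Fin 2) F) :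
    ((χ 1 = (Fintype.card F : ℂ) - 1 ∨ χ 1 = (((Fintype.card F - 1) / 2 : ℕ) : ℂ)) →
      (g : Matrix (Fin 2) (Fin 2) F) 0 1 = 0 → (g : Matrix (Fin 2) (Fin 2) F) 1 0 = 0 → (g : Matrix (Fin 2) (Fin 2) F) 0 0 ^ 2 ≠ 1 → χ g = 0) ∧
    ((χ 1 = (Fintype.card F : ℂ) + 1 ∨ χ 1 = (((Fintype.card F + 1) / 2 : ℕ) : ℂ)) →
      (∀ (c : F) (v : Fin 2 → F), v ≠ 0 → (g : Matrix (Fin 2) (Fin 2) F).mulVec v ≠ c • v) → χ g = 0) := by
  open CF.Classical in
  rw [← Nat.card_eq_fintype_card] at *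
  rw [eq_half_add_iff hodd, eq_half_sub_iff hodd]
  obtain ⟨g₀, h₀⟩ := exists_noEig F
  refine ⟨fun h _ h2 h3 => ?_, fun h hg => ?_⟩
  · have h5 := hasEig_of_10 (g := Matrix.SpecialLinearGroup.toGL g) h2
    have h4 := four_le_card_of_sq_ne_one h5.ne_zero.1 h3
    have h6 := (sl_00_ne_11 h2).2 h3
    rcases h with h | h
    · obtain ⟨θ, -, rfl⟩ := h₀.exists_cuspSL_of_deg h4 hχ h
      exact h₀.cuspSL_split θ h5 h6
    · obtain ⟨θ, χ', -, -, H⟩ := h₀.exists_half_cuspSL_of_deg h4 hχ h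
      linear_combination ((H.two_mul (h5.isSS_iff.2 h6).detSurj).trans (h₀.cuspSL_split θ h5 h6)) / 2
  · have h5 : NoEig (Matrix.SpecialLinearGroup.toGL g) := noEig_iff.2 hg
    rcases h with h | h
    · obtain ⟨α, -, rfl⟩ := exists_prinSL_of_deg hχ h
      exact h5.prinSL_eq α
    · obtain ⟨n, hn, e⟩ := h₀.irr_SL2_deg hχ
      have : 2 * n = Nat.card F + 1 := Nat.cast_injective (R := ℂ) (by push_cast; rw [← hn, h])
      have := Finite.one_lt_card (α := F)
      rcases e with e | e | e | ⟨e, θ, h6, rfl⟩ | ⟨-, α, χ', -, -, H⟩ | e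
      any_goals (have := e.1; omega)
      · exact h₀.cuspSL_eq_zero_of_three (by omega) h6 h5
      · linear_combination ((H.two_mul h5.detSurj).trans (h5.prinSL_eq α)) / 2

end Cfsg.Agent.S2322
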