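import Cfsg.Statements.S2324
import Cfsg.Agent.Classical.SL2Deg

set_option autoImplicit false
open Cfsg

namespace Cfsg.Agent.S2324

/-- Over a finite field F with q elements, q odd and q ≥ 5, let u be the upper unitriangular matrix of SL₂ with off-diagonal entry 1 and let δ = (−1)^((q−1)/2). Every irreducible complex character χ of SL₂ of degree (q + 1)/2 satisfies (2χ(u) − 1)² = δq, and every irreducible complex character χ of degree (q − 1)/2 satisfies (2χ(u) + 1)² = δq; that is, χ(u) = (1 ± √(δq))/2 in the first case and χ(u) = (−1 ± √(δq))/2 in the second. Moreover two different irreducible characters of degree (q + 1)/2 take the two different values (their values at u add up to 1), and likewise for degree (q − 1)/2 (values adding up to −1). -/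
theorem result {F : Type*} [Field F] [Fintype F] (hodd : Odd (Fintype.card F)) (hq : 5 ≤ Fintype.card F)
    (u : Matrix.SpecialLinearGroup (Fin 2) F) (hu : (u : Matrix (Fin 2) (Fin 2) F) = !![1, 1; 0, 1]) :
    (∀ χ : Matrix.SpecialLinearGroup (Fin 2) F → ℂ, Cfsg.IsIrrCharacter (Matrix.SpecialLinearGroup (Fin 2) F) χ → χ 1 = (((Fintype.card F + 1) / 2 : ℕ) : ℂ) → (2 * χ u - 1) ^ 2 = (-1 : ℂ) ^ ((Fintype.card F - 1) / 2) * (Fintype.card F : ℂ)) ∧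
    (∀ χ : Matrix.SpecialLinearGroup (Fin 2) F → ℂ, Cfsg.IsIrrCharacter (Matrix.SpecialLinearGroup (Fin 2) F) χ → χ 1 = (((Fintype.card F - 1) / 2 : ℕ) : ℂ) → (2 * χ u + 1) ^ 2 = (-1 : ℂ) ^ ((Fintype.card F - 1) / 2) * (Fintype.card F : ℂ)) ∧
    (∀ χ₁ χ₂ : Matrix.SpecialLinearGroup (Fin 2) F → ℂ, Cfsg.IsIrrCharacter (Matrix.SpecialLinearGroup (Fin 2) F) χ₁ → Cfsg.IsIrrCharacter (Matrix.SpecialLinearGroup (Fin 2) F) χ₂ → χ₁ ≠ χ₂ →
      χ₁ 1 = (((Fintype.card F + 1) / 2 : ℕ) : ℂ) → χ₂ 1 = (((Fintype.card F + 1) / 2 : ℕ) : ℂ) → χ₁ u + χ₂ u = 1) ∧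
    (∀ χ₁ χ₂ : Matrix.SpecialLinearGroup (Fin 2) F → ℂ, Cfsg.IsIrrCharacter (Matrix.SpecialLinearGroup (Fin 2) F) χ₁ → Cfsg.IsIrrCharacter (Matrix.SpecialLinearGroup (Fin 2) F) χ₂ → χ₁ ≠ χ₂ →
      χ₁ 1 = (((Fintype.card F - 1) / 2 : ℕ) : ℂ) → χ₂ 1 = (((Fintype.card F - 1) / 2 : ℕ) : ℂ) → χ₁ u + χ₂ u = -1) := by
  open CF.Classical in
  rw [← Nat.card_eq_fintype_card] at *
  obtain rfl : u = sbor 1 1 := Subtype.ext hu
  obtain ⟨g₀, h₀⟩ := exists_noEig F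
  have h2 := two_ne_zero_of_odd_card hodd
  have h4 : 4 ≤ Nat.card F := by omega
  simp only [eq_half_add_iff hodd, eq_half_sub_iff hodd]
  have h5 : ∀ {α χ χ'}, Half (prinSL α) χ χ' → χ (sbor (1 : Fˣ) 1) + χ' (sbor 1 1) = 1 := fun H => by
    rw [← Pi.add_apply, ← H.add, (hasEig_sbor_one 1).prinSL_jor (not_isScal_sbor 1 one_ne_zero), map_one]
  have h6 : ∀ {θ χ χ'}, Half (h₀.cuspSL θ) χ χ' → χ (sbor (1 : Fˣ) 1) + χ' (sbor 1 1) = -1 := fun H => by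
    rw [← Pi.add_apply, ← H.add, h₀.cuspSL_unip _ (hasEig_sbor_one 1) (not_isScal_sbor 1 one_ne_zero)]
  refine ⟨fun χ hχ h => ?_, fun χ hχ h => ?_, fun χ ψ hχ hψ e h h' => ?_, fun χ ψ hχ hψ e h h' => ?_⟩
  · obtain ⟨α, χ', -, -, H⟩ := exists_half_prinSL_of_deg h4 hχ h
    rw [← H.sub_sq one_ne_zero, ← h5 H]; ring
  · obtain ⟨α, χ', -, -, H⟩ := h₀.exists_half_cuspSL_of_deg h4 hχ h
    rw [← H.sub_sq one_ne_zero, ← neg_neg (1 : ℂ), ← h6 H]; ring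
  · obtain ⟨α, χ', k1, k2, H⟩ := exists_half_prinSL_of_deg h4 hχ h
    obtain ⟨β, ψ', k3, k4, H'⟩ := exists_half_prinSL_of_deg h4 hψ h'
    obtain rfl := mulChar_eq_of_sq k1 k2 k3 k4
    rw [H.eq_of_ne H' e, h5 H]
  · obtain ⟨α, χ', k1, k2, H⟩ := h₀.exists_half_cuspSL_of_deg h4 hχ h
    obtain ⟨β, ψ', k3, k4, H'⟩ := h₀.exists_half_cuspSL_of_deg h4 hψ h'
    obtain rfl := h₀.linear_eq_of_sq h2 k1 k2 k3 k4
    rw [H.eq_of_ne H' e, h6 H]

end Cfsg.Agent.S2324
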