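import Cfsg.Statements.S2328
import Cfsg.Agent.Chev.StLT

set_option autoImplicit false
open Cfsg

namespace Cfsg.Agent.S2328

/-- In a Chevalley group of type G₂, B₂, D₄, F₄, E₆, E₇ or E₈ over a finite field of characteristic p, the Steinberg character vanishes at every element whose order is divisible by p (every element that is not semisimple). -/
theorem result {F : Type*} [Field F] [Fintype F] (p : ℕ) [Fact p.Prime] [CharP F p] (D : Cfsg.Lie.ChevalleyDatum) (hD : D ∈ [Cfsg.Lie.chevG2, Cfsg.Lie.chevB2, Cfsg.Lie.chevD4, Cfsg.Lie.chevF4, Cfsg.Lie.chevE6, Cfsg.Lie.chevE7, Cfsg.Lie.chevE8]) (g : ↥(D.group F)) (hg : p ∣ orderOf g) :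
    D.steinbergCharacter F g = 0 := by
  obtain ⟨C, L⟩ := CF.Chev.exists_link hD
  have := (L.r3_gpRep F).finite (L.faithful_gpRep F) (L.gpRep_Gp F)
  rw [L.steinbergCharacter_eq F]
  exact CF.Chev.irr_eq_zero_of_one_eq (CF.Chev.StRep.irr_st (L.faithful_gpRep F) (L.gpRep_Gp F))
    (CF.Chev.StRep.st_one' (L.faithful_gpRep F) (L.gpRep_Gp F)) hg

end Cfsg.Agent.S2328
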