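import Cfsg.Statements.S2329
import Cfsg.Agent.Classical.GL2Char

set_option autoImplicit false
open Cfsg

namespace Cfsg.Agent.S2329

/-- Over a finite field of characteristic p, any two elements of order p of GL₂ are conjugate: there is a single conjugacy class of non-identity unipotent elements. -/
theorem result {F : Type*} [Field F] [Fintype F] (p : ℕ) [Fact p.Prime] [CharP F p] (g h : Matrix.GeneralLinearGroup (Fin 2) F)
    (hg : orderOf g = p) (hh : orderOf h = p) : IsConj g h := by
  open CF.Classical in
  have key : ∀ g : GL (Fin 2) F, orderOf g = p → ¬ IsScal g ∧ HasEig g 1 1 := fun g hg => by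
    have h1 : (g : Matrix (Fin 2) (Fin 2) F) ^ p = 1 := by
      rw [← Units.val_pow_eq_pow_val, ← hg, pow_orderOf_eq_one, Units.val_one]
    have h2 : IsNilpotent ((g : Matrix (Fin 2) (Fin 2) F) - 1) :=
      ⟨p, by rw [sub_pow_char_of_commute _ (Commute.one_right _), h1, one_pow, sub_self]⟩
    have h3 := (Matrix.isNilpotent_trace_of_isNilpotent h2).eq_zero
    have h4 : ((g : Matrix (Fin 2) (Fin 2) F) - 1).det = 0 := by
      obtain ⟨n, hn⟩ := h2
      exact pow_eq_zero_iff' (n := n) |>.1 (by rw [← Matrix.det_pow, hn, Matrix.det_zero]) |>.1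
    simp [Matrix.trace_fin_two, Matrix.det_fin_two] at h3 h4
    have h5 : HasEig g 1 1 := ⟨by rw [tr2]; linear_combination h3,
      by rw [dt2]; linear_combination h4 + h3⟩
    refine ⟨fun e => ?_, h5⟩
    obtain ⟨a, rfl⟩ := isScal_iff.1 e
    obtain rfl : a = 1 := Units.ext (by simpa using (hasEig_scal a).unique h5)
    rw [scal_one, orderOf_one] at hg
    exact (Fact.out : p.Prime).one_lt.ne hg
  exact ((key g hg).2.isConj_iff (key g hg).1).2 (key h hh)

end Cfsg.Agent.S2329
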