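import Cfsg.Statements.S2330
import Cfsg.Agent.Classical.GL2Char

set_option autoImplicit false
open Cfsg

namespace Cfsg.Agent.S2330

/-- Over a finite field with q elements, the general linear group GL₂ has exactly q² − 1 conjugacy classes. -/
theorem result {F : Type*} [Field F] [Fintype F] :
    Nat.card (ConjClasses (Matrix.GeneralLinearGroup (Fin 2) F)) = Fintype.card F ^ 2 - 1 := by
  open CF.Classical CF.Char in
  classical
  rw [← Nat.card_eq_fintype_card] at *
  obtain ⟨g₀, h₀⟩ := exists_noEig F
  have h1 := h₀.weylE (f := fun g => (Nat.card (Subgroup.centralizer {g}) : ℂ))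
    (fun g x => congrArg _ (card_centralizer_eq_of_isConj (isConj_iff.2 ⟨x, rfl⟩)).symm)
    (fun _ _ => (Nat.card F - 1) ^ 2) (fun _ => Nat.card F ^ 2 - 1)
    (fun _ => 2 * Nat.card (GL (Fin 2) F))
    (fun a b h => (hasEig_bor a b 0).card_centralizer_split' fun e => h (Units.ext e))
    (fun t ht => (h₀.noEig_of_mem ht).card_centralizer') fun a => by
      rw [(hasEig_bor a a 1).card_centralizer_jor' (by simp [isScal_bor]),
        Subgroup.centralizer_eq_top_iff_subset.2 (Set.singleton_subset_iff.2
          (isScal_iff_mem_center.1 (isScal_scal a))), Subgroup.card_top, card_GL2_complex]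
      ring
  rw [← Nat.cast_sum, sum_card_centralizer] at h1
  simp only [Finset.sum_const, Finset.card_univ, ← Nat.card_eq_fintype_card, nsmul_eq_mul,
    card_units_complex, h₀.card_centralizer', Nat.cast_mul] at h1
  apply Nat.cast_injective (R := ℂ)
  rw [Nat.cast_pred (pow_pos Nat.card_pos 2), Nat.cast_pow]
  refine mul_left_cancel₀ (mul_ne_zero two_ne_zero (card_ne_zero_complex (G := GL (Fin 2) F))) ?_
  rw [mul_assoc, h1, card_GL2_complex]
  ring

end Cfsg.Agent.S2330
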