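import Cfsg.Statements.S2362
import Cfsg.Agent.Cls.RS3

set_option autoImplicit false
open Cfsg

namespace Cfsg.Agent.S2362

open CF.Cls CF.Geom


/-- Let F be a finite field of odd order and n ≥ 3. The simple orthogonal group PΩ(2n+1, F) (type B_n) and the projective symplectic group PSp(2n, F) (type C_n), which have the same order, do not have the same set of element orders. -/
theorem result {F : Type*} [Field F] [Fintype F] (hodd : Odd (Fintype.card F)) (n : ℕ) (hn : 3 ≤ n) :
    Set.range (orderOf : Cfsg.POmega F (Cfsg.quadFormOdd n F) → ℕ) ≠ Set.range (orderOf : Cfsg.PSp n F → ℕ) := by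
  obtain ⟨p, hp⟩ := CharP.exists F
  have := Fact.mk (CharP.char_is_prime F p)
  obtain ⟨n, rfl⟩ : ∃ m, n = m + 1 := ⟨n - 1, by omega⟩
  have hQ := qOdd_nondegenerate (two_ne_zero_of_odd_card hodd) (n + 1)
  intro h
  obtain ⟨a, ha⟩ := h.ge ((rep_PSp (F := F) (K := AlgebraicClosure F) p (m := n + 1)
    (by omega)).exists_mul_sp (ta_ac F p) (pq_card p) (by omega) (ε := -1)
    (m := Nat.card F ^ n + 1) (by simp))
  exact (rep_POmega (K := AlgebraicClosure F) p hQ (by simp; omega)).orderOf_ne_om p hQ
    (n := n) (by simp; omega) (by omega) a ha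

end Cfsg.Agent.S2362
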