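import Cfsg.Statements.S2364
import Cfsg.Agent.Cls.Rep
import Cfsg.Agent.Cls.Spec2

set_option autoImplicit false
open Cfsg

namespace Cfsg.Agent.S2364

/-- Let F be a finite field of characteristic p, n ≥ 4, and let a, b be commuting elements of PSL(n, F) with a of order p. Then every prime divisor of the order of b divides the order of SL(n − 2, F). -/
theorem result {F : Type*} [Field F] [Fintype F] (p : ℕ) [Fact p.Prime] [CharP F p] (n : ℕ) (hn : 4 ≤ n)
    (a b : Matrix.ProjectiveSpecialLinearGroup (Fin n) F) (ha : orderOf a = p) (hab : Commute a b) :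
    (orderOf b).primeFactors ⊆ (Nat.card (Matrix.SpecialLinearGroup (Fin (n - 2)) F)).primeFactors := by
  refine (CF.Cls.rep_PSL (F := F) (K := AlgebraicClosure F) p n).primeFactors_subset
    (CF.Cls.ta_ac F p) (CF.Cls.pq_card p) hn ha hab fun J hJ => ?_
  obtain ⟨g, rfl⟩ := CF.Cls.exists_SL_ev p hJ.1 hJ.2
  exact ⟨g, CF.Cls.orderOf_dvd_iff_ev p (CF.Cls.toE_injective Subtype.val_injective) g⟩

end Cfsg.Agent.S2364
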