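import Cfsg.Statements.S2365
import Cfsg.Agent.Cls.Rep
import Cfsg.Agent.Cls.Spec2

set_option autoImplicit false
open Cfsg

namespace Cfsg.Agent.S2365

/-- Let q be a power of the prime p, F the field with q² elements, m ≥ 4, and let a, b be commuting elements of PSU(m, q) with a of order p. Then every prime divisor of the order of b divides the order of SU(m − 2, q). -/
theorem result {F : Type*} [Field F] [Fintype F] (p : ℕ) [Fact p.Prime] [CharP F p] (m q : ℕ) (hm : 4 ≤ m) (hF : Fintype.card F = q ^ 2)
    (a b : Cfsg.PSU m F q) (ha : orderOf a = p) (hab : Commute a b) :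
    (orderOf b).primeFactors ⊆ (Nat.card ↥(Cfsg.SU (m - 2) F q)).primeFactors := by
  have hF' := Nat.card_eq_fintype_card.trans hF
  refine (CF.Cls.rep_PSU (K := AlgebraicClosure F) p hF' (n := m) (by omega)).primeFactors_subset
    (CF.Cls.ta_ac F p) (CF.Cls.pq_neg p hF') hm ha hab fun J hJ => ?_
  obtain ⟨g, rfl⟩ := CF.Cls.exists_SU_ev p hF' hJ.1 hJ.2
  exact ⟨g, CF.Cls.orderOf_dvd_iff_ev p (CF.Cls.toE_injective
    (Subtype.val_injective.comp Subtype.val_injective)) g⟩

end Cfsg.Agent.S2365
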