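import Cfsg.Statements.S2367

set_option autoImplicit false
open Cfsg

namespace Cfsg.Agent.S2367

theorem spor {N a p : ℕ} (hp : p.Prime) (h2 : p ≠ 2) (h3 : N.factorization p = 3)
    (h : N ≠ 0 ∧ N ∣ Nat.factorial 71 ^ 46 ∧ 2 ^ a ∣ N ∧ ∀ q ∈ [3, 5, 7, 11, 13, 17, 19, 23, 29, 31, 37, 41,
      43, 47, 53, 59, 61, 67, 71], q ^ 3 ∣ N → q ^ 4 ∣ N ∨ q ^ 3 < 2 ^ a) : p ^ 3 < 2 ^ N.factorization 2 := by
  obtain ⟨h0, h1, h4, h5⟩ := h
  have a1 := (hp.pow_dvd_iff_le_factorization h0).2 h3.ge
  have a2 := hp.dvd_factorial.1 (hp.dvd_of_dvd_pow (((dvd_pow_self p (by decide)).trans a1).trans h1))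
  refine ((h5 p ?_ a1).resolve_left fun q => ?_).trans_le (Nat.pow_le_pow_right two_pos
    ((Nat.prime_two.pow_dvd_iff_le_factorization h0).1 h4))
  · interval_cases p <;> first | decide | exact absurd rfl h2 | exact absurd hp (by norm_num)
  · have := (hp.pow_dvd_iff_le_factorization h0).1 q; omega

theorem alt {N n p : ℕ} (hp : p.Prime) (h2 : p ≠ 2) (h3 : N.factorization p = 3) (h : 2 * N = n.factorial) :
    p ^ 3 < 2 ^ N.factorization 2 := by
  have h0 : N ≠ 0 := fun e => n.factorial_ne_zero (by rw [← h, e])
  have f := Fact.mk hp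
  have f2 := Fact.mk Nat.prime_two
  have a1 : padicValNat p n.factorial = 3 := by
    rw [← h, padicValNat.mul two_ne_zero h0, ← Nat.factorization_def N hp, h3, padicValNat_primes h2]
  have a2 : padicValNat 2 n.factorial = 1 + N.factorization 2 := by
    rw [← h, padicValNat.mul two_ne_zero h0, ← Nat.factorization_def N f2.1, padicValNat_self]
  have mono : ∀ q [Fact q.Prime] {a b : ℕ}, a ≤ b → padicValNat q a.factorial ≤ padicValNat q b.factorial :=
    fun q _ a b hab => (padicValNat_dvd_iff_le b.factorial_ne_zero).1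
      (pow_padicValNat_dvd.trans (Nat.factorial_dvd_factorial hab))
  have p2 := hp.two_le
  have a3 : 3 * p ≤ n := by
    by_contra c
    have := mono p (show n ≤ p * 2 + (p - 1) by omega)
    rw [padicValNat_factorial_mul_add _ (by omega), padicValNat_factorial_mul, a1,
      padicValNat.eq_zero_of_not_dvd fun q => by have := Nat.le_of_dvd two_pos q; omega] at this
    omega
  have p5 : 5 ≤ p := by
    by_contra c
    have := mono p (show p * p ≤ n by
      have : p ≠ 4 := by rintro rfl; exact absurd hp (by decide)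
      obtain rfl : p = 3 := by omega
      omega)
    have k := mono p (show p * 1 ≤ p by omega)
    rw [padicValNat_factorial_mul] at this k
    omega
  have a4 := mono 2 (show 2 * (2 * (n / 4)) ≤ n by omega)
  rw [padicValNat_factorial_mul, padicValNat_factorial_mul, a2] at a4
  have a5 : ∀ k, 3 ≤ k → 4 * (2 * k - 1) ≤ 3 * 2 ^ k := fun k hk => by
    induction k, hk using Nat.le_induction with
    | base => decide
    | succ k hk ih => rw [pow_succ]; omega
  have a6 : 4 * p ≤ 3 * 2 ^ (n / 4) := le_trans (by omega) (a5 (n / 4) (by omega))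
  have a7 : (2 ^ (n / 4)) ^ 3 ≤ 2 * 2 ^ N.factorization 2 := by
    rw [← pow_mul, ← pow_succ']; exact Nat.pow_le_pow_right two_pos (by omega)
  have a8 := Nat.pow_le_pow_left a6 3
  have := Nat.two_pow_pos (N.factorization 2)
  rw [mul_pow, mul_pow] at a8
  omega

/-- Let G be an alternating group of degree at least 5 or a simple group with the order of one of the 26 sporadic groups, and let p be an odd prime such that p³ is the exact power of p dividing the order of G. Then p³ is less than the 2-part of the order of G. -/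
theorem result {G : Type*} [Group G] [Finite G] (hG : Cfsg.IsAlternating G ∨ Cfsg.IsSporadic G)
    (p : ℕ) (hp : p.Prime) (hodd : p ≠ 2) (h3 : (Nat.card G).factorization p = 3) :
    p ^ 3 < 2 ^ (Nat.card G).factorization 2 := by
  rcases hG with ⟨n, hn, ⟨e⟩⟩ | h
  · have : Nontrivial (Fin n) := Fin.nontrivial_iff_two_le.2 (by omega)
    refine alt hp hodd h3 (n := n) ?_
    rw [Nat.card_congr e.toEquiv, two_mul_nat_card_alternatingGroup, Nat.card_perm, Nat.card_fin]
  · rcases h with h | h | h | h | h | h | h | h | h | h | h | h | h | h | h | h | h | h | h | h | h | h | h | h | h | h <;>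
    rw [h.2] at h3 ⊢ <;> first
      | exact spor (a := 0) hp hodd h3 (by decide +kernel)
      | exact spor (a := 6) hp hodd h3 (by decide +kernel)
      | exact spor (a := 7) hp hodd h3 (by decide +kernel)
      | exact spor (a := 9) hp hodd h3 (by decide +kernel)
      | exact spor (a := 14) hp hodd h3 (by decide +kernel)

end Cfsg.Agent.S2367
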