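import Cfsg.Statements.S2368
import Cfsg.Agent.Cls.UnipGL

set_option autoImplicit false
open Cfsg

namespace Cfsg.Agent.S2368

open CF.Cls

/-- Let F be a finite field of characteristic p and m ≥ 1. Every element of GL(m, F) of p-power order has order less than p·m, and GL(m, F) has an element of p-power order at least m; so the largest order of a p-element of GL(m, F) is the least power of p that is at least m. -/
theorem result {F : Type*} [Field F] [Fintype F] (p : ℕ) [Fact p.Prime] [CharP F p] (m : ℕ) (hm : 1 ≤ m) :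
    (∀ g : Matrix.GeneralLinearGroup (Fin m) F, (∃ j : ℕ, orderOf g = p ^ j) → orderOf g < p * m) ∧
      ∃ g : Matrix.GeneralLinearGroup (Fin m) F, (∃ j : ℕ, orderOf g = p ^ j) ∧ m ≤ orderOf g := by
  have hp : 1 < p := (Fact.out : p.Prime).one_lt
  constructor
  · intro g hg
    have h1 := (orderOf_unip p g ((GL_unip_iff p g).1 hg)).1
    rw [Fintype.card_fin] at h1
    refine h1.trans_lt ?_
    rcases hm.eq_or_lt with rfl | hm
    · simpa using hp
    · have h2 := Nat.pow_pred_clog_lt_self hp hm
      have h3 := Nat.clog_pos hp hm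
      obtain ⟨k, hk⟩ := Nat.exists_eq_succ_of_ne_zero h3.ne'
      rw [hk] at h2 ⊢
      rw [pow_succ']
      exact Nat.mul_lt_mul_of_pos_left h2 (by omega)
  · obtain ⟨g, h1, h2⟩ := exists_GL_jtM (F := F) (ι := Fin m) {m} (by simpa using by omega) (by simp)
    have h3 := (orderOf_unip p g h1).2 (by
      rw [Ne, unipM_pow_eq_zero_iff h1, h2]; simp; omega)
    rw [Fintype.card_fin] at h3
    exact ⟨g, ⟨_, h3⟩, h3 ▸ Nat.le_pow_clog hp m⟩

end Cfsg.Agent.S2368
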