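import Cfsg.Statements.S2369
import Cfsg.Agent.Chev.LTX

set_option autoImplicit false
open Cfsg

namespace Cfsg.Agent.S2369

open CF.BN CF.Chev CF.Loc

theorem poin03 {S : Sym cF4.toRootSys} (hp : S.p = Fin.revPerm) (x : ℕ) :
    S.poin {j | j ∈ [0, 3]} 2 x = x + 1 := by
  rw [(dataF4 hp).poin_eq carF4' (by decide) x (by rw [hp]; decide) [] [1, 0, 0, 1]
    [([1, 0, 0, 1], 0), ([-1, 1, 1, -1], 1)] (by decide +kernel), poin_nil]
  simp [add_comm]

/-- Let q = 2^(2m+1) with m ≥ 1 and let a, b be commuting elements of the large Ree group ²F₄(q) with a an involution. Then every prime divisor of the order of b divides q(q⁴ − 1). -/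
theorem result {K : Type*} [Field K] [Fintype K] (m : ℕ) (hm : 1 ≤ m) (hK : Fintype.card K = 2 ^ (2 * m + 1))
    (a b : ↥(Cfsg.Lie.twistedF4 K (2 ^ m))) (ha : orderOf a = 2) (hab : Commute a b) :
    (orderOf b).primeFactors ⊆ (2 ^ (2 * m + 1) * ((2 ^ (2 * m + 1)) ^ 4 - 1)).primeFactors := by
  obtain ⟨_, θ, hθ, h2⟩ := exists_theta Nat.prime_two hK
  have P := packF4 hθ h2
  set q := 2 ^ (2 * m + 1) with hq
  have M := ltF4 hθ h2
  have hp := pF4_eq (isIs_twF4 θ)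
  let e := (packF4 hθ h2).e
  let f : Cfsg.Lie.twistedF4 K (2 ^ m) →* Cfsg.Lie.chevF4.group K :=
    (gF4 (repF4 K) (2 ^ m)).subtype.comp e.toMonoidHom
  have hf : Function.Injective f := Subtype.val_injective.comp e.injective
  have ha' : orderOf (f a) = 2 := (orderOf_injective f hf a).trans ha
  obtain ⟨g, hg, J, hJ, hJ', -, h⟩ := M.borel_tits (Q := Subgroup.zpowers (f a))
    (IsPGroup.of_card (n := 1) (by rw [Nat.card_zpowers, ha', pow_one]))
    (Subgroup.zpowers_le.2 (e a).2) (fun h => by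
      rw [Subgroup.zpowers_eq_bot] at h; simp [h] at ha')
  have hb : g * f b * g⁻¹ ∈ (repF4 K).PJ J := by
    refine h ⟨f b, Subgroup.centralizer_le_normalizer _ ?_, rfl⟩
    rintro _ ⟨k, rfl⟩
    exact ((hab.map f).zpow_left k).eq
  have key : ∀ J' : List (Fin 4), J ⊆ {j | j ∈ J'} →
      orderOf b ∣ q ^ 12 * (q - 1) ^ 2 * (twF4 θ).S.poin {j | j ∈ J'} 2 q := fun J' h => by
    have h1 := Subgroup.orderOf_dvd_natCard ((repF4 K).PJ {j | j ∈ J'} ⊓ gF4 (repF4 K) (2 ^ m))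
      (im (StRep.PJ_mono h hb) (mul_mem (mul_mem hg (e b).2) (inv_mem hg)))
    rw [M.form.card_PJ ((dataF4 hp).dvd (by decide)) (cU_F4 (isIs_twF4 θ) h2), M.form.card_Bo,
      Nat.card_eq_fintype_card (α := K), hK] at h1
    rw [← F4_card_U hK, ← F4_card_H hK, (packF4 hθ h2).card_U, (packF4 hθ h2).card_H,
      ← orderOf_injective f hf b, ← orderOf_injective (MulAut.conj g).toMonoidHom
        (MulAut.conj g).injective]
    exact h1
  have h1 : 2 ≤ q := Nat.le_self_pow (by omega) 2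
  have h4 : q ^ 4 - 1 = (q - 1) * (q + 1) * (q ^ 2 + 1) := by
    zify [show 1 ≤ q by omega, Nat.one_le_pow 4 q (by omega)]; ring
  have h5 : ∃ k, orderOf b ∣ q ^ 12 * (q - 1) ^ 2 * k ∧ k ∣ q ^ 4 - 1 := by
    by_cases h0 : (0 : Fin 4) ∈ J
    · refine ⟨_, poin03 hp q ▸ key [0, 3] fun j hj => ?_, h4 ▸ (Dvd.intro_left _ rfl).mul_right _⟩
      by_contra hj'
      refine hJ' (Set.eq_univ_of_forall fun i => ?_)
      have := hJ 0; have := hJ 1; have := hJ 2; have := hJ 3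
      rw [hp] at *
      fin_cases i <;> fin_cases j <;> simp_all
    · refine ⟨_, poinF4₁ hp q ▸ key [1, 2] fun j hj => ?_, h4 ▸ Dvd.intro_left _ rfl⟩
      have := hJ 0; have := hJ 3
      rw [hp] at *
      fin_cases j <;> simp_all
  obtain ⟨k, h5, h6⟩ := h5
  have h7 : q * (q ^ 4 - 1) ≠ 0 := mul_ne_zero (by omega)
    (Nat.sub_ne_zero_of_lt (Nat.one_lt_pow (by omega) h1))
  refine (Nat.primeFactors_mono (n := (q * (q ^ 4 - 1)) ^ 15) (h5.trans ?_) (pow_ne_zero _ h7)).trans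
    (Nat.primeFactors_pow _ (by omega)).le
  obtain ⟨l, hl⟩ := h6
  refine ⟨q ^ 3 * ((q + 1) * (q ^ 2 + 1)) ^ 2 * l * (q ^ 4 - 1) ^ 12, ?_⟩
  calc (q * (q ^ 4 - 1)) ^ 15 = q ^ 15 * (q ^ 4 - 1) ^ 2 * (q ^ 4 - 1) * (q ^ 4 - 1) ^ 12 := by ring
    _ = _ := by
      nth_rewrite 2 [hl]
      nth_rewrite 1 [h4]
      ring

end Cfsg.Agent.S2369
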