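import Cfsg.Statements.S2370
import Cfsg.Agent.BN.UExp
import Cfsg.Agent.BN.TwF4

set_option autoImplicit false
open Cfsg

namespace Cfsg.Agent.S2370

/-- Let q = 2^(2m+1) with m ≥ 1. Every element of 2-power order of the large Ree group ²F₄(q) has order at most 32. -/
theorem result {K : Type*} [Field K] [Fintype K] (m : ℕ) (hm : 1 ≤ m) (hK : Fintype.card K = 2 ^ (2 * m + 1))
    (x : ↥(Cfsg.Lie.twistedF4 K (2 ^ m))) (hx : ∃ j : ℕ, orderOf x = 2 ^ j) : orderOf x ≤ 32 := by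
  obtain ⟨_, θ, hθ, h2⟩ := CF.BN.exists_theta Nat.prime_two hK
  let P := CF.BN.packF4 hθ h2
  obtain ⟨j, hj⟩ := hx
  have h1 : ((P.e x : Cfsg.Lie.chevF4.group K)) ^ 2 ^ j = 1 := by
    rw [← Subgroup.coe_pow, ← map_pow, ← hj, pow_orderOf_eq_one, map_one, Subgroup.coe_one]
  have h3 := CF.BN.pow_eq_one_of_pow_eq_one (C := CF.BN.cF4) (h := 11) (k := 5) CF.BN.r3_repF4
    P.T.faith P.T.top (by decide +kernel) (by decide) h1
  rw [← Subgroup.coe_pow, ← map_pow, OneMemClass.coe_eq_one, map_eq_one_iff _ P.e.injective] at h3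
  exact Nat.le_of_dvd (by decide) (orderOf_dvd_of_pow_eq_one h3)

end Cfsg.Agent.S2370
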