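import Cfsg.Statements.S2373
import Cfsg.Agent.BN.LangCyc

set_option autoImplicit false
open Cfsg

namespace Cfsg.Agent.S2373

/-- The group E₆(q) (the simple Chevalley group of type E₆) contains a cyclic subgroup of order (q⁴ − q² + 1)(q² + q + 1)/gcd(3, q − 1) which is its own centralizer. -/
theorem result {F : Type*} [Field F] [Fintype F] (q : ℕ) (hF : Fintype.card F = q) :
    ∃ H : Subgroup ↥(Cfsg.Lie.chevE6.group F), IsCyclic ↥H ∧ Nat.card ↥H = (q ^ 4 - q ^ 2 + 1) * (q ^ 2 + q + 1) / Nat.gcd 3 (q - 1) ∧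
      Subgroup.centralizer (H : Set ↥(Cfsg.Lie.chevE6.group F)) = H := by
  have hq : 2 ≤ q := hF ▸ Fintype.one_lt_card
  have h1 : q ^ 2 ≤ q ^ 4 := Nat.pow_le_pow_right (by omega) (by omega)
  have h2 : (q : ℤ) ^ 3 ≤ q ^ 5 := pow_le_pow_right₀ (by omega) (by omega)
  have h3 : (0 : ℤ) ≤ q ^ 5 := by positivity
  open CF.Chev CF.BN in
  simpa using cyc_chev certE6 goodE6 (fun K _ => torE6 K) cenE6 hF
    ([1, 0, 2, 3, 5, 4] : List (Fin 6)) 5 [1, 1, 0, -1, 0, 1]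
    [[-1, 0, 1, 1, -1, -1], [0, 0, 1, 0, 0, -1], [0, 1, 1, 0, -1, 0], [0, 1, 1, 0, -1, -1], [0, 0, 1, 0, -1, -1], [1, 0, 0, 0, 0, 0]]
    [[0, 0, 0, 0, 0, 1], [0, 0, 0, 1, -1, 0], [0, 1, 1, -1, 0, 0], [1, 0, 0, 0, -1, 1], [0, 1, 0, 0, -1, 0], [0, 0, 1, -1, 0, 0], [1, 0, -1, 0, 0, 0]]
    [2, 4, 5, 6, 8, 11] 2
    (by decide +kernel) (by decide +kernel) hq (N := (q ^ 4 - q ^ 2 + 1) * (q ^ 2 + q + 1))
    (by simp [pev, Finset.sum_range_succ, h1]; ring) (by simp)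
    (by push_cast [h1]; nlinarith)

end Cfsg.Agent.S2373
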