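import Cfsg.Statements.S2374
import Cfsg.Agent.BN.LangCyc

set_option autoImplicit false
open Cfsg

namespace Cfsg.Agent.S2374

/-- The group E₇(q) (the simple Chevalley group of type E₇) contains a cyclic subgroup of order (q⁴ − q² + 1)(q³ + 1)/gcd(2, q − 1) which is its own centralizer. -/
theorem result {F : Type*} [Field F] [Fintype F] (q : ℕ) (hF : Fintype.card F = q) :
    ∃ H : Subgroup ↥(Cfsg.Lie.chevE7.group F), IsCyclic ↥H ∧ Nat.card ↥H = (q ^ 4 - q ^ 2 + 1) * (q ^ 3 + 1) / Nat.gcd 2 (q - 1) ∧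
      Subgroup.centralizer (H : Set ↥(Cfsg.Lie.chevE7.group F)) = H := by
  have hq : 2 ≤ q := hF ▸ Fintype.one_lt_card
  have h1 : q ^ 2 ≤ q ^ 4 := Nat.pow_le_pow_right (by omega) (by omega)
  have h2 : (q : ℤ) ^ 5 ≤ q ^ 6 := pow_le_pow_right₀ (by omega) (by omega)
  have h3 : (q : ℤ) ^ 2 ≤ q ^ 4 := pow_le_pow_right₀ (by omega) (by omega)
  have h4 : (0 : ℤ) ≤ q ^ 3 := by positivity
  open CF.Chev CF.BN in
  simpa using cyc_chev certE7 goodE7 (fun K _ => torE7 K) cenE7 hF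
    ([3, 2, 6, 1, 4, 3, 1, 4, 0, 2, 5, 1, 4] : List (Fin 7)) 6 [1, 0, -1, 1, 1, -1, 0]
    [[1, 0, -1, 1, 0, -1, 0], [0, 1, 0, -1, 0, 0, -1], [1, 1, -1, 0, 0, -1, 0], [1, 2, -1, -1, 1, -1, -1], [1, 1, -1, -1, 1, -1, -1], [1, 1, -1, -1, 1, 0, -1], [1, 0, 0, 0, 0, 0, 0]]
    [[0, 0, 0, 0, 0, 0, 1], [0, 0, 0, 1, -1, 0, 0], [0, 0, -1, 1, 0, -1, 1], [1, 0, -1, 1, -1, 0, 0], [0, -1, -1, 1, 0, 0, 0], [0, 0, 0, 0, -1, 1, 0], [-1, -1, 1, 0, 0, 0, 0], [-1, 1, 1, -1, 0, 0, 0]]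
    [4, 6, 7, 9, 12, 15, 18] 2
    (by decide +kernel) (by decide +kernel) hq (N := (q ^ 4 - q ^ 2 + 1) * (q ^ 3 + 1))
    (by simp [pev, Finset.sum_range_succ, h1]; ring) (by simp)
    (by push_cast [h1]; nlinarith)

end Cfsg.Agent.S2374
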