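import Cfsg.Statements.S2375
import Cfsg.Agent.BN.LangCyc

set_option autoImplicit false
open Cfsg

namespace Cfsg.Agent.S2375

/-- The group E₈(q) contains a cyclic subgroup of order q⁸ + q⁷ − q⁵ − q⁴ − q³ + q + 1 which is its own centralizer. -/
theorem result {F : Type*} [Field F] [Fintype F] (q : ℕ) (hF : Fintype.card F = q) :
    ∃ H : Subgroup ↥(Cfsg.Lie.chevE8.group F), IsCyclic ↥H ∧ Nat.card ↥H = q ^ 8 + q ^ 7 - q ^ 5 - q ^ 4 - q ^ 3 + q + 1 ∧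
      Subgroup.centralizer (H : Set ↥(Cfsg.Lie.chevE8.group F)) = H := by
  have hq : 2 ≤ q := hF ▸ Fintype.one_lt_card
  have h1 : q ^ 5 ≤ q ^ 7 := Nat.pow_le_pow_right (by omega) (by omega)
  have h2 : q ^ 4 ≤ q ^ 7 := Nat.pow_le_pow_right (by omega) (by omega)
  have h3 : q ^ 3 ≤ q ^ 4 := Nat.pow_le_pow_right (by omega) (by omega)
  have h4 : 2 * q ^ 7 ≤ q ^ 8 := by rw [pow_succ' q 7]; gcongr
  have h5 : 2 * q ^ 4 ≤ q ^ 5 := by rw [pow_succ' q 4]; gcongr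
  have h6 : 2 * q ^ 5 ≤ q ^ 7 := by rw [pow_add q 2 5]; gcongr; nlinarith
  open CF.Chev CF.BN in
  simpa using cyc_chev certE8 goodE8 (fun K _ => torE8 K) cenE8 hF
    ([1, 7, 3, 4, 5, 6, 2, 0] : List (Fin 8)) 7 [1, 1, 0, -1, -1, -1, 0, 1]
    [[0, 0, 1, 1, 0, 0, 0, -1], [0, 0, 1, 1, 1, 0, 0, -1], [1, 1, 1, 1, 0, -1, 0, 0], [0, 1, 2, 2, 1, 0, -1, -1], [0, 1, 2, 1, 1, 0, -1, -1], [0, 1, 1, 1, 1, 0, -1, -1], [0, 0, 1, 1, 1, 0, -1, -1], [1, 0, 0, 0, 0, 0, 0, 0]]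
    [[0, 0, 0, 0, 0, 0, 0, 1], [0, 0, 0, 0, 0, 1, -1, 0], [0, 0, 0, 0, 1, -1, 0, 0], [0, 0, 0, 1, -1, 0, 0, 0], [-1, 1, 0, 0, 0, 0, 0, 0], [0, 0, -1, 1, 0, 0, -1, 1], [0, 1, 0, 0, 0, 0, -1, 0], [-1, 0, 0, 1, 0, -1, 0, 0], [0, 1, -1, 1, -1, 0, 0, 0]]
    [5, 6, 8, 10, 11, 12, 13, 15] 2
    (by decide +kernel) (by decide +kernel) hq
    (N := q ^ 8 + q ^ 7 - q ^ 5 - q ^ 4 - q ^ 3 + q + 1)
    (by
      simp only [pev, Finset.sum_range_succ, Finset.sum_range_zero, List.getD_cons_zero,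
        List.getD_cons_succ, ← Nat.cast_pow, Nat.reduceAdd, pow_zero, pow_one]
      omega) (by simp) (by simp only [← Nat.cast_pow, Nat.reduceAdd]; omega)

end Cfsg.Agent.S2375
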