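import Cfsg.Statements.S2376
import Cfsg.Agent.BN.LangCyc

set_option autoImplicit false
open Cfsg

namespace Cfsg.Agent.S2376

/-- The group ³D₄(q) contains a cyclic subgroup of order (q³ − 1)(q + 1) which is its own centralizer. -/
theorem result {K : Type*} [Field K] [Fintype K] (q : ℕ) (hq : IsPrimePow q) (hK : Fintype.card K = q ^ 3) :
    ∃ H : Subgroup ↥(Cfsg.Lie.twistedD4 K q), IsCyclic ↥H ∧ Nat.card ↥H = (q ^ 3 - 1) * (q + 1) ∧
      Subgroup.centralizer (H : Set ↥(Cfsg.Lie.twistedD4 K q)) = H := by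
  have h0 := hq.two_le
  have h1 : 1 ≤ q ^ 3 := Nat.one_le_pow _ _ (by omega)
  have h2 : (q : ℤ) ≤ q ^ 3 := le_self_pow₀ (by omega) (by omega)
  obtain ⟨p, _, ⟨L⟩⟩ := CF.BN.exists_LS_D4 hq hK
  open CF.Chev CF.BN in
  simpa using TabOf.exists_cyc (l := 4) (m := 24) (C := cD4) (tabOf certD4) L [2, 1, 3, 0]
    (by decide) [1] 3 [-1, -1, 0, 1] [[0, 0, 1, 1], [1, 1, 1, 0], [1, 1, 0, 0], [0, 1, 1, 0]]
    [[0, 1, 0, -1], [0, -1, 1, 1], [0, 1, -1, 0], [1, -1, 1, 0], [-1, 1, 0, 0]] [2, 3, 4, 5] 2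
    (by decide) (by decide +kernel) h0 (N := (q ^ 3 - 1) * (q + 1))
    (by simp [pev, Finset.sum_range_succ, h1]; ring) (by simp) (by push_cast [h1]; nlinarith)

end Cfsg.Agent.S2376
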