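import Cfsg.Statements.S2383
import Cfsg.Agent.BN.SemiC

set_option autoImplicit false
open Cfsg

namespace Cfsg.Agent.S2383

/-- Steinberg's count of semisimple classes in characteristic 2 for the types B₂, D₄, E₇, where the finite simply connected group has trivial centre and so coincides with the Chevalley group: for the Chevalley group of type B₂, D₄ or E₇ over a field with `q` elements of characteristic 2, the conjugacy classes of elements of odd order number exactly `q^l`, `l` the rank. -/
theorem result {F : Type*} [Field F] [Fintype F] {q : ℕ} (hq : Fintype.card F = q) [CharP F 2]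
    (D : Cfsg.Lie.ChevalleyDatum) (hD : D ∈ [Cfsg.Lie.chevB2, Cfsg.Lie.chevD4, Cfsg.Lie.chevE7]) :
    Nat.card {c : ConjClasses ↥(D.group F) // ∃ g : ↥(D.group F), ConjClasses.mk g = c ∧ Odd (orderOf g)} = q ^ D.rank := by
    subst hq
    have h : Nat.gcd 2 (Fintype.card F - 1) = 1 := by
      obtain ⟨n, -, e⟩ := FiniteField.card F 2
      have : 2 ∣ Fintype.card F := e ▸ dvd_pow_self 2 n.ne_zero
      have := Fintype.card_pos (α := F)
      rw [Nat.gcd_rec, show (Fintype.card F - 1) % 2 = 1 by omega]; rfl
    simp only [← Nat.coprime_two_right]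
    simp only [List.mem_cons, List.not_mem_nil, or_false] at hD
    rcases hD with rfl | rfl | rfl
    · exact CF.BN.card_semi_chev CF.Chev.goodB2 (fun K _ => CF.Chev.torB2 K) CF.Chev.cenB2 2 (by simp [h])
    · exact CF.BN.card_semi_chev CF.Chev.goodD4 (fun K _ => CF.Chev.torD4 K) CF.Chev.cenD4 2 (by simp [h])
    · exact CF.BN.card_semi_chev CF.Chev.goodE7 (fun K _ => CF.Chev.torE7 K) CF.Chev.cenE7 2 (by simp [h])

end Cfsg.Agent.S2383
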