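import Cfsg.Statements.S2390
import Cfsg.Agent.Cls.GU

set_option autoImplicit false
open Cfsg

namespace Cfsg.Agent.S2390

open CF.Cls CF.Geom


/-- In the special unitary group `SU_n(q)` (inside `SL_n` over the field with `q²` elements), `q` a power of the prime `p`, two elements of order prime to `p` with the same characteristic polynomial are conjugate in `SU_n(q)`. -/
theorem result {F : Type*} [Field F] [Fintype F] {q : ℕ} (hF : Fintype.card F = q ^ 2) (p : ℕ) [Fact p.Prime] [CharP F p] (n : ℕ)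
    (g h : ↥(Cfsg.SU n F q)) (hg : (orderOf g).Coprime p) (hh : (orderOf h).Coprime p)
    (hc : ((g : Matrix.SpecialLinearGroup (Fin n) F) : Matrix (Fin n) (Fin n) F).charpoly =
      ((h : Matrix.SpecialLinearGroup (Fin n) F) : Matrix (Fin n) (Fin n) F).charpoly) : IsConj g h := by
  obtain ⟨σ, hσ, hσ1, hσ2⟩ := exists_conj hF
  rcases n with _ | n
  · rw [Subsingleton.elim g h]
  let ρ := Matrix.SpecialLinearGroup.coeMonoidHom.comp (Cfsg.SU (n + 1) F q).subtype
  have h1 := ss_of_coprime ρ p hg
  have h2 := ss_of_coprime ρ p hh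
  exact isConj_SU_of hσ hσ1 hσ2 (isConj_of_ss h1 h2 hc)
    (fun l hl => (eh_hermSesq hσ2 _).detU_of_ss hσ1 (pres_SU hσ g) h1 hl)

end Cfsg.Agent.S2390
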