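import Cfsg.Statements.S2391
import Cfsg.Agent.Cls.Misc

set_option autoImplicit false
open Cfsg

namespace Cfsg.Agent.S2391

open CF.Cls

/-- the next term of the flag -/
def nxt {H F V : Type*} [Field F] [AddCommGroup V] [Module F V] (ρ : H → Module.End F V)
    (W : Submodule F V) : Submodule F V := ⨅ u, W.comap (ρ u - 1)

theorem mem_nxt {H F V : Type*} [Field F] [AddCommGroup V] [Module F V] {ρ : H → Module.End F V}
    {W : Submodule F V} {v : V} : v ∈ nxt ρ W ↔ ∀ u, ρ u v - v ∈ W := by simp [nxt]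

/-- The Borel–Tits property of `SL_n(q)` in flag form: for a field `F` of characteristic `p` with finitely many elements and a non-trivial `p`-subgroup `U` of `SL_n(F)`, there is a flag `0 = V₀ < V₁ < ⋯ < V_{k+1} = F^n` with at least one proper non-zero member such that every element of the normaliser of `U` maps each `V_i` onto itself and every element of `U` acts trivially on each quotient `V_{i+1}/V_i` (so the normaliser lies in the parabolic subgroup of the flag and `U` in its unipotent radical). -/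
theorem result {F : Type*} [Field F] [Fintype F] (p : ℕ) [Fact p.Prime] [CharP F p] (n : ℕ)
    (U : Subgroup (Matrix.SpecialLinearGroup (Fin n) F)) (hU : IsPGroup p ↥U) (hne : U ≠ ⊥) :
    ∃ (k : ℕ) (V : Fin (k + 2) → Submodule F (Fin n → F)), 1 ≤ k ∧ StrictMono V ∧ V 0 = ⊥ ∧ V (Fin.last (k + 1)) = ⊤ ∧
      (∀ g ∈ Subgroup.normalizer (U : Set (Matrix.SpecialLinearGroup (Fin n) F)), ∀ i, (V i).map (Matrix.mulVecLin (g : Matrix (Fin n) (Fin n) F)) = V i) ∧
      (∀ u ∈ U, ∀ i : Fin (k + 1), ∀ v ∈ V i.succ, (u : Matrix (Fin n) (Fin n) F).mulVec v - v ∈ V (Fin.castSucc i)) := by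
  classical
  let ρ₀ : Matrix.SpecialLinearGroup (Fin n) F →* Module.End F (Fin n → F) :=
    (Matrix.toLinAlgEquiv' (R := F) (n := Fin n)).toAlgHom.toMonoidHom.comp
      Matrix.SpecialLinearGroup.coeMonoidHom
  have hρ₀ : ∀ g v, ρ₀ g v = (g : Matrix (Fin n) (Fin n) F).mulVec v := fun _ _ => rfl
  let ρ : U →* Module.End F (Fin n → F) := ρ₀.comp U.subtype
  let W : ℕ → Submodule F (Fin n → F) := fun i => (nxt ρ)^[i] ⊥
  have hW : ∀ i, W (i + 1) = nxt ρ (W i) := fun i => Function.iterate_succ_apply' _ _ _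
  have hN : ∀ g ∈ Subgroup.normalizer (U : Set (Matrix.SpecialLinearGroup (Fin n) F)), ∀ i,
      ∀ v ∈ W i, ρ₀ g v ∈ W i := by
    intro g hg i
    induction i with
    | zero => intro v hv; rw [show v = 0 from hv, map_zero]; exact zero_mem _
    | succ i ih =>
      intro v hv
      rw [hW, mem_nxt] at hv ⊢
      intro u
      have hu : g⁻¹ * u * g ∈ U := by
        have := (Subgroup.mem_normalizer_iff.1 (inv_mem hg) u).1 u.2
        simpa using this
      have := ih _ (hv ⟨_, hu⟩)
      rw [map_sub] at this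
      convert this using 2
      show ρ₀ u (ρ₀ g v) = ρ₀ g (ρ₀ (g⁻¹ * u * g) v)
      rw [← Module.End.mul_apply, ← Module.End.mul_apply, ← map_mul, ← map_mul]
      congr 2; group
  have hinv : ∀ i (u : U), ∀ v ∈ W i, ρ u v ∈ W i := fun i u =>
    hN u (Subgroup.le_normalizer u.2) i
  have hlt : ∀ i, W i ≠ ⊤ → W i < W (i + 1) := by
    intro i hi
    obtain ⟨v, h1, h2⟩ := exists_fixed_mod p hU ρ (W i) (hinv i) hi
    rw [hW]
    refine lt_of_le_of_ne (fun w hw => mem_nxt.2 (fun u => sub_mem (hinv i u w hw) hw)) ?_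
    intro h; rw [h] at h1; exact h1 (mem_nxt.2 h2)
  have hex : ∃ i, W i = ⊤ := by
    by_contra! h
    have := strictMono_nat_of_lt_succ (fun i => hlt i (h i))
    exact not_injective_infinite_finite W this.injective
  have h1 : W 1 ≠ ⊤ := by
    intro h
    apply hne
    rw [eq_bot_iff]
    intro u hu
    rw [Subgroup.mem_bot]
    apply Subtype.ext
    rw [CF.Geom.matrix_eq_iff_mulVec]
    intro v
    have : v ∈ nxt ρ ⊥ := h.ge trivial
    have := mem_nxt.1 this ⟨u, hu⟩
    rw [Submodule.mem_bot, sub_eq_zero] at this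
    exact this.trans (Matrix.one_mulVec v).symm
  have h0 : W 0 ≠ ⊤ := fun h => h1 (top_le_iff.1 (h.ge.trans bot_le))
  obtain ⟨k, hk⟩ : ∃ k, Nat.find hex = k + 2 := by
    have a0 : Nat.find hex ≠ 0 := fun h => h0 (h ▸ Nat.find_spec hex)
    have a1 : Nat.find hex ≠ 1 := fun h => h1 (h ▸ Nat.find_spec hex)
    exact ⟨Nat.find hex - 2, by omega⟩
  have hk' : W (k + 2) = ⊤ := hk ▸ Nat.find_spec hex
  refine ⟨k + 1, fun i => W i, by omega, ?_, rfl, hk', ?_, ?_⟩
  · rw [Fin.strictMono_iff_lt_succ]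
    intro i
    exact hlt i (Nat.find_min hex (by have := i.2; omega))
  · intro g hg i
    apply le_antisymm
    · rintro _ ⟨v, hv, rfl⟩; exact hN g hg i v hv
    · intro v hv
      refine ⟨ρ₀ g⁻¹ v, hN _ (inv_mem hg) i v hv, ?_⟩
      show ρ₀ g (ρ₀ g⁻¹ v) = v
      rw [← Module.End.mul_apply, ← map_mul]; simp
  · intro u hu i v hv
    have : v ∈ nxt ρ (W i) := hW i ▸ hv
    exact mem_nxt.1 this ⟨u, hu⟩

end Cfsg.Agent.S2391
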