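import Cfsg.Statements.S2392
import Cfsg.Agent.Classical.MinDegSL

set_option autoImplicit false
open scoped MatrixGroups
open Cfsg

namespace Cfsg.Agent.S2392

/-- A lower bound for representations in cross characteristic: for `n ≥ 3` and a field `F` with `q` elements, every homomorphism from `SL_n(F)` to `GL_d(K)`, `K` a field of characteristic different from that of `F`, whose kernel is central has `d ≥ q^(n-1) - 1`. -/
theorem result {F : Type*} [Field F] [Fintype F] {q : ℕ} (hq : Fintype.card F = q) (n : ℕ) (hn : 3 ≤ n)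
    {K : Type*} [Field K] (hK : ringChar K ≠ ringChar F) {d : ℕ}
    (ρ : Matrix.SpecialLinearGroup (Fin n) F →* GL (Fin d) K) (hker : ρ.ker ≤ Subgroup.center (Matrix.SpecialLinearGroup (Fin n) F)) :
    q ^ (n - 1) - 1 ≤ d := by
  open CF.Classical CF.Geom in
  obtain ⟨g, he⟩ : ∃ g : Matrix.SpecialLinearGroup (Fin n) F, ρ g ≠ 1 := by
    by_contra! hc
    let i : Fin n := ⟨0, by omega⟩
    let j : Fin n := ⟨1, by omega⟩
    have hij : j ≠ i := by simp [i, j]
    have h1 := congrArg (fun g => (slEquiv n F g).1 (Pi.single j 1) j)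
      (Subgroup.mem_center_iff.1 (hker (hc ((slEquiv n F).symm
        (slT (LinearMap.proj i) (Pi.single j 1)))))
        ((slEquiv n F).symm (slT (LinearMap.proj j) (Pi.single i 1))))
    simp [sl_mul_apply, slT_apply, hij, hij.symm] at h1
  have := sl_bound_weak (ρ := (toAlgClosure ρ).comp (slEquiv n F).symm.toMonoidHom)
    (by simpa using hn) (ringChar_ne_zero_algClosure hK) (g := slEquiv n F g)
    (by simpa using toAlgClosure_ne_one ρ he)
  simpa [hq] using this

end Cfsg.Agent.S2392
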