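import Cfsg.Statements.S2393
import Cfsg.Agent.Classical.MinDegSp

set_option autoImplicit false
open scoped MatrixGroups
open Cfsg

namespace Cfsg.Agent.S2393

/-- A lower bound for representations in cross characteristic: for `n ≥ 2` and a field `F` with `q` elements, `q` odd, every homomorphism from the symplectic group `Sp_{2n}(F)` to `GL_d(K)`, `K` a field of characteristic different from that of `F`, whose kernel is central has `d ≥ q^(n-1)(q-1)/2`. -/
theorem result {F : Type*} [Field F] [Fintype F] {q : ℕ} (hq : Fintype.card F = q) (hodd : Odd q) (n : ℕ) (hn : 2 ≤ n)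
    {K : Type*} [Field K] (hK : ringChar K ≠ ringChar F) {d : ℕ}
    (ρ : ↥(Matrix.symplecticGroup (Fin n) F) →* GL (Fin d) K) (hker : ρ.ker ≤ Subgroup.center ↥(Matrix.symplecticGroup (Fin n) F)) :
    q ^ (n - 1) * (q - 1) / 2 ≤ d := by
  open CF.Classical in
  obtain ⟨e, he⟩ : ∃ g : Matrix.symplecticGroup (Fin n) F, ρ g ≠ 1 := by
    by_contra! hc
    have h1 := CF.Geom.commutator_symplecticGroup_eq_top (F := F) n (by
      have : 2 ≤ q := hq ▸ Fintype.one_lt_card
      obtain ⟨k, rfl⟩ := hodd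
      omega)
    have h2 : commutator (Matrix.symplecticGroup (Fin n) F) = ⊥ := by
      rw [commutator_def, Subgroup.commutator_eq_bot_iff_le_centralizer]
      intro x _ y _
      exact Subgroup.mem_center_iff.1 (hker (hc x)) y
    have hA := CF.Geom.sympBilin_isAlt (F := F) n
    have h3 : ∀ g : Matrix.symplecticGroup (Fin n) F, g = 1 := fun g => by
      rw [← Subgroup.mem_bot, ← h2, h1]; trivial
    have h4 := congrArg (fun g => (CF.Geom.spEquiv n F g).1 (Pi.single (.inl ⟨0, by omega⟩) 1)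
      (.inr ⟨0, by omega⟩)) (h3 ((CF.Geom.spEquiv n F).symm
        (CF.Geom.spTrans hA (Pi.single (.inr ⟨0, by omega⟩) 1) 1)))
    simp [CF.Geom.spTrans_apply, CF.Geom.sympBilin_apply, CF.Geom.sympForm_eq_sum,
      Pi.single_apply] at h4
  have h2 : (2 : F) ≠ 0 := CF.Geom.two_ne_zero_of_odd_card (hq ▸ hodd)
  have := symp_bound_odd (toAlgClosure ρ) (ringChar_ne_zero_algClosure hK) h2
    (toAlgClosure_ne_one ρ he)
  rw [Module.finrank_fin_fun, Nat.card_eq_fintype_card, hq] at this
  obtain ⟨m, rfl⟩ : ∃ m, n = m + 1 := ⟨n - 1, by omega⟩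
  have h3 : q ^ m * (q - 1) ≤ q ^ (m + 1) - 1 := by
    rw [Nat.mul_sub_one, ← pow_succ]
    exact Nat.sub_le_sub_left (Nat.one_le_pow _ _ hodd.pos) _
  simp only [Nat.add_sub_cancel]
  omega

end Cfsg.Agent.S2393
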