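import Cfsg.Statements.S2394
import Cfsg.Agent.Fgs2.Zsigmondy
import Cfsg.Agent.Geom.Orders

set_option autoImplicit false
open scoped MatrixGroups
open Cfsg

namespace Cfsg.Agent.S2394

/-- The smallest degree of a faithful representation of the symplectic group `Sp_{2n}(q)` over its own field `F_q` is `2n`: every injective homomorphism from `Sp_{2n}(F)` to `GL_d(F)`, `F` the field with `q` elements, has `d ≥ 2n`. -/
theorem result {F : Type*} [Field F] [Fintype F] (n : ℕ) {d : ℕ}
    (ρ : ↥(Matrix.symplecticGroup (Fin n) F) →* GL (Fin d) F) (hρ : Function.Injective ρ) : 2 * n ≤ d := by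
  by_contra! h
  have h1 := Subgroup.card_dvd_of_injective ρ hρ
  rw [CF.Geom.card_symplecticGroup, Matrix.card_GL_field, Nat.card_eq_fintype_card] at h1
  have hq : 2 ≤ Fintype.card F := Fintype.one_lt_card
  generalize Fintype.card F = q at *
  by_cases h2 : n = 1
  · subst h2
    have h3 : q ^ 2 = q * q := sq q
    interval_cases d
    · simp at h1; omega
    · have := Nat.le_of_dvd (by simp; omega) h1
      simp at this
      have : q * 1 ≤ q * (q ^ 2 - 1) := Nat.mul_le_mul_left _ (by
        have : 2 * 2 ≤ q * q := Nat.mul_le_mul hq hq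
        omega)
      omega
  by_cases h3 : q = 2 ∧ 2 * n = 6
  · obtain ⟨rfl, h3⟩ := h3
    obtain rfl : n = 3 := by omega
    interval_cases d <;> revert h1 <;> decide
  obtain ⟨r, hr, h4, h5⟩ := CF.Fgs2.zsigmondy hq (n := 2 * n) (by omega) h3 (by omega)
  obtain ⟨m, rfl⟩ : ∃ m, n = m + 1 := ⟨n - 1, by omega⟩
  rw [Finset.prod_range_succ, ← mul_assoc] at h1
  obtain ⟨i, -, h6⟩ := (hr.prime.dvd_finset_prod_iff _).1 ((h4.mul_left _).trans h1)
  rw [show q ^ d - q ^ (i : ℕ) = q ^ (i : ℕ) * (q ^ (d - i) - 1) by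
    rw [Nat.mul_sub, ← pow_add, Nat.add_sub_cancel' i.2.le, mul_one], hr.dvd_mul] at h6
  rcases h6 with h6 | h6
  · have := (Nat.dvd_sub_iff_right (Nat.one_le_pow _ _ (by omega))
      (dvd_pow (hr.dvd_of_dvd_pow h6) (n := 2 * (m + 1)) (by omega))).1 h4
    exact hr.one_lt.ne' (Nat.dvd_one.1 this)
  · exact h5 _ (by omega) (by omega) h6

end Cfsg.Agent.S2394
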