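import Cfsg.Statements.S2398
import Cfsg.Agent.Chev.Lift2
import Cfsg.Agent.Chev.Stein
import Cfsg.Agent.Chev.All

set_option autoImplicit false
open Cfsg

namespace Cfsg.Agent.S2398

/-- Universality of the group Δ presented by Steinberg's generators with relators (R1), (R2), over a field with more than four elements (types G₂, B₂, D₄, F₄, E₆, E₇, E₈): for every central extension `π₁ : E → G₁` (surjective, central kernel) and every homomorphism `σ : Δ → G₁` there is exactly one homomorphism `τ : Δ → E` with `π₁ ∘ τ = σ`. In particular every central extension of Δ splits; together with the fact that Δ maps onto the Chevalley group with central kernel, this makes Δ the universal central extension of the Chevalley group. -/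
theorem result {K : Type*} [Field K] (hK5 : ∃ s : Finset K, 4 < s.card) (D : Cfsg.Lie.ChevalleyDatum) (hD : D ∈ [Cfsg.Lie.chevG2, Cfsg.Lie.chevB2, Cfsg.Lie.chevD4, Cfsg.Lie.chevF4, Cfsg.Lie.chevE6, Cfsg.Lie.chevE7, Cfsg.Lie.chevE8])
    {G₁ E : Type*} [Group G₁] [Group E] (π₁ : E →* G₁) (hπ : Function.Surjective π₁) (hc : π₁.ker ≤ Subgroup.center E)
    (σ : D.SteinbergCover K →* G₁) : ∃! τ : D.SteinbergCover K →* E, π₁.comp τ = σ := by
  obtain ⟨C, h⟩ := CF.Chev.exists_good hD
  have hG := h.link.scRep_Gp K h.noA1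
  obtain ⟨v, hv⟩ := CF.Chev.exists_pow_ne_one hK5 (d := 1) le_rfl (by omega)
  have hP := CF.Chev.StRep.commutator_eq_top hG (h.perf_of_two_lt ⟨v, v.ne_zero,
    fun e => hv (Units.ext (by simpa using e))⟩)
  obtain ⟨ρ, hρ⟩ := CF.Chev.exists_preSt_of_card ((⟨hπ, hc⟩ : CF.Schur.CExt π₁).pull σ)
    (h.link.faithful_scRep K h.noA1) hG h.noA1 hK5
  obtain ⟨s, hs⟩ := h.link.exists_hom_sc h.noA1 ρ
  have e : π₁.comp ((CF.Schur.pullFst π₁ σ).comp s) = σ := by
    rw [← MonoidHom.comp_assoc, CF.Schur.pull_comm]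
    exact CF.Chev.StRep.hom_ext hG fun r t => by simp [hs, hρ]
  exact ⟨_, e, fun τ hτ => CF.Schur.eq_of_perfect hc (hτ.trans e.symm) hP⟩

end Cfsg.Agent.S2398
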