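import Cfsg.Statements.S2399
import Cfsg.Agent.Chev.Lift2
import Cfsg.Agent.Chev.Stein
import Cfsg.Agent.Chev.All
import Cfsg.Agent.Chev.K2
import Cfsg.Agent.Chev.Syl

set_option autoImplicit false
open scoped MatrixGroups
open Cfsg

namespace Cfsg.Agent.S2399

open CF.Schur CF.Chev in
theorem aux {B ι : Type} [Fintype B] [DecidableEq B] [Fintype ι] [DecidableEq ι]
    {C : ChevBasis B ι} {K : Type*} [Field K] [Finite K] {G E : Type*} [Group G] [Group E]
    {ρ : StRep C K G} {π : E →* G} (hπ : CExt π) (hρ : ρ.Faithful) (hG : ρ.Gp = ⊤)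
    (hP : commutator G = ⊤) {p : ℕ} (hp : (p : K) = 0) (hk : ∀ z ∈ π.ker, z ^ p = 1 → z = 1) :
    ∃ σ : PreSt C K E, ∀ r t, π (σ.x r t) = ρ.x r t := by
  have := (StRep.r3_of_finite ρ).finite hρ hG
  have := hπ.finite_commutator
  have h1 := stem_cext (hπ.stem_commutator hP).1
  have h2 : ∀ z ∈ (π.comp (commutator E).subtype).ker, z ^ p = 1 → z = 1 := fun z hz e =>
    Subtype.ext (hk z hz (congrArg Subtype.val e))
  obtain ⟨σ, hσ⟩ := exists_preSt_of_coprime h1 hρ hp h2 fun z hz => by
    have h3 : Function.Injective fun w : (π.comp (commutator E).subtype).ker => w ^ p := by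
      intro a b e
      refine Subtype.ext (mul_inv_eq_one.1 (h2 _ (mul_mem a.2 (inv_mem b.2)) ?_))
      rw [(h1.commute a.2 b).inv_right.mul_pow, inv_pow, mul_inv_eq_one]
      exact congrArg Subtype.val e
    obtain ⟨w, hw⟩ := Finite.injective_iff_surjective.1 h3 ⟨z, hz⟩
    exact ⟨w, w.2, congrArg Subtype.val hw⟩
  exact ⟨σ.map (commutator E).subtype, hσ⟩

theorem center_pow {L : Type*} [Field L] {p n : ℕ} [Fact p.Prime] [CharP L p] {g : GL (Fin n) L}
    (hg : g ∈ Subgroup.center (GL (Fin n) L)) (h : g ^ p = 1) : g = 1 := by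
  rcases n with _ | n
  · exact Units.ext (Subsingleton.elim _ _)
  obtain ⟨c, hc⟩ := Matrix.GeneralLinearGroup.mem_center_iff_val_mem_range_scalar.1 hg
  have h1 : Matrix.scalar (Fin (n + 1)) (c ^ p) = Matrix.scalar (Fin (n + 1)) 1 := by
    rw [map_pow, hc, ← Units.val_pow_eq_pow_val, h, map_one, Units.val_one]
  have h2 : c = 1 := frobenius_inj L p (by simpa [frobenius_def] using Matrix.scalar_inj.1 h1)
  exact Units.ext (by rw [← hc, h2, map_one, Units.val_one])

/-- Projective representations in the natural characteristic lift: for each of the types G₂, B₂, D₄, F₄, E₆, E₇, E₈ over any field `K` (for types B₂ and G₂ the field must have more than two elements — the cases where the Chevalley group is not simple are set aside), every homomorphism from the Chevalley group to `PGL_n(L) = GL_n(L)/Z`, `L` a field of the same characteristic as `K`, lifts uniquely to a homomorphism from the group Δ presented by (R1), (R2) to `GL_n(L)`, compatibly with the projection Δ → Chevalley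 group sending x̄_r(t) to x_r(t). -/
theorem result {K : Type*} [Field K] (D : Cfsg.Lie.ChevalleyDatum) (hD : D ∈ [Cfsg.Lie.chevG2, Cfsg.Lie.chevB2, Cfsg.Lie.chevD4, Cfsg.Lie.chevF4, Cfsg.Lie.chevE6, Cfsg.Lie.chevE7, Cfsg.Lie.chevE8]) (hK : D ∈ [Cfsg.Lie.chevB2, Cfsg.Lie.chevG2] → ∃ x : K, x ≠ 0 ∧ x ≠ 1)
    (θ : D.SteinbergCover K →* ↥(D.group K))
    (hθ : ∀ (r : ℕ) (t : K), r < D.nroots → ((θ (D.scGen K r t) : GL D.Idx K) : Matrix D.Idx D.Idx K) = D.x K r t)
    {L : Type*} [Field L] (hL : ringChar L = ringChar K) {n : ℕ}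
    (φ : ↥(D.group K) →* GL (Fin n) L ⧸ Subgroup.center (GL (Fin n) L)) :
    ∃! ψ : D.SteinbergCover K →* GL (Fin n) L, (QuotientGroup.mk' (Subgroup.center (GL (Fin n) L))).comp ψ = φ.comp θ := by
  obtain ⟨C, h, hP⟩ := CF.Chev.exists_good_perf hD (K := K) fun e => hK (by
    rcases e with rfl | rfl <;> simp)
  have hG := h.link.scRep_Gp K h.noA1
  have hP := CF.Chev.StRep.commutator_eq_top hG hP
  have hπ := CF.Schur.cext_mk' (Subgroup.center (GL (Fin n) L)) le_rfl
  obtain ⟨ρ, hρ⟩ : ∃ σ : CF.Chev.PreSt C K _, ∀ r t, CF.Schur.pullSnd _ (φ.comp θ) (σ.x r t) =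
      (h.link.scRep K h.noA1).x r t := by
    rcases finite_or_infinite K with hF | hF
    · have : Fact (ringChar K).Prime := ⟨CharP.char_is_prime K _⟩
      have : CharP L (ringChar K) := hL ▸ ringChar.charP L
      refine aux (hπ.pull _) (h.link.faithful_scRep K h.noA1) hG hP
        (CharP.cast_eq_zero K (ringChar K)) fun z hz e => CF.Schur.pullFst_injOn_ker _ _ hz ?_
      refine center_pow ?_ (by rw [← map_pow, e, map_one])
      rw [← QuotientGroup.eq_one_iff]
      exact (DFunLike.congr_fun (CF.Schur.pull_comm _ _) z).trans (by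
        rw [MonoidHom.comp_apply, MonoidHom.mem_ker.1 hz, map_one])
    · obtain ⟨s, hs⟩ := Infinite.exists_subset_card_eq K 5
      exact CF.Chev.exists_preSt_of_card (hπ.pull _) (h.link.faithful_scRep K h.noA1) hG h.noA1
        ⟨s, by omega⟩
  obtain ⟨s, hs⟩ := h.link.exists_hom_sc h.noA1 ρ
  have e : (QuotientGroup.mk' _).comp ((CF.Schur.pullFst _ (φ.comp θ)).comp s) = φ.comp θ := by
    rw [← MonoidHom.comp_assoc, CF.Schur.pull_comm]
    exact CF.Chev.StRep.hom_ext hG fun r t => by simp [hs, hρ]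
  exact ⟨_, e, fun τ hτ => CF.Schur.eq_of_perfect hπ.central (hτ.trans e.symm) hP⟩

end Cfsg.Agent.S2399
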