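import Cfsg.Statements.S2401
import Cfsg.Agent.Chev.GenA

set_option autoImplicit false
open Cfsg

namespace Cfsg.Agent.S2401

/-- The Steinberg presentation of `SL_n` over a finite field for `n ≥ 3`: the group generated by symbols `x_ij(t)` (`i ≠ j`, `t` in the field) subject to `x_ij(t) x_ij(u) = x_ij(t + u)` and, for `i ≠ l`, `x_ij(t) x_kl(u) x_ij(t)⁻¹ x_kl(u)⁻¹ = x_il(tu)` if `j = k` and `= 1` if `j ≠ k`, is isomorphic to `SL_n` by an isomorphism sending `x_ij(t)` to the elementary matrix `1 + t E_ij`. -/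
theorem result {K : Type*} [Field K] [Finite K] (n : ℕ) (hn : 3 ≤ n) :
    ∃ e : PresentedGroup
        ({g : FreeGroup ({ij : Fin n × Fin n // ij.1 ≠ ij.2} × K) | ∃ (a : {ij : Fin n × Fin n // ij.1 ≠ ij.2}) (t u : K),
            g = FreeGroup.of (a, t) * FreeGroup.of (a, u) * (FreeGroup.of (a, t + u))⁻¹} ∪
          {g | ∃ (a b : {ij : Fin n × Fin n // ij.1 ≠ ij.2}) (t u : K), a.1.1 ≠ b.1.2 ∧ a.1.2 ≠ b.1.1 ∧
            g = FreeGroup.of (a, t) * FreeGroup.of (b, u) * (FreeGroup.of (a, t))⁻¹ * (FreeGroup.of (b, u))⁻¹} ∪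
          {g | ∃ (a b : {ij : Fin n × Fin n // ij.1 ≠ ij.2}) (h : a.1.1 ≠ b.1.2) (t u : K), a.1.2 = b.1.1 ∧
            g = FreeGroup.of (a, t) * FreeGroup.of (b, u) * (FreeGroup.of (a, t))⁻¹ * (FreeGroup.of (b, u))⁻¹ *
              (FreeGroup.of (⟨(a.1.1, b.1.2), h⟩, t * u))⁻¹}) ≃* Matrix.SpecialLinearGroup (Fin n) K,
      ∀ (a : {ij : Fin n × Fin n // ij.1 ≠ ij.2}) (t : K), ((e (PresentedGroup.of (a, t)) : Matrix (Fin n) (Fin n) K)) = Matrix.transvection a.1.1 a.1.2 t := by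
  obtain ⟨n, rfl⟩ : ∃ m, n = m + 1 := ⟨n - 1, by omega⟩
  generalize hR : (_ ∪ _ : Set (FreeGroup _)) = R
  have H {g} (hg : g ∈ R) : PresentedGroup.mk R g = 1 := PresentedGroup.one_of_mem hg
  let ρ := CF.Chev.preA (K := K) (fun r t => (PresentedGroup.of (r, t) : PresentedGroup R))
    (fun r t u => (mul_inv_eq_one.1 (H (hR ▸ .inl (.inl ⟨r, t, u, rfl⟩)))).symm)
    (fun r s t u h1 h2 => commutatorElement_eq_one_iff_commute.1
      (H (hR ▸ .inl (.inr ⟨r, s, t, u, h1, h2, rfl⟩))))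
    fun i j k h1 h2 h3 t u => mul_inv_eq_one.1
      (H (hR ▸ .inr ⟨⟨(i, j), h1⟩, ⟨(j, k), h2⟩, h3, t, u, rfl, rfl⟩))
  obtain ⟨φ, hφ⟩ := CF.Chev.exists_hom_SL (by omega) ρ
  let ψ := PresentedGroup.toGroup (rels := R) (f := fun p => (CF.Chev.slRep n K).x p.1 p.2) (by
    subst hR
    rintro _ ((⟨r, t, u, rfl⟩ | ⟨r, s, t, u, h1, h2, rfl⟩) |
      ⟨⟨⟨i, j⟩, h1⟩, ⟨⟨_, k⟩, h2⟩, h3, t, u, ⟨⟩, rfl⟩) <;>
      simp only [map_mul, map_inv, FreeGroup.lift_apply_of]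
    · rw [CF.Chev.PreSt.x_add, mul_inv_cancel]
    · exact commutatorElement_eq_one_iff_commute.2 ((CF.Chev.slRep n K).commuteA h1 h2 t u)
    · exact mul_inv_eq_one.2 ((CF.Chev.slRep n K).commA h1 h2 h3 t u))
  refine ⟨MonoidHom.toMulEquiv ψ φ (PresentedGroup.ext fun p => by simp [ψ, hφ]; rfl)
    (CF.Chev.StRep.hom_ext (CF.Chev.slRep_Gp n K) fun r t => by simp [hφ, ψ, ρ, CF.Chev.preA]),
    fun a t => ?_⟩
  simp [ψ, CF.Chev.val_slRep_x]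

end Cfsg.Agent.S2401
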