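import Cfsg.Statements.S2405
import Cfsg.Agent.Chev.Gen2
import Cfsg.Agent.Chev.Mult

set_option autoImplicit false
open Cfsg

namespace Cfsg.Agent.S2405

/-- Each Chevalley group of type G₂, B₂, D₄, F₄, E₆, E₇ or E₈ over a finite field is generated by two of its elements (types B₂ and G₂ over the field with two elements, where the group is not simple, excepted). -/
theorem result {F : Type*} [Field F] [Finite F] (D : Cfsg.Lie.ChevalleyDatum) (hD : D ∈ [Cfsg.Lie.chevG2, Cfsg.Lie.chevB2, Cfsg.Lie.chevD4, Cfsg.Lie.chevF4, Cfsg.Lie.chevE6, Cfsg.Lie.chevE7, Cfsg.Lie.chevE8])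
    (hF : D ∈ [Cfsg.Lie.chevB2, Cfsg.Lie.chevG2] → ∃ x : F, x ≠ 0 ∧ x ≠ 1) :
    ∃ a b : ↥(D.group F), Subgroup.closure ({a, b} : Set ↥(D.group F)) = ⊤ := by
  simp only [List.mem_cons, List.not_mem_nil, or_false] at hD hF
  rcases hD with rfl | rfl | rfl | rfl | rfl | rfl | rfl
  · exact CF.Chev.certG2.two_gen (fl := false) (by simp) (r := 5) (s := 7) (a := 0) (a' := 1) (st := [])
      (st' := []) (by unfold CF.Chev.Tab.ChkG; decide +kernel) F (.inl (hF (.inr rfl)))
  · exact CF.Chev.certB2.two_gen (fl := false) (by simp) (r := 3) (s := 5) (a := 1) (a' := 2) (st := [])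
      (st' := []) (by unfold CF.Chev.Tab.ChkG; decide +kernel) F (.inl (hF (.inl rfl)))
  · exact CF.Chev.certD4.two_gen (fl := true) (fun _ => CF.Chev.sameLenD4) (r := 7) (s := 18) (a := 0) (a' := 4)
      (st := [(1, 3, 13)]) (st' := []) (by unfold CF.Chev.Tab.ChkG; decide +kernel) F
      (.inr ⟨8, 20, 0, by unfold CF.Chev.Tab.ChkG2; decide +kernel⟩)
  · exact CF.Chev.certF4.two_gen (fl := false) (by simp) (r := 4) (s := 14) (a := 21) (a' := 15)
      (st := []) (st' := []) (by unfold CF.Chev.Tab.ChkG; decide +kernel) F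
      (.inr ⟨9, 31, 5, by unfold CF.Chev.Tab.ChkG2; decide +kernel⟩)
  · exact CF.Chev.certE6.two_gen (fl := true) (fun _ => CF.Chev.sameLenE6) (r := 0) (s := 19) (a := 1) (a' := 0)
      (st := [(12, 35, 11), (0, 1, 46)]) (st' := [(0, 1, 46)]) (by unfold CF.Chev.Tab.ChkG; decide +kernel) F
      (.inr ⟨26, 25, 0, by unfold CF.Chev.Tab.ChkG2; decide +kernel⟩)
  · exact CF.Chev.certE7.two_gen (fl := true) (fun _ => CF.Chev.sameLenE7) (r := 0) (s := 12) (a := 2) (a' := 1)
      (st := [(0, 1, 93), (12, 29, 86)]) (st' := [(0, 2, 94)]) (by unfold CF.Chev.Tab.ChkG; decide +kernel) F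
      (.inr ⟨34, 31, 0, by unfold CF.Chev.Tab.ChkG2; decide +kernel⟩)
  · exact CF.Chev.certE8.two_gen (fl := true) (fun _ => CF.Chev.sameLenE8) (r := 0) (s := 7) (a := 6) (a' := 20)
      (st := [(0, 1, 120), (0, 14, 168), (0, 7, 146)]) (st' := [(0, 1, 120), (0, 2, 122), (0, 30, 201)])
      (by unfold CF.Chev.Tab.ChkG; decide +kernel) F (.inr ⟨13, 99, 0, by unfold CF.Chev.Tab.ChkG2; decide +kernel⟩)

end Cfsg.Agent.S2405
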