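import Cfsg.Statements.S2410
import Cfsg.Agent.BN.SzSub

set_option autoImplicit false
open Cfsg

namespace Cfsg.Agent.S2410

/-- The Suzuki group over the field with `2^(2m+1)` elements, `m ≥ 1` (realised as the stabiliser in `SL₄` of the Suzuki–Tits ovoid), is generated by two of its elements. -/
theorem result {F : Type*} [Field F] [Fintype F] {m : ℕ} (hm : 1 ≤ m) (hF : Fintype.card F = 2 ^ (2 * m + 1)) :
    ∃ a b : ↥(Cfsg.Sz F m), Subgroup.closure ({a, b} : Set ↥(Cfsg.Sz F m)) = ⊤ := by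
  have D := CF.BN.Suz.ovD F hm hF
  have := D.finite
  have h8 := CF.BN.Suz.eight_le_card hm hF
  rw [← Nat.card_eq_fintype_card] at hF h8
  have hr := CF.BN.Suz.sq_two_pow hF
  obtain ⟨x, y, hx, hy, h1, h2, -⟩ := D.exists_tori hr h8
  obtain ⟨a, ha⟩ := (Subgroup.isCyclic_iff_exists_zpowers_eq_top _).1 hx.isCyclic_centralizer
  obtain ⟨b, hb⟩ := (Subgroup.isCyclic_iff_exists_zpowers_eq_top _).1 hy.isCyclic_centralizer
  obtain ⟨e, hc, -⟩ := CF.BN.Suz.tori_arith (CF.BN.Suz.titsOfCard F m (Nat.card_eq_fintype_card.symm.trans hF)).even_card hr h8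
  refine ⟨a, b, D.eq_top_of_dvd_card hm hF (e ▸ hc.mul_dvd_of_dvd_of_dvd ?_ ?_)⟩
  · rw [← h1, ← ha]
    exact Subgroup.card_dvd_of_le (Subgroup.zpowers_le.2 (Subgroup.subset_closure (by simp)))
  · rw [← h2, ← hb]
    exact Subgroup.card_dvd_of_le (Subgroup.zpowers_le.2 (Subgroup.subset_closure (by simp)))

end Cfsg.Agent.S2410
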