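import Cfsg.Statements.S2416
import Cfsg.Agent.Chev.Gen
import Cfsg.Agent.Chev.AutT

set_option autoImplicit false
open scoped MatrixGroups
open Cfsg

namespace Cfsg.Agent.S2416

open CF.Chev in
theorem aux {B ι : Type} [Fintype B] [DecidableEq B] [Fintype ι] [DecidableEq ι]
    {C : ChevBasis B ι} {K : Type*} [Field K] {G : Type*} [Group G] {ρ : StRep C K G}
    (hC : C.Conn) (hS : C.SL) {Y : Subgroup G} (hN : ρ.N ≤ Y) {i : B} (hi : ρ.X (C.simple i) ≤ Y) :
    ρ.Gp ≤ Y := by
  refine StRep.Gp_le_of_simple hN fun j => by_contra fun hj => ?_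
  obtain ⟨a, ha, b, hb, h⟩ := hC {k | ρ.X (C.simple k) ≤ Y} ⟨i, hi⟩ ⟨j, hj⟩
  have hab : a ≠ b := fun e => hb (e ▸ ha)
  refine hb (StRep.X_le_step hN ((hS b a hab.symm).resolve_left
    (mt (C.car_eq_zero_comm a b).2 h)) ?_ ha)
  simp [(hS a b hab).resolve_left h]

theorem cast_ne {K : Type*} [Field K] {p : ℕ} (hp : p.Prime) (h : ringChar K ≠ p) {a : ℤ}
    (ha : a = -p) : (a : K) ≠ 0 := by
  simpa [ha] using mt (CharP.ringChar_of_prime_eq_zero hp) h

/-- A Chevalley group of type G₂, B₂, D₄, F₄, E₆, E₇ or E₈ over a finite field lies in (indeed equals) the subgroup generated by its monomial subgroup `N` and a single fundamental root subgroup `X_p`, where `p` is a short fundamental root if there are two root lengths (any fundamental root otherwise), provided the characteristic is not 2 for types B₂, F₄ and not 3 for type G₂ (and the field has more than two elements for B₂, G₂). -/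
theorem result {K : Type*} [Field K] [Finite K] (D : Cfsg.Lie.ChevalleyDatum) (hD : D ∈ [Cfsg.Lie.chevG2, Cfsg.Lie.chevB2, Cfsg.Lie.chevD4, Cfsg.Lie.chevF4, Cfsg.Lie.chevE6, Cfsg.Lie.chevE7, Cfsg.Lie.chevE8])
    (hK : D ∈ [Cfsg.Lie.chevB2, Cfsg.Lie.chevG2] → ∃ x : K, x ≠ 0 ∧ x ≠ 1)
    (h2 : D ∈ [Cfsg.Lie.chevB2, Cfsg.Lie.chevF4] → ringChar K ≠ 2) (h3 : D = Cfsg.Lie.chevG2 → ringChar K ≠ 3)
    (i : ℕ) (hi : i < D.rank) (hshort : D.isLong (D.simple i) = false) :
    D.group K ≤ D.monomialSubgroup K ⊔ D.rootSubgroup K (D.simple i) := by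
  have key : ∀ {C : CF.Chev.ChevBasis (Fin D.rank) (Fin D.nroots)}
      (L : CF.Chev.IsLink D C.toLieBasis), (∀ Y, (C.adSt K).N ≤ Y →
        (C.adSt K).X (C.simple ⟨i, hi⟩) ≤ Y → (C.adSt K).Gp ≤ Y) →
      D.group K ≤ D.monomialSubgroup K ⊔ D.rootSubgroup K (D.simple i) := fun L h => by
    rw [L.group_eq, L.monomialSubgroup_eq, show D.simple i = _ from L.simple_eq ⟨i, hi⟩,
      L.rootSubgroup_eq]
    exact h _ le_sup_left le_sup_right
  simp only [List.mem_cons, List.not_mem_nil, or_false] at hD h2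
  open CF.Chev in
  rcases hD with rfl | rfl | rfl | rfl | rfl | rfl | rfl
  · refine key linkG2 fun Y hN h0 => StRep.Gp_le_of_simple hN ?_
    obtain rfl : i = 0 := by clear h0 key; revert i; decide +kernel
    have h1 := StRep.X_le_step hN (i := (0 : Fin 2)) (j := (1 : Fin 2)) (by decide +kernel)
      (cast_ne Nat.prime_three (h3 rfl) (by decide +kernel)) h0
    exact Fin.forall_fin_two.2 ⟨h0, h1⟩
  · refine key linkB2 fun Y hN h0 => StRep.Gp_le_of_simple hN ?_
    obtain rfl : i = 0 := by clear h0 key; revert i; decide +kernel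
    have h1 := StRep.X_le_step hN (i := (0 : Fin 2)) (j := (1 : Fin 2)) (by decide +kernel)
      (cast_ne Nat.prime_two (h2 (.inl rfl)) (by decide +kernel)) h0
    exact Fin.forall_fin_two.2 ⟨h0, h1⟩
  · exact key linkD4 fun Y hN h0 => aux goodD4.conn slD4 hN h0
  · refine key linkF4 fun Y hN h0 => StRep.Gp_le_of_simple hN ?_
    have s := fun (a b : Fin 4) (h1 : cbF4.car b a = -1) (h2 : cbF4.car a b = -1) =>
      StRep.X_le_step hN h1 (by simp [h2])
    have h1 : (cbF4.adSt K).X (cbF4.simple (1 : Fin 4)) ≤ Y := by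
      obtain rfl | rfl : i = 0 ∨ i = 1 := by
        clear h0 key; revert i; decide +kernel
      exacts [s 0 1 (by decide +kernel) (by decide +kernel) h0, h0]
    have h2 := StRep.X_le_step hN (j := (2 : Fin 4)) (by decide +kernel)
      (cast_ne Nat.prime_two (h2 (.inr rfl)) (by decide +kernel)) h1
    intro (j : Fin 4)
    fin_cases j
    exacts [s 1 0 (by decide +kernel) (by decide +kernel) h1, h1, h2,
      s 2 3 (by decide +kernel) (by decide +kernel) h2]
  · exact key linkE6 fun Y hN h0 => aux goodE6.conn slE6 hN h0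
  · exact key linkE7 fun Y hN h0 => aux goodE7.conn slE7 hN h0
  · exact key linkE8 fun Y hN h0 => aux goodE8.conn slE8 hN h0

end Cfsg.Agent.S2416
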