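import Cfsg.Statements.S2417
import Cfsg.Agent.Chev.Gen
import Cfsg.Agent.Chev.AutT

set_option autoImplicit false
open scoped MatrixGroups
open Cfsg

namespace Cfsg.Agent.S2417

/-- In the characteristics with an exceptional graph symmetry — type B₂ or F₄ in characteristic 2 (field of more than two elements for B₂) and type G₂ in characteristic 3 — the Chevalley group lies in the subgroup generated by its monomial subgroup `N` and the two fundamental root subgroups `X_a`, `X_b` of a short root `a` and a long root `b` joined in the Dynkin diagram. -/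
theorem result {K : Type*} [Field K] [Finite K] (e : Cfsg.Lie.ChevalleyDatum × ℕ)
    (he : e ∈ [(Cfsg.Lie.chevB2, 2), (Cfsg.Lie.chevF4, 2), (Cfsg.Lie.chevG2, 3)]) [CharP K e.2]
    (hK : e.1 = Cfsg.Lie.chevB2 → ∃ x : K, x ≠ 0 ∧ x ≠ 1)
    (i j : ℕ) (hi : i < e.1.rank) (hj : j < e.1.rank) (hshort : e.1.isLong (e.1.simple i) = false)
    (hlong : e.1.isLong (e.1.simple j) = true) (hbond : e.1.bonds i j ≠ 0) :
    e.1.group K ≤ e.1.monomialSubgroup K ⊔ e.1.rootSubgroup K (e.1.simple i) ⊔ e.1.rootSubgroup K (e.1.simple j) := by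
  obtain ⟨D, p⟩ := e
  have key : ∀ {C : CF.Chev.ChevBasis (Fin D.rank) (Fin D.nroots)}
      (L : CF.Chev.IsLink D C.toLieBasis), (∀ Y, (C.adSt K).N ≤ Y →
        (C.adSt K).X (C.simple ⟨i, hi⟩) ≤ Y → (C.adSt K).X (C.simple ⟨j, hj⟩) ≤ Y →
        ∀ k, (C.adSt K).X (C.simple k) ≤ Y) → D.group K ≤ D.monomialSubgroup K ⊔
        D.rootSubgroup K (D.simple i) ⊔ D.rootSubgroup K (D.simple j) := fun L h => by
    rw [L.group_eq, L.monomialSubgroup_eq, show D.simple i = _ from L.simple_eq ⟨i, hi⟩,
      show D.simple j = _ from L.simple_eq ⟨j, hj⟩, L.rootSubgroup_eq, L.rootSubgroup_eq]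
    exact CF.Chev.StRep.Gp_le_of_simple (le_sup_of_le_left le_sup_left)
      (h _ (le_sup_of_le_left le_sup_left) (le_sup_of_le_left le_sup_right) le_sup_right)
  simp only [List.mem_cons, List.not_mem_nil, or_false, Prod.mk.injEq] at he
  open CF.Chev in
  rcases he with ⟨rfl, -⟩ | ⟨rfl, -⟩ | ⟨rfl, -⟩
  · obtain ⟨rfl, rfl⟩ : i = 0 ∧ j = 1 := by
      clear key; revert hshort hlong hbond; revert j; revert i; dsimp only
      set_option synthInstance.maxSize 1000 in decide +kernel
    exact key linkB2 fun Y _ h0 h1 => Fin.forall_fin_two.2 ⟨h0, h1⟩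
  · obtain ⟨rfl, rfl⟩ : i = 1 ∧ j = 2 := by
      clear key; revert hshort hlong hbond; revert j; revert i; dsimp only
      set_option synthInstance.maxSize 1000 in decide +kernel
    refine key linkF4 fun Y hN h1 h2 (k : Fin 4) => ?_
    have s := fun (a b : Fin 4) (h1 : cbF4.car b a = -1) (h2 : cbF4.car a b = -1) =>
      StRep.X_le_step hN h1 (by simp [h2])
    fin_cases k
    exacts [s 1 0 (by decide +kernel) (by decide +kernel) h1, h1, h2,
      s 2 3 (by decide +kernel) (by decide +kernel) h2]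
  · obtain ⟨rfl, rfl⟩ : i = 0 ∧ j = 1 := by
      clear key; revert hshort hlong hbond; revert j; revert i; dsimp only
      set_option synthInstance.maxSize 1000 in decide +kernel
    exact key linkG2 fun Y _ h0 h1 => Fin.forall_fin_two.2 ⟨h0, h1⟩

end Cfsg.Agent.S2417
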