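import Cfsg.Statements.S2418
import Cfsg.Agent.Chev.Gen2

set_option autoImplicit false
open Cfsg

namespace Cfsg.Agent.S2418

/-- For the Coxeter groups of types B₂, G₂, D₄, F₄, E₇, E₈ the centre has order 2 (the element acting as −1 on the root system) and is generated by a power of the Coxeter element `s₁ s₂ ⋯ s_l`; the Coxeter group of type E₆ has trivial centre. -/
theorem result (c : (Σ n : ℕ, CoxeterMatrix (Fin n)) × ℕ)
    (hc : c ∈ [(⟨2, CoxeterMatrix.B 2⟩, 2), (⟨2, CoxeterMatrix.G₂⟩, 2), (⟨4, Cfsg.Lie.coxeterD4⟩, 2), (⟨4, CoxeterMatrix.F₄⟩, 2),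
      (⟨6, CoxeterMatrix.E₆⟩, 1), (⟨7, CoxeterMatrix.E₇⟩, 2), (⟨8, CoxeterMatrix.E₈⟩, 2)]) :
    Nat.card (Subgroup.center c.1.2.Group) = c.2 ∧
      Subgroup.center c.1.2.Group ≤ Subgroup.zpowers ((List.finRange c.1.1).map c.1.2.simple).prod := by
  simp only [List.mem_cons, List.not_mem_nil, or_false] at hc
  rcases hc with rfl | rfl | rfl | rfl | rfl | rfl | rfl
  · exact CF.Chev.certB2.center_cox CF.Chev.coxB2 CF.Chev.goodB2 2 (by decide +kernel)
  · exact CF.Chev.certG2.center_cox CF.Chev.coxG2 CF.Chev.goodG2 3 (by decide +kernel)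
  · exact CF.Chev.certD4.center_cox CF.Chev.coxD4 CF.Chev.goodD4 3 (by decide +kernel)
  · exact CF.Chev.certF4.center_cox CF.Chev.coxF4 CF.Chev.goodF4 6 (by decide +kernel)
  · have : Subgroup.center CoxeterMatrix.E₆.Group = ⊥ := CF.Chev.certE6.center_eq_bot CF.Chev.coxE6
      CF.Chev.goodE6 (List.replicate 6 ([0, 3, 5, 1, 2, 4] : List (Fin 6))).flatten (0 : Fin 6)
      (by decide +kernel)
    exact ⟨this ▸ Subgroup.card_bot, this ▸ bot_le⟩
  · exact CF.Chev.certE7.center_cox CF.Chev.coxE7 CF.Chev.goodE7 9 (by decide +kernel)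
  · exact CF.Chev.certE8.center_cox CF.Chev.coxE8 CF.Chev.goodE8 15 (by decide +kernel)

end Cfsg.Agent.S2418
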