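import Cfsg.Statements.S2419
import Cfsg.Agent.Chev.Gen2

set_option autoImplicit false
open Cfsg

namespace Cfsg.Agent.S2419

/-- The Coxeter groups of types B₂, G₂, E₆, E₇, E₈ are generated by the Coxeter element `s₁ s₂ ⋯ s_l` together with one suitable reflection (a conjugate of a simple reflection); for types D₄ and F₄ the Coxeter element together with two suitable reflections suffices. -/
theorem result (c : (Σ n : ℕ, CoxeterMatrix (Fin n)) × ℕ)
    (hc : c ∈ [(⟨2, CoxeterMatrix.B 2⟩, 1), (⟨2, CoxeterMatrix.G₂⟩, 1), (⟨4, Cfsg.Lie.coxeterD4⟩, 2), (⟨4, CoxeterMatrix.F₄⟩, 2),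
      (⟨6, CoxeterMatrix.E₆⟩, 1), (⟨7, CoxeterMatrix.E₇⟩, 1), (⟨8, CoxeterMatrix.E₈⟩, 1)]) :
    ∃ T : Finset c.1.2.Group, T.card = c.2 ∧ (∀ t ∈ T, ∃ (g : c.1.2.Group) (i : Fin c.1.1), t = g * c.1.2.simple i * g⁻¹) ∧
      Subgroup.closure (({((List.finRange c.1.1).map c.1.2.simple).prod} : Set c.1.2.Group) ∪ ↑T) = ⊤ := by
  simp only [List.mem_cons, List.not_mem_nil, or_false] at hc
  rcases hc with rfl | rfl | rfl | rfl | rfl | rfl | rfl
  · exact CF.Chev.closure_cox_two _
  · exact CF.Chev.closure_cox_two _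
  · exact CF.Chev.certD4.closure_cox CF.Chev.coxD4 ([0, 2] : List (Fin 4))
      (by decide : ([0, 2] : List (Fin 4)).Nodup) [(1, 2, 12)]
      (by decide +kernel)
  · exact CF.Chev.certF4.closure_cox CF.Chev.coxF4 ([0, 2] : List (Fin 4))
      (by decide : ([0, 2] : List (Fin 4)).Nodup) []
      (by decide +kernel)
  · exact CF.Chev.certE6.closure_cox CF.Chev.coxE6 ([3] : List (Fin 6)) (List.nodup_singleton _) [(8, 11, 46)]
      (by decide +kernel)
  · exact CF.Chev.certE7.closure_cox CF.Chev.coxE7 ([1] : List (Fin 7)) (List.nodup_singleton _)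
      [(12, 18, 73), (12, 29, 86)] (by decide +kernel)
  · exact CF.Chev.certE8.closure_cox CF.Chev.coxE8 ([1] : List (Fin 8)) (List.nodup_singleton _)
      [(27, 28, 121), (27, 88, 179)] (by decide +kernel)

end Cfsg.Agent.S2419
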