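import Cfsg.Statements.S2421
import Cfsg.Agent.Classical.UniC

set_option autoImplicit false
open scoped MatrixGroups
open Cfsg

namespace Cfsg.Agent.S2421

/-- Irreducible characters of `GL_n(q)` indexed by partitions: for `ν` a partition of `n` written with `n` non-decreasing parts `ν_0 ≤ ⋯ ≤ ν_{n−1}` (zeros allowed; positions counted from 0) and `λ_i = ν_i + i`, the alternating sum over permutations `κ` of `{0, …, n−1}` of `sign κ` times the permutation character on partial flags of type `λ − κ` (terms with a negative entry omitted) is an irreducible complex character of `GL_n(q)`. For `ν = (1, …, 1)` this is the Steinberg character. -/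
theorem result {F : Type*} [Field F] [Fintype F] {n : ℕ} (ν : Fin n → ℕ) (hmono : Monotone ν) (hsum : ∑ i, ν i = n) :
    Cfsg.IsIrrCharacter (GL (Fin n) F) (Cfsg.unipotentCharacterGL n F ν) := by
  open CF.Classical CF.Char in
  have := Fintype.ofFinite (GL (Fin n) F)
  refine irr_of_gen_of_inner_self ?_ (by rw [inner_unipotent hmono hsum hmono hsum, if_pos rfl])
    (unipotent_one_pos hmono hsum)
  rw [unipotent_eq]
  refine gen_sum _ fun κ _ => ?_
  split_ifs
  · exact gen_zsmul (gen_of_char (char_fixedBy _)) _
  · exact gen_zero

end Cfsg.Agent.S2421
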