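import Cfsg.Statements.S2425
import Cfsg.Agent.Classical.Mobius
import Cfsg.Agent.Classical.UniC

set_option autoImplicit false
open scoped MatrixGroups
open Cfsg

namespace Cfsg.Agent.S2425

section
open CF.Classical CF.Cls Finset Polynomial Module Matrix
open scoped MatrixGroups Classical

variable {F : Type*} [Field F] {n : ℕ} {μ : Fin n → ℕ}

/-- The standard flag. -/
def stdFlag (F : Type*) [Field F] (μ : Fin n → ℕ) (a : Fin n) : Submodule F (Fin n → F) :=
  Submodule.pi {i | a < compLabel μ i} fun _ => ⊥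

theorem mem_stdFlag {a : Fin n} {v : Fin n → F} :
    v ∈ stdFlag F μ a ↔ ∀ i, a < compLabel μ i → v i = 0 := Iff.rfl

theorem mem_parabolic_iff (hμ : ∑ i, μ i = n) {h : GL (Fin n) F} : h ∈ parabolicGL n F μ ↔
    ∀ a, ∀ v ∈ stdFlag F μ a, h.1.mulVec v ∈ stdFlag F μ a := by
  refine ⟨fun hh a v hv => mem_stdFlag.2 fun i hi => ?_, fun hh i j hij => ?_⟩
  · refine sum_eq_zero (s := univ) (f := fun j => h.1 i j * v j) fun j _ => ?_
    by_cases e : a < compLabel μ j
    · rw [hv j e, mul_zero]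
    · rw [hh ((not_lt.1 e).trans_lt hi), zero_mul]
  · simpa using mem_stdFlag.1 (hh (lab hμ j) (Pi.single j 1) (mem_stdFlag.2
      fun k hk => Pi.single_eq_of_ne (by rintro rfl; exact lt_irrefl _ hk) _)) i hij

variable [Fintype F]

theorem finrank_stdFlag (hμ : ∑ i, μ i = n) (a : Fin n) : finrank F (stdFlag F μ a) = psum μ a := by
  refine Nat.pow_right_injective (Finite.one_lt_card (α := F)) ?_
  simp only
  rw [← Module.natCard_eq_pow_finrank]
  refine (Nat.card_congr (Equiv.subtypePiEquivPi (β := fun _ : Fin n => F)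
    (p := fun i x => a < compLabel μ i → x = 0))).trans ?_
  rw [Nat.card_pi, ← min_eq_right (psum_le hμ a), ← Fin.card_filter_val_lt, ← prod_const, prod_filter]
  refine prod_congr rfl fun i _ => ?_
  have := lt_compLabel (μ := μ) (a := a) (i := i)
  split_ifs with h
  · simp [show ¬ a < compLabel μ i from mt this.1 (not_le.2 h)]
  · simp [show a < compLabel μ i from this.2 (not_lt.1 h)]

theorem finrank_map_stdFlag (hμ : ∑ i, μ i = n) (a : Fin n) (g : GL (Fin n) F) :
    finrank F ((stdFlag F μ a).map (toLin' g.1)) = psum μ a := by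
  rw [← finrank_stdFlag (F := F) hμ]
  exact LinearEquiv.finrank_map_eq (GeneralLinearGroup.toLin g).toLinearEquiv _

theorem exists_flag (hμ : ∑ i, μ i = n) {c : Fin n → Submodule F (Fin n → F)} (hc : Monotone c)
    (hd : ∀ a, finrank F (c a) = psum μ a) :
    ∃ g : GL (Fin n) F, ∀ a, (stdFlag F μ a).map (toLin' g.1) = c a := by
  have h1 := card_linInd_mem (fun j => c (lab hμ j)) fun i j h => hc (compLabel_mono μ h)
  obtain ⟨v, h2, h3⟩ := (Nat.card_ne_zero.1 (h1 ▸ prod_ne_zero_iff.2 fun j _ => by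
    rw [Module.natCard_eq_pow_finrank (K := F), hd, Nat.card_eq_fintype_card]
    exact Nat.sub_ne_zero_of_lt (Nat.pow_lt_pow_right Fintype.one_lt_card
      (compLabel_eq_iff.1 rfl).2))).1
  obtain ⟨g, hg⟩ := (equiv_GL_linearindependent n).surjective ⟨v, h2⟩
  refine ⟨g, fun a => Submodule.eq_of_le_of_finrank_eq ?_ ((finrank_map_stdFlag hμ a g).trans (hd a).symm)⟩
  rintro _ ⟨w, hw, rfl⟩
  rw [toLin'_apply, mulVec_eq_sum]
  refine Submodule.sum_mem _ fun j _ => ?_
  by_cases e : a < compLabel μ j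
  · rw [hw j e]; simp
  · rw [show g.1ᵀ j = v j from congrFun (congrArg Subtype.val hg) j, op_smul_eq_smul]
    exact Submodule.smul_mem _ _ (hc (show lab hμ j ≤ a from not_lt.1 e) (h3 j))

theorem card_fixedBy (hμ : ∑ i, μ i = n) (x : GL (Fin n) F) :
    Nat.card (MulAction.fixedBy (GL (Fin n) F ⧸ parabolicGL n F μ) x) =
      Nat.card {c : Fin n → End.invtSubmodule (toLin' x.1) // Monotone c ∧ ∀ a, ⊥ ≤ c a ∧
        finrank F (c a).1 = finrank F (⊥ : End.invtSubmodule (toLin' x.1)).1 +
          ∑ k with k ≤ a, μ k} := by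
  have h0 : finrank F (⊥ : End.invtSubmodule (toLin' x.1)).1 = 0 := finrank_bot F _
  have h1 : ∀ g h : GL (Fin n) F, (g : GL (Fin n) F ⧸ parabolicGL n F μ) = h ↔
      ∀ a, (stdFlag F μ a).map (toLin' h.1) ≤ (stdFlag F μ a).map (toLin' g.1) := by
    intro g h
    rw [QuotientGroup.eq, mem_parabolic_iff hμ]
    refine forall_congr' fun a => ⟨?_, fun hh v hv => ?_⟩
    · rintro hh _ ⟨v, hv, rfl⟩
      exact ⟨_, hh v hv, by simp [← mul_assoc]⟩
    · obtain ⟨w, hw, e⟩ := hh ⟨v, hv, rfl⟩
      simp only [toLin'_apply] at e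
      rw [Units.val_mul, ← mulVec_mulVec, ← e, mulVec_mulVec]
      simpa using hw
  have h2 : ∀ g : GL (Fin n) F, x • (g : GL (Fin n) F ⧸ parabolicGL n F μ) = g ↔
      ∀ a, (stdFlag F μ a).map (toLin' g.1) ∈ End.invtSubmodule (toLin' x.1) := by
    intro g
    rw [eq_comm, MulAction.Quotient.smul_mk, h1]
    simp only [End.mem_invtSubmodule, ← Submodule.map_le_iff_le_comap, ← Submodule.map_comp,
      smul_eq_mul, Units.val_mul, toLin'_mul]
  refine Nat.card_congr (Equiv.ofBijective (fun q => ⟨fun a => ⟨(stdFlag F μ a).map (toLin' q.1.out.1),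
    (h2 _).1 (by rw [QuotientGroup.out_eq']; exact q.2) a⟩,
    fun a b h => Submodule.map_mono fun v hv => mem_stdFlag.2 fun i hi =>
      mem_stdFlag.1 hv i (lt_of_le_of_lt (show a.1 ≤ b.1 from h) hi),
    fun a => ⟨bot_le, by rw [h0, zero_add]; exact finrank_map_stdFlag hμ a _⟩⟩) ⟨?_, ?_⟩)
  · intro q q' e
    refine Subtype.ext ?_
    rw [← QuotientGroup.out_eq' q.1, ← QuotientGroup.out_eq' q'.1, h1]
    exact fun a => (congrArg (fun c => (c.1 a).1) e).ge
  · rintro ⟨c, h3, h4⟩
    obtain ⟨g, hg⟩ := exists_flag hμ (c := fun a => (c a).1) (fun a b h => h3 h)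
      fun a => by rw [(h4 a).2, h0, zero_add]; rfl
    refine ⟨⟨g, (h2 g).2 fun a => hg a ▸ (c a).2⟩, Subtype.ext (funext fun a => Subtype.ext ?_)⟩
    exact (le_antisymm ((h1 _ _).1 (QuotientGroup.out_eq' _).symm a)
      ((h1 _ _).1 (QuotientGroup.out_eq' _) a)).trans (hg a)

theorem steinberg_eq (x : GL (Fin n) F) (s : Multiset F[X]) (hs : ∀ a ∈ s, a.Monic ∧ Irreducible a)
    (h : HasED (toLin' x.1) s) :
    unipotentCharacterGL n F (fun _ => 1) x = (-1) ^ n * mobVal (Nat.card F) s := by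
  have := Fintype.ofFinite (End.invtSubmodule (toLin' x.1))
  have hd : StrictMono fun U : End.invtSubmodule (toLin' x.1) => finrank F U.1 :=
    fun U W h => Submodule.finrank_lt_finrank_of_lt h
  have ht : finrank F (⊤ : End.invtSubmodule (toLin' x.1)).1 = n := (finrank_top F _).trans (by simp)
  have h0 : finrank F (⊥ : End.invtSubmodule (toLin' x.1)).1 = 0 := finrank_bot F _
  have h1 := isMob_hessD hd h0
  obtain ⟨k, a, rfl, e, he⟩ := h
  have ha : ∀ i, (a i).Monic ∧ Irreducible (a i) := fun i => hs _ (by simp)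
  have := fun i => finite_quot_span (ha i).1
  let e' : AEval' (toLin' x.1) ≃ₗ[F[X]] ∀ i, F[X] ⧸ Ideal.span {a i} :=
    LinearEquiv.ofAEval _ (show (Fin n → F) ≃ₗ[F] ∀ i, F[X] ⧸ Ideal.span {a i} from e) fun v => (he v).trans (funext fun i => by
      change AdjoinRoot.root (a i) * e v i = (X : F[X]) • (show F[X] ⧸ Ideal.span {a i} from e v i)
      obtain ⟨y, hy⟩ := AdjoinRoot.mk_surjective (e v i)
      rw [← hy]; rfl)
  have : Finite (AEval' (toLin' x.1)) := inferInstanceAs (Finite (Fin n → F))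
  let o : End.invtSubmodule (toLin' x.1) ≃o Submodule F[X] (AEval' (toLin' x.1)) :=
    AEval.mapSubmodule F _ (toLin' x.1)
  have h2 := ((h1.comp o.symm (fun _ _ => o.symm.le_iff_le) o.symm.map_bot
    fun U _ _ => o.symm.surjective U).map e'.symm.toLinearMap e'.symm.injective).eq_mobVal a ha
  rw [Submodule.map_top, LinearEquiv.range, Function.comp_apply, o.symm.map_top, ht] at h2
  rw [← h2, ← mul_assoc, ← mul_pow, neg_one_mul, neg_neg, one_pow, one_mul, hessD, Matrix.sum_apply]
  refine sum_congr rfl fun κ _ => ?_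
  split_ifs with h3
  · have h4 := sum_sub_perm (ν := fun _ => 1) (by simp) h3
    rw [fixedPointCharacter, card_fixedBy h4, ← prod_stepM hd _ ⊥ (by rw [h0, h4, ht, zero_add]),
      ← zsmul_eq_mul (_ : Matrix _ _ ℂ)]
    simp
  · rfl

omit [Fintype F] in
theorem final [DecidableEq F] (q : ℕ) (s : Multiset F[X]) (hs : ∀ a ∈ s, Irreducible a)
    (h2 : n = (s.map natDegree).sum) : (-1 : ℂ) ^ n * mobVal q s = ∏ f ∈ s.toFinset,
      (-1 : ℂ) ^ ((f.natDegree - 1) * s.count f) *
        (q : ℂ) ^ (f.natDegree * s.count f * (s.count f - 1) / 2) := by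
  rw [Finset.sum_multiset_map_count] at h2
  rw [h2, ← Finset.prod_pow_eq_pow_sum]
  have h3 : mobVal q s = ∏ f ∈ s.toFinset,
      (-1) ^ s.count f * (q : ℂ) ^ (f.natDegree * (s.count f).choose 2) := by
    rw [mobVal]; congr!
  rw [h3, ← Finset.prod_mul_distrib]
  refine Finset.prod_congr rfl fun f hf => ?_
  obtain ⟨d, hd⟩ : ∃ d, f.natDegree = d + 1 :=
    ⟨_, (Nat.succ_pred_eq_of_pos (hs f (by simpa using hf)).natDegree_pos).symm⟩
  generalize s.count f = m
  rw [← mul_assoc, ← pow_add, Nat.choose_two_right, mul_assoc f.natDegree,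
    Nat.mul_div_assoc _ (Nat.even_mul_pred_self _).two_dvd, hd, smul_eq_mul, Nat.add_sub_cancel,
    show m * (d + 1) + m = d * m + 2 * m by ring, pow_add, pow_mul _ 2]
  simp

end


/-- Values of the Steinberg character of `GL_n(q)` (the partition-indexed character for `ν = (1,…,1)`, of degree `q^(n(n−1)/2)`) at elements of order prime to the characteristic: if the characteristic polynomial of such an element is `∏ f^(m_f)` over distinct monic irreducible `f`, the value is `∏_f (−1)^((deg f − 1) m_f) q^(deg f · m_f (m_f − 1)/2)`. (At elements of order divisible by the characteristic the value is 0; that is not part of this statement.) -/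
theorem result {F : Type*} [Field F] [Fintype F] [DecidableEq F] {q : ℕ} (hq : Fintype.card F = q) (p : ℕ) [Fact p.Prime] [CharP F p]
    {n : ℕ} (x : GL (Fin n) F) (hx : (orderOf x).Coprime p) :
    Cfsg.unipotentCharacterGL n F (fun _ => 1) x =
      ∏ f ∈ (UniqueFactorizationMonoid.normalizedFactors (x : Matrix (Fin n) (Fin n) F).charpoly).toFinset,
        (-1 : ℂ) ^ ((f.natDegree - 1) * (UniqueFactorizationMonoid.normalizedFactors (x : Matrix (Fin n) (Fin n) F).charpoly).count f) *
          (q : ℂ) ^ (f.natDegree * (UniqueFactorizationMonoid.normalizedFactors (x : Matrix (Fin n) (Fin n) F).charpoly).count f *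
            ((UniqueFactorizationMonoid.normalizedFactors (x : Matrix (Fin n) (Fin n) F).charpoly).count f - 1) / 2) := by
  open CF.Classical CF.Cls in
  have h0 := ss_of_coprime (Units.coeHom _) p hx
  rw [Units.coeHom_apply] at h0
  have hs : ∀ a ∈ ed (Matrix.toLin' x.1), a.Monic ∧ Irreducible a := fun a ha =>
    ⟨(ed_isPP _ a ha).monic, h0 a ha⟩
  have h1 : UniqueFactorizationMonoid.normalizedFactors x.1.charpoly = ed (Matrix.toLin' x.1) := by
    rw [← Matrix.charpoly_toLin', charpoly_eq_ed, UniqueFactorizationMonoid.normalizedFactors_prod_eq _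
      fun a ha => (hs a ha).2, Multiset.map_congr rfl fun a ha => (hs a ha).1.normalize_eq_self,
      Multiset.map_id']
  have h2 := finrank_eq_ed (Matrix.toLin' x.1)
  rw [Module.finrank_fin_fun] at h2
  rw [steinberg_eq x _ hs (hasED_ed _), h1, Nat.card_eq_fintype_card, hq]
  convert final q _ (fun a ha => (hs a ha).2) h2

end Cfsg.Agent.S2425
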