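import Cfsg.Statements.S2426
import Cfsg.Agent.Chev.A1
import Cfsg.Agent.Chev.K2

set_option autoImplicit false
open Cfsg

namespace Cfsg.Agent.S2426

/-- The rank-one Steinberg presentation of `SL₂` over a finite field `K`: generators `x(t)`, `y(t)` (`t ∈ K`; the two opposite root subgroups) subject to additivity `x(t)x(u) = x(t+u)`, `y(t)y(u) = y(t+u)` and, with `w(t) = x(t) y(−t⁻¹) x(t)` and `w'(t) = y(t) x(−t⁻¹) y(t)` for `t ≠ 0`, the relations `w(t) x(u) w(t)⁻¹ = y(−t⁻² u)` and `w'(t) y(u) w'(t)⁻¹ = x(−t⁻² u)`, present `SL₂(K)`, with `x(t) ↦ (1 t; 0 1)` and `y(t) ↦ (1 0; t 1)`. -/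
theorem result {K : Type*} [Field K] [Finite K] :
    ∃ e : PresentedGroup
        ({g : FreeGroup (Bool × K) | ∃ (b : Bool) (t u : K), g = FreeGroup.of (b, t) * FreeGroup.of (b, u) * (FreeGroup.of (b, t + u))⁻¹} ∪
          {g | ∃ (b : Bool) (t u : K), t ≠ 0 ∧
            g = (FreeGroup.of (b, t) * FreeGroup.of (!b, -t⁻¹) * FreeGroup.of (b, t)) * FreeGroup.of (b, u) *
                  (FreeGroup.of (b, t) * FreeGroup.of (!b, -t⁻¹) * FreeGroup.of (b, t))⁻¹ * (FreeGroup.of (!b, -(t⁻¹ ^ 2 * u)))⁻¹})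
        ≃* Matrix.SpecialLinearGroup (Fin 2) K,
      (∀ t : K, ((e (PresentedGroup.of (true, t)) : Matrix (Fin 2) (Fin 2) K)) = !![1, t; 0, 1]) ∧
      (∀ t : K, ((e (PresentedGroup.of (false, t)) : Matrix (Fin 2) (Fin 2) K)) = !![1, 0; t, 1]) := by
  open CF.Chev in
  set R : Set (FreeGroup (Bool × K)) := ({g : FreeGroup (Bool × K) | ∃ (b : Bool) (t u : K), g = FreeGroup.of (b, t) * FreeGroup.of (b, u) * (FreeGroup.of (b, t + u))⁻¹} ∪
          {g | ∃ (b : Bool) (t u : K), t ≠ 0 ∧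
            g = (FreeGroup.of (b, t) * FreeGroup.of (!b, -t⁻¹) * FreeGroup.of (b, t)) * FreeGroup.of (b, u) *
                  (FreeGroup.of (b, t) * FreeGroup.of (!b, -t⁻¹) * FreeGroup.of (b, t))⁻¹ * (FreeGroup.of (!b, -(t⁻¹ ^ 2 * u)))⁻¹}) with hR
  have h1 : ∀ r ∈ R, (PresentedGroup.mk R r) = 1 := fun r hr => PresentedGroup.one_of_mem hr
  let ρ : StRep cbA1 K (PresentedGroup R) :=
    { x := fun r t => PresentedGroup.of (r, t)
      x_add := fun r a b => by
        have := h1 _ (Or.inl ⟨r, a, b, rfl⟩)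
        simp only [map_mul, map_inv] at this
        exact (mul_inv_eq_one.1 this).symm
      comm := fun r s h1 h2 => absurd h2 (by revert r s; decide)
      nrel := fun r t u => by
        have := h1 _ (Or.inr ⟨r, (t : K), u, t.ne_zero, rfl⟩)
        simp only [map_mul, map_inv] at this
        have h2 := mul_inv_eq_one.1 this
        simp only [PreSt.n, cbA1_neg, Units.val_neg, Units.val_inv_eq_inv_val, neg_mul]
        exact h2 }
  have hG : ρ.Gp = ⊤ := by
    rw [eq_top_iff, ← PresentedGroup.closure_range_of, Subgroup.closure_le]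
    rintro _ ⟨⟨r, t⟩, rfl⟩
    exact ρ.x_mem_Gp r t
  have h3 : ∀ r ∈ R, FreeGroup.lift (fun p : Bool × K => sl2x K p.1 p.2) r = 1 := by
    rintro r (⟨b, t, u, rfl⟩ | ⟨b, t, u, ht, rfl⟩)
    · simp only [map_mul, map_inv, FreeGroup.lift_apply_of]
      exact mul_inv_eq_one.2 ((sl2Rep K).x_add b t u).symm
    · simp only [map_mul, map_inv, FreeGroup.lift_apply_of]
      have := (sl2Rep K).nrel b (Units.mk0 t ht) u
      simp only [PreSt.n, cbA1_neg, Units.val_neg, Units.val_inv_eq_inv_val, neg_mul,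
        Units.val_mk0] at this
      exact mul_inv_eq_one.2 this
  obtain ⟨e, he⟩ := StRep.exists_equiv_of_homs (ρ := ρ) (ρ' := sl2Rep K) hG (sl2Rep_Gp K)
    ⟨PresentedGroup.toGroup h3, fun _ _ => PresentedGroup.toGroup.of _⟩
    (exists_hom_sl2_A1 ρ.r3_of_finite)
  exact ⟨e, fun t => congrArg Subtype.val (he true t), fun t => congrArg Subtype.val (he false t)⟩

end Cfsg.Agent.S2426
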