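import Cfsg.Statements.S2428
import Cfsg.Agent.Classical.SL2Torus

set_option autoImplicit false
open Cfsg

namespace Cfsg.Agent.S2428

/-- Let F be a finite field with q elements, q odd, and let d be a diagonal element of SL₂ over F whose diagonal entry a has a² ≠ 1 (such d exist exactly when q > 3). Then the centraliser of d is precisely the diagonal subgroup T; the normaliser of T has order 2(q − 1) and exactly (q + 5)/2 conjugacy classes; and every element of that normaliser outside T has square equal to −1. -/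
theorem result {F : Type*} [Field F] [Fintype F] (hodd : Odd (Fintype.card F))
    (d : Matrix.SpecialLinearGroup (Fin 2) F) (hd01 : (d : Matrix (Fin 2) (Fin 2) F) 0 1 = 0) (hd10 : (d : Matrix (Fin 2) (Fin 2) F) 1 0 = 0) (hda : (d : Matrix (Fin 2) (Fin 2) F) 0 0 ^ 2 ≠ 1) :
    (∀ g : Matrix.SpecialLinearGroup (Fin 2) F, g ∈ Subgroup.centralizer ({d} : Set (Matrix.SpecialLinearGroup (Fin 2) F)) ↔ ((g : Matrix (Fin 2) (Fin 2) F) 0 1 = 0 ∧ (g : Matrix (Fin 2) (Fin 2) F) 1 0 = 0)) ∧
    Nat.card (Subgroup.normalizer ((Subgroup.centralizer ({d} : Set (Matrix.SpecialLinearGroup (Fin 2) F))) : Set (Matrix.SpecialLinearGroup (Fin 2) F))) = 2 * (Fintype.card F - 1) ∧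
    Nat.card (ConjClasses (Subgroup.normalizer ((Subgroup.centralizer ({d} : Set (Matrix.SpecialLinearGroup (Fin 2) F))) : Set (Matrix.SpecialLinearGroup (Fin 2) F)))) = (Fintype.card F + 5) / 2 ∧
    ∀ g : Matrix.SpecialLinearGroup (Fin 2) F, g ∈ Subgroup.normalizer ((Subgroup.centralizer ({d} : Set (Matrix.SpecialLinearGroup (Fin 2) F))) : Set (Matrix.SpecialLinearGroup (Fin 2) F)) →
      g ∉ Subgroup.centralizer ({d} : Set (Matrix.SpecialLinearGroup (Fin 2) F)) → ((g * g) : Matrix (Fin 2) (Fin 2) F) = -1 := by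
  open CF.Classical in
  rw [← Nat.card_eq_fintype_card] at *
  have h2 := two_ne_zero_of_odd_card hodd
  have h : IsSS (Matrix.SpecialLinearGroup.toGL d) := isSS_of_diag hd10 ((sl_00_ne_11 hd10).2 hda)
  obtain ⟨a, ha⟩ := eq_sbor hd10
  rw [hd01] at ha
  subst ha
  have h3 : a ≠ a⁻¹ := fun e => hda (congrArg Units.val (units_eq_inv_iff.1 e))
  have h4 : Nat.card (Subgroup.centralizer {sbor a 0}) = Nat.card F - 1 := by
    rw [← nsT1_toGL, toGL_sbor, (hasEig_bor _ _ _).card_nsT1_split h3]
  refine ⟨fun g => by rw [← nsT1_toGL, toGL_sbor, mem_nsT1_bor_split h3], by rw [h.card_normalizer, h4],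
    ?_, fun g hg hg' => congrArg Subtype.val (h.mul_self_eq_neg_one h2 hg hg')⟩
  have := Nat.card_pos (α := F)
  rw [h.card_conjClasses_normalizer h2, h4]
  omega

end Cfsg.Agent.S2428
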