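import Cfsg.Statements.S2429
import Cfsg.Agent.Classical.SL2Torus

set_option autoImplicit false
open Cfsg

namespace Cfsg.Agent.S2429

/-- Let F be a finite field with q elements, q odd. Then SL₂ over F contains a cyclic subgroup T′ of order q + 1 (a non-split torus) with the following properties: T′ is its own centraliser, and indeed the centraliser of each element of T′ other than 1 and −1 is exactly T′; every element of SL₂ having no eigenvector in F² is conjugate to an element of T′; the normaliser of T′ has order 2(q + 1) and exactly (q + 7)/2 conjugacy classes; and every element of that normaliser outside T′ has square −1. -/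
theorem result {F : Type*} [Field F] [Fintype F] (hodd : Odd (Fintype.card F)) :
    ∃ T' : Subgroup (Matrix.SpecialLinearGroup (Fin 2) F), IsCyclic T' ∧ Nat.card T' = Fintype.card F + 1 ∧
      Subgroup.centralizer ((T' : Set (Matrix.SpecialLinearGroup (Fin 2) F))) = T' ∧
      (∀ g : Matrix.SpecialLinearGroup (Fin 2) F, g ∈ T' → (g : Matrix (Fin 2) (Fin 2) F) ≠ 1 → (g : Matrix (Fin 2) (Fin 2) F) ≠ -1 → Subgroup.centralizer ({g} : Set (Matrix.SpecialLinearGroup (Fin 2) F)) = T') ∧
      (∀ g : Matrix.SpecialLinearGroup (Fin 2) F, (∀ (c : F) (v : Fin 2 → F), v ≠ 0 → (g : Matrix (Fin 2) (Fin 2) F).mulVec v ≠ c • v) → ∃ h : Matrix.SpecialLinearGroup (Fin 2) F, h * g * h⁻¹ ∈ T') ∧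
      Nat.card (Subgroup.normalizer (T' : Set (Matrix.SpecialLinearGroup (Fin 2) F))) = 2 * (Fintype.card F + 1) ∧
      Nat.card (ConjClasses (Subgroup.normalizer (T' : Set (Matrix.SpecialLinearGroup (Fin 2) F)))) = (Fintype.card F + 7) / 2 ∧
      ∀ g : Matrix.SpecialLinearGroup (Fin 2) F, g ∈ Subgroup.normalizer (T' : Set (Matrix.SpecialLinearGroup (Fin 2) F)) → g ∉ T' → ((g * g) : Matrix (Fin 2) (Fin 2) F) = -1 := by
  open CF.Classical in
  rw [← Nat.card_eq_fintype_card] at *
  have h2 := two_ne_zero_of_odd_card hodd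
  obtain ⟨g₀, h₀⟩ := exists_noEig F
  obtain ⟨s, -, hs⟩ := h₀.exists_toGL_mem
  have h := hs.isSS
  have h4 : Nat.card (Subgroup.centralizer {s}) = Nat.card F + 1 := by rw [← nsT1_toGL, hs.card_nsT1]
  refine ⟨Subgroup.centralizer {s}, nsT1_toGL s ▸ hs.isCyclic_nsT1, h4,
    h.centralizer_eq (Subgroup.mem_centralizer_singleton_iff.2 rfl) le_rfl, fun g hg h5 h6 => ?_,
    fun g hg => ?_, by rw [h.card_normalizer, h4], by rw [h.card_conjClasses_normalizer h2, h4],
    fun g hg hg' => congrArg Subtype.val (h.mul_self_eq_neg_one h2 hg hg')⟩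
  · rw [← nsT1_toGL s] at hg ⊢
    exact centralizer_eq_nsT1 h.not_isScal hg fun e => (isScal_toGL.1 e).elim
      (fun e => h5 (congrArg Subtype.val e)) fun e => h6 (congrArg Subtype.val e)
  · have h5 : NoEig (Matrix.SpecialLinearGroup.toGL g) := noEig_iff.2 hg
    obtain ⟨t, ht, e⟩ := hs.exists_isConj h5
    obtain ⟨t, rfl⟩ := exists_toGL_eq ((dt2_of_isConj e).symm.trans (dt2_toGL g))
    obtain ⟨c, rfl⟩ := isConj_iff.1 (h5.detSurj.isConj_iff.2 e)
    exact ⟨c, (nsT1_toGL s).le ht⟩

end Cfsg.Agent.S2429
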