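import Cfsg.Statements.S2430
import Cfsg.Agent.Classical.SL2Torus

set_option autoImplicit false
open Cfsg

namespace Cfsg.Agent.S2430

open CF.Classical MatrixGroups in
theorem aux {F : Type*} [Field F] [Finite F] (ℓ : ℕ) [hl : Fact ℓ.Prime] (hℓ : ℓ ≠ 2)
    (P : Sylow ℓ SL(2, F)) {g : GL (Fin 2) F} (hg : IsSS g) (h1 : ℓ ∣ Nat.card (nsT1 g))
    (h2 : ¬ ℓ ∣ (nsT1 g).index) :
    Nat.card (Subgroup.centralizer ((P : Subgroup SL(2, F)) : Set SL(2, F))) = Nat.card (nsT1 g) ∧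
      IsCyclic (Subgroup.centralizer ((P : Subgroup SL(2, F)) : Set SL(2, F))) ∧
      Nat.card (Subgroup.normalizer ((P : Subgroup SL(2, F)) : Set SL(2, F))) = 2 * Nat.card (nsT1 g) := by
  obtain ⟨Q⟩ : Nonempty (Sylow ℓ (nsT1 g)) := inferInstance
  have h3 : ¬ ℓ ∣ ((Q : Subgroup (nsT1 g)).map (nsT1 g).subtype).index := by
    rw [Subgroup.index_map_subtype, hl.out.dvd_mul, not_or]
    exact ⟨Q.not_dvd_index, h2⟩
  obtain ⟨x, hx⟩ := MulAction.exists_smul_eq SL(2, F) ((Q.2.map (nsT1 g).subtype).toSylow h3) P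
  have h4 : (P : Subgroup SL(2, F)) ≤ nsT1 (x.toGL * g * x.toGL⁻¹) := by
    rw [← hx, ← map_nsT1]
    rintro _ ⟨_, ⟨t, -, rfl⟩, rfl⟩
    exact ⟨t, t.2, (slE F).c_ι x t⟩
  have h5 : IsConj g (x.toGL * g * x.toGL⁻¹) := isConj_iff.2 ⟨_, rfl⟩
  obtain ⟨⟨s, hs⟩, hs'⟩ := exists_prime_orderOf_dvd_card' (G := P) ℓ (P.dvd_card_of_dvd_card
    (h1.trans (nsT1 g).card_subgroup_dvd_card))
  rw [Subgroup.orderOf_mk] at hs'
  have h6 : ¬ IsScal s.toGL := fun e => hℓ ((Nat.prime_dvd_prime_iff_eq hl.out Nat.prime_two).1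
    (hs' ▸ orderOf_dvd_of_pow_eq_one (((hg.of_isConj h5).sq_eq_one_iff (h4 hs)).2 e)))
  have h7 := (hg.of_isConj h5).of_mem (h4 hs) h6
  have h8 := centralizer_eq_nsT1 (hg.of_isConj h5).not_isScal (h4 hs) h6
  rw [h7.centralizer_eq hs (h8 ▸ h4), h7.normalizer_eq hs (h8 ▸ h4), h7.card_normalizer, h8,
    card_nsT1_of_isConj h5]
  exact ⟨rfl, (hg.of_isConj h5).isCyclic_nsT1, rfl⟩


/-- Let F be a finite field with q elements, q odd, ℓ an odd prime, and P a Sylow ℓ-subgroup of SL₂ over F. If ℓ divides q − 1, the centraliser of P is cyclic of order q − 1 (a split torus) and the normaliser of P has order 2(q − 1); if ℓ divides q + 1, the centraliser of P is cyclic of order q + 1 (a non-split torus) and the normaliser of P has order 2(q + 1). -/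
theorem result {F : Type*} [Field F] [Fintype F] (hodd : Odd (Fintype.card F)) (ℓ : ℕ) [Fact ℓ.Prime] (hℓ : ℓ ≠ 2)
    (P : Sylow ℓ (Matrix.SpecialLinearGroup (Fin 2) F)) :
    (ℓ ∣ Fintype.card F - 1 →
      Nat.card (Subgroup.centralizer ((P : Subgroup (Matrix.SpecialLinearGroup (Fin 2) F)) : Set (Matrix.SpecialLinearGroup (Fin 2) F))) = Fintype.card F - 1 ∧
      IsCyclic (Subgroup.centralizer ((P : Subgroup (Matrix.SpecialLinearGroup (Fin 2) F)) : Set (Matrix.SpecialLinearGroup (Fin 2) F))) ∧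
      Nat.card (Subgroup.normalizer ((P : Subgroup (Matrix.SpecialLinearGroup (Fin 2) F)) : Set (Matrix.SpecialLinearGroup (Fin 2) F))) = 2 * (Fintype.card F - 1)) ∧
    (ℓ ∣ Fintype.card F + 1 →
      Nat.card (Subgroup.centralizer ((P : Subgroup (Matrix.SpecialLinearGroup (Fin 2) F)) : Set (Matrix.SpecialLinearGroup (Fin 2) F))) = Fintype.card F + 1 ∧
      IsCyclic (Subgroup.centralizer ((P : Subgroup (Matrix.SpecialLinearGroup (Fin 2) F)) : Set (Matrix.SpecialLinearGroup (Fin 2) F))) ∧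
      Nat.card (Subgroup.normalizer ((P : Subgroup (Matrix.SpecialLinearGroup (Fin 2) F)) : Set (Matrix.SpecialLinearGroup (Fin 2) F))) = 2 * (Fintype.card F + 1)) := by
  open CF.Classical in
  rw [← Nat.card_eq_fintype_card] at *
  have hl : ℓ.Prime := Fact.out
  have h0 := Finite.one_lt_card (α := F)
  have h1 := card_SL2 (F := F)
  rw [show Nat.card F ^ 2 - 1 = (Nat.card F + 1) * (Nat.card F - 1) from Nat.sq_sub_sq _ 1] at h1
  have h2 : ¬ (ℓ ∣ Nat.card F - 1 ∧ ℓ ∣ Nat.card F + 1) := fun e =>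
    hℓ ((Nat.prime_dvd_prime_iff_eq hl Nat.prime_two).1 (by
      rw [← show Nat.card F + 1 - (Nat.card F - 1) = 2 by omega]; exact Nat.dvd_sub e.2 e.1))
  refine ⟨fun h => ?_, fun h => ?_⟩
  · have h3 : 2 < Nat.card Fˣ := by
      have := Nat.le_of_dvd (by omega) h
      have := hl.two_le
      rw [Nat.card_units]; omega
    have := Finite.one_lt_card_iff_nontrivial.1 (by omega : 1 < Nat.card Fˣ)
    obtain ⟨a, ha⟩ := exists_ne (1 : Fˣ)
    have h4 := (hasEig_bor a 1 0).card_nsT1_split ha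
    have h5 := (nsT1 (bor a 1 0)).card_mul_index
    rw [h4, h1, ← mul_assoc, mul_comm, mul_left_inj' (by omega)] at h5
    refine h4 ▸ aux ℓ hℓ P ((hasEig_bor a 1 0).isSS_iff.2 (Units.val_injective.ne ha)) (h4 ▸ h) ?_
    rw [h5, hl.dvd_mul, not_or]
    exact ⟨fun e => hl.ne_one (Nat.dvd_one.1 (by
      rw [← show Nat.card F - (Nat.card F - 1) = 1 by omega]; exact Nat.dvd_sub e h)), fun e => h2 ⟨h, e⟩⟩
  · obtain ⟨g, hg⟩ := exists_noEig F
    have h5 := (nsT1 g).card_mul_index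
    rw [hg.card_nsT1, h1, mul_left_comm, mul_right_inj' (by omega)] at h5
    refine hg.card_nsT1 ▸ aux ℓ hℓ P hg.isSS (hg.card_nsT1 ▸ h) ?_
    rw [h5, hl.dvd_mul, not_or]
    exact ⟨fun e => hl.ne_one (Nat.dvd_one.1 (by simpa using Nat.dvd_sub h e)), fun e => h2 ⟨e, h⟩⟩

end Cfsg.Agent.S2430
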