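import Cfsg.Statements.S2431
import Cfsg.Agent.Classical.SL2Torus
import Cfsg.Agent.Classical.Subfields
import Cfsg.Agent.Char.QSetup
import Cfsg.Agent.S0276

set_option autoImplicit false
open Cfsg

namespace Cfsg.Agent.S2431

/-- Let F be a finite field with q elements, q odd, and S a Sylow 2-subgroup of SL₂ over F. The centraliser of S is the centre of SL₂ (of order 2); S is its own normaliser when q ≡ ±1 mod 8, and has index 3 in its normaliser when q ≡ ±3 mod 8. -/
theorem result {F : Type*} [Field F] [Fintype F] (hodd : Odd (Fintype.card F)) (S : Sylow 2 (Matrix.SpecialLinearGroup (Fin 2) F)) :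
    Subgroup.centralizer ((S : Subgroup (Matrix.SpecialLinearGroup (Fin 2) F)) : Set (Matrix.SpecialLinearGroup (Fin 2) F)) = Subgroup.center (Matrix.SpecialLinearGroup (Fin 2) F) ∧
    ((Fintype.card F % 8 = 1 ∨ Fintype.card F % 8 = 7) →
      Subgroup.normalizer ((S : Subgroup (Matrix.SpecialLinearGroup (Fin 2) F)) : Set (Matrix.SpecialLinearGroup (Fin 2) F)) = (S : Subgroup (Matrix.SpecialLinearGroup (Fin 2) F))) ∧
    ((Fintype.card F % 8 = 3 ∨ Fintype.card F % 8 = 5) →
      Nat.card (Subgroup.normalizer ((S : Subgroup (Matrix.SpecialLinearGroup (Fin 2) F)) : Set (Matrix.SpecialLinearGroup (Fin 2) F))) = 3 * Nat.card S) := by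
  open CF.Classical CF.Char Subgroup MatrixGroups in
  have hq := Nat.card_eq_fintype_card (α := F)
  have h2 := two_ne_zero_of_odd_card (hq ▸ hodd)
  obtain ⟨p, hp⟩ := CharP.exists F
  have : Fact p.Prime := ⟨CharP.char_is_prime F p⟩
  have hp2 : Odd p := (Fact.out : p.Prime).odd_of_ne_two
    (by rintro rfl; exact h2 (CharP.cast_eq_zero F 2))
  obtain ⟨m, hm, ⟨e⟩⟩ := sylow_two_SL2 h2 S
  obtain ⟨a, b, h⟩ := exists_qSetup e
  have hs : IsSS (Matrix.SpecialLinearGroup.toGL a) := isSS_of_not_dvd p (by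
    rw [h.ha]
    intro hd
    have : 2 * 2 ∣ 2 * p := Dvd.dvd.trans (pow_dvd_pow 2 (show 2 ≤ m + 1 by omega)) hd
    exact hp2.not_two_dvd_nat (Nat.dvd_of_mul_dvd_mul_left two_pos this))
  have hZ : center SL(2, F) ≤ S := (IsPGroup.of_card (n := 1) (by
    rw [card_center_SL, Fintype.card_fin, gcd_two_of_odd (hq ▸ hodd)]; rfl)).le_sylow_of_normal S
  have key : ∀ g ∈ centralizer {a}, g * b * g⁻¹ * b⁻¹ = g * g := fun g hg => by
    rw [mul_assoc, mul_assoc, ← mul_assoc b, hs.conj_eq_inv h.hba (inv_mem hg), inv_inv]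
  refine ⟨le_antisymm (fun g hg => ?_) (center_le_centralizer _), fun h8 => ?_, fun h8 => ?_⟩
  · have := key g (mem_centralizer_singleton_iff.2 (hg a h.a_mem).symm)
    rw [← hg b h.b_mem, mul_inv_cancel_right, mul_inv_cancel] at this
    exact mem_center_SL2_iff.2 ((SL2_mul_self_eq_one_iff h2).1 this.symm)
  · have hm2 : 2 ≤ m := by
      have h16 : 2 ^ 4 ∣ Nat.card SL(2, F) := by
        rw [card_SL2, hq]
        refine Dvd.dvd.mul_left ((Nat.modEq_iff_dvd' (Nat.one_le_pow _ _ Fintype.card_pos)).1 ?_) _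
        have : Fintype.card F % 16 = 1 ∨ Fintype.card F % 16 = 7 ∨ Fintype.card F % 16 = 9 ∨
          Fintype.card F % 16 = 15 := by omega
        rcases this with h | h | h | h <;> simp [Nat.ModEq, Nat.pow_mod, h]
      have := S.pow_dvd_card_of_pow_dvd_card h16
      rw [h.card_eq, Nat.pow_dvd_pow_iff_le_right one_lt_two] at this
      omega
    have k1 : ∀ g ∈ normalizer (S : Set SL(2, F)), g ∈ centralizer {a} → g ∈ S := fun g hg hc => by
      have h1 : g * g ∈ S := key g hc ▸ mul_mem ((hg b).1 h.b_mem) (inv_mem h.b_mem)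
      obtain ⟨k, hk⟩ := S.isPGroup' ⟨_, h1⟩
      have h3 : IsPGroup 2 (zpowers g) := IsPGroup.of_card_dvd_pow (n := k + 1) (by
        rw [Nat.card_zpowers, orderOf_dvd_iff_pow_eq_one, pow_succ', pow_mul, sq]
        exact congrArg Subtype.val hk)
      exact (h3.inf_normalizer_sylow S).le ⟨mem_zpowers g, hg⟩ |>.2
    refine le_antisymm (fun g hg => ?_) le_normalizer
    have h1 : g * a * g⁻¹ ∈ zpowers a := by
      by_contra h0
      have := h.orderOf_of_notMem ((hg a).1 h.a_mem) h0
      rw [← MulAut.conj_apply, MulEquiv.orderOf_eq, h.ha, show 4 = 2 ^ 2 from rfl,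
        Nat.pow_right_inj one_lt_two] at this
      omega
    rcases hs.conj_cases (zpowers_le.2 (mem_centralizer_singleton_iff.2 rfl) h1) with h3 | h3
    · exact k1 g hg h3
    · refine (mul_mem_cancel_left (inv_mem h.b_mem)).1 (k1 _ (mul_mem (inv_mem (le_normalizer
        h.b_mem)) hg) (mem_centralizer_singleton_iff.2 ?_))
      rw [← h.hba] at h3
      rw [← mul_inv_eq_iff_eq_mul, mul_inv_rev, inv_inv, show b⁻¹ * g * a * (g⁻¹ * b) =
        b⁻¹ * (g * a * g⁻¹) * b by group, h3]
      group
  · have L := isL2_PSL F F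
    have := L.finite
    have h4 : IsKleinFour ((S : Subgroup SL(2, F)).map (slToPSL F)) :=
      Cfsg.Agent.S0276.result rfl h8 (S.mapSurjective slToPSL_surjective)
    set V := (S : Subgroup SL(2, F)).map (slToPSL F)
    have h5 := normalizer_four_equiv h2 (isKleinFour_map h4 L.inj) (map_toPGL_le_psl V)
    have h6 := two_mul_card_inf_psl h2 (mt (S4_le_psl_iff h2 h5).1 (by
      rw [isSquare_two_iff_card h2]; omega))
    rw [Nat.card_congr h5.some.toEquiv, card_S4] at h6
    have h7 : (S : Subgroup SL(2, F)) = V.comap (slToPSL F) :=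
      (comap_map_eq_self (ker_slToPSL.le.trans hZ)).symm
    have h9 : (normalizer (V : Set PSL(2, F))).map Matrix.ProjectiveSpecialLinearGroup.toPGL =
        psl F ⊓ normalizer (V.map Matrix.ProjectiveSpecialLinearGroup.toPGL : Set PGL(2, F)) := by
      conv_lhs => rw [← comap_map_eq_self_of_injective L.inj V,
        ← comap_normalizer_eq_of_le_range (map_le_range _ _),
        map_comap_eq, range_pslToPGL]
    rw [← h9, card_map_of_injective L.inj] at h6
    rw [h7, ← comap_normalizer_eq_of_surjective _ slToPSL_surjective,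
      card_comap_of_surjective slToPSL_surjective, card_comap_of_surjective slToPSL_surjective,
      h4.card_four]
    rw [show Nat.card (normalizer (V : Set PSL(2, F))) = 12 by omega]
    ring

end Cfsg.Agent.S2431
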