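import Cfsg.Statements.S2434
import Cfsg.Agent.Classical.SL2Deg

set_option autoImplicit false
open Cfsg

namespace Cfsg.Agent.S2434

/-- Let F be a finite field with q elements, q odd, and C a cyclic subgroup of order q + 1 of SL₂ over F (a non-split torus; it contains the centre). For every homomorphism θ from C to the non-zero complex numbers with θ² ≠ 1 there is an irreducible complex character χ of degree q − 1 such that χ(c) = −θ(c) − θ(c)⁻¹ for every non-central c in C, χ(zg) = θ(z)χ(g) for central z in C, χ vanishes at diagonal elements with entry a, a² ≠ 1, and χ takes the value −1 at every upper unitriangular element other than 1. Conversely every irreducible character of degree q − 1 has, for some such θ, the values −θ(c) − θ(c)⁻¹ at the non-central elements c of C (for q ≥ 5 these are exactly the cuspidal characters of degree q − 1). -/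
theorem result {F : Type*} [Field F] [Fintype F] (hodd : Odd (Fintype.card F))
    (C : Subgroup (Matrix.SpecialLinearGroup (Fin 2) F)) (hC : IsCyclic C) (hcard : Nat.card C = Fintype.card F + 1) :
    (∀ θ : C →* ℂˣ, (∃ c : C, θ c ^ 2 ≠ 1) →
      ∃ χ : Matrix.SpecialLinearGroup (Fin 2) F → ℂ, Cfsg.IsIrrCharacter (Matrix.SpecialLinearGroup (Fin 2) F) χ ∧ χ 1 = (Fintype.card F : ℂ) - 1 ∧
        (∀ c : C, (c : Matrix.SpecialLinearGroup (Fin 2) F) ∉ Subgroup.center (Matrix.SpecialLinearGroup (Fin 2) F) → χ c = -((θ c).val + (θ c)⁻¹.val)) ∧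
        (∀ c : C, (c : Matrix.SpecialLinearGroup (Fin 2) F) ∈ Subgroup.center (Matrix.SpecialLinearGroup (Fin 2) F) → ∀ g : Matrix.SpecialLinearGroup (Fin 2) F, χ ((c : Matrix.SpecialLinearGroup (Fin 2) F) * g) = (θ c).val * χ g) ∧
        (∀ g : Matrix.SpecialLinearGroup (Fin 2) F, (g : Matrix (Fin 2) (Fin 2) F) 0 1 = 0 → (g : Matrix (Fin 2) (Fin 2) F) 1 0 = 0 → (g : Matrix (Fin 2) (Fin 2) F) 0 0 ^ 2 ≠ 1 → χ g = 0) ∧
        (∀ g : Matrix.SpecialLinearGroup (Fin 2) F, (g : Matrix (Fin 2) (Fin 2) F) 1 0 = 0 → (g : Matrix (Fin 2) (Fin 2) F) 0 0 = 1 → (g : Matrix (Fin 2) (Fin 2) F) 1 1 = 1 → (g : Matrix (Fin 2) (Fin 2) F) 0 1 ≠ 0 → χ g = -1)) ∧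
    (∀ χ : Matrix.SpecialLinearGroup (Fin 2) F → ℂ, Cfsg.IsIrrCharacter (Matrix.SpecialLinearGroup (Fin 2) F) χ → χ 1 = (Fintype.card F : ℂ) - 1 →
      ∃ θ : C →* ℂˣ, (∃ c : C, θ c ^ 2 ≠ 1) ∧
        ∀ c : C, (c : Matrix.SpecialLinearGroup (Fin 2) F) ∉ Subgroup.center (Matrix.SpecialLinearGroup (Fin 2) F) → χ c = -((θ c).val + (θ c)⁻¹.val)) := by
  open CF.Classical CF.Char in
  rw [← Nat.card_eq_fintype_card] at *
  obtain ⟨s, h₀, rfl⟩ := exists_eq_nsT1 hC hcard
  simp only [← linear_sq_ne_one_iff, ← isScal_toGL_iff_mem_center]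
  refine ⟨fun θ hθ => ⟨_, h₀.irr_cuspSL hθ, h₀.cuspSL_one θ, fun c hc => h₀.cuspSL_mem θ hc,
    fun c hc g => ?_, fun g _ h h' => h₀.cuspSL_split θ (hasEig_of_10 h) ((sl_00_ne_11 h).2 h'),
    fun g h1 h2 h3 h4 => h₀.cuspSL_unip θ (by
      simpa only [toGL_apply', h2, h3] using hasEig_of_10 (g := Matrix.SpecialLinearGroup.toGL g) h1) fun e => h4 e.1⟩, fun χ hχ h => ?_⟩
  · rw [char_mul_of_mem_charCenter (irr_one_ne_zero (h₀.irr_cuspSL hθ)) (center_le_charCenter
      (h₀.irr_cuspSL hθ) (isScal_toGL_iff_mem_center.1 hc)), h₀.cuspSL_scal θ hc, h₀.cuspSL_one,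
      mul_div_cancel_left₀ _ card_sub_one_ne_zero]
  · obtain ⟨n, hn, e⟩ := h₀.irr_SL2_deg hχ
    have : n + 1 = Nat.card F := Nat.cast_injective (R := ℂ) (by push_cast; rw [← hn, h, sub_add_cancel])
    obtain ⟨m, hm⟩ := hodd
    have := Finite.one_lt_card (α := F)
    rcases e with e | e | e | ⟨-, θ, h6, rfl⟩ | ⟨e, α, χ', -, -, H⟩ | e
    any_goals (have := e.1; omega)
    · exact ⟨θ, h6, fun c hc => h₀.cuspSL_mem θ hc⟩
    · obtain ⟨⟨θ, hθ⟩⟩ := (Nat.card_ne_zero.1 (by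
        rw [h₀.card_linear_sq_ne, card_units_sq_of_odd H.two]; omega :
          Nat.card {θ : nsT1 (Matrix.SpecialLinearGroup.toGL s) →* ℂˣ // θ ^ 2 ≠ 1} ≠ 0)).1
      refine ⟨θ, hθ, fun c hc => ?_⟩
      have h5 := h₀.of_mem_centralizer c.2 hc
      rw [h₀.linear_add_inv_of_three (by omega) hθ hc]
      linear_combination ((H.two_mul h5.detSurj).trans (h5.prinSL_eq α)) / 2

end Cfsg.Agent.S2434
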