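import Cfsg.Statements.S2435
import Cfsg.Agent.Classical.SL2Deg

set_option autoImplicit false
open Cfsg

namespace Cfsg.Agent.S2435

/-- Let F be a finite field with q elements, q odd and q ≥ 5, and χ an irreducible complex character of SL₂ over F. If χ has degree (q + 1)/2, then at a diagonal element with entry a, a² ≠ 1, χ takes the value 1 when a is a square in F and −1 otherwise. If χ has degree (q − 1)/2, then at an element g with no eigenvector in F² (so g has order dividing q + 1), χ takes the value −1 when g raised to the power (q + 1)/2 is the identity and the value 1 otherwise. -/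
theorem result {F : Type*} [Field F] [Fintype F] (hodd : Odd (Fintype.card F)) (hq : 5 ≤ Fintype.card F)
    (χ : Matrix.SpecialLinearGroup (Fin 2) F → ℂ) (hχ : Cfsg.IsIrrCharacter (Matrix.SpecialLinearGroup (Fin 2) F) χ) (g : Matrix.SpecialLinearGroup (Fin 2) F) :
    (χ 1 = (((Fintype.card F + 1) / 2 : ℕ) : ℂ) → (g : Matrix (Fin 2) (Fin 2) F) 0 1 = 0 → (g : Matrix (Fin 2) (Fin 2) F) 1 0 = 0 → (g : Matrix (Fin 2) (Fin 2) F) 0 0 ^ 2 ≠ 1 →
      (IsSquare ((g : Matrix (Fin 2) (Fin 2) F) 0 0) → χ g = 1) ∧ (¬ IsSquare ((g : Matrix (Fin 2) (Fin 2) F) 0 0) → χ g = -1)) ∧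
    (χ 1 = (((Fintype.card F - 1) / 2 : ℕ) : ℂ) → (∀ (c : F) (v : Fin 2 → F), v ≠ 0 → (g : Matrix (Fin 2) (Fin 2) F).mulVec v ≠ c • v) →
      (((g ^ ((Fintype.card F + 1) / 2)) : Matrix (Fin 2) (Fin 2) F) = 1 → χ g = -1) ∧ (((g ^ ((Fintype.card F + 1) / 2)) : Matrix (Fin 2) (Fin 2) F) ≠ 1 → χ g = 1)) := by
  open CF.Classical in
  rw [← Nat.card_eq_fintype_card] at *
  have h4 : 4 ≤ Nat.card F := by omega
  rw [eq_half_add_iff hodd, eq_half_sub_iff hodd]
  refine ⟨fun h _ h2 h3 => ?_, fun h hg => ?_⟩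
  · obtain ⟨α, χ', k, k', H⟩ := exists_half_prinSL_of_deg h4 hχ h
    obtain ⟨a, ha⟩ := eq_sbor h2
    generalize (g : Matrix (Fin 2) (Fin 2) F) 0 1 = x at ha
    subst ha
    have h5 : a ≠ a⁻¹ := fun e => h3 (congrArg Units.val (units_eq_inv_iff.1 e))
    have h6 := H.two_mul ((hasEig_sbor a x).detSurj h5)
    rw [(hasEig_sbor a x).prinSL_split (Units.val_injective.ne h5), mulChar_inv_of_sq k] at h6
    exact ⟨fun e => by linear_combination h6 / 2 + (mulChar_eq_one_iff k k' a.ne_zero).2 e,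
      fun e => by linear_combination h6 / 2 + mulChar_eq_neg_one k k' a.ne_zero e⟩
  · have h₀ : NoEig (Matrix.SpecialLinearGroup.toGL g) := noEig_iff.2 hg
    obtain ⟨θ, χ', k, k', H⟩ := h₀.exists_half_cuspSL_of_deg h4 hχ h
    let t : nsT1 (Matrix.SpecialLinearGroup.toGL g) := ⟨g, Subgroup.mem_centralizer_singleton_iff.2 rfl⟩
    have h6 := (H.two_mul h₀.detSurj).trans (h₀.cuspSL_mem θ (t := t) h₀.not_isScal)
    have h7 : θ t = 1 ↔ (g : Matrix (Fin 2) (Fin 2) F) ^ ((Nat.card F + 1) / 2) = 1 := by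
      rw [h₀.linear_eq_one_iff k k', Subtype.ext_iff]; exact Subtype.ext_iff
    refine ⟨fun e => ?_, fun e => ?_⟩
    · rw [h7.2 e] at h6; simp only [inv_one, Units.val_one] at h6; linear_combination h6 / 2
    · have h8 := (linear_eq_one_or_of_sq k t).resolve_left fun e' => e (h7.1 (Units.ext e'))
      rw [Units.val_inv_eq_inv_val, h8] at h6; linear_combination h6 / 2

end Cfsg.Agent.S2435
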