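import Cfsg.Statements.S2437
import Cfsg.Agent.Classical.McKaySL2
import Cfsg.Agent.Classical.SL2b

set_option autoImplicit false
open Cfsg

namespace Cfsg.Agent.S2437

/-- Over a finite field F with q elements, q odd, the upper triangular subgroup of SL₂ (a Borel subgroup, of order q(q − 1)) has exactly q + 3 conjugacy classes. -/
theorem result {F : Type*} [Field F] [Fintype F] (hodd : Odd (Fintype.card F)) :
    Nat.card (ConjClasses ((Cfsg.upperTriangularGL 2 F).comap Matrix.SpecialLinearGroup.toGL)) = Fintype.card F + 3 := by
  open CF.Classical in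
  have h2 : (2 : F) ≠ 0 := two_ne_zero_of_odd_card (by rwa [Nat.card_eq_fintype_card])
  have he : (Cfsg.upperTriangularGL 2 F).comap Matrix.SpecialLinearGroup.toGL = slBorel F := by
    ext g
    change (g : Matrix (Fin 2) (Fin 2) F).BlockTriangular id ↔ ∃ a x, g = sbor a x
    constructor
    · intro h; exact (eq_sbor (h (by simp))).imp fun a e => ⟨_, e⟩
    · rintro ⟨a, x, rfl⟩ i j hij
      fin_cases i <;> fin_cases j <;> first | rfl | simp at hij
  rw [he, card_conjClasses_slBorel h2, Nat.card_eq_fintype_card]

end Cfsg.Agent.S2437
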