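import Cfsg.Statements.S2438
import Cfsg.Agent.Classical.SL2Deg

set_option autoImplicit false
open Cfsg

namespace Cfsg.Agent.S2438

/-- Let F be a finite field with q elements, q odd, q ≥ 5, U the upper unitriangular subgroup of SL₂ over F, and χ an irreducible complex character. The sum of the values of χ over U equals 2q, q, 0, q, 0 according as the degree of χ is q + 1, q, q − 1, (q + 1)/2, (q − 1)/2; so among these five degrees the sum vanishes exactly for the degrees q − 1 and (q − 1)/2, i.e. the irreducible characters of those two degrees are the ones whose restriction to U does not contain the trivial character (the cuspidal characters), while those of degree q + 1, q and (q + 1)/2 are not cuspidal. -/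
theorem result {F : Type*} [Field F] [Fintype F] [DecidableEq F] (hodd : Odd (Fintype.card F)) (hq : 5 ≤ Fintype.card F)
    (χ : Matrix.SpecialLinearGroup (Fin 2) F → ℂ) (hχ : Cfsg.IsIrrCharacter (Matrix.SpecialLinearGroup (Fin 2) F) χ) :
    (χ 1 = (Fintype.card F : ℂ) + 1 →
      (∑ g : Matrix.SpecialLinearGroup (Fin 2) F, if (g : Matrix (Fin 2) (Fin 2) F) 1 0 = 0 ∧ (g : Matrix (Fin 2) (Fin 2) F) 0 0 = 1 ∧ (g : Matrix (Fin 2) (Fin 2) F) 1 1 = 1 then χ g else 0) = 2 * (Fintype.card F : ℂ)) ∧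
    (χ 1 = (Fintype.card F : ℂ) →
      (∑ g : Matrix.SpecialLinearGroup (Fin 2) F, if (g : Matrix (Fin 2) (Fin 2) F) 1 0 = 0 ∧ (g : Matrix (Fin 2) (Fin 2) F) 0 0 = 1 ∧ (g : Matrix (Fin 2) (Fin 2) F) 1 1 = 1 then χ g else 0) = (Fintype.card F : ℂ)) ∧
    (χ 1 = (Fintype.card F : ℂ) - 1 →
      (∑ g : Matrix.SpecialLinearGroup (Fin 2) F, if (g : Matrix (Fin 2) (Fin 2) F) 1 0 = 0 ∧ (g : Matrix (Fin 2) (Fin 2) F) 0 0 = 1 ∧ (g : Matrix (Fin 2) (Fin 2) F) 1 1 = 1 then χ g else 0) = 0) ∧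
    (χ 1 = (((Fintype.card F + 1) / 2 : ℕ) : ℂ) →
      (∑ g : Matrix.SpecialLinearGroup (Fin 2) F, if (g : Matrix (Fin 2) (Fin 2) F) 1 0 = 0 ∧ (g : Matrix (Fin 2) (Fin 2) F) 0 0 = 1 ∧ (g : Matrix (Fin 2) (Fin 2) F) 1 1 = 1 then χ g else 0) = (Fintype.card F : ℂ)) ∧
    (χ 1 = (((Fintype.card F - 1) / 2 : ℕ) : ℂ) →
      (∑ g : Matrix.SpecialLinearGroup (Fin 2) F, if (g : Matrix (Fin 2) (Fin 2) F) 1 0 = 0 ∧ (g : Matrix (Fin 2) (Fin 2) F) 0 0 = 1 ∧ (g : Matrix (Fin 2) (Fin 2) F) 1 1 = 1 then χ g else 0) = 0) := by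
  open CF.Classical in
  rw [← Nat.card_eq_fintype_card] at *
  obtain ⟨g₀, h₀⟩ := exists_noEig F
  have h4 : 4 ≤ Nat.card F := by omega
  have h5 : ∀ α : MulChar F ℂ, ∑ x : F, prinSL α (sbor 1 x) = 2 * Nat.card F := fun α => by
    rw [sum_sbor_of_const fun x hx => (hasEig_sbor_one x).prinSL_jor (not_isScal_sbor 1 hx) α,
      prinSL_one, map_one]; ring
  have h6 : ∀ θ, ∑ x : F, h₀.cuspSL θ (sbor 1 x) = 0 := fun θ => by
    rw [sum_sbor_of_const fun x hx => h₀.cuspSL_unip θ (hasEig_sbor_one x) (not_isScal_sbor 1 hx),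
      h₀.cuspSL_one]; ring
  simp only [eq_half_add_iff hodd, eq_half_sub_iff hodd, sum_ite_unitri]
  refine ⟨fun h => ?_, fun h => ?_, fun h => ?_, fun h => ?_, fun h => ?_⟩
  · obtain ⟨α, -, rfl⟩ := exists_prinSL_of_deg hχ h
    exact h5 α
  · rw [eq_stSL_of_deg hχ h, sum_sbor_of_const fun x hx =>
      (hasEig_sbor_one x).stSL_jor (not_isScal_sbor 1 hx), stSL_one]; ring
  · obtain ⟨θ, -, rfl⟩ := h₀.exists_cuspSL_of_deg h4 hχ h
    exact h6 θ
  · obtain ⟨α, χ', -, -, H⟩ := exists_half_prinSL_of_deg h4 hχ h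
    linear_combination (H.two_mul_sum.trans (h5 α)) / 2
  · obtain ⟨α, χ', -, -, H⟩ := h₀.exists_half_cuspSL_of_deg h4 hχ h
    linear_combination (H.two_mul_sum.trans (h6 α)) / 2

end Cfsg.Agent.S2438
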