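import Cfsg.Statements.S2439
import Cfsg.Agent.Chev.StUniq
import Cfsg.Agent.Chev.ClsA
import Cfsg.Agent.BlockB.Section

set_option autoImplicit false
open Cfsg

namespace Cfsg.Agent.S2439

open CF CF.Chev CF.BlockB in
theorem aux {G : Type*} [Group G] [Finite G] {p q : ℕ} [Fact p.Prime] (hp : p ≠ 2)
    {M : Ideal Cfsg.AlgInt} (hM : Cfsg.IsPModular p M) {z : G} (hz : z ∈ Subgroup.center G)
    (hzz : z * z = 1) (h1 : z ≠ 1) (hq : q ≠ 1) {σ : IrrCharacter G} (hσ : σ.1 z = σ.1 1)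
    (hq' : ∀ χ : IrrCharacter G, χ.1 1 = q ↔ χ = σ) (h0 : IsPBlock M {σ})
    (h3 : Nat.card {B : Set (IrrCharacter G) // IsPBlock M B} = 3)
    (hd : ∀ B : Set (IrrCharacter G), IsPBlock M B → B ≠ {σ} →
      blockDefect p B = (Nat.card G).factorization p) :
    (∀ B : Set (IrrCharacter G), IsPBlock M B ↔ (B = {χ | χ.1 1 = (q : ℂ)} ∨
      B = {χ | χ.1 z = χ.1 1 ∧ χ.1 1 ≠ (q : ℂ)} ∨ B = {χ | χ.1 z = - χ.1 1})) ∧
    ∀ P : Sylow p G, IsDefectGroup p M {χ | χ.1 z = χ.1 1 ∧ χ.1 1 ≠ q} (P : Subgroup G) ∧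
      IsDefectGroup p M {χ | χ.1 z = - χ.1 1} (P : Subgroup G) := by
  classical
  have hs : ∀ χ : IrrCharacter G, χ.1 z = χ.1 1 ∨ χ.1 z = - χ.1 1 := fun χ => by
    obtain ⟨d, hd⟩ := Char.center_le_charCenter χ.2 hz
    have h1 := hd (z * 1)
    rw [← mul_assoc, hzz, one_mul, hd, ← mul_assoc, eq_comm,
      mul_eq_right₀ (Char.irr_one_ne_zero χ.2), mul_self_eq_one_iff] at h1
    exact h1.imp (fun h => by simpa [h] using hd 1) fun h => by simpa [h] using hd 1
  have hn : ∀ B, IsPBlock M B → ∀ χ ∈ B, ∀ ψ ∈ B, χ.1 z = χ.1 1 → ψ.1 z ≠ - ψ.1 1 :=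
    fun B hB χ hχ ψ hψ e e' => by
      have := (sameBlock_iff hM χ.2 ψ.2).1 (sameBlock_of_mem hM hB hχ hψ) z
      rw [centralChar, centralChar, e, e', Subgroup.centralizer_eq_top_iff_subset.2 (by simpa),
        Subgroup.index_top, mul_neg, neg_div, mul_div_cancel_right₀ _ (Char.irr_one_ne_zero χ.2),
        mul_div_cancel_right₀ _ (Char.irr_one_ne_zero ψ.2), sub_neg_eq_add, ← Nat.cast_add,
        v_natCast_lt_one_iff hM] at this
      exact hp ((Nat.prime_dvd_prime_iff_eq Fact.out Nat.prime_two).1 this)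
  obtain ⟨τ, hτ, h4⟩ := Char.exists_irr_not_mem_charKer h1
  have h5 : τ z = - τ 1 := (hs ⟨τ, hτ⟩).resolve_left fun h =>
    h4 ((Char.mem_charKer_iff (Char.irr_isCharacter hτ)).2 h)
  have a1 := isPBlock_blockOf (M := M) (Char.oneIrr G)
  have a2 := isPBlock_blockOf (M := M) ⟨τ, hτ⟩
  have b1 := mem_blockOf_self hM (Char.oneIrr G)
  have b2 := mem_blockOf_self hM ⟨τ, hτ⟩
  set B₁ := blockOf M (Char.oneIrr G).1
  set B₂ := blockOf M (⟨τ, hτ⟩ : IrrCharacter G).1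
  have c1 : B₁ ≠ {σ} := fun e => hq (by
    have := (hq' _).2 (e ▸ b1 :)
    exact Nat.cast_eq_one.1 this.symm)
  have c2 : B₂ ≠ {σ} := fun e => hn _ h0 σ rfl _ (e ▸ b2) hσ h5
  have c3 : B₁ ≠ B₂ := fun e => hn _ a2 _ (e ▸ b1) _ b2 rfl h5
  have hall : ∀ B, IsPBlock M B → B = {σ} ∨ B = B₁ ∨ B = B₂ := fun B hB => by
    have := Set.eq_of_subset_of_ncard_le (s := {{σ}, B₁, B₂}) (t := {B | IsPBlock M B})
      (by simp [Set.insert_subset_iff, *]) (by
        rw [← Nat.card_coe_set_eq, Set.ncard_eq_three.2 ⟨_, _, _, c1.symm, c2.symm, c3, rfl⟩]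
        exact h3.le) (finite_blocks M G)
    exact (this.ge hB :)
  have e0 : {χ : IrrCharacter G | χ.1 1 = q} = {σ} := Set.ext hq'
  have e1 : {χ : IrrCharacter G | χ.1 z = χ.1 1 ∧ χ.1 1 ≠ q} = B₁ := Set.ext fun χ =>
    ⟨fun h => by
      have := mem_blockOf_self hM χ
      rcases hall _ (isPBlock_blockOf χ) with e | e | e <;> rw [e] at this
      exacts [absurd ((hq' _).2 this) h.2, this, absurd h5 (hn _ a2 _ this _ b2 h.1)],
    fun h => ⟨(hs χ).resolve_right (hn _ a1 _ b1 _ h rfl), fun e =>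
      c1 (block_eq_of_mem_of_mem hM a1 h0 h ((hq' _).1 e))⟩⟩
  have e2 : {χ : IrrCharacter G | χ.1 z = - χ.1 1} = B₂ := Set.ext fun χ =>
    ⟨fun h => by
      have := mem_blockOf_self hM χ
      rcases hall _ (isPBlock_blockOf χ) with e | e | e <;> rw [e] at this
      exacts [absurd h (hn _ h0 _ rfl _ this hσ), absurd h (hn _ a1 _ b1 _ this rfl), this],
    fun h => (hs χ).resolve_left fun e => hn _ a2 _ h _ b2 e h5⟩
  rw [e0, e1, e2]
  have key : ∀ B, IsPBlock M B → B ≠ {σ} → ∀ P : Sylow p G, IsDefectGroup p M B P :=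
    fun B hB h P => by
      obtain ⟨D, hD⟩ := exists_defectGroup hM hB
      have h6 := card_defectGroup hM hB hD
      rw [hd B hB h] at h6
      obtain ⟨g, hg⟩ := MulAction.exists_smul_eq G (Sylow.ofCard D h6) P
      exact hg ▸ BlockB.IsDefectGroup.cjs hM hB hD g
  exact ⟨fun B => ⟨hall B, by rintro (rfl | rfl | rfl) <;> assumption⟩,
    fun P => ⟨key _ a1 c1 P, key _ a2 c2 P⟩⟩

/-- Let F be a finite field with q elements of odd characteristic p, and M a maximal ideal of the algebraic integers containing p. Then SL₂ over F has exactly three p-blocks relative to M: the irreducible character of degree q (the Steinberg character) alone; the other irreducible characters taking the same value at −1 as at 1 (the principal block); and the irreducible characters χ with χ(−1) = −χ(1). Every Sylow p-subgroup is a defect group of each of the last two blocks. -/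
theorem result {F : Type*} [Field F] [Fintype F] (p : ℕ) [Fact p.Prime] [CharP F p] (hp : p ≠ 2)
    (M : Ideal Cfsg.AlgInt) (hM : Cfsg.IsPModular p M) :
    (∀ B : Set (Cfsg.IrrCharacter (Matrix.SpecialLinearGroup (Fin 2) F)), Cfsg.IsPBlock M B ↔
      (B = {χ : Cfsg.IrrCharacter (Matrix.SpecialLinearGroup (Fin 2) F) | (χ : Matrix.SpecialLinearGroup (Fin 2) F → ℂ) 1 = (Fintype.card F : ℂ)} ∨
       B = {χ : Cfsg.IrrCharacter (Matrix.SpecialLinearGroup (Fin 2) F) | (χ : Matrix.SpecialLinearGroup (Fin 2) F → ℂ) (-1) = (χ : Matrix.SpecialLinearGroup (Fin 2) F → ℂ) 1 ∧ (χ : Matrix.SpecialLinearGroup (Fin 2) F → ℂ) 1 ≠ (Fintype.card F : ℂ)} ∨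
       B = {χ : Cfsg.IrrCharacter (Matrix.SpecialLinearGroup (Fin 2) F) | (χ : Matrix.SpecialLinearGroup (Fin 2) F → ℂ) (-1) = -(χ : Matrix.SpecialLinearGroup (Fin 2) F → ℂ) 1})) ∧
    Nat.card {B : Set (Cfsg.IrrCharacter (Matrix.SpecialLinearGroup (Fin 2) F)) // Cfsg.IsPBlock M B} = 3 ∧
    ∀ P : Sylow p (Matrix.SpecialLinearGroup (Fin 2) F),
      Cfsg.IsDefectGroup p M {χ : Cfsg.IrrCharacter (Matrix.SpecialLinearGroup (Fin 2) F) | (χ : Matrix.SpecialLinearGroup (Fin 2) F → ℂ) (-1) = (χ : Matrix.SpecialLinearGroup (Fin 2) F → ℂ) 1 ∧ (χ : Matrix.SpecialLinearGroup (Fin 2) F → ℂ) 1 ≠ (Fintype.card F : ℂ)} (P : Subgroup (Matrix.SpecialLinearGroup (Fin 2) F)) ∧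
      Cfsg.IsDefectGroup p M {χ : Cfsg.IrrCharacter (Matrix.SpecialLinearGroup (Fin 2) F) | (χ : Matrix.SpecialLinearGroup (Fin 2) F → ℂ) (-1) = -(χ : Matrix.SpecialLinearGroup (Fin 2) F → ℂ) 1} (P : Subgroup (Matrix.SpecialLinearGroup (Fin 2) F)) := by
  have hρ := CF.Chev.faithful_slRep 1 F le_rfl
  have hG := CF.Chev.slRep_Gp 1 F
  have h2 : (2 : F) ≠ 0 := fun h => hp ((Nat.prime_dvd_prime_iff_eq Fact.out Nat.prime_two).1
    ((CharP.cast_eq_zero_iff F p 2).1 h))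
  have h3 : Nat.card {B : Set (Cfsg.IrrCharacter (Matrix.SpecialLinearGroup (Fin 2) F)) //
      Cfsg.IsPBlock M B} = 3 := by
    obtain ⟨e⟩ := CF.Chev.nonempty_center_SL_equiv F 1
    rw [CF.Chev.card_blocks_stRep hρ hG CF.Chev.connA hM, Nat.card_congr e.toEquiv,
      Nat.card_congr Multiplicative.toAdd, Nat.card_zmod, Nat.gcd_eq_left]
    have := FiniteField.odd_card_of_char_ne_two (F := F) (by rwa [ringChar.eq F p])
    rw [Nat.card_eq_fintype_card]; omega
  have h4 : (CF.Chev.slRep 1 F).st 1 = Fintype.card F := by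
    rw [CF.Chev.StRep.st_one hρ hG, show Fintype.card (CF.Chev.RtA 1) / 2 = 1 by decide]; simp
  have h5 := (CF.BlockB.blockOf_eq_singleton_iff hM ⟨_, CF.Chev.StRep.irr_st hρ hG⟩).2
    (CF.Chev.st_defect hρ hG)
  have hz : (-1 : Matrix.SpecialLinearGroup (Fin 2) F) ∈ Subgroup.center _ :=
    Subgroup.mem_center_iff.2 fun g => by simp
  have := aux (q := Fintype.card F) hp hM hz (by simp) (fun h => h2 (by
      have := congrArg (fun g : Matrix.SpecialLinearGroup (Fin 2) F => g.1 0 0) h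
      simp at this; linear_combination -this)) Fintype.one_lt_card.ne'
    (σ := ⟨_, CF.Chev.StRep.irr_st hρ hG⟩)
    (by simpa only [CF.Chev.StRep.st_eq hρ hG] using CF.Chev.stChar_center hz)
    (fun χ => ⟨fun h => Subtype.ext (CF.Chev.eq_st_of_defect_zero (p := p) hρ hG χ.2 (by
      rw [CF.BlockB.Ord.deg_of_eq h, ← CF.BlockB.Ord.deg_of_eq h4, CF.Chev.st_defect hρ hG])),
      fun h => h ▸ h4⟩) ⟨_, h5.symm⟩ h3 fun B hB h =>
    (CF.Chev.blockDefect_stRep hρ hG CF.Chev.connA hM hB).resolve_left fun h0 =>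
      h (CF.Chev.defect_zero_unique hρ hG hM hB ⟨_, h5.symm⟩ h0
        (CF.BlockB.defect_eq_zero_of_mem hM ⟨_, h5.symm⟩ rfl (CF.Chev.st_defect hρ hG)))
  exact ⟨this.1, h3, this.2⟩

end Cfsg.Agent.S2439
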