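import Cfsg.Statements.S2441
import Cfsg.Agent.Chev.StUniq

set_option autoImplicit false
open Cfsg

namespace Cfsg.Agent.S2441

/-- For a prime p, the Chevalley groups of types G₂, F₄ and E₈ over the field with p elements (types for which the simply connected and adjoint groups coincide, so the group has trivial centre) each have exactly two p-blocks relative to any maximal ideal of the algebraic integers containing p (only the count is asserted; it arises as the defect-zero block of the Steinberg character plus a single block of maximal defect). -/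
theorem result (p : ℕ) [Fact p.Prime] (M : Ideal Cfsg.AlgInt) (hM : Cfsg.IsPModular p M) :
    Nat.card {B : Set (Cfsg.IrrCharacter (Cfsg.Lie.chevG2.group (ZMod p))) // Cfsg.IsPBlock M B} = 2 ∧
    Nat.card {B : Set (Cfsg.IrrCharacter (Cfsg.Lie.chevF4.group (ZMod p))) // Cfsg.IsPBlock M B} = 2 ∧
    Nat.card {B : Set (Cfsg.IrrCharacter (Cfsg.Lie.chevE8.group (ZMod p))) // Cfsg.IsPBlock M B} = 2 := by
  have key : ∀ {D : Cfsg.Lie.ChevalleyDatum} {C}, CF.Chev.Good D C →
      Nat.card {B : Set (Cfsg.IrrCharacter (D.group (ZMod p))) // Cfsg.IsPBlock M B} = 2 := by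
    intro D C h
    have L := h.link
    have := h.nonempty
    have := (L.r3_gpRep (ZMod p)).finite (L.faithful_gpRep _) (L.gpRep_Gp _)
    rw [CF.Chev.card_blocks_stRep (L.faithful_gpRep _) (L.gpRep_Gp _) h.conn hM, L.center_group (ZMod p),
      Subgroup.card_bot]
  exact ⟨key CF.Chev.goodG2, key CF.Chev.goodF4, key CF.Chev.goodE8⟩

end Cfsg.Agent.S2441
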