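import Cfsg.Statements.S2531
import Mathlib

set_option autoImplicit false
open Cfsg

namespace Cfsg.Agent.S2531

open Projectivization Finset in
theorem card_pts {F V : Type*} [Field F] [Finite F] [AddCommGroup V] [Module F V] [Finite V]
    (U : Submodule F V) (hU : U ≠ ⊥) : (({x : Projectivization F V | x.submodule ≤ U}.ncard : ℕ) : F) = 1 := by
  have := Fintype.ofFinite F
  have h1 := congrArg (Nat.cast : ℕ → F) (card' F U)
  have h2 : {x : Projectivization F V | x.submodule ≤ U} = Set.range (map U.subtype U.injective_subtype) := by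
    ext x
    induction x using ind with | h v hv =>
    refine ⟨fun h => ?_, ?_⟩
    · have h := (Submodule.span_singleton_le_iff_mem _ _).1 h
      exact ⟨mk F ⟨v, h⟩ (fun e => hv (congrArg Subtype.val e)), rfl⟩
    · rintro ⟨y, h⟩
      induction y using ind with | h w hw =>
      rw [← h]; exact (Submodule.span_singleton_le_iff_mem _ _).2 w.2
  have := Submodule.nontrivial_iff_ne_bot.2 hU
  rw [h2, ← Nat.card_coe_set_eq, Nat.card_range_of_injective (map_injective _ _)]
  rw [Module.natCard_eq_pow_finrank (K := F), Nat.cast_add, Nat.cast_mul, Nat.cast_pow,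
    Nat.cast_sub Nat.card_pos, Nat.card_eq_fintype_card (α := F), FiniteField.cast_card_eq_zero,
    zero_pow Module.finrank_pos.ne'] at h1
  linear_combination h1

/-- Let `F` be a finite field and `n ≥ 3`. No set of permutations of the points of the projective space of `Fⁿ`, each induced by an invertible semilinear transformation of `Fⁿ` (so a subset of the full projective semilinear group), is sharply 2-transitive on the points: it is impossible that for all pairs of distinct points `(a, b)` and `(c, d)` exactly one member of the set sends `a` to `c` and `b` to `d`. -/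
theorem result {F : Type*} [Field F] [Finite F]
    (n : ℕ) (hn : 3 ≤ n) (S : Set (Equiv.Perm (Projectivization F (Fin n → F))))
    (hS : ∀ s ∈ S, ∃ (σ : F ≃+* F) (f : (Fin n → F) →ₛₗ[(σ : F →+* F)] (Fin n → F)) (hf : Function.Injective f),
      ∀ x, s x = Projectivization.map f hf x) :
    ¬ (∀ a b c d : Projectivization F (Fin n → F), a ≠ b → c ≠ d →
        ∃! s, s ∈ S ∧ s a = c ∧ s b = d) := by
  classical
  intro h
  obtain ⟨m, rfl⟩ := Nat.exists_eq_add_of_le' hn
  have := Fintype.ofFinite (Projectivization F (Fin (m + 3) → F))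
  let W := LinearMap.ker (LinearMap.proj 0 : (Fin (m + 3) → F) →ₗ[F] F)
  let a : Projectivization F (Fin (m + 3) → F) := .mk F 1 one_ne_zero
  let b := Finset.univ.filter fun x : Projectivization F (Fin (m + 3) → F) => x.submodule ≤ W
  let T := Finset.univ.filter fun s => s ∈ S ∧ s a = a
  have hW : W ≠ ⊥ := (Submodule.ne_bot_iff _).2 ⟨Pi.single 1 1, by simp [W], by simp⟩
  have hb : (b.card : F) = 1 := by rw [← card_pts W hW, Set.ncard_eq_toFinset_card']; simp [b]
  have ha : ∀ x ∈ b, a ≠ x := by
    rintro _ hx rfl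
    simpa [b, a, W] using hx
  obtain ⟨c, hc⟩ := (Finset.card_pos (s := b)).1 (Nat.pos_of_ne_zero fun e => by simp [e] at hb)
  have h1 : T.card = (Finset.univ.erase a).card := Finset.card_bij (fun s _ => s c)
    (fun s hs => by simpa using (Finset.mem_filter.1 hs).2.2 ▸ s.injective.ne (ha c hc).symm)
    (fun s hs t ht e => by
      simp only [T, Finset.mem_filter] at hs ht
      exact (h a c a (s c) (ha c hc) (hs.2.2 ▸ s.injective.ne (ha c hc))).unique ⟨hs.2.1, hs.2.2, rfl⟩
        ⟨ht.2.1, ht.2.2, e.symm⟩) fun d hd => by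
      obtain ⟨s, h1, h2, h3⟩ := (h a c a d (ha c hc) (Finset.mem_erase.1 hd).1.symm).exists
      exact ⟨s, by simp [T, *], h3⟩
  have h2 : (T.card : F) = 0 := by
    have := card_pts (F := F) (V := Fin (m + 3) → F) ⊤ top_ne_bot
    rw [Set.ncard_eq_toFinset_card'] at this
    rw [h1, Finset.card_erase_of_mem (Finset.mem_univ _), Nat.cast_sub (Finset.card_pos.2 ⟨a, Finset.mem_univ _⟩)]
    simpa [sub_eq_zero] using this
  have h3 : (T.sigma fun s => b.filter fun x => s x ∈ b).card = (b ×ˢ b).card := Finset.card_bij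
    (fun p _ => (p.2, p.1 p.2)) (fun p hp => by simpa using (Finset.mem_sigma.1 hp).2)
    (fun ⟨s, x⟩ hs ⟨t, y⟩ ht e => by
      simp only [T, Finset.mem_filter, Finset.mem_sigma] at hs ht
      obtain ⟨rfl, e⟩ := Prod.ext_iff.1 e
      obtain rfl := (h a x a (s x) (ha _ hs.2.1) (ha _ hs.2.2)).unique ⟨hs.1.2.1, hs.1.2.2, rfl⟩
        ⟨ht.1.2.1, ht.1.2.2, e.symm⟩
      rfl) fun ⟨x, y⟩ hd => by
      obtain ⟨h1, h2⟩ := Finset.mem_product.1 hd
      obtain ⟨s, h3, h4, rfl⟩ := (h a x a y (ha _ h1) (ha _ h2)).exists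
      exact ⟨⟨s, x⟩, by simp [T, *], rfl⟩
  have h4 := congrArg (Nat.cast : ℕ → F) h3
  rw [Finset.card_sigma, Finset.card_product, Nat.cast_sum, Finset.sum_congr rfl (g := fun _ => 1)
    fun s hs => ?_] at h4
  · simp [h2, hb] at h4
  obtain ⟨σ, f, hf, h5⟩ := hS s (Finset.mem_filter.1 hs).2.1
  rw [← card_pts (W ⊓ W.comap f) fun e => ?_, Set.ncard_eq_toFinset_card']
  · congr 2; ext x
    induction x using Projectivization.ind with | h v hv =>
    simp [b, h5, Projectivization.map_mk]
  · have := Nat.card_le_card_of_injective (fun v : Fin (m + 3) → F => (v 0, f v 0)) fun v w e' => by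
      obtain ⟨h6, h7⟩ := Prod.ext_iff.1 e'
      exact sub_eq_zero.1 (e.le (show v - w ∈ _ by simpa [W, sub_eq_zero] using ⟨h6, h7⟩))
    rw [Nat.card_prod, Nat.card_fun, ← sq, Nat.card_eq_fintype_card (α := Fin _), Fintype.card_fin,
      Nat.pow_le_pow_iff_right Finite.one_lt_card] at this
    omega

end Cfsg.Agent.S2531
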