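import Cfsg.Statements.S2532
import Cfsg.Agent.Perm.SylP

set_option autoImplicit false
open Cfsg

namespace Cfsg.Agent.S2532

open Equiv Equiv.Perm Subgroup MulAction

theorem aux {H Ω ι : Type*} [Group H] [MulAction H Ω] (a : ι → Ω) (K : Subgroup H)
    (hK : ∀ i, stabilizer H (a i) = K) (ha : ∀ i j (g : H), g • a i = a j → i = j) :
    ∃ φ : Perm ι →* Perm Ω, Function.Injective φ ∧ ∀ σ (h : H) x, φ σ (h • x) = h • φ σ x := by
  let j : ι × (H ⧸ K) ↪ Ω := ⟨fun x => x.2.liftOn' (· • a x.1) fun g h e => by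
      rw [← inv_smul_eq_iff, smul_smul, ← mem_stabilizer_iff, hK, ← inv_mem_iff]
      simpa using QuotientGroup.leftRel_apply.1 e, by
    rintro ⟨i, ⟨g⟩⟩ ⟨k, ⟨h⟩⟩ (e : g • a i = h • a k)
    rw [← inv_smul_eq_iff, smul_smul] at e
    obtain rfl := ha _ _ _ e
    exact Prod.ext rfl (QuotientGroup.eq.2 ((hK i).le e)).symm⟩
  have hj : ∀ (h : H) i q, h • j (i, q) = j (i, h • q) := by
    rintro h i ⟨g⟩
    exact smul_smul h g (a i)
  refine ⟨(viaEmbeddingHom j).comp (.mk' (prodCongr · 1) fun _ _ => rfl),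
    (viaEmbeddingHom_injective j).comp fun σ τ e => Equiv.ext fun i =>
      congrArg Prod.fst (DFunLike.congr_fun e (i, ((1 : H) : H ⧸ K))), fun σ h x => ?_⟩
  simp only [MonoidHom.comp_apply, viaEmbeddingHom_apply]
  by_cases hx : x ∈ Set.range j
  · obtain ⟨⟨i, q⟩, rfl⟩ := hx
    rw [hj, viaEmbedding_apply, viaEmbedding_apply]
    exact (hj h _ q).symm
  · rw [viaEmbedding_apply_of_notMem _ _ _ hx, viaEmbedding_apply_of_notMem]
    rintro ⟨⟨i, q⟩, e⟩
    exact hx ⟨_, (hj h⁻¹ i q).symm.trans (inv_smul_eq_iff.2 e)⟩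

/-- There is a function `f` of two natural-number arguments such that, whenever `m ≥ f(n, r)`, every subgroup of order `n` of the alternating group of degree `m` centralizes some subgroup of that alternating group isomorphic to the alternating group of degree `r`. -/
theorem result :
    ∃ f : ℕ → ℕ → ℕ, ∀ (m r : ℕ) (H : Subgroup ↥(alternatingGroup (Fin m))), f (Nat.card H) r ≤ m →
      ∃ K : Subgroup ↥(alternatingGroup (Fin m)), Nonempty (↥K ≃* ↥(alternatingGroup (Fin r))) ∧
        K ≤ Subgroup.centralizer (H : Set ↥(alternatingGroup (Fin m))) := by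
  classical
  refine ⟨fun n r => 2 ^ n * r * n, fun m r H hm => ?_⟩
  have h1 : m ≤ Nat.card (orbitRel.Quotient H (Fin m)) * Nat.card H := by
    simpa using Nat.card_le_card_of_surjective
      (fun x : orbitRel.Quotient H (Fin m) × H => x.2 • x.1.out) fun x => by
        obtain ⟨g, hg⟩ := (orbitRel H (Fin m)).symm (Quotient.mk_out x)
        exact ⟨(Quotient.mk'' x, g), hg⟩
  have h2 : Nat.card (Subgroup H) ≤ 2 ^ Nat.card H := by
    simpa using Nat.card_le_card_of_injective _ (SetLike.coe_injective (A := Subgroup H))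
  have := Fintype.ofFinite (Subgroup H)
  have := Fintype.ofFinite (orbitRel.Quotient H (Fin m))
  obtain ⟨K, hK⟩ := Fintype.exists_le_card_fiber_of_mul_le_card
    (fun x : orbitRel.Quotient H (Fin m) => stabilizer H x.out) (n := r) (by
      simp only [← Nat.card_eq_fintype_card]
      exact (Nat.mul_le_mul_right _ h2).trans (Nat.le_of_mul_le_mul_right (hm.trans h1) Nat.card_pos))
  obtain ⟨ι, hι⟩ := Function.Embedding.exists_of_card_le_finset ((Fintype.card_fin r).trans_le hK)
  obtain ⟨φ, h3, h4⟩ := aux (fun i => (ι i).out) K (fun i => by simpa using hι ⟨i, rfl⟩)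
    fun i j g e => ι.injective (Quotient.out_equiv_out.1 ((orbitRel H (Fin m)).symm ⟨g, e⟩))
  have h5 : alternatingGroup (Fin r) ≤ (alternatingGroup (Fin m)).comap φ := by
    rw [← closure_three_cycles_eq_alternating, closure_le]
    exact fun c hc => CF.Perm.sign_eq_one_of_pow_odd (k := 3) (by decide)
      (by rw [← map_pow, ← hc.orderOf, pow_orderOf_eq_one, map_one])
  let ψ := (φ.comp (Subgroup.subtype _)).codRestrict (alternatingGroup _) fun x => h5 x.2
  refine ⟨ψ.range, ⟨(MonoidHom.ofInjective (f := ψ) ((MonoidHom.injective_codRestrict _ _ _).2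
    (h3.comp (subtype_injective _)))).symm⟩, ?_⟩
  rintro _ ⟨σ, rfl⟩ h hh
  exact Subtype.ext (Equiv.ext fun x => (h4 σ ⟨h, hh⟩ x).symm)

end Cfsg.Agent.S2532
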