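import Cfsg.Statements.S2533
import Cfsg.Agent.Known.Kron

set_option autoImplicit false
open Cfsg

namespace Cfsg.Agent.S2533

/-- For every odd prime `p` there is a finite group `H` of order `2p³` which, for infinitely many `n`, embeds in the projective special linear group `PSL(n, p)` as a subgroup with trivial centralizer. -/
theorem result
    (p : ℕ) [Fact p.Prime] (hp : p ≠ 2) :
    ∃ (H : Type) (_ : Group H) (_ : Finite H), Nat.card H = 2 * p ^ 3 ∧
      ∀ N : ℕ, ∃ n, N ≤ n ∧ ∃ φ : H →* Matrix.ProjectiveSpecialLinearGroup (Fin n) (ZMod p),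
        Function.Injective φ ∧ Subgroup.centralizer (φ.range : Set (Matrix.ProjectiveSpecialLinearGroup (Fin n) (ZMod p))) = ⊥ := by
  haveI : NeZero p := ⟨(Fact.out : p.Prime).ne_zero⟩
  have h : Nat.card (CF.Known.GenDih (Fin 3 → ZMod p)) = 2 * p ^ 3 := by
    rw [CF.Known.card_genDih, mul_comm]; simp
  exact ⟨CF.Known.GenDih (Fin 3 → ZMod p), inferInstance, Nat.finite_of_card_ne_zero
    (by rw [h]; exact mul_ne_zero two_ne_zero (pow_ne_zero _ (NeZero.ne p))), h,
    fun N => ⟨_, by omega, CF.Known.exists_psl_genDih hp N⟩⟩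

end Cfsg.Agent.S2533
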