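import Cfsg.Statements.S2534
import Cfsg.Agent.Perm.HallSym2

set_option autoImplicit false
open Cfsg

namespace Cfsg.Agent.S2534

open CF.Perm Finset Equiv Pointwise

def L (n : ℕ) (i : Fin 4 × Fin 3) : Perm (Fin (n + 6)) :=
  ![1, swap 0 3 * swap 1 4, swap 1 4 * swap 2 5, swap 0 3 * swap 2 5] i.1 *
    ![1, swap 0 2 * swap 0 1 * (swap 3 5 * swap 3 4), swap 0 1 * swap 0 2 * (swap 3 4 * swap 3 5)] i.2

theorem exK {n : ℕ} (hn : n = 7 ∨ n = 8) : ∃ K : Subgroup (Perm (Fin n)), K ≤ alternatingGroup _ ∧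
    (∀ g ∈ K, g ^ 6 = 1) ∧ ∀ X : Finset (Fin n), #X = 4 → ¬ K ≤ bis X := by
  have k : ∀ m, (m = 1 ∨ m = 2) → (∀ x, (∀ y, ∃ z, ∀ i, L m z i = L m x (L m y i)) ∧
      (∃ z, ∀ i, L m x (L m z i) = i) ∧ ∀ i, (L m x ^ 6) i = i) ∧
      ∀ X : Finset (Fin (m + 6)), #X = 4 → ∃ g, ¬ ((∀ i, L m g i ∈ X ↔ i ∈ X) ∨ ∀ i, L m g i ∉ X ↔ i ∈ X) := by
    rintro _ (rfl | rfl) <;> constructor <;> decide +kernel
  obtain ⟨m, rfl⟩ := Nat.exists_eq_add_of_le' (show 6 ≤ n by omega)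
  obtain ⟨h1, h3⟩ := k m (by omega)
  refine ⟨⟨⟨⟨Set.range (L m), ?_⟩, (0, 0), mul_one _⟩, ?_⟩, ?_, ?_, fun X hX e => (h3 X hX).elim fun g h =>
    h ((e ⟨g, rfl⟩).imp smul_eq_iff_setStab.1 fun k i => by rw [← mem_compl, ← k, mem_smul_perm])⟩
  · rintro _ _ ⟨x, rfl⟩ ⟨y, rfl⟩; exact ((h1 x).1 y).imp fun _ => Equiv.ext
  · rintro _ ⟨x, rfl⟩; exact (h1 x).2.1.imp fun _ e => eq_inv_of_mul_eq_one_right (Equiv.ext e)
  · rintro _ ⟨⟨x, y⟩, rfl⟩
    rcases (show m = 1 ∨ m = 2 by omega) with rfl | rfl <;> fin_cases x <;> fin_cases y <;> simp [L]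
  · rintro _ ⟨x, rfl⟩; exact Equiv.ext (h1 x).2.2

/-- For `n ≥ 5` and a set of primes `π`, the alternating group of degree `n` satisfies the full Sylow analogue for `π` (its maximal `π`-subgroups are pairwise conjugate; for a finite group this says Hall `π`-subgroups exist, are all conjugate, and contain every `π`-subgroup up to conjugacy) if and only if either at most one prime of `π` divides its order or every prime dividing its order lies in `π`. -/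
theorem result (n : ℕ) (hn : 5 ≤ n) (π : Set ℕ) :
    Cfsg.IsDPiGroup π ↥(alternatingGroup (Fin n)) ↔
      ((∀ r s : ℕ, r.Prime → s.Prime → r ∈ π → s ∈ π → r ∣ Nat.card ↥(alternatingGroup (Fin n)) → s ∣ Nat.card ↥(alternatingGroup (Fin n)) → r = s) ∨
        ∀ r : ℕ, r.Prime → r ∣ Nat.card ↥(alternatingGroup (Fin n)) → r ∈ π) := by
  refine ⟨fun h => by_contra fun e => ?_, dPi_of⟩
  rw [not_or] at e
  have hn' : 5 ≤ Fintype.card (Fin n) := by simpa
  obtain ⟨H, hH⟩ := (ePi_of_dPi h).1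
  have k : ∀ K ≤ alternatingGroup (Fin n), IsPiSubgroup π K → ∃ X, Ex X ∧ K ≤ bis X ∧
      ∀ p, p.Prime → p ≤ n → (p ∈ π ↔ p ≤ #X) := fun K h1 h2 => by
    obtain ⟨M, h3, h4⟩ := Finite.exists_le_maximal (p := IsPiSubgroup π) (a := K.subgroupOf (alternatingGroup _))
      fun p hp d => h2 p hp (Nat.card_congr (Subgroup.subgroupOfEquivOfLe h1).toEquiv ▸ d)
    obtain ⟨g, hg⟩ := h H M ⟨hH.1, fun _ h1 h2 => (CF.Solv.eq_of_isPiHall_of_le hH h1 h2).ge⟩ h4
    have h5 := CF.Solv.isPiHallOf_map_subtype_iff.2 (hg ▸ CF.Solv.isPiHall_smul hH (MulAut.conj g) : IsPiHall π M)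
    rcases hall_alt h5 hn' (two_primes hn' e.1) with h6 | ⟨X, h6, h7, h8⟩
    · exact (e.2 fun p hp d => h5.2.1 p hp (h6.symm ▸ d)).elim
    · exact ⟨X, h6, fun x hx => (h7.le ⟨⟨x, h1 hx⟩, h3 hx, rfl⟩).1, by simpa using h8⟩
  obtain ⟨X, h1, -, h2⟩ := k ⊥ bot_le fun p hp d => absurd (by simpa using d) hp.ne_one
  have h3 := h1.le hn'
  have h5 := h2 5 Nat.prime_five hn
  simp only [Ex, Fintype.card_fin] at h1
  by_cases h4 : #X = 4 ∧ (n = 7 ∨ n = 8)
  · obtain ⟨K, a1, a2, a3⟩ := exK h4.2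
    obtain ⟨Y, b1, b2, b3⟩ := k K a1 fun p hp d => by
      have := Fact.mk hp
      obtain ⟨g, rfl⟩ := exists_prime_orderOf_dvd_card' p d
      have := orderOf_dvd_of_pow_eq_one (show g ^ 6 = 1 from Subtype.ext (a2 g g.2))
      have : orderOf g ≤ 3 := (hp.dvd_mul.1 (show _ ∣ 2 * 3 from this)).elim
        (fun h => (Nat.le_of_dvd two_pos h).trans (by omega)) (Nat.le_of_dvd three_pos)
      exact (h2 _ hp (by omega)).2 (by omega)
    have := (b3 5 Nat.prime_five hn).symm.trans h5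
    exact a3 Y (by have := b1.le hn'; omega) b2
  obtain ⟨Y, -, hY⟩ := exists_subset_card_eq (s := (univ : Finset (Fin n))) (n := n - 2) (by simp)
  have hY' : #Yᶜ = 2 := by rw [card_compl, Fintype.card_fin]; omega
  obtain ⟨Z, b1, b2, b3⟩ := k (bis Y ⊓ alternatingGroup _) inf_le_right fun p hp d => by
    have := le_of_dvd_card_bis hp (d.trans (Subgroup.card_dvd_of_le inf_le_left)) (by omega) (by omega)
    exact (h2 p hp (by omega)).2 (by omega)
  have := (b3 5 Nat.prime_five hn).symm.trans h5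
  simp only [Ex, Fintype.card_fin] at b1
  obtain ⟨x, hx⟩ := card_eq_one.1 (show #Zᶜ = 1 by rw [card_compl, Fintype.card_fin]; omega)
  obtain ⟨g, a1, a2⟩ : ∃ g ∈ setStab Y ⊓ alternatingGroup _, g x ≠ x := by
    by_cases a : x ∈ Y
    · exact (exists_moved_altOn (by omega) a).imp fun g h => ⟨⟨symOn_le_setStab h.1.1, h.1.2⟩, h.2⟩
    obtain ⟨y, a1, a2⟩ := exists_mem_ne (hY'.ge.trans_lt' (by omega)) x
    obtain ⟨u, hu, v, hv, a3⟩ := one_lt_card.1 (show 1 < #Y by omega)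
    exact ⟨swap x y * swap u v, ⟨mul_mem (setStab_compl.le (symOn_le_setStab (swap_mem_symOn (mem_compl.2 a) a1)))
      (symOn_le_setStab (swap_mem_symOn hu hv)), by simp [a3, a2.symm]⟩, by
      rw [Perm.mul_apply, swap_mem_symOn hu hv x a, swap_apply_left]; exact a2⟩
  rcases b2 ⟨setStab_le_bis a1.1, a1.2⟩ with a | a
  · exact a2 (mem_singleton.1 (hx ▸ (setStab_compl.ge (smul_eq_iff_setStab.1 a) x).2 (hx ▸ mem_singleton_self x)))
  · have := card_smul_finset g Z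
    rw [a, hx, card_singleton] at this; omega

end Cfsg.Agent.S2534
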