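import Cfsg.Statements.S4310
import Cfsg.Agent.Fgs3.Misc

set_option autoImplicit false
open Cfsg

namespace Cfsg.Agent.S4310

open CF.BG CF.Fgs3 Subgroup

/-- Let `π` be a set of primes and `A` a normal subgroup of the finite group `G`. Suppose `A` has a Hall `π`-subgroup and all Hall `π`-subgroups of `A` are conjugate in `A`, and likewise for `G/A`. Then `G` has a Hall `π`-subgroup and all Hall `π`-subgroups of `G` are conjugate. (The conjugacy of complements of coprime order that the usual proof uses rests, in general, on the odd order Theorem.) -/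
theorem result {G : Type*} [Group G] [Finite G] (π : Set ℕ) (A : Subgroup G) [A.Normal]
    (hA : Cfsg.IsCPiGroup π ↥A) (hQ : Cfsg.IsCPiGroup π (G ⧸ A)) : Cfsg.IsCPiGroup π G := by
  have hAn : A ⊴ ⊤ := normalIn_top.2 ‹_›
  have nA : ∀ H : Subgroup G, H ≤ 𝐍 A := fun H => le_top.trans hAn.norm
  -- conjugacy of Hall subgroups of `A` in ambient form
  have conjA : ∀ H K : Subgroup G, Hall π H A → Hall π K A → ∃ a ∈ A, K = cj a H := by
    intro H K hH hK
    obtain ⟨H', rfl⟩ := exists_map_subtype hH.le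
    obtain ⟨K', rfl⟩ := exists_map_subtype hK.le
    obtain ⟨a, ha⟩ := hA.2 H' K'
      (hall_top_iff.1 ((hall_map_iff A.subtype_injective).1 (by rwa [map_top_subtype])))
      (hall_top_iff.1 ((hall_map_iff A.subtype_injective).1 (by rwa [map_top_subtype])))
    refine ⟨a, a.2, ?_⟩
    rw [ha, ← cj_def, map_cj]; rfl
  set f := QuotientGroup.mk' A with hf
  have hfs : Function.Surjective f := QuotientGroup.mk'_surjective A
  have hker : f.ker = A := QuotientGroup.ker_mk' A
  constructor
  · obtain ⟨H', hH'⟩ := hA.1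
    have hH0 : Hall π (H'.map A.subtype) A := by
      have := (hall_map_iff A.subtype_injective).2 (hall_top_iff.2 hH')
      rwa [map_top_subtype] at this
    set H0 := H'.map A.subtype
    obtain ⟨X, hX⟩ := hQ.1
    have hX' := hall_top_iff.2 hX
    set B := X.comap f with hB
    have hAB : A ≤ B := by rw [← hker]; exact Subgroup.ker_le_comap _ _
    have hBi : PiNat πᶜ (B.relIndex ⊤) := by
      have := hX'.idx
      rw [Subgroup.relIndex_top_right] at this ⊢
      rwa [hB, Subgroup.index_comap_of_surjective _ hfs]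
    have hABi : PiNat π (A.relIndex B) := by
      have h1 : A.relIndex B = ♯X := by
        have := Subgroup.relIndex_comap (⊥ : Subgroup (G ⧸ A)) f B
        rw [MonoidHom.comap_bot, hker, Subgroup.relIndex_bot_left, hB,
          Subgroup.map_comap_eq_self_of_surjective hfs] at this
        exact this
      rw [h1]; exact hX'.pi
    set N := B ⊓ 𝐍 H0 with hN
    have hsup : A ⊔ N = B := by
      refine le_antisymm (sup_le hAB inf_le_left) fun b hb => ?_
      obtain ⟨a, ha, e⟩ := conjA H0 (cj b H0) hH0 (hH0.cj_of_norm (nA ⊤ trivial))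
      have : a⁻¹ * b ∈ N := ⟨B.mul_mem (B.inv_mem (hAB ha)) hb, cj_eq_self.1 (by
        rw [← cj_cj, e, cj_inv_cj])⟩
      rw [show b = a * (a⁻¹ * b) by group]
      exact Subgroup.mul_mem_sup ha this
    have hH0N : H0 ⊴ N := ⟨le_inf (hH0.le.trans hAB) (le_norm_self _), inf_le_right⟩
    have hM : A ⊓ N ⊴ N := normalIn_inf_right (nA N)
    have hH0M : H0 ≤ A ⊓ N := le_inf hH0.le hH0N.le
    have hMi : A.relIndex N = A.relIndex B := by
      rw [← hsup, relIndex_sup_norm' (Or.inl (nA N))]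
    have hq : Hall πᶜ (qt H0 (A ⊓ N)) (qt H0 N) := by
      refine ⟨qt_mono _ inf_le_right, ?_, ?_⟩
      · exact (piGrp_qt_iff (inf_le_right.trans hH0N.norm)).2
          (hH0.of_le hH0M inf_le_left).idx
      · rw [relIndex_qt hH0M hH0N.norm, Subgroup.inf_relIndex_right, hMi]
        exact hABi.compl_compl
    obtain ⟨Y, hY, hY'⟩ := hq.exists_compl (hM.qt H0).norm
    have hY'' : Hall π Y (qt H0 N) := by simpa using hY'
    have hH := hY''.qp hH0.pi hH0N
    refine ⟨qp H0 Y, hall_top_iff.1 (Hall.trans_idx (Hall.trans_idx hH inf_le_left ?_) le_top hBi)⟩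
    rw [← hsup, relIndex_sup_norm (Or.inr (nA N)), ← Subgroup.inf_relIndex_right]
    exact hH0.idx_of_le (le_inf hH0N.le hH0.le)
  · intro H K hH hK
    have hH' := hall_top_iff.2 hH
    have hK' := hall_top_iff.2 hK
    simp only [← cj_def]
    have h1 := hH'.map f
    have h2 := hK'.map f
    rw [Subgroup.map_top_of_surjective _ hfs] at h1 h2
    obtain ⟨g', hg'⟩ := hQ.2 _ _ (hall_top_iff.1 h1) (hall_top_iff.1 h2)
    obtain ⟨g, rfl⟩ := hfs g'
    rw [← cj_def, ← map_cj] at hg'
    have h3 : Hall π (cj g H) ⊤ := hH'.cj_top g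
    obtain ⟨a, ha, e⟩ := conjA _ _ (h3.inf_normal hAn) (hK'.inf_normal hAn)
    have h4 : Hall π (cj a (cj g H)) ⊤ := h3.cj_top a
    have hg2 : K.map f = (cj a (cj g H)).map f := by
      rw [map_cj f a, show f a = 1 from (QuotientGroup.eq_one_iff a).2 ha, cj_one, hg']
    rw [cj_inf, cj_of_mem ha] at e
    suffices ∃ x, K = cj x (cj a (cj g H)) by
      obtain ⟨x, hx⟩ := this
      exact ⟨x * a * g, by rw [hx, cj_cj, cj_cj]⟩
    generalize cj a (cj g H) = L at h4 hg2 e
    have hKL : K ≤ A ⊔ L := by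
      have := Subgroup.le_comap_map (f := f) K
      rwa [hg2, Subgroup.comap_map_eq, hker, sup_comm] at this
    set H0 := K ⊓ A with hH0
    have n1 : K ≤ 𝐍 H0 := (normalIn_inf_left (nA K)).norm
    have n2 : L ≤ 𝐍 H0 := by rw [e]; exact (normalIn_inf_left (nA L)).norm
    have hKL' : K ≤ (A ⊓ 𝐍 H0) ⊔ L := by
      rw [← sup_inf_right n2 (Or.inr (nA L))]
      exact le_inf hKL n1
    have hp : PiGrp πᶜ (qt H0 (A ⊓ 𝐍 H0)) :=
      (piGrp_qt_iff inf_le_right).2 ((hK'.inf_normal hAn).of_le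
        (le_inf inf_le_right (le_norm_self _)) inf_le_left).idx
    have hc : (♯(qt H0 K)).Coprime (♯(qt H0 (A ⊓ 𝐍 H0))) := (hK'.pi.qt H0).coprime hp
    obtain ⟨k, hk, hle⟩ := exists_cj_le_of_le_sup (A := qt H0 L) (B := qt H0 K)
      (K := qt H0 (A ⊓ 𝐍 H0)) (qt_norm _ (norm_inf (nA L) (n2.trans (le_norm_self _))))
      (by rw [← qt_sup inf_le_right n2]; exact qt_mono _ hKL') hc (sol_or_of_coprime hc)
    obtain ⟨x, hx, hxn, rfl⟩ := mem_qt.1 hk
    rw [← qt_cj hxn, qt_le_qt_iff' (cj_le_of_mem hxn n1) (by rw [e]; exact inf_le_left)] at hle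
    have := (hK'.cj_top x).eq_of_le' h4 hle
    exact ⟨x⁻¹, by rw [← this, cj_inv_cj]⟩

end Cfsg.Agent.S4310
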