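import Cfsg.Statements.S2535
import Cfsg.Agent.Perm.HallSym2
import Cfsg.Agent.S4310

set_option autoImplicit false
open Cfsg

namespace Cfsg.Agent.S2535

theorem hall_sub {G : Type*} [Group G] [Finite G] {π : Set ℕ} {H : Subgroup G} (h : IsPiHall π H) (N : Subgroup G)
    [N.Normal] : IsPiHall π (H.subgroupOf N) :=
  Subgroup.inf_subgroupOf_right H N ▸ (CF.Solv.isPiHallOf_iff_subgroupOf.1 (CF.Solv.isPiHallOf_inf_normal h N)).2

theorem cPi_perm {n : ℕ} {π : Set ℕ} (h : IsEPiGroup π (alternatingGroup (Fin n))) :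
    IsCPiGroup π (Equiv.Perm (Fin n)) :=
  have := Subgroup.Normal.quotient_commutative_iff_commutator_le.2
    (show commutator _ ≤ alternatingGroup (Fin n) from Abelianization.commutator_subset_ker _)
  have := Group.isSolvable_of_comm (G := Equiv.Perm (Fin n) ⧸ alternatingGroup (Fin n)) this.is_comm.comm
  Cfsg.Agent.S4310.result π _ (CF.Perm.cPi_alt h) CF.Perm.cPi_of_isSolvable

/-- For every `n` and every set of primes `π`, the following are equivalent for the symmetric group `S` of degree `n` and its alternating subgroup `A`: `S` has a Hall `π`-subgroup; `S` has a Hall `π`-subgroup and all of them are conjugate; `A` has a Hall `π`-subgroup; `A` has a Hall `π`-subgroup and all of them are conjugate. -/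
theorem result (n : ℕ) (π : Set ℕ) :
    (Cfsg.IsEPiGroup π (Equiv.Perm (Fin n)) ↔ Cfsg.IsCPiGroup π (Equiv.Perm (Fin n))) ∧
    (Cfsg.IsEPiGroup π (Equiv.Perm (Fin n)) ↔ Cfsg.IsEPiGroup π ↥(alternatingGroup (Fin n))) ∧
    (Cfsg.IsEPiGroup π ↥(alternatingGroup (Fin n)) ↔ Cfsg.IsCPiGroup π ↥(alternatingGroup (Fin n))) := by
  have h : IsEPiGroup π (Equiv.Perm (Fin n)) → IsEPiGroup π (alternatingGroup (Fin n)) :=
    fun ⟨_, h⟩ => ⟨_, hall_sub h _⟩
  exact ⟨⟨fun k => cPi_perm (h k), fun k => k.1⟩, ⟨h, fun k => (cPi_perm k).1⟩, CF.Perm.cPi_alt, fun k => k.1⟩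

end Cfsg.Agent.S2535
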