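import Cfsg.Statements.S2536
import Cfsg.Agent.Perm.HallSym2

set_option autoImplicit false
open Cfsg

namespace Cfsg.Agent.S2536

open CF.Perm Finset

/-- Let `π` be a set of primes and `n` a natural number such that at least two primes of `π` divide `n!` but not every prime dividing `n!` lies in `π`. Then the symmetric group of degree `n` has a Hall `π`-subgroup if and only if either `n` is prime and the primes of `π` dividing `n!` are exactly the primes smaller than `n` (a point stabilizer is then such a subgroup), or `n ∈ {7, 8}` and the primes of `π` dividing `n!` are exactly 2 and 3. -/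
theorem result (n : ℕ) (π : Set ℕ)
    (h2 : ∃ r s : ℕ, r.Prime ∧ s.Prime ∧ r ≠ s ∧ r ∈ π ∧ s ∈ π ∧ r ≤ n ∧ s ≤ n)
    (hns : ∃ r : ℕ, r.Prime ∧ r ≤ n ∧ r ∉ π) :
    Cfsg.IsEPiGroup π (Equiv.Perm (Fin n)) ↔
      ((n.Prime ∧ ∀ r : ℕ, r.Prime → r ≤ n → (r ∈ π ↔ r < n)) ∨
       ((n = 7 ∨ n = 8) ∧ ∀ r : ℕ, r.Prime → r ≤ n → (r ∈ π ↔ (r = 2 ∨ r = 3)))) := by
  obtain ⟨t, t1, t2, t3⟩ := hns
  have hn : 5 ≤ n := by
    by_contra! hn
    obtain ⟨r, s, h1, h2, h3, h4, h5, h6, h7⟩ := h2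
    have k : ∀ p, p.Prime → p ≤ n → p = 2 ∨ p = 3 := fun p hp e => by
      have : p ≤ 4 := by omega
      interval_cases p <;> first | contradiction | omega
    rcases k r h1 h6 with rfl | rfl <;> rcases k s h2 h7 with rfl | rfl <;> rcases k t t1 t2 with rfl | rfl <;>
      contradiction
  have k : ∀ r : ℕ, r.Prime → (r ≤ 4 ↔ r = 2 ∨ r = 3) := fun r hr =>
    ⟨fun e => by interval_cases r <;> first | contradiction | omega, by omega⟩
  refine ⟨fun ⟨H, hH⟩ => ?_, fun h => ?_⟩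
  · have h3 := CF.Solv.isPiHallOf_inf_normal hH (alternatingGroup _)
    rcases hall_alt h3 (by simpa) (by rwa [Fintype.card_fin]) with h | ⟨X, h4, -, h5⟩
    · exact (t3 (h3.2.1 t t1 (h.symm ▸ (dvd_card_alt (by simp; omega) t1).2 (by simpa)))).elim
    simp only [Ex, Fintype.card_fin] at h4 h5
    exact h4.imp (fun h => ⟨h.2, fun r hr e => (h5 r hr e).trans (by omega)⟩)
      fun h => ⟨h.2, fun r hr e => (h5 r hr e).trans (by rw [h.1]; exact k r hr)⟩
  obtain ⟨X, h3, h4⟩ : ∃ X : Finset (Fin n), Ex X ∧ ∀ r, r.Prime → r ≤ n → (r ∈ π ↔ r ≤ #X) := by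
    rcases h with h | h
    · obtain ⟨X, -, hX⟩ := exists_subset_card_eq (s := (univ : Finset (Fin n))) (n := n - 1) (by simp)
      exact ⟨X, .inl (by simpa [h.1] using by omega), fun r hr e => (h.2 r hr e).trans (by omega)⟩
    · obtain ⟨X, -, hX⟩ := exists_subset_card_eq (s := (univ : Finset (Fin n))) (n := 4) (by simp; omega)
      exact ⟨X, .inr ⟨hX, by simpa using h.1⟩, fun r hr e => (h.2 r hr e).trans (hX ▸ (k r hr).symm)⟩
  have h5 := h3.le (by simpa)
  have h6 : ∀ p, p.Prime → ∀ m, p ∣ m → m ∣ Nat.card (Equiv.Perm (Fin n)) → p ≤ n := fun p hp m h1 h2 => by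
    simpa only [Nat.card_perm, hp.dvd_factorial, Nat.card_fin] using h1.trans h2
  exact ⟨bis X, fun p hp d => (h4 p hp (h6 p hp _ d (Subgroup.card_subgroup_dvd_card _))).2
    (le_of_dvd_card_bis hp d (by omega) h5.2), fun p hp e d => h3.not_dvd hp
      ((h4 p hp (h6 p hp _ d (Subgroup.index_dvd_card _))).1 e) d⟩

end Cfsg.Agent.S2536
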