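import Cfsg.Statements.S2537
import Cfsg.Agent.Classical.MaxL2c
import Cfsg.Agent.Classical.PSL2
import Cfsg.Agent.Solv.Hall

set_option autoImplicit false
open Cfsg

namespace Cfsg.Agent.S2537

section
theorem dvd24 {q : ℕ} (c2 : ¬ 2 ∣ q) (c3 : ¬ 3 ∣ q) : 24 ∣ q ^ 2 - 1 := by
  refine (Nat.modEq_iff_dvd' (Nat.one_le_pow _ _ (by omega))).1 (Nat.ModEq.symm ?_)
  unfold Nat.ModEq
  rw [Nat.pow_mod]
  have : q % 24 < 24 := Nat.mod_lt _ (by norm_num)
  have e2 : ¬ 2 ∣ q % 24 := by omega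
  have e3 : ¬ 3 ∣ q % 24 := by omega
  generalize q % 24 = r at *
  interval_cases r <;> simp_all

theorem mod8 {q : ℕ} (h : 0 < q) (h6 : 16 ∣ q ^ 2 - 1) : q % 8 = 1 ∨ q % 8 = 7 := by
  have h7 := ((Nat.modEq_iff_dvd' (Nat.one_le_pow _ _ h)).2 h6).symm
  unfold Nat.ModEq at h7
  rw [Nat.pow_mod] at h7
  have : q % 16 < 16 := Nat.mod_lt _ (by norm_num)
  rw [← Nat.mod_mod_of_dvd q (show 8 ∣ 16 by norm_num)]
  generalize q % 16 = r at *
  interval_cases r <;> simp_all
end

/-- Let `F` be a finite field with `q` elements of characteristic `p ≥ 5`, and `ε = 1` if `q ≡ 1 (mod 4)`, `ε = -1` otherwise. Then `PSL(2, F)` has a Hall `{2, 3}`-subgroup if and only if `3` divides `q − ε`, or the `{2,3}`-part of `q² − 1` is 24, or the `{2,3}`-part of `q² − 1` is 48 (the `{2,3}`-part of `m` being the largest divisor of `m` with no prime factor other than 2 and 3). -/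
theorem result {F : Type*} [Field F] [Fintype F] {p : ℕ} [Fact p.Prime] [CharP F p]
    (hp : 5 ≤ p) (q : ℕ) (hq : Fintype.card F = q) :
    (∃ H : Subgroup (Matrix.ProjectiveSpecialLinearGroup (Fin 2) F), Cfsg.IsPiHall ({2, 3} : Set ℕ) H) ↔
      (3 ∣ q - 1 ∧ q % 4 = 1) ∨ (3 ∣ q + 1 ∧ q % 4 = 3) ∨
        2 ^ (q ^ 2 - 1).factorization 2 * 3 ^ (q ^ 2 - 1).factorization 3 = 24 ∨
        2 ^ (q ^ 2 - 1).factorization 2 * 3 ^ (q ^ 2 - 1).factorization 3 = 48 := by
  open CF.Classical Subgroup MatrixGroups MulAction in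
  let K := AlgebraicClosure F
  have L := isL2_PSL F K
  have := L.finite
  have hp' : p.Prime := Fact.out
  rw [← Nat.card_eq_fintype_card] at hq
  obtain ⟨n, hn, hq'⟩ := exists_card_eq_pow F p
  rw [hq] at hq'
  have c2 : ¬ 2 ∣ q := fun h => by
    have := (Nat.prime_dvd_prime_iff_eq Nat.prime_two hp').1 (Nat.prime_two.dvd_of_dvd_pow (hq' ▸ h))
    omega
  have c3 : ¬ 3 ∣ q := fun h => by
    have := (Nat.prime_dvd_prime_iff_eq Nat.prime_three hp').1
      (Nat.prime_three.dvd_of_dvd_pow (hq' ▸ h))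
    omega
  have h2 : (2 : F) ≠ 0 := two_ne_zero_of_char_ne_two F p (by omega)
  have hi := (index_range_pslToPGL F).trans (gcd_two_of_odd (odd_card_of_two_ne_zero h2))
  have hq1 : 2 ≤ q := hq ▸ Finite.one_lt_card
  have hs : q ^ 2 - 1 = (q - 1) * (q + 1) := by
    obtain ⟨r, rfl⟩ : ∃ r, q = r + 1 := ⟨q - 1, by omega⟩
    rw [Nat.sub_eq_iff_eq_add (Nat.one_le_pow _ _ (by omega)), Nat.add_sub_cancel]; ring
  have h0 : q ^ 2 - 1 ≠ 0 := hs ▸ mul_ne_zero (by omega) (by omega)
  obtain ⟨a, n1, d1, e1⟩ := Nat.exists_eq_pow_mul_and_not_dvd h0 2 (by norm_num)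
  obtain ⟨b, m, d2, rfl⟩ := Nat.exists_eq_pow_mul_and_not_dvd (n := n1)
    (by rintro rfl; simp at d1) 3 (by norm_num)
  have d3 : ¬ 2 ∣ m := fun h => d1 (h.mul_left _)
  have m0 : m ≠ 0 := by rintro rfl; simp at d2
  have f2 : (q ^ 2 - 1).factorization 2 = a := by
    simp [e1, Nat.factorization_mul, m0, Nat.prime_two.factorization_self,
      Nat.factorization_eq_zero_of_not_dvd d3,
      Nat.factorization_eq_zero_of_not_dvd (show ¬ 2 ∣ 3 by norm_num)]
  have f3 : (q ^ 2 - 1).factorization 3 = b := by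
    simp [e1, Nat.factorization_mul, m0, Nat.prime_three.factorization_self,
      Nat.factorization_eq_zero_of_not_dvd d2,
      Nat.factorization_eq_zero_of_not_dvd (show ¬ 3 ∣ 2 by norm_num)]
  rw [f2, f3]
  have cop : ∀ {x y : ℕ}, (∀ r, r.Prime → r ∣ x → r = 2 ∨ r = 3) → ¬ 2 ∣ y → ¬ 3 ∣ y →
      x.Coprime y := fun h1 h2 h3 => Nat.coprime_of_dvd fun r hr h4 h5 => by
    rcases h1 r hr h4 with rfl | rfl <;> contradiction
  have pN : ∀ r, r.Prime → r ∣ 2 ^ a * 3 ^ b → r = 2 ∨ r = 3 := fun r hr h =>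
    ((Nat.Prime.dvd_mul hr).1 h).imp
      (fun h => (Nat.prime_dvd_prime_iff_eq hr Nat.prime_two).1 (hr.dvd_of_dvd_pow h))
      fun h => (Nat.prime_dvd_prime_iff_eq hr Nat.prime_three).1 (hr.dvd_of_dvd_pow h)
  have c4 : ¬ 2 ∣ q * m := by simp [Nat.prime_two.dvd_mul, c2, d3]
  have c5 : ¬ 3 ∣ q * m := by simp [Nat.prime_three.dvd_mul, c3, d2]
  have hG : ∀ H : Subgroup PSL(2, F), 2 * Nat.card H * H.index = 2 ^ a * 3 ^ b * (q * m) :=
    fun H => by
      have := L.card_mul_index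
      rw [hi, hq, e1, ← H.card_mul_index] at this
      linear_combination this
  have key : ∀ H : Subgroup PSL(2, F), IsPiHall {2, 3} H ↔ 2 * Nat.card H = 2 ^ a * 3 ^ b := by
    intro H
    refine ⟨fun ⟨h3, h4⟩ => Nat.dvd_antisymm ?_ ?_, fun h => ⟨fun r hr h3 =>
      pN r hr (h ▸ h3.mul_left 2), ?_⟩⟩
    · refine (cop (fun r hr h => ?_) c4 c5).dvd_of_dvd_mul_right (hG H ▸ dvd_mul_right _ _)
      exact ((Nat.Prime.dvd_mul hr).1 h).elim
        (fun h => Or.inl ((Nat.prime_dvd_prime_iff_eq hr Nat.prime_two).1 h)) (h3 r hr)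
    · exact (cop pN (h4 2 Nat.prime_two (by simp)) (h4 3 Nat.prime_three (by simp))).dvd_of_dvd_mul_right
        (hG H ▸ dvd_mul_right _ _)
    · have := hG H
      rw [h] at this
      rw [Nat.eq_of_mul_eq_mul_left (by positivity) this]
      rintro r - (rfl | rfl) <;> assumption
  refine ⟨fun ⟨H, hH⟩ => ?_, fun h => ?_⟩
  · have h3 := (key H).1 hH
    have h4 : 12 ∣ Nat.card H := by
      have : 8 * 3 ∣ 2 ^ a * 3 ^ b * m := by
        rw [mul_assoc, ← e1]
        exact dvd24 c2 c3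
      have := (Nat.Coprime.mul_left ((Nat.prime_two.coprime_iff_not_dvd.2 d3).pow_left 3)
        (Nat.prime_three.coprime_iff_not_dvd.2 d2)).dvd_of_dvd_mul_right this
      omega
    have h5 : ¬ Nonempty (H ≃* alternatingGroup (Fin 5)) := fun h => by
      have := hH.1 5 (by norm_num) (by rw [card_of_equiv h, card_A5]; norm_num)
      simp at this
    rcases L.dickson H with ⟨x, h⟩ | ⟨x, y, hxy, h6, h⟩ | ⟨-, h | h | h⟩ | ⟨-, h⟩ |
      ⟨K', c, H', h6, h⟩
    · have h7 := L.card_stabilizer_ratPt x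
      rw [hi, hq] at h7
      obtain ⟨c, hc⟩ := (cop pN c2 c3).dvd_of_dvd_mul_left
        (h7 ▸ h3 ▸ mul_comm 2 _ ▸ mul_dvd_mul_right (card_dvd_of_le h) 2)
      rw [hs, hc, mul_assoc, mul_assoc, Nat.mul_right_inj (by positivity),
        Nat.mul_right_inj (by positivity)] at e1
      exact absurd (e1 ▸ (by omega : 2 ∣ q + 1).mul_left c) d3
    · obtain ⟨⟨t, t1, t2⟩, h7⟩ := L.torus_cases hxy h6
      have h8 := h4.trans (card_dvd_of_le h)
      rw [card_pairStab hxy t1 t2, mul_comm] at h8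
      rw [hi, hq] at h7
      rcases h7 with ⟨-, h7⟩ | ⟨-, -, h7⟩ <;> rw [h7] at h8 <;> omega
    · rw [← h3, card_of_equiv h, card_A4]; simp
    · rw [← h3, card_of_equiv h, card_S4]; simp
    · exact absurd h h5
    · exact absurd h h5
    · have h7 : p ∣ Nat.card H := by
        rw [card_of_equiv ⟨equivMapToPGL H⟩, h, card_map_subPGL]
        refine dvd_trans ?_ (card_dvd_of_le h6)
        obtain ⟨k, hk, h8⟩ := exists_card_eq_pow K' p
        have := two_mul_card_psl (two_ne_zero_subfield h2 K')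
        refine ((Nat.coprime_primes hp' Nat.prime_two).2 (by omega)).dvd_of_dvd_mul_left ?_
        rw [this, h8]
        exact (dvd_pow_self p hk.ne').mul_right _
      have := hH.1 p hp' h7
      simp at this
      omega
  · have tor : ∀ n, (n * 2 = q - 1 ∨ n * 2 = q + 1) → 6 ∣ n →
        ∃ H : Subgroup PSL(2, F), IsPiHall {2, 3} H := fun n h h6 => by
      obtain ⟨x, y, hxy, hT⟩ := L.exists_torus_card (n := n) (by rwa [hi, hq])
      have hT0 : torus PSL(2, F) x y ≠ ⊥ := fun h => by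
        rw [h, card_bot] at hT
        omega
      obtain ⟨t, t1, t2⟩ := (L.torus_cases hxy hT0).1
      have := isSolvable_pairStab (H := PSL(2, F)) hxy
      obtain ⟨H, hH⟩ := CF.Solv.exists_isPiHallOf {2, 3} (pairStab PSL(2, F) x y)
      refine ⟨H, CF.Solv.isPiHall_of_isPiHallOf hH fun r hr h7 h8 => ?_⟩
      have h9 := L.card_mul_index
      rw [hi, hq, hs, ← (pairStab _ x y).card_mul_index, card_pairStab hxy t1 t2, hT] at h9
      have n0 : 0 < n := by omega
      rcases h with h | h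
      · rw [← h] at h9
        have : (pairStab PSL(2, F) x y).index * 2 = q * (q + 1) :=
          Nat.eq_of_mul_eq_mul_left (show 0 < n * 2 by omega) (by linear_combination h9)
        have h10 := Nat.mul_dvd_mul_right h7 2
        rw [this] at h10
        rcases h8 with rfl | rfl
        · have := (Nat.Coprime.pow_left 2 ((Nat.prime_two.coprime_iff_not_dvd).2 c2)
            ).dvd_of_dvd_mul_left h10
          omega
        · have := ((Nat.prime_three.coprime_iff_not_dvd).2 c3).dvd_of_dvd_mul_left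
            ((dvd_mul_right 3 2).trans h10)
          omega
      · rw [← h] at h9
        have : (pairStab PSL(2, F) x y).index * 2 = q * (q - 1) :=
          Nat.eq_of_mul_eq_mul_left (show 0 < n * 2 by omega) (by linear_combination h9)
        have h10 := Nat.mul_dvd_mul_right h7 2
        rw [this] at h10
        rcases h8 with rfl | rfl
        · have := (Nat.Coprime.pow_left 2 ((Nat.prime_two.coprime_iff_not_dvd).2 c2)
            ).dvd_of_dvd_mul_left h10
          omega
        · have := ((Nat.prime_three.coprime_iff_not_dvd).2 c3).dvd_of_dvd_mul_left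
            ((dvd_mul_right 3 2).trans h10)
          omega
    rcases h with h | h | h | h
    · exact tor ((q - 1) / 2) (by omega) (by omega)
    · exact tor ((q + 1) / 2) (by omega) (by omega)
    · obtain ⟨S, h3, h4⟩ := exists_A4_le_psl (Or.inl h2)
      obtain ⟨H, hH⟩ := exists_subgroup_PSL_equiv h3 h4
      exact ⟨H, (key H).2 (by rw [card_of_equiv hH, card_A4, h])⟩
    · obtain ⟨S, h3, h4⟩ := exists_S4 h2
      have h5 : q % 8 = 1 ∨ q % 8 = 7 := by
        have h6 : 16 ∣ q ^ 2 - 1 := by rw [e1, ← mul_assoc, h]; omega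
        exact mod8 (by omega) h6
      obtain ⟨H, hH⟩ := exists_subgroup_PSL_equiv
        (h3.2 ((isSquare_two_iff_card h2).2 (hq ▸ h5))) h4
      exact ⟨H, (key H).2 (by rw [card_of_equiv hH, card_S4, h])⟩

end Cfsg.Agent.S2537
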