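import Cfsg.Statements.S2538
import Cfsg.Agent.S2535

set_option autoImplicit false
open Cfsg

namespace Cfsg.Agent.S2538

open CF.Transfer

/-- For every `n` and every set of primes `π`, a subgroup of the alternating group of degree `n` is a Hall `π`-subgroup of it if and only if it is the intersection with the alternating group of some Hall `π`-subgroup of the symmetric group of degree `n`. -/
theorem result (n : ℕ) (π : Set ℕ)
    (M : Subgroup ↥(alternatingGroup (Fin n))) :
    Cfsg.IsPiHall π M ↔ ∃ M₀ : Subgroup (Equiv.Perm (Fin n)), Cfsg.IsPiHall π M₀ ∧ M = M₀.subgroupOf (alternatingGroup (Fin n)) := by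
  refine ⟨fun h => ?_, fun ⟨_, h, e⟩ => e ▸ S2535.hall_sub h _⟩
  obtain ⟨H, hH⟩ := (S2535.cPi_perm ⟨M, h⟩).1
  obtain ⟨g, rfl⟩ := (CF.Perm.cPi_alt ⟨M, h⟩).2 _ M (S2535.hall_sub hH _) h
  exact ⟨cj g H, CF.Solv.isPiHall_smul hH (MulAut.conj g.1), Subgroup.ext fun x => by
    simp only [← cj_def, mem_cj, Subgroup.mem_subgroupOf]; rfl⟩

end Cfsg.Agent.S2538
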