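import Cfsg.Statements.S2540
import Cfsg.Agent.S1259
import Cfsg.Agent.Classical.SmallIso

set_option autoImplicit false
open Cfsg

namespace Cfsg.Agent.S2540

/-- Let F be a finite field and n ≥ 1, excluding the case n = 2 with #F ≤ 3. A subgroup of GL_n(F) that is normalized by every element of SL_n(F) either consists of scalar matrices or contains SL_n(F). -/
theorem result {F : Type*} [Field F] [Fintype F] (n : ℕ) (hn : 1 ≤ n) (hex : ¬ (n = 2 ∧ Fintype.card F ≤ 3)) (G : Subgroup (Matrix.GeneralLinearGroup (Fin n) F)) (hG : ∀ s : Matrix.SpecialLinearGroup (Fin n) F, ∀ g ∈ G, (Matrix.SpecialLinearGroup.toGL s) * g * (Matrix.SpecialLinearGroup.toGL s)⁻¹ ∈ G) : (∀ g ∈ G, ∃ c : F, (g : Matrix (Fin n) (Fin n) F) = c • (1 : Matrix (Fin n) (Fin n) F)) ∨ (Matrix.SpecialLinearGroup.toGL : Matrix.SpecialLinearGroup (Fin n) F →* _).range ≤ G := by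
  open Matrix Matrix.SpecialLinearGroup Subgroup in
  obtain rfl | h2 : n = 1 ∨ 2 ≤ n := by omega
  · exact Or.inl fun g _ => ⟨g.1 0 0, by ext i j; fin_cases i; fin_cases j; simp⟩
  have : Nontrivial (Fin n) := Fin.nontrivial_iff_two_le.2 h2
  have hp : commutator (Matrix.SpecialLinearGroup (Fin n) F) = ⊤ := by
    obtain rfl | h3 : n = 2 ∨ 3 ≤ n := by omega
    · exact CF.Classical.commutator_SL2_eq_top (by rw [Nat.card_eq_fintype_card]; omega)
    · exact CF.Classical.commutator_SL_eq_top (by simpa)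
  have hN : (G.comap Matrix.SpecialLinearGroup.toGL).Normal := ⟨fun g hg s => by
    simpa using hG s _ hg⟩
  rcases Cfsg.Agent.S1259.result ⟨⟨hp⟩, CF.Classical.isSimpleGroup_PSL_of_perfect hp⟩ _
    hN.isSubnormal with h | h
  · exact Or.inr (by rintro _ ⟨s, rfl⟩; exact h.ge (Subgroup.mem_top s))
  refine Or.inl fun g hg => ?_
  obtain ⟨S, hS⟩ : ∃ S, S = (Matrix.SpecialLinearGroup.toGL :
    Matrix.SpecialLinearGroup (Fin n) F →* _).range := ⟨_, rfl⟩
  have h1 : ⁅⁅S, G⁆, S⁆ = ⊥ := by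
    rw [Subgroup.commutator_eq_bot_iff_le_centralizer, Subgroup.commutator_le, hS]
    rintro _ ⟨s, rfl⟩ x hx _ ⟨t, rfl⟩
    obtain ⟨u, hu⟩ : Matrix.SpecialLinearGroup.toGL s * x * (Matrix.SpecialLinearGroup.toGL s)⁻¹ * x⁻¹ ∈
         (Matrix.SpecialLinearGroup.toGL :
        Matrix.SpecialLinearGroup (Fin n) F →* _).range := by
      rw [CF.Classical.toGL_range_eq_ker_det]; simp
    rw [commutatorElement_def, ← hu, ← map_mul, ← map_mul, Subgroup.mem_center_iff.1 (h (x := u) (by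
      simpa [hu] using mul_mem (hG s x hx) (inv_mem hx)))]
  have h3 := Subgroup.commutator_commutator_eq_bot_of_rotate h1
    (Subgroup.commutator_comm S G ▸ h1)
  rw [show ⁅S, S⁆ = S by
    rw [hS, MonoidHom.range_eq_map, ← Subgroup.map_commutator]; exact congrArg _ hp,
    Subgroup.commutator_eq_bot_iff_le_centralizer, hS] at h3
  obtain ⟨c, hc⟩ := Matrix.mem_range_scalar_of_commute_transvectionStruct (M := g.1) fun t =>
    congrArg Units.val (h3 ⟨⟨t.toMatrix, by simp⟩, rfl⟩ g hg).symm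
  exact ⟨c, by rw [← hc]; ext i j; simp [Matrix.one_apply, Matrix.diagonal_apply]⟩

end Cfsg.Agent.S2540
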