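import Cfsg.Statements.S2541
import Cfsg.Agent.Classical.PSL2

set_option autoImplicit false
open Cfsg

namespace Cfsg.Agent.S2541

/-- Let F be a field with 9 elements. The symmetric group S_6 is not isomorphic to PGL_2(F) (although both have index-2 subgroups isomorphic to A_6). -/
theorem result {F : Type*} [Field F] [Fintype F] (hF : Fintype.card F = 9) : ¬ Nonempty (Equiv.Perm (Fin 6) ≃* Matrix.ProjGenLinGroup (Fin 2) F) := by
  open CF.Classical MatrixGroups in
  rw [← Nat.card_eq_fintype_card] at *
  rintro ⟨e⟩
  obtain ⟨g, hg, -⟩ := (isL2_PGL F (AlgebraicClosure F)).exists_card_centralizer (n := 8) (m := 8)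
    (Or.inl (by rw [index_range_id, hF])) dvd_rfl (by decide)
  have h2 : orderOf (e.symm g) = 8 := by rw [MulEquiv.orderOf_eq, hg]
  have h3 : (e.symm g).cycleType.lcm ∣ 60 := by
    refine Multiset.lcm_dvd.2 fun n hn => ?_
    have h4 := Equiv.Perm.two_le_of_mem_cycleType hn
    have h5 : n ≤ 6 := (Equiv.Perm.le_card_support_of_mem_cycleType hn).trans
      ((Finset.card_le_univ _).trans (by simp))
    interval_cases n <;> decide
  rw [Equiv.Perm.lcm_cycleType, h2] at h3
  exact absurd h3 (by decide)

end Cfsg.Agent.S2541
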