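import Cfsg.Statements.S2542
import Cfsg.Agent.Classical.MaxL2
import Cfsg.Agent.S0675

set_option autoImplicit false
open Cfsg

namespace Cfsg.Agent.S2542

/-- Let F be a field with 11 elements. PSL_2(F) has a subgroup H of index 11 isomorphic to the alternating group A_5, and the action of PSL_2(F) on the cosets of H is 2-transitive (of degree 11). -/
theorem result {F : Type*} [Field F] [Fintype F] (hF : Fintype.card F = 11) : ∃ H : Subgroup (Matrix.ProjectiveSpecialLinearGroup (Fin 2) F), H.index = 11 ∧ Nonempty (H ≃* alternatingGroup (Fin 5)) ∧ MulAction.IsMultiplyPretransitive (Matrix.ProjectiveSpecialLinearGroup (Fin 2) F) ((Matrix.ProjectiveSpecialLinearGroup (Fin 2) F) ⧸ H) 2 := by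
  open CF.Classical MatrixGroups MulAction in
  classical
  rw [← Nat.card_eq_fintype_card] at hF
  have L := isL2_PSL F F
  obtain ⟨t, ht⟩ := exists_root_five (F := F) (by rw [hF]; norm_num)
  obtain ⟨S, h1, h2⟩ := exists_A5_le_psl ht
  obtain ⟨H, rfl⟩ := exists_map_toPGL_eq h1
  have h3 : Nonempty (H ≃* alternatingGroup (Fin 5)) :=
    ⟨(H.equivMapOfInjective _ L.inj).trans h2.some⟩
  have h4 : Nat.card PSL(2, F) = 660 := card_PSL2_of_card hF (by norm_num)
  have h5 : Nat.card H = 60 := by
    rw [Nat.card_congr h3.some.toEquiv, card_A5]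
  have h6 := H.index_mul_card
  rw [h4, h5] at h6
  have h7 : H.index = 11 := by omega
  refine ⟨H, h7, h3, ?_⟩
  have := isSimpleGroup_PSL2 (F := F) (by omega)
  have : Fintype (PSL(2, F) ⧸ H) := Fintype.ofFinite _
  have h8 : Fintype.card (PSL(2, F) ⧸ H) = 11 := by
    rw [← Nat.card_eq_fintype_card]; exact h7
  have : IsPretransitive (toPermHom PSL(2, F) (PSL(2, F) ⧸ H)).range (PSL(2, F) ⧸ H) :=
    ⟨fun x y => by
      obtain ⟨g, hg⟩ := exists_smul_eq PSL(2, F) x y
      exact ⟨⟨_, g, rfl⟩, hg⟩⟩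
  rcases Cfsg.Agent.S0675.result (by rw [h8]; norm_num)
    (toPermHom PSL(2, F) (PSL(2, F) ⧸ H)).range with h | h
  · exfalso
    rcases (inferInstance : (toPermHom PSL(2, F) (PSL(2, F) ⧸ H)).ker.Normal).eq_bot_or_eq_top with
      e | e
    · exact not_isSolvable_PSL2 (F := F) (by omega) (isSolvable_of_equiv
        (MonoidHom.ofInjective ((MonoidHom.ker_eq_bot_iff _).1 e)) h)
    · rw [← Subgroup.normalCore_eq_ker] at e
      have := top_le_iff.1 (e.ge.trans H.normalCore_le)
      rw [this, Subgroup.index_top] at h7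
      omega
  · rw [isMultiplyPretransitive_iff] at h ⊢
    intro x y
    obtain ⟨⟨_, g, rfl⟩, hg⟩ := h x y
    exact ⟨g, hg⟩

end Cfsg.Agent.S2542
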