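import Cfsg.Statements.S2543
import Cfsg.Agent.Classical.MaxL2
import Cfsg.Agent.Classical.Subfields

set_option autoImplicit false
open scoped Pointwise
open Cfsg

namespace Cfsg.Agent.S2543

open CF.Classical MatrixGroups Subgroup in
theorem norm_eq {F : Type*} [Field F] [Finite F] (hF : Nat.card F = 11) {S : Subgroup PGL(2, F)}
    (hS : Nonempty (S ≃* alternatingGroup (Fin 5))) : normalizer (S : Set PGL(2, F)) = S := by
  have h5 : Nat.card S = 60 := by rw [Nat.card_congr hS.some.toEquiv, card_A5]
  rcases (isL2_PGL F (AlgebraicClosure F)).dickson_solvable (normalizer (S : Set PGL(2, F))) with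
    e | e | ⟨K, c, H, h9, e⟩
  · exact absurd (isSolvable_of_equiv hS.some.symm (isSolvable_of_le le_normalizer e))
      not_isSolvable_A5
  · refine (eq_of_le_of_card_ge le_normalizer ?_).symm
    rw [h5, Nat.card_congr e.some.toEquiv, card_A5]
  · exfalso
    have hK : K = ⊤ := by
      obtain ⟨m, hm, h⟩ := card_subfield_pow_of_le (le_top : K ≤ ⊤)
      rw [card_subfield_top, hF] at h
      rw [subfield_eq_top_iff_card, hF]
      exact ((Nat.Prime.pow_eq_iff (by norm_num)).1 h).1
    subst hK
    rw [map_id] at e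
    have h1 : psl F ≤ normalizer (S : Set PGL(2, F)) := by
      rw [e, ← map_subPGL_top_psl c]; exact map_mono h9
    have h2 := A5_le_psl hS
    have : IsSimpleGroup (psl F) :=
      have := isSimpleGroup_PSL2 (F := F) (by omega)
      (pslEquiv F).symm.isSimpleGroup
    have h3 : (S.subgroupOf (psl F)).Normal := (normal_subgroupOf_iff_le_normalizer h2).2 h1
    have h4 : Nat.card (S.subgroupOf (psl F)) = 60 := by
      rw [← h5]; exact Nat.card_congr (subgroupOfEquivOfLe h2).toEquiv
    have h6 : Nat.card (psl F) = 660 := by rw [card_psl]; exact card_PSL2_of_card hF (by norm_num)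
    rcases h3.eq_bot_or_eq_top with h | h
    · rw [h, card_bot] at h4; omega
    · rw [h, card_top, h6] at h4; omega



/-- Let F be a field with 11 elements. PSL_2(F) has exactly 22 subgroups isomorphic to the alternating group A_5, and they form two conjugacy classes: there are two such subgroups that are not conjugate, and every such subgroup is conjugate to one of these two. -/
theorem result {F : Type*} [Field F] [Fintype F] (hF : Fintype.card F = 11) : Nat.card {H : Subgroup (Matrix.ProjectiveSpecialLinearGroup (Fin 2) F) // Nonempty (H ≃* alternatingGroup (Fin 5))} = 22 ∧ ∃ H K : Subgroup (Matrix.ProjectiveSpecialLinearGroup (Fin 2) F), Nonempty (H ≃* alternatingGroup (Fin 5)) ∧ Nonempty (K ≃* alternatingGroup (Fin 5)) ∧ (∀ g : Matrix.ProjectiveSpecialLinearGroup (Fin 2) F, MulAut.conj g • H ≠ K) ∧ ∀ L : Subgroup (Matrix.ProjectiveSpecialLinearGroup (Fin 2) F), Nonempty (L ≃* alternatingGroup (Fin 5)) → ∃ g : Matrix.ProjectiveSpecialLinearGroup (Fin 2) F, MulAut.conj g • L = H ∨ MulAut.conj g •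 L = K := by
  open CF.Classical MatrixGroups in
  rw [← Nat.card_eq_fintype_card] at hF
  have h2 : (2 : F) ≠ 0 := two_ne_zero_of_odd_card (by rw [hF]; decide)
  have L := isL2_PSL F F
  have hi := index_psl_of_odd h2
  have up : ∀ W : Subgroup PSL(2, F), Nonempty (W ≃* alternatingGroup (Fin 5)) →
      Nonempty (W.map Matrix.ProjectiveSpecialLinearGroup.toPGL ≃* alternatingGroup (Fin 5)) :=
    fun W h => ⟨(W.equivMapOfInjective _ L.inj).symm.trans h.some⟩
  have dn : ∀ W : Subgroup PSL(2, F),
      Nonempty (W.map Matrix.ProjectiveSpecialLinearGroup.toPGL ≃* alternatingGroup (Fin 5)) →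
      Nonempty (W ≃* alternatingGroup (Fin 5)) :=
    fun W h => ⟨(W.equivMapOfInjective _ L.inj).trans h.some⟩
  have key : ∀ (V W : Subgroup PSL(2, F)) (c : PGL(2, F)), c ∈ psl F →
      W.map Matrix.ProjectiveSpecialLinearGroup.toPGL =
      (V.map Matrix.ProjectiveSpecialLinearGroup.toPGL).map (MulAut.conj c).toMonoidHom →
      ∃ g : PSL(2, F), MulAut.conj g • V = W := fun V W c hc h => by
    obtain ⟨g, rfl⟩ := L.psl_le hc
    exact ⟨g, Subgroup.map_injective L.inj (by rw [h, ← map_map_conj]; rfl)⟩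
  obtain ⟨t, ht⟩ := exists_root_five (F := F) (by rw [hF]; norm_num)
  obtain ⟨V, h4, h3⟩ := exists_A5_le_psl ht
  have h5 := norm_eq hF h3
  constructor
  · have h6 := ncard_conj_subgroup V
    have h7 := V.index_mul_card
    rw [h5] at h6
    rw [← h6, Nat.card_congr h3.some.toEquiv, card_A5, card_PGL_two, hF] at h7
    have h8 : {W : Subgroup PGL(2, F) | ∃ c, W = V.map (MulAut.conj c).toMonoidHom} =
        Subgroup.map Matrix.ProjectiveSpecialLinearGroup.toPGL ''
          {W | Nonempty (W ≃* alternatingGroup (Fin 5))} := by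
      ext W
      constructor
      · rintro ⟨c, rfl⟩
        obtain ⟨W, hW⟩ := exists_map_toPGL_eq (map_conj_le_psl_iff (c := c).2 h4)
        exact ⟨W, dn W (hW ▸ equiv_map_conj h3 c), hW⟩
      · rintro ⟨W, hW, rfl⟩
        exact exists_conj_A5 h3 (up W hW)
    rw [h8, Set.ncard_image_of_injective _ (Subgroup.map_injective L.inj)] at h7
    change Set.ncard {W : Subgroup PSL(2, F) | Nonempty (W ≃* alternatingGroup (Fin 5))} = _
    omega
  · obtain ⟨c, -, hc⟩ := SetLike.not_le_iff_exists.1 fun h6 : ⊤ ≤ psl F => by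
      rw [top_le_iff.1 h6, Subgroup.index_top] at hi; omega
    obtain ⟨V₂, h6⟩ := exists_map_toPGL_eq (map_conj_le_psl_iff (c := c).2 h4)
    obtain ⟨V₁, rfl⟩ := exists_map_toPGL_eq h4
    refine ⟨V₁, V₂, dn _ h3, dn _ (h6 ▸ equiv_map_conj h3 c), ?_, fun W hW => ?_⟩
    · rintro g rfl
      change Subgroup.map _ (V₁.map (MulAut.conj g).toMonoidHom) = _ at h6
      rw [map_map_conj] at h6
      have h7 := congrArg (Subgroup.map (MulAut.conj c⁻¹).toMonoidHom) h6
      rw [map_conj_map_conj, map_conj_map_conj, inv_mul_cancel, map_conj_one, map_conj_eq_iff,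
        h5] at h7
      exact hc (by simpa using mul_mem (range_pslToPGL.le ⟨g, rfl⟩) (inv_mem (h4 h7)))
    · obtain ⟨d, hd⟩ := exists_conj_A5 (up W hW) h3
      by_cases h7 : d ∈ psl F
      · obtain ⟨g, hg⟩ := key _ _ d h7 hd
        exact ⟨g, Or.inl hg⟩
      · obtain ⟨g, hg⟩ := key W V₂ (c * d) ((Subgroup.mul_mem_iff_of_index_two hi).2
          (iff_of_false hc h7)) (by rw [h6, hd, map_conj_map_conj])
        exact ⟨g, Or.inr hg⟩

end Cfsg.Agent.S2543
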