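import Cfsg.Statements.S2549
import Cfsg.Agent.Chev.StCls
import Cfsg.Agent.S0300
import Cfsg.Agent.S0306

set_option autoImplicit false
open Cfsg

namespace Cfsg.Agent.S2549

/-- Let F be a finite field of characteristic p and consider the group PΩ⁻_{2m+2}(F) of the quadratic form Σ_{i<m} x_i y_i + (z₁² + a z₁ z₂ + b z₂²) with anisotropic binary part, m ≥ 0. This group has an irreducible complex character χ whose degree equals the order of a Sylow p-subgroup (namely q^(m(m+1)) when #F = q) and whose restriction to any Sylow p-subgroup P is the regular character of P: χ vanishes on the non-identity elements of P. (This is the Steinberg character.) -/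
theorem result {F : Type*} [Field F] [Fintype F] (p : ℕ) [Fact p.Prime] [CharP F p] (m : ℕ) (a b : F) (hab : ∀ z₁ z₂ : F, z₁ ^ 2 + a * z₁ * z₂ + b * z₂ ^ 2 = 0 → z₁ = 0 ∧ z₂ = 0) : ∃ χ : Cfsg.POmega F (Cfsg.quadFormMinus m F a b) → ℂ, Cfsg.IsIrrCharacter (Cfsg.POmega F (Cfsg.quadFormMinus m F a b)) χ ∧ ∀ P : Sylow p (Cfsg.POmega F (Cfsg.quadFormMinus m F a b)), χ 1 = Nat.card P ∧ ∀ x : Cfsg.POmega F (Cfsg.quadFormMinus m F a b), x ∈ P → x ≠ 1 → χ x = 0 := by
  refine CF.Chev.HasSt.result ?_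
  obtain rfl | hm := Nat.eq_zero_or_pos m
  · exact CF.Chev.hasSt_of_dihedral (S0306.result rfl a b hab)
  obtain ⟨K, _, _, f, φ, w, h1, h2, h3, h4, h5, h6⟩ := CF.Chev.exists_quadExt' hab
  have : CharP K p := charP_of_injective_ringHom f.injective p
  obtain rfl | hm := (Nat.succ_le_of_lt hm).eq_or_lt
  · have := Fintype.ofFinite K
    exact (CF.Chev.hasSt_PSL2 K).of_equiv (S0300.result rfl (by simpa using h6) a b hab)
  have hQ (v) : CF.Geom.qMinus m K (-(w + φ w)) (w * φ w) (f ∘ v) =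
      f (CF.Geom.qMinus m F a b v) := by rw [h4, h5, CF.Chev.qMinus_comp]
  exact CF.Chev.hasSt_of_form (CF.Chev.lt0O' h1 h2 hm hab h3 hQ (p := p)).1.form
    ⟨(MonoidHom.ofInjective (CF.Chev.omMap_injective hQ)).symm⟩

end Cfsg.Agent.S2549
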