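import Cfsg.Statements.S2551
import Cfsg.Agent.S0256
import Cfsg.Agent.Perm.AltOn

set_option autoImplicit false
open Cfsg

namespace Cfsg.Agent.S2551

open MulAction in
theorem key {G V : Type*} [Group G] [Finite G] [AddCommGroup V] [Finite V] [DistribMulAction G V]
    [FaithfulSMul G V] (hV : Nat.card V = 16) (hG : Nat.card G = 2520) {v w v' w' : V} (h1 : v ≠ 0)
    (h2 : w ≠ 0) (h3 : v ≠ w) (h4 : v' ≠ 0) (h5 : w' ≠ 0) (h6 : v' ≠ w') :
    ∃ g : G, g • v = v' ∧ g • w = w' := by
  classical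
  have := Fintype.ofFinite V
  have := Fintype.ofFinite G
  obtain ⟨t, ht⟩ := exists_prime_orderOf_dvd_card' (G := G) 2 (by rw [hG]; decide)
  have ne : ∀ x : G, x ≠ 1 → ∃ u : V, x • u ≠ u := fun x hx => by
    by_contra! h; exact hx (eq_of_smul_eq_smul (α := V) (by simpa using h))
  obtain ⟨u, hu⟩ := ne t (by rintro rfl; simp at ht)
  have hu0 : u ≠ 0 := by rintro rfl; simp at hu
  have tt : ∀ a : V, t • t • a = a := fun a => by rw [smul_smul, ← sq, ← ht, pow_orderOf_eq_one, one_smul]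
  have fx : ∀ x ∈ stabilizer G (u, t • u), x ≠ 1 → ∀ p n : ℕ, p.Prime → p ≠ 2 → x ^ p ^ n = 1 →
      p = 3 ∧ Fintype.card (fixedBy V x) = 4 := fun x hx h p n hp p2 e => by
    have := Fact.mk hp
    let A := (DistribSMul.toAddMonoidHom V x).eqLocus (.id V)
    have a1 : Fintype.card (fixedBy V x) ∣ 16 := by
      rw [← Nat.card_eq_fintype_card, ← hV]; exact A.card_addSubgroup_dvd_card
    obtain ⟨a2, a3⟩ := Prod.ext_iff.1 hx
    have a4 : 2 < Fintype.card (fixedBy V x) := Fintype.two_lt_card_iff.2 ⟨⟨0, smul_zero x⟩, ⟨u, a2⟩, ⟨_, a3⟩,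
      Subtype.coe_ne_coe.1 hu0.symm, Subtype.coe_ne_coe.1 ((smul_ne_zero_iff_ne t).2 hu0).symm,
      Subtype.coe_ne_coe.1 hu.symm⟩
    obtain ⟨z, hz⟩ := ne x h
    have a5 : Fintype.card (fixedBy V x) < Fintype.card V := Fintype.card_subtype_lt hz
    have a6 : Fintype.card V ≡ Fintype.card (fixedBy V x) [MOD p] := by
      convert Equiv.Perm.card_fixedPoints_modEq (f := toEndHom (α := V) x) (p := p) (n := n)
        (by rw [← map_pow, e, map_one])
      rfl
    rw [← Nat.card_eq_fintype_card (α := V), hV] at a5 a6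
    have a7 := (Nat.modEq_iff_dvd' a5.le).1 a6.symm
    generalize Fintype.card (fixedBy V x) = m at *
    have := Nat.le_of_dvd (by omega) a7
    have a8 : p ≤ 16 := by omega
    revert a7 a1 hp p2
    interval_cases m <;> interval_cases p <;> decide
  have n1 : ∀ p : ℕ, p.Prime → p ≠ 2 → p ≠ 3 → ¬ p ∣ Nat.card (stabilizer G (u, t • u)) :=
    fun p hp p2 p3 d => by
      have := Fact.mk hp
      obtain ⟨x, hx⟩ := exists_prime_orderOf_dvd_card' p d
      exact p3 (fx x x.2 (fun e => hp.ne_one (by rw [← hx, orderOf_eq_one_iff]; exact Subtype.ext e)) p 1 hp p2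
        (by rw [pow_one, ← hx, ← Subgroup.coe_pow, pow_orderOf_eq_one]; rfl)).1
  have n2 : ¬ 3 ^ 2 ∣ Nat.card (stabilizer G (u, t • u)) := fun d => by
    obtain ⟨P, hP⟩ := Sylow.exists_subgroup_card_pow_prime 3 d
    have := sum_card_fixedBy_eq_card_orbits_mul_card_group P V
    rw [← Finset.add_sum_erase _ _ (Finset.mem_univ 1), Finset.sum_congr rfl (g := fun _ => 4) fun x hx => by
      convert (fx x.1.1 x.1.2 (by simpa using hx) 3 2 Nat.prime_three (by omega) (by
        rw [← hP]; exact congrArg (·.1.1) (pow_card_eq_one' (x := x)))).2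
      rfl] at this
    simp [← Nat.card_eq_fintype_card, hP, hV] at this
    omega
  let O := orbit G (u, t • u)
  have sw : ∀ a ∈ O, a.swap ∈ O := by
    rintro _ ⟨g, rfl⟩
    exact ⟨g * t, by simp [mul_smul, tt]⟩
  let X := (Finset.univ.erase (0 : V)).offDiag
  have sub : O.toFinset ⊆ X := fun a ha => by
    obtain ⟨g, rfl⟩ := Set.mem_toFinset.1 ha
    simpa [X, hu0, smul_eq_zero_iff_eq] using hu.symm
  have e1 := Equiv.Perm.card_fixedPoints_modEq (α := O) (f := fun a => ⟨_, sw a a.2⟩) (p := 2) (n := 1) rfl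
  rw [(Fintype.card_eq_zero_iff (α := Function.fixedPoints _)).2 ⟨fun ⟨a, ha⟩ => (Finset.mem_offDiag.1
    (sub (Set.mem_toFinset.2 a.2))).2.2 (congrArg (·.1.2) ha)⟩] at e1
  have e2 := card_orbit_mul_card_stabilizer_eq_card_group G (u, t • u)
  have e3 : X.card = 210 := by
    simp [X, Finset.offDiag_card, ← Nat.card_eq_fintype_card, hV]
  have e4 : O.toFinset = X := Finset.eq_of_subset_of_card_le sub (by
    have e5 := n1 5 Nat.prime_five (by omega) (by omega)
    have e6 := n1 7 Nat.prime_seven (by omega) (by omega)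
    rw [← Nat.card_eq_fintype_card (α := G), hG, ← Nat.card_eq_fintype_card (α := stabilizer _ _)] at e2
    rw [e3, Set.toFinset_card]
    change Fintype.card O * _ = _ at e2
    generalize Fintype.card O = a at *
    generalize Nat.card (stabilizer G (u, t • u)) = b at *
    have d := fun p (hp : p.Prime) (h : p ∣ 2520) => hp.dvd_mul.1 (e2 ▸ h)
    have d5 := (d 5 Nat.prime_five (by decide)).resolve_right e5
    have d7 := (d 7 Nat.prime_seven (by decide)).resolve_right e6
    have d3 : 3 ∣ a := by_contra fun h => n2 (((Nat.prime_three.coprime_iff_not_dvd.2 h).pow_left 2).dvd_of_dvd_mul_left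
      (e2 ▸ by decide))
    have : a ≠ 0 := by rintro rfl; omega
    unfold Nat.ModEq at e1
    omega)
  obtain ⟨g, hg⟩ := Set.mem_toFinset.1 (e4.ge (show (v, w) ∈ X by simp [X, *]))
  obtain ⟨g', hg'⟩ := Set.mem_toFinset.1 (e4.ge (show (v', w') ∈ X by simp [X, *]))
  exact ⟨g' * g⁻¹, Prod.ext_iff.1 (show (g' * g⁻¹) • (v, w) = (v', w') by rw [← hg, ← hg']; simp [mul_smul])⟩

/-- Let F be the field with 2 elements. GL_4(F) (≅ A_8) has a subgroup isomorphic to the alternating group A_7, and every such subgroup acts 2-transitively on the 15 non-zero vectors of F⁴: any ordered pair of distinct non-zero vectors is carried to any other by some element of the subgroup. -/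
theorem result {F : Type*} [Field F] [Fintype F] (hF : Fintype.card F = 2) : (∃ H : Subgroup (Matrix.GeneralLinearGroup (Fin 4) F), Nonempty (H ≃* alternatingGroup (Fin 7))) ∧ ∀ H : Subgroup (Matrix.GeneralLinearGroup (Fin 4) F), Nonempty (H ≃* alternatingGroup (Fin 7)) → ∀ v w v' w' : Fin 4 → F, v ≠ 0 → w ≠ 0 → v ≠ w → v' ≠ 0 → w' ≠ 0 → v' ≠ w' → ∃ g ∈ H, (g : Matrix (Fin 4) (Fin 4) F).mulVec v = v' ∧ (g : Matrix (Fin 4) (Fin 4) F).mulVec w = w' := by
  refine ⟨?_, fun H ⟨e⟩ v w v' w' h1 h2 h3 h4 h5 h6 => ?_⟩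
  · obtain ⟨e⟩ := Cfsg.Agent.S0256.result hF
    obtain ⟨f⟩ := CF.Perm.nonempty_altOn_equiv (s := Finset.univ.erase (0 : Fin 8)) (m := 7) (by simp)
    have h := CF.Classical.card_center_SL (ι := Fin 4) F
    rw [Nat.card_eq_fintype_card (α := F), hF] at h
    let ψ := e.symm.trans ((QuotientGroup.quotientMulEquivOfEq
      (Subgroup.card_eq_one.1 h)).trans QuotientGroup.quotientBot)
    let φ := (Matrix.SpecialLinearGroup.toGL.comp ψ.toMonoidHom).comp
      (Subgroup.inclusion (inf_le_right : CF.Perm.altOn (Finset.univ.erase (0 : Fin 8)) ≤ _))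
    exact ⟨φ.range, ⟨(MonoidHom.ofInjective ((Matrix.SpecialLinearGroup.toGL_injective.comp
      ψ.injective).comp (Subgroup.inclusion_injective _))).symm.trans f⟩⟩
  · have : FaithfulSMul H (Fin 4 → F) := ⟨fun h => Subtype.ext (Units.ext (Matrix.ext_of_mulVec_single fun _ => h _))⟩
    obtain ⟨g, h⟩ := key (G := H) (V := Fin 4 → F) (by simp [hF])
      (by rw [Nat.card_congr e.toEquiv, nat_card_alternatingGroup]; simp [Nat.factorial]) h1 h2 h3 h4 h5 h6
    exact ⟨g, g.2, h⟩

end Cfsg.Agent.S2551
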