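import Cfsg.Statements.S2552
import Cfsg.Agent.Cls.Misc

set_option autoImplicit false
open Cfsg

namespace Cfsg.Agent.S2552

open CF.Cls CF.Geom

/-- Let F be a finite field and n ≥ 1. For every k, the special linear group SL_n(F) acts transitively on the set of k-dimensional subspaces of F^n: any two subspaces of the same dimension are carried onto each other by some matrix of determinant 1. -/
theorem result {F : Type*} [Field F] [Fintype F] (n : ℕ) (hn : 1 ≤ n) (U₁ U₂ : Submodule F (Fin n → F)) (h : Module.finrank F U₁ = Module.finrank F U₂) : ∃ g : Matrix.SpecialLinearGroup (Fin n) F, U₁.map ((Matrix.SpecialLinearGroup.toLin' g : (Fin n → F) ≃ₗ[F] (Fin n → F)) : (Fin n → F) →ₗ[F] (Fin n → F)) = U₂ := by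
  have : Nonempty (Fin n) := ⟨⟨0, hn⟩⟩
  obtain ⟨e, he⟩ := Submodule.exists_linearEquiv_restrict_eq (LinearEquiv.ofFinrankEq U₁ U₂ h)
  have h1 : U₁.map (e : (Fin n → F) →ₗ[F] (Fin n → F)) = U₂ := by
    refine Submodule.eq_of_le_of_finrank_eq ?_ ((LinearEquiv.finrank_map_eq e U₁).trans h)
    rintro _ ⟨v, hv, rfl⟩
    rw [LinearEquiv.coe_coe, ← he ⟨v, hv⟩]; exact Subtype.property _
  obtain ⟨g, h2, h3⟩ := exists_det_stab U₂ (LinearEquiv.det e)⁻¹
  refine ⟨⟨((glEquiv (Fin n) F).symm (g * e) : GL (Fin n) F), ?_⟩, ?_⟩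
  · rw [← det_glEquiv, MulEquiv.apply_symm_apply, ← LinearEquiv.coe_det, map_mul, h2]; simp
  · rw [← h3, ← h1, ← Submodule.map_comp]
    congr 1
    refine LinearMap.ext (fun v => ?_)
    exact glEquiv_symm_mulVec (g * e) v

end Cfsg.Agent.S2552
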