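import Cfsg.Statements.S2561
import Cfsg.Agent.Cls.F2Q

set_option autoImplicit false
open Cfsg

namespace Cfsg.Agent.S2561

open CF.Cls CF.Geom


/-- Fix the non-singular alternating form on the 2m-dimensional space over the field of two elements obtained by polarizing the plus-type form Σ xᵢyᵢ (m ≥ 1). The functions q on the space with q(u + v) = q(u) + q(v) + f(u, v) (the quadratic forms polarizing to f) number 2^(2m); each is equivalent under an invertible linear map either to the plus-type form or to the minus-type form Σ xᵢyᵢ + (z₁² + z₁z₂ + z₂²); and those of plus type number 2^(2m−1) + 2^(m−1), those of minus type 2^(2m−1) − 2^(m−1). -/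
theorem result (m : ℕ) (hm : 1 ≤ m) :
    Nat.card {q : (Fin m ⊕ Fin m → ZMod 2) → ZMod 2 // (∀ u v : (Fin m ⊕ Fin m → ZMod 2), q (u + v) = q u + q v + (Cfsg.quadFormPlus m (ZMod 2) (u + v) - Cfsg.quadFormPlus m (ZMod 2) u - Cfsg.quadFormPlus m (ZMod 2) v))} = 2 ^ (2 * m) ∧
    (∀ q : (Fin m ⊕ Fin m → ZMod 2) → ZMod 2, (∀ u v : (Fin m ⊕ Fin m → ZMod 2), q (u + v) = q u + q v + (Cfsg.quadFormPlus m (ZMod 2) (u + v) - Cfsg.quadFormPlus m (ZMod 2) u - Cfsg.quadFormPlus m (ZMod 2) v)) →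
      (∃ g : (Fin m ⊕ Fin m → ZMod 2) ≃ₗ[ZMod 2] (Fin m ⊕ Fin m → ZMod 2), ∀ v, q v = Cfsg.quadFormPlus m (ZMod 2) (g v)) ∨
      (∃ g : (Fin m ⊕ Fin m → ZMod 2) ≃ₗ[ZMod 2] ((Fin (m - 1) ⊕ Fin (m - 1)) ⊕ Fin 2 → ZMod 2), ∀ v, q v = Cfsg.quadFormMinus (m - 1) (ZMod 2) 1 1 (g v))) ∧
    Nat.card {q : (Fin m ⊕ Fin m → ZMod 2) → ZMod 2 // (∀ u v : (Fin m ⊕ Fin m → ZMod 2), q (u + v) = q u + q v + (Cfsg.quadFormPlus m (ZMod 2) (u + v) - Cfsg.quadFormPlus m (ZMod 2) u - Cfsg.quadFormPlus m (ZMod 2) v)) ∧ ∃ g : (Fin m ⊕ Fin m → ZMod 2) ≃ₗ[ZMod 2] (Fin m ⊕ Fin m → ZMod 2), ∀ v, q v = Cfsg.quadFormPlus m (ZMod 2) (g v)} = 2 ^ (2 * m - 1) + 2 ^ (m - 1) ∧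
    Nat.card {q : (Fin m ⊕ Fin m → ZMod 2) → ZMod 2 // (∀ u v : (Fin m ⊕ Fin m → ZMod 2), q (u + v) = q u + q v + (Cfsg.quadFormPlus m (ZMod 2) (u + v) - Cfsg.quadFormPlus m (ZMod 2) u - Cfsg.quadFormPlus m (ZMod 2) v)) ∧ ∃ g : (Fin m ⊕ Fin m → ZMod 2) ≃ₗ[ZMod 2] ((Fin (m - 1) ⊕ Fin (m - 1)) ⊕ Fin 2 → ZMod 2), ∀ v, q v = Cfsg.quadFormMinus (m - 1) (ZMod 2) 1 1 (g v)} = 2 ^ (2 * m - 1) - 2 ^ (m - 1) := by
  obtain ⟨m, rfl⟩ := Nat.exists_eq_add_one.2 hm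
  have h1 := qPlus_nondegenerate (F := ZMod 2) (m + 1)
  have hV : Module.finrank (ZMod 2) (Fin (m + 1) ⊕ Fin (m + 1) → ZMod 2) = 2 * (m + 1) := by
    simp; omega
  have h2 := fun w => (polarBilin_shQ (Q := qPlus (m + 1) (ZMod 2)) w).symm ▸ h1
  have h3 := card_singular_plus h1 (isPlus_qPlus _) hV
  have h4 := card_zero_add (Q := qPlus (m + 1) (ZMod 2)) hV
  have h5 := fun w (h : ¬ IsPlus (shQ (qPlus (m + 1) (ZMod 2)) w)) =>
    (exists_equiv_qMinus (h2 w) h hV aniso_z2).imp fun g hg v => (hg v).symm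
  have h6 := fun w (h : IsPlus (shQ (qPlus (m + 1) (ZMod 2)) w)) =>
    (h.exists_equiv_qPlus (h2 w) hV).imp fun g hg v => (hg v).symm
  obtain ⟨x, hx⟩ : ∃ x, 2 ^ m = x + 1 := Nat.exists_eq_add_one.2 (by positivity)
  rw [Nat.card_zmod, pow_succ 2, hx, show (x + 1) * 2 - 1 = 2 * x + 1 by omega] at h3
  have h7 : 2 ^ (2 * (m + 1) - 1) = 2 * (x + 1) ^ 2 := by
    rw [← hx, show 2 * (m + 1) - 1 = m * 2 + 1 by omega]; ring
  refine ⟨?_, fun q hq => ?_, (card_shQ h1 _ _ fun w => (shQ_iso_iff h1 hV w).symm).trans ?_,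
    (card_shQ h1 _ (fun w => ¬ qPlus (m + 1) (ZMod 2) w = 0) fun w => ?_).trans ?_⟩
  · refine (Nat.card_congr (shEquiv h1)).symm.trans ?_
    rw [Module.natCard_eq_pow_finrank (K := ZMod 2), hV, Nat.card_zmod]
  · obtain ⟨w, rfl⟩ := exists_shQ h1 hq
    exact (em _).imp (h6 w) (h5 w)
  · rw [h3, h7, Nat.add_sub_cancel, hx]; ring
  · rw [← shQ_iso_iff h1 hV]
    refine ⟨fun h => h5 w fun h' => h (h6 w h'), fun ⟨g, hg⟩ ⟨g', hg'⟩ =>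
      not_isPlus_qMinus m aniso_z2 (IsPlus.of_equiv (Q := shQ (qPlus (m + 1) (ZMod 2)) w) g (c := 1) (fun v => ?_)
        (IsPlus.of_equiv g'.symm (c := 1) (fun v => ?_) (isPlus_qPlus (m + 1))))⟩
    · rw [one_mul]; exact (hg v).symm
    · rw [hg']; simp
  · rw [h3, hx] at h4
    rw [h7, Nat.add_sub_cancel, hx]
    exact Nat.eq_sub_of_add_eq (by nlinarith)

end Cfsg.Agent.S2561
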