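import Cfsg.Statements.S2562
import Cfsg.Agent.Cls.F2Q

set_option autoImplicit false
open Cfsg

namespace Cfsg.Agent.S2562

open CF.Cls CF.Geom


/-- Witt indices over the field of two elements, m ≥ 1: for the plus-type form Σ xᵢyᵢ in dimension 2m some m-dimensional subspace is totally singular and no totally singular subspace has larger dimension; for the minus-type form Σ xᵢyᵢ + (z₁² + z₁z₂ + z₂²) in dimension 2m the maximal dimension of a totally singular subspace is m − 1. -/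
theorem result (m : ℕ) (hm : 1 ≤ m) :
    (∃ U : Submodule (ZMod 2) (Fin m ⊕ Fin m → ZMod 2), (∀ u ∈ U, Cfsg.quadFormPlus m (ZMod 2) u = 0) ∧ Module.finrank (ZMod 2) ↥U = m) ∧
    (∀ U : Submodule (ZMod 2) (Fin m ⊕ Fin m → ZMod 2), (∀ u ∈ U, Cfsg.quadFormPlus m (ZMod 2) u = 0) → Module.finrank (ZMod 2) ↥U ≤ m) ∧
    (∃ U : Submodule (ZMod 2) ((Fin (m - 1) ⊕ Fin (m - 1)) ⊕ Fin 2 → ZMod 2), (∀ u ∈ U, Cfsg.quadFormMinus (m - 1) (ZMod 2) 1 1 u = 0) ∧ Module.finrank (ZMod 2) ↥U = m - 1) ∧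
    (∀ U : Submodule (ZMod 2) ((Fin (m - 1) ⊕ Fin (m - 1)) ⊕ Fin 2 → ZMod 2), (∀ u ∈ U, Cfsg.quadFormMinus (m - 1) (ZMod 2) 1 1 u = 0) → Module.finrank (ZMod 2) ↥U ≤ m - 1) := by
  obtain ⟨m, rfl⟩ := Nat.exists_eq_add_one.2 hm
  have h1 := qPlus_nondegenerate (F := ZMod 2) (m + 1)
  have h2 := qMinus_nondegenerate m aniso_z2
  refine ⟨?_, fun U hU => ?_, ⟨_, fun u => (qFrame_qMinus m 1 1).singular_of_mem_span h2, ?_⟩,
    fun U hU => ?_⟩
  · obtain ⟨U, h3, h4⟩ := isPlus_qPlus (F := ZMod 2) (m + 1)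
    exact ⟨U, h4, by simp at h3; omega⟩
  · have := (isWittPair_quad _ h1).two_mul_finrank_le
      (le_perp_of_totally_singular (Q := qPlus (m + 1) (ZMod 2)) hU)
    simp at this; omega
  · have := (Pi.basisFun (ZMod 2) ((Fin m ⊕ Fin m) ⊕ Fin 2)).linearIndependent.comp
      (fun i : Fin m => Sum.inl (Sum.inl i)) (Sum.inl_injective.comp Sum.inl_injective)
    simp only [Function.comp_def, Pi.basisFun_apply] at this
    exact (finrank_span_eq_card this).trans (Fintype.card_fin m)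
  · have h3 := (isWittPair_quad _ h2).two_mul_finrank_le
      (le_perp_of_totally_singular (Q := qMinus m (ZMod 2) 1 1) hU)
    have h4 := fun h => not_isPlus_qMinus m aniso_z2 ⟨U, h, hU⟩
    simp at h3 h4 ⊢; omega

end Cfsg.Agent.S2562
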