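import Cfsg.Statements.S2564
import Cfsg.Agent.Cls.F2Q

set_option autoImplicit false
open Cfsg

namespace Cfsg.Agent.S2564

open CF.Cls CF.Geom


/-- On the 2m-dimensional space over the field of two elements (m ≥ 1) let f be the alternating form obtained by polarizing the plus-type form Σ xᵢyᵢ, and let q be any quadratic form polarizing to f. For a vector w, the function q + f(·, w) again polarizes to f, and it is equivalent to q under an invertible linear map (that is, has the same type) if and only if q(w) = 0. -/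
theorem result (m : ℕ) (hm : 1 ≤ m) (q : (Fin m ⊕ Fin m → ZMod 2) → ZMod 2) (hq : (∀ u v : (Fin m ⊕ Fin m → ZMod 2), q (u + v) = q u + q v + (Cfsg.quadFormPlus m (ZMod 2) (u + v) - Cfsg.quadFormPlus m (ZMod 2) u - Cfsg.quadFormPlus m (ZMod 2) v))) (w : (Fin m ⊕ Fin m → ZMod 2)) :
    (∀ u v : (Fin m ⊕ Fin m → ZMod 2), (q (u + v) + (Cfsg.quadFormPlus m (ZMod 2) (u + v + w) - Cfsg.quadFormPlus m (ZMod 2) (u + v) - Cfsg.quadFormPlus m (ZMod 2) w)) =
        (q u + (Cfsg.quadFormPlus m (ZMod 2) (u + w) - Cfsg.quadFormPlus m (ZMod 2) u - Cfsg.quadFormPlus m (ZMod 2) w)) + (q v + (Cfsg.quadFormPlus m (ZMod 2) (v + w) - Cfsg.quadFormPlus m (ZMod 2) v - Cfsg.quadFormPlus m (ZMod 2) w)) +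
        (Cfsg.quadFormPlus m (ZMod 2) (u + v) - Cfsg.quadFormPlus m (ZMod 2) u - Cfsg.quadFormPlus m (ZMod 2) v)) ∧
    ((∃ g : (Fin m ⊕ Fin m → ZMod 2) ≃ₗ[ZMod 2] (Fin m ⊕ Fin m → ZMod 2), ∀ v, q v + (Cfsg.quadFormPlus m (ZMod 2) (v + w) - Cfsg.quadFormPlus m (ZMod 2) v - Cfsg.quadFormPlus m (ZMod 2) w) = q (g v)) ↔ q w = 0) := by
  obtain ⟨m, rfl⟩ := Nat.exists_eq_add_one.2 hm
  have h1 := qPlus_nondegenerate (F := ZMod 2) (m + 1)
  obtain ⟨w₀, rfl⟩ := exists_shQ h1 hq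
  have h2 := polarBilin_shQ (Q := qPlus (m + 1) (ZMod 2)) w₀
  refine ⟨fun u v => ?_, ?_⟩
  · have := QuadraticMap.polar_add_left (qPlus (m + 1) (ZMod 2)) u v w
    rw [hq]
    simp only [QuadraticMap.polar, coe_qPlus] at this
    linear_combination this
  · rw [← shQ_iso_iff (h2 ▸ h1) (m := m) (by simp; omega)]
    refine exists_congr fun g => forall_congr' fun v => ?_
    rw [shQ_apply w, show QuadraticMap.polar _ v w = _ from LinearMap.congr_fun₂ h2 v w]
    rfl

end Cfsg.Agent.S2564
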