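import Cfsg.Statements.S2565
import Cfsg.Agent.Classical.LowDim4

set_option autoImplicit false
open Cfsg

namespace Cfsg.Agent.S2565

/-- The commutator subgroup of the full orthogonal group of the plus-type form Σ xᵢyᵢ in dimension 6 over the field of two elements (the group Ω⁺₆(2), of index 2) is isomorphic to the alternating group of degree 8. -/
theorem result :
    (Cfsg.Omega (ZMod 2) (Cfsg.quadFormPlus 3 (ZMod 2))).index = 2 ∧
    Nonempty (↥(Cfsg.Omega (ZMod 2) (Cfsg.quadFormPlus 3 (ZMod 2))) ≃* alternatingGroup (Fin 8)) := by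
  open CF.Classical CF.Geom in
  refine ⟨(index_Omega (qPlus 3 (ZMod 2))).trans (index_commutator_even (qPlus_nondegenerate 3) rfl
    (reflSub_eq_top_fin (qPlus_nondegenerate 3) (Or.inr (by simp)))), Omega_six_plus_two_equiv (Nat.card_zmod 2)⟩

end Cfsg.Agent.S2565
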