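import Cfsg.Statements.S2566
import Cfsg.Agent.Classical.LowDim4

set_option autoImplicit false
open Cfsg

namespace Cfsg.Agent.S2566

/-- The full orthogonal group of the plus-type form x₁y₁ + x₂y₂ in dimension 4 over the field of two elements has order 72 and is isomorphic to the wreath product of the symmetric group of degree 3 by a group of order 2: it has a normal subgroup isomorphic to the direct product of two symmetric groups of degree 3, of index 2, whose two direct factors are interchanged by conjugation by some element. -/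
theorem result :
    Nat.card ↥(Cfsg.isometryGroup (ZMod 2) (Cfsg.quadFormPlus 2 (ZMod 2))) = 72 ∧
    ∃ (A B : Subgroup ↥(Cfsg.isometryGroup (ZMod 2) (Cfsg.quadFormPlus 2 (ZMod 2)))),
      Nonempty (↥A ≃* Equiv.Perm (Fin 3)) ∧ Nonempty (↥B ≃* Equiv.Perm (Fin 3)) ∧ A ⊓ B = ⊥ ∧ (∀ a ∈ A, ∀ b ∈ B, a * b = b * a) ∧
      (A ⊔ B).index = 2 ∧ ∃ g : ↥(Cfsg.isometryGroup (ZMod 2) (Cfsg.quadFormPlus 2 (ZMod 2))), A.map (MulAut.conj g).toMonoidHom = B := by
  open CF.Classical CF.Geom MatrixGroups Subgroup in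
  obtain ⟨ρ, h1, h2⟩ := exists_rep_four_plus (F := ZMod 2)
  let e := (oEquiv (qPlus 2 (ZMod 2))).symm
  have h3 : Nat.card (isometryGroup (ZMod 2) (quadFormPlus 2 (ZMod 2))) = 72 := by
    refine (Nat.card_congr e.symm.toEquiv).trans ?_
    rw [card_OG_plus (qPlus_nondegenerate 2) (isPlus_qPlus 2) (m := 1) (by simp), Nat.card_zmod]
    decide
  let f := e.toMonoidHom.comp ρ
  have hf : Function.Injective f := e.injective.comp ((injective_iff_map_eq_one ρ).2 fun g hg =>
    ((h2 g).1 hg).elim id fun h => by rw [h, neg_one_eq_one_SL2 rfl]; rfl)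
  obtain ⟨s⟩ := SL2_two_equiv (Nat.card_zmod 2)
  let c := LinearEquiv.ofBijective (fullM (ZMod 2)) ⟨fullM_injective, fullM_surjective⟩
  let t : OG (qPlus 2 (ZMod 2)) := ⟨c.trans ((Matrix.transposeLinearEquiv _ _ _ _).trans c.symm),
    mem_OG.2 fun v => by
      rw [← det_fullM, ← det_fullM]
      exact (congrArg _ (c.apply_symm_apply _)).trans (Matrix.det_transpose _)⟩
  have h4 : ∀ v, fullM (ZMod 2) (t.1 v) = (fullM (ZMod 2) v).transpose := fun v => c.apply_symm_apply _
  have h5 : ∀ g, MulAut.conj (e t) (f (g, 1)) = f (1, g) := fun g => by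
    rw [MulAut.conj_apply, mul_inv_eq_iff_eq_mul]
    refine (map_mul e _ _).symm.trans ((congrArg e (Subtype.ext (LinearEquiv.ext fun v =>
      fullM_injective ?_))).trans (map_mul e _ _))
    change fullM _ (t.1 ((ρ _).1 v)) = fullM _ ((ρ _).1 (t.1 v))
    simp [h4, h1]
  refine ⟨h3, (f.comp (.inl _ _)).range, (f.comp (.inr _ _)).range,
    ⟨(MonoidHom.ofInjective fun a b h => congrArg Prod.fst (hf (a₁ := (a, 1)) (a₂ := (b, 1)) h)).symm.trans s⟩,
    ⟨(MonoidHom.ofInjective fun a b h => congrArg Prod.snd (hf (a₁ := (1, a)) (a₂ := (1, b)) h)).symm.trans s⟩,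
    (eq_bot_iff_forall _).2 ?_, ?_, ?_, e t, ?_⟩
  · rintro _ ⟨⟨a, rfl⟩, b, hb⟩
    rw [← show 1 = a from congrArg Prod.fst (hf hb)]
    exact map_one _
  · rintro _ ⟨a, rfl⟩ _ ⟨b, rfl⟩
    exact (map_mul f _ _).symm.trans ((congrArg f (by simp)).trans (map_mul f _ _))
  · have h6 : (f.comp (.inl _ _)).range ⊔ (f.comp (.inr _ _)).range = f.range := by
      refine le_antisymm (sup_le (fun _ ⟨a, h⟩ => ⟨_, h⟩) fun _ ⟨a, h⟩ => ⟨_, h⟩) ?_
      rintro _ ⟨g, rfl⟩
      rw [← Prod.fst_mul_snd g, map_mul]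
      exact mul_mem_sup ⟨_, rfl⟩ ⟨_, rfl⟩
    have h7 := f.range.card_mul_index
    rw [← Nat.card_congr (MonoidHom.ofInjective hf).toEquiv, Nat.card_prod, card_SL_two', Nat.card_zmod,
      show Nat.card (isometryGroup (ZMod 2) (qPlus 2 (ZMod 2))) = 72 from h3] at h7
    exact (congrArg index h6).trans (by omega)
  · ext x
    constructor
    · rintro ⟨_, ⟨g, rfl⟩, rfl⟩
      exact ⟨g, (h5 g).symm⟩
    · rintro ⟨g, rfl⟩
      exact ⟨_, ⟨g, rfl⟩, h5 g⟩

end Cfsg.Agent.S2566
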