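import Cfsg.Statements.S2567
import Cfsg.Agent.Classical.Linear

set_option autoImplicit false
open Cfsg

namespace Cfsg.Agent.S2567

theorem lift {G : Type*} [Group G] [Finite G] {r : ℕ} (hr : r.Prime)
    (hc : r.Coprime (Nat.card (Subgroup.center G))) (x : G ⧸ Subgroup.center G)
    (hx : orderOf x = r) : ∃! g : G, (QuotientGroup.mk g : G ⧸ Subgroup.center G) = x ∧
      orderOf g = r := by
  have := Fact.mk hr
  obtain ⟨g, rfl⟩ := QuotientGroup.mk_surjective x
  have h1 : g ^ r ∈ Subgroup.center G := by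
    rw [← QuotientGroup.eq_one_iff, QuotientGroup.mk_pow, ← hx, pow_orderOf_eq_one]
  have hb := (powCoprime (G := Subgroup.center G) hc.symm).bijective
  obtain ⟨z, hz⟩ := hb.2 ⟨g ^ r, h1⟩⁻¹
  have hz' : (z : G) ^ r = (g ^ r)⁻¹ := congrArg Subtype.val hz
  have hcomm : ∀ (w : Subgroup.center G) (y : G), (y * w) ^ r = y ^ r * (w : G) ^ r :=
    fun w y => Commute.mul_pow (Subgroup.mem_center_iff.1 w.2 y) r
  have hmk : (QuotientGroup.mk (g * z) : G ⧸ Subgroup.center G) = QuotientGroup.mk g := by
    rw [QuotientGroup.mk_mul, (QuotientGroup.eq_one_iff _).2 z.2, mul_one]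
  have hgz : (g * z) ^ r = 1 := by rw [hcomm, hz', mul_inv_cancel]
  refine ⟨g * z, ⟨hmk, ?_⟩, ?_⟩
  · refine orderOf_eq_prime hgz ?_
    intro h
    rw [h] at hmk
    rw [← hmk] at hx
    simp at hx
    exact hr.one_lt.ne hx
  · rintro y ⟨hy, hy2⟩
    have h2 : (g * z)⁻¹ * y ∈ Subgroup.center G := QuotientGroup.eq.1 (hmk.trans hy.symm)
    have h3 := hcomm ⟨_, h2⟩ (g * z)
    simp only [mul_inv_cancel_left, hgz, one_mul] at h3
    rw [← hy2, pow_orderOf_eq_one, hy2] at h3
    have h4 : (⟨_, h2⟩ : Subgroup.center G) = 1 := hb.1 (by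
      simp only [powCoprime_apply, one_pow]; exact Subtype.ext h3.symm)
    exact (inv_mul_eq_one.1 (congrArg Subtype.val h4)).symm

/-- Lifting elements of prime order from PGL to GL: let F be a finite field with q elements, r a prime not dividing q − 1, and x an element of order r in GL_n(F) modulo its centre (the scalar matrices). Then x has exactly one preimage in GL_n(F) of order r. -/
theorem result {F : Type*} [Field F] [Fintype F] {q n r : ℕ} (hF : Fintype.card F = q) (hr : r.Prime) (hdiv : ¬ r ∣ q - 1) (x : GL (Fin n) F ⧸ Subgroup.center (GL (Fin n) F)) (hx : orderOf x = r) : ∃! g : GL (Fin n) F, (QuotientGroup.mk g : GL (Fin n) F ⧸ Subgroup.center (GL (Fin n) F)) = x ∧ orderOf g = r := by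
  refine lift hr ?_ x hx
  rcases n with _ | n
  · have : Subsingleton (GL (Fin 0) F) := inferInstance
    rw [Nat.card_of_subsingleton (1 : Subgroup.center (GL (Fin 0) F))]; simp
  · rw [CF.Classical.card_center_GL, Nat.card_units, Nat.card_eq_fintype_card, hF]
    exact (Nat.Prime.coprime_iff_not_dvd hr).2 hdiv

end Cfsg.Agent.S2567
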