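import Cfsg.Statements.S2568
import Cfsg.Agent.Cls.OrdR

set_option autoImplicit false
open Cfsg

namespace Cfsg.Agent.S2568

open CF.Cls Polynomial

/-- Number of conjugacy classes of elements of a given prime order r, coprime to the characteristic, in GL_n(q): if i is the multiplicative order of q modulo r and t = (r − 1)/i, the classes correspond to the non-zero t-tuples of natural numbers (a_1, …, a_t) with i(a_1 + ⋯ + a_t) ≤ n (a_j is the multiplicity of the j-th Frobenius orbit of nontrivial r-th roots of unity among the eigenvalues), so there are exactly C(⌊n/i⌋ + t, t) − 1 of them. -/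
theorem result {F : Type*} [Field F] [Fintype F] {p q : ℕ} [Fact p.Prime] [CharP F p] (hF : Fintype.card F = q) (n r i t : ℕ) (hr : r.Prime) (hrp : r ≠ p) (hi : i = orderOf (q : ZMod r)) (ht : t * i = r - 1) : Nat.card {C : ConjClasses (GL (Fin n) F) // ∃ g : GL (Fin n) F, ConjClasses.mk g = C ∧ orderOf g = r} = Nat.choose (n / i + t) t - 1 := by
  subst hF
  rw [card_ord_classes (Units.coeHom _) hr (fun x y _ _ h => (isConj_units_iff x y).2 h)]
  have hi0 : 0 < i := hi ▸ orderOf_card_pos p hr hrp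
  have h1 := (facs_spec (F := F) p hr hrp).2
  rw [← hi, ← ht] at h1
  rw [← Nat.eq_of_mul_eq_mul_right hi0 h1, ← (card_ms_le (facs F r) (n / i)).1]
  congr 1
  refine Nat.card_congr (Equiv.subtypeEquivRight (fun s => ⟨?_, ?_⟩))
  · rintro ⟨g, hg, rfl⟩
    have h2 : (Matrix.toLin' (Units.coeHom _ g) : Module.End F _) ^ r = 1 := by
      rw [← Matrix.toLin'_pow, ← map_pow, hg, map_one, Matrix.toLin'_one]; rfl
    refine ⟨(pow_eq_one_iff_nt p hr hrp _).1 h2, ?_⟩
    have h3 := card_nt_le p hr hrp h2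
    rw [← hi, Module.finrank_fin_fun] at h3
    rw [Nat.le_div_iff_mul_le hi0]; omega
  · rintro ⟨h2, h3⟩
    rw [Nat.le_div_iff_mul_le hi0] at h3
    obtain ⟨f, h4, h5⟩ := exists_nt (V := Fin n → F) p hr hrp h2
      (by rw [← hi, Module.finrank_fin_fun]; exact h3)
    have h6 : LinearMap.toMatrix' f ^ r = 1 := by
      apply Matrix.toLin'.injective
      rw [Matrix.toLin'_pow, Matrix.toLin'_toMatrix', h4, Matrix.toLin'_one]; rfl
    obtain ⟨g, hg⟩ := IsUnit.of_pow_eq_one h6 hr.ne_zero
    refine ⟨g, Units.ext (by rw [Units.val_pow_eq_pow_val, hg, h6]; rfl), ?_⟩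
    rw [Units.coeHom_apply, hg, Matrix.toLin'_toMatrix', h5]

end Cfsg.Agent.S2568
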