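import Cfsg.Statements.S2569
import Cfsg.Agent.Cls.SS

set_option autoImplicit false
open Cfsg

namespace Cfsg.Agent.S2569

open CF.Cls

/-- In GL_n over a finite field of characteristic p, the conjugacy class of a semisimple element (an element of order prime to p) under the special linear group is its whole GL-conjugacy class: for every such x and every invertible g there is h of determinant one with h x h⁻¹ = g x g⁻¹. -/
theorem result {F : Type*} [Field F] [Fintype F] {p : ℕ} [Fact p.Prime] [CharP F p] {n : ℕ} (x g : GL (Fin n) F) (hx : (orderOf x).Coprime p) : ∃ h : GL (Fin n) F, (h : Matrix (Fin n) (Fin n) F).det = 1 ∧ h * x * h⁻¹ = g * x * g⁻¹ := by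
  rcases n with _ | n
  · exact ⟨1, by simp, Subsingleton.elim _ _⟩
  have h1 := (ss_of_coprime (Units.coeHom _) p hx).detC_eq_top
  have h2 : Matrix.GeneralLinearGroup.det g⁻¹ ∈
      (Subgroup.centralizer {x}).map Matrix.GeneralLinearGroup.det := by
    rw [map_det_centralizer]; exact h1.ge trivial
  obtain ⟨c, hc, h3⟩ := h2
  rw [SetLike.mem_coe, Subgroup.mem_centralizer_singleton_iff] at hc
  refine ⟨g * c, ?_, ?_⟩
  · have : Matrix.GeneralLinearGroup.det (g * c) = 1 := by rw [map_mul, h3]; simp
    exact congrArg Units.val this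
  · calc g * c * x * (g * c)⁻¹ = g * (c * x) * c⁻¹ * g⁻¹ := by group
      _ = _ := by rw [hc]; group

end Cfsg.Agent.S2569
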