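import Cfsg.Statements.S2571
import Cfsg.Agent.Cls.CentUnip

set_option autoImplicit false
open Cfsg

namespace Cfsg.Agent.S2571

open CF.Cls Polynomial

/-- Centraliser of a regular unipotent element in GL_n(q): if u is an invertible n × n matrix over the field with q elements, n ≥ 1, with (u − 1)^n = 0 and rank(u − 1) = n − 1 (a single unipotent Jordan block), then its centraliser in GL_n(q) has order (q − 1) q^(n−1). -/
theorem result {F : Type*} [Field F] [Fintype F] {q n : ℕ} (hF : Fintype.card F = q) (hn : 1 ≤ n) (u : GL (Fin n) F) (hnil : ((u : Matrix (Fin n) (Fin n) F) - 1) ^ n = 0) (hreg : ((u : Matrix (Fin n) (Fin n) F) - 1).rank = n - 1) : Nat.card ↥(Subgroup.centralizer ({u} : Set (GL (Fin n) F))) = (q - 1) * q ^ (n - 1) := by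
  have h1 := (jtM_regular_iff ⟨n, hnil⟩ (by simpa using hn)).2 (by simpa using hreg)
  have h2 : Sim (Matrix.toLin' (u : Matrix (Fin n) (Fin n) F)) (uE F (fun _ : Unit => n)) := by
    rw [sim_iff_jt ((unip_toLin'_iff _).2 ⟨n, hnil⟩) (uE_nilpotent (d := fun _ : Unit => n))]
    refine h1.trans ?_
    have := ((hasED_blk (fun _ : Unit => (X - 1 : F[X]) ^ n)).unip (t := {n})
      (by simpa using by omega)).2
    simpa using this.symm
  rw [card_centralizer_GL, h2.card_CG, card_CG_uE_eq (fun _ => hn) (D := n + 1)
    (fun _ => Nat.lt_succ_self n) (fun j => if j = n then 1 else 0)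
    (fun j => by by_cases h : j = n <;> simp [h, eq_comm (a := n)]), hF, mul_comm]
  congr 1
  · rw [Finset.prod_eq_single n]
    · rw [if_pos rfl]; simp
    · intro j _ hj; rw [if_neg hj]; simp
    · simp
  · congr 1
    rw [Finset.sum_eq_zero, Finset.sum_eq_single n]
    · simp
    · intro j _ hj; simp [hj]
    · simp
    · intro i _
      refine Finset.sum_eq_zero (fun j hj => ?_)
      have := Finset.mem_range.1 hj
      split_ifs <;> first | omega | simp

end Cfsg.Agent.S2571
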