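import Cfsg.Statements.S2572
import Cfsg.Agent.Cls.CentUnip

set_option autoImplicit false
open Cfsg

namespace Cfsg.Agent.S2572

open CF.Cls Polynomial

/-- Centraliser of a transvection in GL_n(q), n ≥ 2: if t − 1 has rank one and square zero, the centraliser of t in GL_n(q) has order q^(2n−3) (q − 1) |GL_(n−2)(q)| (a group of order q^(2n−3) extended by GL_1(q) × GL_(n−2)(q)). -/
theorem result {F : Type*} [Field F] [Fintype F] {q n : ℕ} (hF : Fintype.card F = q) (hn : 2 ≤ n) (t : GL (Fin n) F) (ht : Cfsg.IsTransvection (t : Matrix (Fin n) (Fin n) F)) : Nat.card ↥(Subgroup.centralizer ({t} : Set (GL (Fin n) F))) = q ^ (2 * n - 3) * (q - 1) * ∏ i : Fin (n - 2), (q ^ (n - 2) - q ^ (i : ℕ)) := by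
  obtain ⟨m, rfl⟩ := Nat.exists_eq_add_of_le' hn
  have h0 : ((t : Matrix (Fin (m + 2)) (Fin (m + 2)) F) - 1) ^ 2 = 0 := by
    rw [pow_two]; exact ht.2
  let d : Option (Fin m) → ℕ := fun k => k.elim 2 (fun _ => 1)
  have hd0 : d none = 2 := rfl
  have hd1 : ∀ k, d (some k) = 1 := fun _ => rfl
  have hd : ∀ k, 0 < d k := by rintro (_ | k) <;> simp [d]
  have h2 : Sim (Matrix.toLin' (t : Matrix (Fin (m + 2)) (Fin (m + 2)) F)) (uE F d) := by
    refine sim_of_unip ((unip_toLin'_iff _).2 ⟨2, h0⟩) (uE_nilpotent (d := d)) (fun k => ?_)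
    have h3 := finrank_ker_add_rank (((t : Matrix (Fin (m + 2)) (Fin (m + 2)) F) - 1) ^ k)
    rw [toLin'_sub_one_pow, ← aeval_X_sub_one_pow (F := F) (uE F d), ← kd, uE, blk, kd_piMap]
    simp only [kd_cyc_pow monic_X_sub_one.ne_zero, natDegree_X_sub_one]
    simp only [Fintype.sum_option, hd0, hd1, mul_one, Finset.sum_const, Finset.card_univ,
      Fintype.card_fin, smul_eq_mul] at h3 ⊢
    rcases k with _ | _ | k
    · simp
    · rw [zero_add, pow_one, ht.1] at h3
      rw [zero_add, pow_one]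
      simp only [min_self, mul_one, min_eq_right one_le_two]; omega
    · rw [pow_eq_zero_of_le (by omega) h0, Matrix.rank_zero] at h3
      rw [pow_eq_zero_of_le (by omega) h0, min_eq_left (by omega), min_eq_left (by omega)]
      omega
  rw [card_centralizer_GL, h2.card_CG, card_CG_uE_eq hd (D := 3)
    (by rintro (_ | k) <;> simp [d]) (fun j => if j = 1 then m else if j = 2 then 1 else 0)
    (fun j => by
      rw [Finset.card_filter, Fintype.sum_option]
      simp only [hd0, hd1, Finset.sum_const, Finset.card_univ, Fintype.card_fin, smul_eq_mul]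
      split_ifs <;> omega), hF]
  simp only [Finset.sum_range_succ, Finset.prod_range_succ]
  simp only [show (2 : ℕ) ≠ 1 by omega, show (0 : ℕ) ≠ 1 by omega, show (0 : ℕ) ≠ 2 by omega,
    if_false, if_true]
  simp
  rw [show 2 * (m + 2) - 3 = 2 * m + 1 by omega, mul_right_comm]
  exact (mul_assoc _ _ _).symm

end Cfsg.Agent.S2572
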