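import Cfsg.Statements.S2574
import Cfsg.Agent.Cls.Misc

set_option autoImplicit false
open Cfsg

namespace Cfsg.Agent.S2574

open CF.Cls CF.Geom

/-- A regular unipotent element of the symplectic group has totally isotropic small invariant subspaces: over a finite field, if u ∈ Sp_2m(F) satisfies (u − 1)^(2m) = 0 and rank(u − 1) = 2m − 1, and W is a u-invariant subspace with 2 dim W ≤ 2m, then the alternating form vanishes identically on W. -/
theorem result {F : Type*} [Field F] [Finite F] {m : ℕ} (u : Matrix.symplecticGroup (Fin m) F) (hnil : ((u : Matrix (Fin m ⊕ Fin m) (Fin m ⊕ Fin m) F) - 1) ^ (2 * m) = 0) (hreg : ((u : Matrix (Fin m ⊕ Fin m) (Fin m ⊕ Fin m) F) - 1).rank = 2 * m - 1) (W : Submodule F (Fin m ⊕ Fin m → F)) (hW : ∀ v ∈ W, (u : Matrix (Fin m ⊕ Fin m) (Fin m ⊕ Fin m) F).mulVec v ∈ W) (hdim : 2 * Module.finrank F W ≤ 2 * m) : ∀ v ∈ W, ∀ w ∈ W, Cfsg.sympForm m F v w = 0 := by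
  have hreg' : ((u : Matrix (Fin m ⊕ Fin m) (Fin m ⊕ Fin m) F) - 1).rank =
      Fintype.card (Fin m ⊕ Fin m) - 1 := by simpa [two_mul] using hreg
  have h1 := eq_ker_of_regularM ⟨_, hnil⟩ hreg' W hW
  have hmap : W.map ((spEquiv m F u).1 : _ →ₗ[F] _) = W := by
    refine Submodule.eq_of_le_of_finrank_eq ?_ (LinearEquiv.finrank_map_eq _ W)
    rintro _ ⟨v, hv, rfl⟩; exact hW v hv
  have h2 := eq_ker_of_regularM ⟨_, hnil⟩ hreg' (perp (sympBilin m F) W) (fun v hv => by
    have := map_perp (mem_SpG.1 (spEquiv m F u).2) W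
    rw [hmap] at this
    rw [← this]; exact ⟨v, hv, rfl⟩)
  have h3 := (isWittPair_symp (F := F) m).finrank_perp W
  rw [Module.finrank_fintype_fun_eq_card, Fintype.card_sum, Fintype.card_fin] at h3
  have h4 : W ≤ perp (sympBilin m F) W := by
    rw [h2]
    refine h1.le.trans (fun v hv => ?_)
    obtain ⟨k, hk⟩ := Nat.exists_eq_add_of_le'
      (show Module.finrank F W ≤ Module.finrank F (perp (sympBilin m F) W) by omega)
    rw [LinearMap.mem_ker] at hv ⊢
    rw [hk, pow_add, Matrix.toLin'_mul, LinearMap.comp_apply, hv, map_zero]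
  exact fun v hv w hw => (sympBilin_apply m v w).symm.trans (mem_perp.1 (h4 hw) v hv)

end Cfsg.Agent.S2574
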