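import Cfsg.Statements.S2575
import Mathlib

set_option autoImplicit false
open Cfsg

namespace Cfsg.Agent.S2575

/-- Which diagonal involutions of PGL_n(q) lie in PSL_n(q), q odd: for the diagonal matrix t with i entries −1 and n − i entries 1, some non-zero scalar multiple of t has determinant one if and only if i is even or the 2-part of q − 1 exceeds the 2-part of n (that is, −1 is an n-th power in the field exactly in the latter case). -/
theorem result {F : Type*} [Field F] [Fintype F] {q : ℕ} (hF : Fintype.card F = q) (hq : Odd q) {n : ℕ} (hn : 1 ≤ n) (i : ℕ) (hi : i ≤ n) : (∃ c : F, c ≠ 0 ∧ (c • Matrix.diagonal (fun j : Fin n => if (j : ℕ) < i then (-1 : F) else 1)).det = 1) ↔ (Even i ∨ padicValNat 2 n < padicValNat 2 (q - 1)) := by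
  have hq1 : 1 < q := hF ▸ Fintype.one_lt_card
  have hneg : (-1 : F) ≠ 1 := by
    intro h
    have h2 : ringChar F = 2 := by
      by_contra h3; exact Ring.neg_one_ne_one_of_char_ne_two h3 h
    have := FiniteField.even_card_iff_char_two.1 h2
    rw [hF] at this; obtain ⟨k, hk⟩ := hq; omega
  have hdet : ∀ c : F, (c • Matrix.diagonal (fun j : Fin n =>
      if (j : ℕ) < i then (-1 : F) else 1)).det = c ^ n * (-1) ^ i := by
    intro c
    rw [Matrix.det_smul, Matrix.det_diagonal, Finset.prod_ite, Finset.prod_const,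
      Finset.prod_const_one, mul_one, Fintype.card_fin, Fin.card_filter_val_lt, min_eq_right hi]
  simp only [hdet]
  obtain ⟨a, o, ho, hao⟩ := Nat.exists_eq_two_pow_mul_odd (n := q - 1) (by omega)
  obtain ⟨b, m, hm, hbm⟩ := Nat.exists_eq_two_pow_mul_odd (n := n) (by omega)
  have hv : ∀ a o : ℕ, Odd o → padicValNat 2 (2 ^ a * o) = a := by
    intro a o ho
    rw [padicValNat.mul (by positivity) ho.pos.ne', padicValNat.prime_pow,
      padicValNat.eq_zero_of_not_dvd ho.not_two_dvd_nat, add_zero]
  rw [hao, hbm, hv a o ho, hv b m hm]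
  constructor
  · rintro ⟨c, hc, h⟩
    by_contra! h'
    rw [(Nat.not_even_iff_odd.1 h'.1).neg_one_pow, mul_neg_one, neg_eq_iff_eq_neg] at h
    obtain ⟨d, rfl⟩ := Nat.exists_eq_add_of_le h'.2
    have h1 := FiniteField.pow_card_sub_one_eq_one c hc
    rw [hF, hao] at h1
    have h2 := congrArg (· ^ o) h
    simp only [ho.neg_one_pow] at h2
    rw [← pow_mul, show 2 ^ (a + d) * m * o = 2 ^ a * o * (2 ^ d * m) by ring, pow_mul, h1,
      one_pow] at h2
    exact hneg h2.symm
  · rintro (h | h)
    · exact ⟨1, one_ne_zero, by rw [h.neg_one_pow]; simp⟩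
    · rcases Nat.even_or_odd i with hi | hi
      · exact ⟨1, one_ne_zero, by rw [hi.neg_one_pow]; simp⟩
      obtain ⟨g, hg⟩ := IsCyclic.exists_ofOrder_eq_natCard (α := Fˣ)
      rw [Nat.card_units, Nat.card_eq_fintype_card, hF, hao] at hg
      obtain ⟨d, rfl⟩ := Nat.exists_eq_add_of_lt h
      have h1 : (g : F) ^ (2 ^ (b + d) * o) = -1 := by
        have h2 : ((g : F) ^ (2 ^ (b + d) * o)) ^ 2 = 1 := by
          rw [← pow_mul, show 2 ^ (b + d) * o * 2 = 2 ^ (b + d + 1) * o by ring, ← hg,
            ← Units.val_pow_eq_pow_val, pow_orderOf_eq_one, Units.val_one]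
        refine (sq_eq_one_iff.1 h2).resolve_left ?_
        rw [← Units.val_pow_eq_pow_val, Units.val_eq_one]
        refine pow_ne_one_of_lt_orderOf (by have := ho.pos; positivity) ?_
        rw [hg, pow_succ]; have := ho.pos
        have : 0 < 2 ^ (b + d) * o := by positivity
        nlinarith
      refine ⟨(g : F) ^ (2 ^ d * o), pow_ne_zero _ g.ne_zero, ?_⟩
      rw [← pow_mul, show 2 ^ d * o * (2 ^ b * m) = 2 ^ (b + d) * o * m by ring, pow_mul, h1,
        hm.neg_one_pow, hi.neg_one_pow]; simp

end Cfsg.Agent.S2575
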