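import Cfsg.Statements.S2576
import Mathlib

set_option autoImplicit false
open Cfsg

namespace Cfsg.Agent.S2576

/-- Which involutions of PGL_2m(q) coming from a scalar of the quadratic extension field lie in PSL_2m(q), q odd: let μ generate the Sylow 2-subgroup of the multiplicative group of the field with q elements (μ has order the 2-part of q − 1) and let t be the block-diagonal matrix with m diagonal blocks [[0, 1], [μ, 0]] (so t² is the scalar μ and t is an involution modulo scalars). Then some non-zero scalar multiple of t has determinant one if and only if q ≡ 3 (mod 4) or the 2-part of q − 1 is less than the 2-part of 2m. -/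
theorem result {F : Type*} [Field F] [Fintype F] {q : ℕ} (hF : Fintype.card F = q) (hq : Odd q) {m : ℕ} (hm : 1 ≤ m) (μ : F) (hμ : orderOf μ = 2 ^ padicValNat 2 (q - 1)) : (∃ c : F, c ≠ 0 ∧ (c • Matrix.blockDiagonal (fun _ : Fin m => !![(0 : F), 1; μ, 0])).det = 1) ↔ (q % 4 = 3 ∨ padicValNat 2 (q - 1) < padicValNat 2 (2 * m)) := by
  have hq1 : 1 < q := hF ▸ Fintype.one_lt_card
  have hneg : (-1 : F) ≠ 1 := by
    intro h
    have h2 : ringChar F = 2 := by
      by_contra h3; exact Ring.neg_one_ne_one_of_char_ne_two h3 h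
    have := FiniteField.even_card_iff_char_two.1 h2
    rw [hF] at this; obtain ⟨k, hk⟩ := hq; omega
  have hdet : ∀ c : F, (c • Matrix.blockDiagonal (fun _ : Fin m => !![(0 : F), 1; μ, 0])).det =
      c ^ (2 * m) * (-μ) ^ m := by
    intro c
    rw [Matrix.det_smul, Matrix.det_blockDiagonal]; simp [Matrix.det_fin_two]
  simp only [hdet]
  obtain ⟨a, o, ho, hao⟩ := Nat.exists_eq_two_pow_mul_odd (n := q - 1) (by omega)
  obtain ⟨b, n, hn, hbn⟩ := Nat.exists_eq_two_pow_mul_odd (n := m) (by omega)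
  have hv : ∀ a o : ℕ, Odd o → padicValNat 2 (2 ^ a * o) = a := by
    intro a o ho
    rw [padicValNat.mul (by positivity) ho.pos.ne', padicValNat.prime_pow,
      padicValNat.eq_zero_of_not_dvd ho.not_two_dvd_nat, add_zero]
  have h2m : 2 * m = 2 ^ (b + 1) * n := by rw [hbn]; ring
  rw [hao, hv a o ho] at hμ
  rw [hao, h2m, hv a o ho, hv _ n hn]
  have ha : a ≠ 0 := by
    rintro rfl
    obtain ⟨k, hk⟩ := hq; obtain ⟨l, hl⟩ := ho; omega
  obtain ⟨a, rfl⟩ := Nat.exists_eq_succ_of_ne_zero ha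
  have hμ2 : μ ^ 2 ^ (a + 1) = 1 := by rw [← hμ, pow_orderOf_eq_one]
  have hμ1 : μ ^ 2 ^ a = -1 := by
    have h2 : (μ ^ 2 ^ a) ^ 2 = 1 := by rw [← pow_mul, ← pow_succ, hμ2]
    refine (sq_eq_one_iff.1 h2).resolve_left ?_
    refine pow_ne_one_of_lt_orderOf (by positivity) ?_
    rw [hμ]; exact Nat.pow_lt_pow_right one_lt_two (Nat.lt_succ_self a)
  have h4 : q % 4 = 3 ↔ a = 0 := by
    obtain ⟨l, hl⟩ := ho
    rcases a with _ | a
    · simp only [Nat.succ_eq_add_one, zero_add, pow_one] at hao; omega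
    · have : q - 1 = 4 * (2 ^ a * o) := by rw [hao]; simp only [Nat.succ_eq_add_one]; ring
      omega
  rw [h4]
  simp only [Nat.succ_eq_add_one] at *
  constructor
  · rintro ⟨c, hc, h⟩
    by_contra! h'
    obtain ⟨d, rfl⟩ := Nat.exists_eq_add_of_le (show b ≤ a by omega)
    have h1 := FiniteField.pow_card_sub_one_eq_one c hc
    rw [hF, hao] at h1
    have h2 := congrArg (· ^ (2 ^ d * o)) h
    have he : Even (2 ^ (b + d)) := (Nat.even_pow.2 ⟨even_two, h'.1⟩)
    simp only [mul_pow, one_pow] at h2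
    rw [← pow_mul, ← pow_mul, hbn,
      show 2 ^ (b + 1) * n * (2 ^ d * o) = 2 ^ (b + d + 1) * o * n by ring, pow_mul, h1, one_pow,
      show 2 ^ b * n * (2 ^ d * o) = 2 ^ (b + d) * (n * o) by ring, pow_mul, he.neg_pow, hμ1,
      (hn.mul ho).neg_one_pow, one_mul] at h2
    exact hneg h2
  · rintro (rfl | h)
    · refine ⟨1, one_ne_zero, ?_⟩
      simp only [pow_zero, pow_one] at hμ1
      simp [hμ1]
    · refine ⟨1, one_ne_zero, ?_⟩
      obtain ⟨d, rfl⟩ := Nat.exists_eq_add_of_le (show a + 1 ≤ b by omega)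
      have he : Even (2 ^ (a + 1)) := (Nat.even_pow.2 ⟨even_two, by omega⟩)
      rw [hbn, show 2 ^ (a + 1 + d) * n = 2 ^ (a + 1) * (2 ^ d * n) by ring, pow_mul (-μ),
        he.neg_pow, hμ2]; simp

end Cfsg.Agent.S2576
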