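import Cfsg.Statements.S2670
import Cfsg.Agent.Cls.PR1

set_option autoImplicit false
open Cfsg

namespace Cfsg.Agent.S2670

open CF.Cls CF.Geom


/-- Number of conjugacy classes of elements of prime order r in PGL_n(q) = GL_n(q)/scalars when r divides q − 1 (n ≥ 2): the classes of elements with a diagonalisable lift correspond to the orbits of the cyclic rotation on the r-tuples of eigenvalue multiplicities (a_0, …, a_(r−1)) summing to n with every a_j < n, and when r divides n there are r − 1 further classes (lifts acting irreducibly on blocks of size r); in all (C(n+r−1, r−1) − r − [r ∣ n])/r + r·[r ∣ n] classes. -/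
theorem result {F : Type*} [Field F] [Fintype F] {q : ℕ} (hF : Fintype.card F = q) {n r : ℕ} (hn : 2 ≤ n) (hr : r.Prime) (hrq : r ∣ q - 1) : Nat.card {C : ConjClasses (GL (Fin n) F ⧸ Subgroup.center (GL (Fin n) F)) // ∃ g : GL (Fin n) F ⧸ Subgroup.center (GL (Fin n) F), ConjClasses.mk g = C ∧ orderOf g = r} = (Nat.choose (n + r - 1) (r - 1) - r - (if r ∣ n then 1 else 0)) / r + r * (if r ∣ n then 1 else 0) := by
  obtain ⟨p, hp, -, hp', -⟩ := FiniteField.card' F
  have := Fact.mk hp'
  have : Nonempty (Fin n) := ⟨⟨0, by omega⟩⟩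
  have h1 := toE_injective (φ := Units.coeHom (Matrix (Fin n) (Fin n) F)) Units.val_injective
  have h2 : ∀ g ∈ Subgroup.center (GL (Fin n) F), ∃ c : F,
      toE (Units.coeHom (Matrix (Fin n) (Fin n) F)) g = algebraMap F _ c := fun g hg => by
    obtain ⟨c, hc⟩ := Matrix.GeneralLinearGroup.mem_center_iff_val_mem_range_scalar.1 hg
    exact ⟨c, by rw [toE_eq, Units.coeHom_apply, ← hc, toLin'_scalar]⟩
  refine card_ord_quot (K := AlgebraicClosure F) (ta_ac F p) (pq_card (F := F) p) hr ?_ (by omega) _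
    QuotientGroup.mk_surjective (fun g => ev _ (toE (Units.coeHom (Matrix (Fin n) (Fin n) F)) g)) (fun J => ⟨fun hJ => ?_, ?_⟩)
    (isConj_quot_iff p h1 (fun g g' => ?_) h2 (fun a => ⟨fun _ => ?_, fun _ => ⟨Units.map
      (Matrix.scalar (α := F) (Fin n)).toMonoidHom a, toLin'_scalar (ι := Fin n) (a : F)⟩⟩) fun c hc => ?_)
    (orderOf_mk_dvd_iff p h1 h2)
  · rw [Nat.card_eq_fintype_card, hF, ← Nat.cast_pred (hF ▸ Fintype.card_pos)]
    exact Int.natCast_dvd_natCast.2 hrq
  · obtain ⟨f, h1, rfl⟩ := exists_ev (F := F) (V := Fin n → F) p (J := J) (by simpa using hJ)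
    exact ⟨(h1.map (Matrix.toLinAlgEquiv' (R := F) (n := Fin n)).symm).unit,
      congrArg _ (Matrix.toLin'_toMatrix' f)⟩
  · rintro ⟨g, rfl⟩
    simpa using adm_ev' (K := AlgebraicClosure F) p ((Group.isUnit g).map (toE (Units.coeHom _)))
  · rw [toE_eq, toE_eq, ← isConj_iff_sim]
    exact ⟨(Units.coeHom _).map_isConj, fun ⟨c, hc⟩ => isConj_iff.2 ⟨c, by
      rw [mul_inv_eq_iff_eq_mul]; exact Units.ext hc⟩⟩
  · rw [← map_zpow, zpow_natCast]
    exact congrArg _ (Units.ext (by simp [FiniteField.pow_card]))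
  · simpa using congrArg Units.val hc

end Cfsg.Agent.S2670
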