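import Cfsg.Statements.S2578
import Cfsg.Agent.Cls.SS

set_option autoImplicit false
open Cfsg

namespace Cfsg.Agent.S2578

open CF.Cls Polynomial

/-- Regular unipotent classes of SL_n(q): for n ≥ 2 over the field with q elements, the matrices u of determinant one with (u − 1)^n = 0 and rank(u − 1) = n − 1 form a single GL_n(q)-class which splits into exactly gcd(n, q − 1) conjugacy classes of SL_n(q). -/
theorem result {F : Type*} [Field F] [Fintype F] {q : ℕ} (hF : Fintype.card F = q) {n : ℕ} (hn : 2 ≤ n) : Nat.card {C : ConjClasses (Matrix.SpecialLinearGroup (Fin n) F) // ∃ u : Matrix.SpecialLinearGroup (Fin n) F, ConjClasses.mk u = C ∧ ((u : Matrix (Fin n) (Fin n) F) - 1) ^ n = 0 ∧ ((u : Matrix (Fin n) (Fin n) F) - 1).rank = n - 1} = Nat.gcd n (q - 1) := by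
  have : Nonempty (Fin n) := ⟨⟨0, by omega⟩⟩
  obtain ⟨g, h1, h2⟩ := exists_GL_jtM (F := F) (ι := Fin n) {n} (by simpa using by omega) (by simp)
  let x : Matrix.SpecialLinearGroup (Fin n) F := ⟨g, det_eq_one_of_unip h1⟩
  rw [card_classes_ker Matrix.GeneralLinearGroup.det Matrix.GeneralLinearGroup.det_surjective
    Matrix.SpecialLinearGroup.toGL Matrix.SpecialLinearGroup.toGL_injective
    (CF.Classical.toGL_range_eq_ker_det F) x _ (fun u => ?_), map_det_centralizer]
  · have h3 := sim_cyc_of_jt ((unip_toLin'_iff _).2 h1) h2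
    rw [show ((Matrix.SpecialLinearGroup.toGL x : GL (Fin n) F) : Matrix (Fin n) (Fin n) F) = g
      from rfl, h3.detC_eq, detC_regular (by omega), index_range_pow, Nat.card_eq_fintype_card, hF]
  · rw [isConj_units_iff]
    show _ ↔ IsConj (g : Matrix (Fin n) (Fin n) F) (u : Matrix (Fin n) (Fin n) F)
    constructor
    · rintro ⟨h3, h4⟩
      rw [isConj_iff_jtM h1 ⟨n, h3⟩, h2]
      have := (jtM_regular_iff ⟨n, h3⟩ (by simp; omega)).2 (by simpa using h4)
      simpa using this.symm
    · intro h
      have h3 := (jtM_regular_iff h1 (by simp; omega)).1 (by simpa using h2)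
      have h4 := unipM_pow_card h1
      rw [Fintype.card_fin] at h3 h4
      refine ⟨?_, by rw [← rank_sub_one_eq_of_isConj h, h3]⟩
      have h5 := rank_sub_one_pow_eq_of_isConj h n
      rw [h4, Matrix.rank_zero] at h5
      have h6 := finrank_ker_add_rank (((u : Matrix (Fin n) (Fin n) F) - 1) ^ n)
      rw [← h5, add_zero, ← Module.finrank_fintype_fun_eq_card F] at h6
      have h7 := Submodule.eq_top_of_finrank_eq h6
      rw [LinearMap.ker_eq_top, LinearEquiv.map_eq_zero_iff] at h7
      exact h7

end Cfsg.Agent.S2578
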