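import Cfsg.Statements.S2583
import Cfsg.Agent.Cls.RepO

set_option autoImplicit false
open Cfsg

namespace Cfsg.Agent.S2583

open CF.Cls CF.Geom

/-- Which unipotent Jordan types occur in a finite orthogonal group in odd characteristic: over a finite field of odd order, a unipotent matrix with Jordan block sizes d_1, …, d_t (sum n, all at least 1) is similar to an isometry of some quadratic form on F^n with non-degenerate polar form if and only if every even block size occurs an even number of times. -/
theorem result {F : Type*} [Field F] [Fintype F] (h2 : (2 : F) ≠ 0) {n t : ℕ} (d : Fin t → ℕ) (hd : ∀ k, 1 ≤ d k) (hsum : ∑ k, d k = n) : (∃ Q : QuadraticForm F (Fin n → F), (QuadraticMap.polarBilin Q).Nondegenerate ∧ ∃ e : ((k : Fin t) × Fin (d k)) ≃ Fin n, ∃ A : ↥(Cfsg.isometryGroup F ⇑Q), IsConj (Matrix.reindex e e (Cfsg.jordanTypeMatrix d F)) ((A : Matrix.GeneralLinearGroup (Fin n) F) : Matrix (Fin n) (Fin n) F)) ↔ ∀ j : ℕ, Even j → 0 < j → Even (Finset.univ.filter (fun k : Fin t => d k = j)).card :=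 by
  obtain ⟨p, _⟩ := CharP.exists F
  have := Fact.mk (CharP.char_is_prime F p)
  rw [← par_unip_iff (A := (AlgebraicClosure F)ˣ) d hd Even]
  constructor
  · rintro ⟨Q, hQ, e, A, hA⟩
    have h1 := pres_polar (OG_map (oEquiv Q A))
    exact (isConj_jordanType_iff (K := AlgebraicClosure F) d hd e ((eh_polar hQ).pres_isUnit h1)).1 hA ▸
      par_ev_symm p h2 (eh_polar hQ) h1
  · intro h1
    obtain ⟨Q, hQ, g, hg⟩ := (ro_of_par p h2 (ia_unip d hd _) h1).exists_quad (V := Fin n → F) p
      (by rw [(ia_unip d hd 1).dim, hsum]; simp)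
    obtain ⟨A, rfl⟩ := (oEquiv Q).surjective g
    exact ⟨Q, hQ, Fintype.equivOfCardEq (by simp [← hsum]), A, (isConj_jordanType_iff d hd _
      ((eh_polar hQ).pres_isUnit (pres_polar (OG_map (oEquiv Q A))))).2 hg⟩

end Cfsg.Agent.S2583
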