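import Cfsg.Statements.S2584
import Cfsg.Agent.Cls.RepO

set_option autoImplicit false
open Cfsg

namespace Cfsg.Agent.S2584

open CF.Cls CF.Geom

/-- Which unipotent Jordan types occur in a finite orthogonal group in characteristic two: over a finite field of characteristic 2 and in even dimension 2m, a unipotent matrix with Jordan block sizes d_1, …, d_t (sum 2m, all at least 1) is similar to an isometry of some quadratic form on F^(2m) with non-degenerate polar form if and only if every odd block size occurs an even number of times (the same condition as for the symplectic group, which contains these orthogonal groups). -/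
theorem result {F : Type*} [Field F] [Fintype F] [CharP F 2] {m t : ℕ} (d : Fin t → ℕ) (hd : ∀ k, 1 ≤ d k) (hsum : ∑ k, d k = 2 * m) : (∃ Q : QuadraticForm F (Fin (2 * m) → F), (QuadraticMap.polarBilin Q).Nondegenerate ∧ ∃ e : ((k : Fin t) × Fin (d k)) ≃ Fin (2 * m), ∃ A : ↥(Cfsg.isometryGroup F ⇑Q), IsConj (Matrix.reindex e e (Cfsg.jordanTypeMatrix d F)) ((A : Matrix.GeneralLinearGroup (Fin (2 * m)) F) : Matrix (Fin (2 * m)) (Fin (2 * m)) F)) ↔ ∀ j : ℕ, Odd j → Even (Finset.univ.filter (fun k : Fin t => d k = j)).card := by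
  have h := par_unip_iff (A := (AlgebraicClosure F)ˣ) d hd Odd
  constructor
  · rintro ⟨Q, hQ, e, A, hA⟩ j hj
    have h1 := pres_polar (OG_map (oEquiv Q A))
    exact h.1 ((isConj_jordanType_iff (K := AlgebraicClosure F) d hd e ((eh_polar hQ).pres_isUnit h1)).1 hA ▸
      par_ev_alt hQ (polar_isAlt CharTwo.two_eq_zero Q) h1) j hj hj.pos
  · intro h1
    obtain ⟨Q, hQ, g, hg⟩ := (ra_of_par (F := F) 2 (ia_unip d hd _)
      (h.2 fun j a _ => h1 j a)).ro.exists_quad (V := Fin (2 * m) → F) 2
      (by rw [(ia_unip d hd 1).dim, hsum]; simp)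
    obtain ⟨A, rfl⟩ := (oEquiv Q).surjective g
    exact ⟨Q, hQ, Fintype.equivOfCardEq (by
      simp only [Fintype.card_sigma, Fintype.card_fin, hsum]), A, (isConj_jordanType_iff d hd _
      ((eh_polar hQ).pres_isUnit (pres_polar (OG_map (oEquiv Q A))))).2 hg⟩

end Cfsg.Agent.S2584
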