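import Cfsg.Statements.S2585
import Cfsg.Agent.Cls.Misc
import Cfsg.Agent.Geom.Forms

set_option autoImplicit false
open Cfsg

namespace Cfsg.Agent.S2585

open CF.Cls CF.Geom Module

/-- Over a finite field of characteristic two every element of the symplectic group is orthogonal for a suitable quadratic form: for each A in Sp_2m(F) there is a quadratic form Q on F^(2m) whose polar form is the alternating form defining Sp_2m(F) (so Q is non-degenerate) and which A preserves. Equivalently, for m ≥ 1, Sp_2m(F) is the union of the conjugates of its two orthogonal subgroups O⁺_2m(F) and O⁻_2m(F). -/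
theorem result {F : Type*} [Field F] [Fintype F] [CharP F 2] {m : ℕ} (A : Matrix.symplecticGroup (Fin m) F) : ∃ Q : QuadraticForm F (Fin m ⊕ Fin m → F), (∀ u v : Fin m ⊕ Fin m → F, QuadraticMap.polar ⇑Q u v = Cfsg.sympForm m F u v) ∧ ∀ v : Fin m ⊕ Fin m → F, Q ((A : Matrix (Fin m ⊕ Fin m) (Fin m ⊕ Fin m) F).mulVec v) = Q v := by
  let Q₀ := qPlus m F
  let g := (spEquiv m F A).1
  have hg : ∀ v, g v = (A : Matrix (Fin m ⊕ Fin m) (Fin m ⊕ Fin m) F).mulVec v := fun _ => rfl
  have hp : ∀ u v, QuadraticMap.polar Q₀ u v = Cfsg.sympForm m F u v := by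
    intro u v
    rw [polar_qPlus, sympForm_eq_sum]
    simp only [CharTwo.sub_eq_add, add_comm]
  have hB : ∀ u v, QuadraticMap.polar Q₀ (g u) (g v) = QuadraticMap.polar Q₀ u v := by
    intro u v
    rw [hp, hp, ← sympBilin_apply, ← sympBilin_apply]; exact mem_SpG.1 (spEquiv m F A).2 u v
  let r := (frobeniusEquiv F 2).symm
  have hr : ∀ x, r x * r x = x := fun x => by
    rw [← pow_two]; exact (frobeniusEquiv F 2).apply_symm_apply x
  have hr' : ∀ x, r (x * x) = x := fun x => by
    rw [← pow_two]; exact (frobeniusEquiv F 2).symm_apply_apply x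
  let l : (Fin m ⊕ Fin m → F) →ₗ[F] F :=
    { toFun := fun v => r (Q₀ (g v) - Q₀ v)
      map_add' := fun u v => by
        rw [← map_add r]
        congr 1
        have := hB u v
        simp only [QuadraticMap.polar, ← map_add g] at this
        linear_combination this
      map_smul' := fun c v => by
        simp only [map_smul, QuadraticMap.map_smul, smul_eq_mul, RingHom.id_apply]
        rw [← mul_sub, map_mul, hr'] }
  have hl : l ∈ LinearMap.range (g.toLinearMap - 1).dualMap := by
    rw [LinearMap.range_dualMap_eq_dualAnnihilator_ker, Submodule.mem_dualAnnihilator]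
    intro v hv
    have : g v = v := sub_eq_zero.1 hv
    show r (Q₀ (g v) - Q₀ v) = 0
    rw [this, sub_self, map_zero]
  obtain ⟨μ, hμ⟩ := hl
  refine ⟨Q₀ + QuadraticMap.linMulLin μ μ, fun u v => ?_, fun v => ?_⟩
  · rw [← hp]
    simp only [QuadraticMap.polar, QuadraticMap.add_apply, QuadraticMap.linMulLin_apply, map_add]
    linear_combination CharTwo.add_self_eq_zero (μ u * μ v)
  · have h1 : μ (g v) - μ v = r (Q₀ (g v) - Q₀ v) := by
      rw [← map_sub]; exact DFunLike.congr_fun hμ v
    have h2 := hr (Q₀ (g v) - Q₀ v)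
    rw [← h1] at h2
    simp only [← hg, QuadraticMap.add_apply, QuadraticMap.linMulLin_apply]
    linear_combination -h2 + CharTwo.add_self_eq_zero (μ (g v) * μ (g v)) -
      CharTwo.add_self_eq_zero (μ (g v) * μ v)

end Cfsg.Agent.S2585
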