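import Cfsg.Statements.S2588
import Cfsg.Agent.Cls.GU

set_option autoImplicit false
open Cfsg

namespace Cfsg.Agent.S2588

open CF.Cls CF.Geom


/-- An invertible matrix A over the field with q² elements is conjugate in GL_n(q²) to an element of the general unitary group GU_n(q) (isometries of the Hermitian form Σ u_i v_i^q) if and only if A is similar to the inverse transpose of its entrywise q-th power (A ~ A^(−qT), the image of A under the map sending a matrix to the inverse transpose of its entrywise q-th power — inverse transpose composed with the field automorphism — whose fixed points form GU_n(q)). -/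
theorem result {K : Type*} [Field K] [Fintype K] {q n : ℕ} (hK : Fintype.card K = q ^ 2) (A : GL (Fin n) K) : (∃ B : ↥(Cfsg.GU n K q), IsConj A (B : GL (Fin n) K)) ↔ IsConj (A : Matrix (Fin n) (Fin n) K) (((A : Matrix (Fin n) (Fin n) K).map (fun x : K => x ^ q)).transpose)⁻¹ := by
  obtain ⟨σ, hσ, hσ1, hσ2⟩ := exists_conj hK
  have h := eh_hermSesq hσ2 (Fin n)
  have hfun : (fun x : K => x ^ q) = σ := funext (fun x => (hσ x).symm)
  rw [hfun]
  set M := ((A : Matrix (Fin n) (Fin n) K).map σ).transpose with hM
  have h1 : h.adj (Matrix.toLin' (A : Matrix (Fin n) (Fin n) K)) = Matrix.toLin' M := by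
    refine h.adj_eq (fun u v => ?_)
    simp only [hermSesq_apply, Matrix.toLin'_apply, Matrix.mulVec, dotProduct, hM, map_sum,
      map_mul, Matrix.transpose_apply, Matrix.map_apply, hσ2, Finset.sum_mul, Finset.mul_sum]
    rw [Finset.sum_comm]
    exact Finset.sum_congr rfl (fun i _ => Finset.sum_congr rfl (fun j _ => by ring))
  have h2 : IsUnit M.det := by
    rw [hM, Matrix.det_transpose, ← RingHom.mapMatrix_apply, ← RingHom.map_det]
    exact (Matrix.isUnits_det_units A).map σ
  have h3 : edM M⁻¹ = (edM (A : Matrix (Fin n) (Fin n) K)).map (cr σ) :=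
    h.ed_inv_adj (by
      rw [h1, Module.End.mul_eq_comp, ← Matrix.toLin'_mul, Matrix.mul_nonsing_inv _ h2,
        Matrix.toLin'_one]; rfl)
  rw [isConj_iff_edM, h3]
  constructor
  · rintro ⟨B, hB⟩
    rw [isConj_GL_iff_edM.1 hB]
    exact (h.ed_pres (pres_GU hσ B)).symm
  · intro h4
    obtain ⟨B, hB⟩ := exists_GU_edM (n := n) hσ hσ1 hσ2 (edM_isPP _)
      ((isUnit_iff_edM _).1 A.isUnit) h4.symm ((card_eq_edM _).trans (Fintype.card_fin n))
    exact ⟨B, isConj_GL_iff_edM.2 hB.symm⟩

end Cfsg.Agent.S2588
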