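import Cfsg.Statements.S2591
import Cfsg.Agent.Geom.RegU

set_option autoImplicit false
open Cfsg

namespace Cfsg.Agent.S2591

open CF.Geom CF.Cls

/-- Over a finite field of odd order and for m ≥ 1, the regular unipotent elements of Sp_2m(F) (u − 1 nilpotent of rank 2m − 1, a single Jordan block) form exactly two conjugacy classes of Sp_2m(F) (one class under the similarity group, which splits in two). -/
theorem result {F : Type*} [Field F] [Fintype F] {q : ℕ} (hF : Fintype.card F = q) (hq : Odd q) {m : ℕ} (hm : 1 ≤ m) : Nat.card {C : ConjClasses ↥(Matrix.symplecticGroup (Fin m) F) // ∃ u : Matrix.symplecticGroup (Fin m) F, ConjClasses.mk u = C ∧ ((u : Matrix (Fin m ⊕ Fin m) (Fin m ⊕ Fin m) F) - 1) ^ (2 * m) = 0 ∧ ((u : Matrix (Fin m ⊕ Fin m) (Fin m ⊕ Fin m) F) - 1).rank = 2 * m - 1} = 2 := by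
  have h2 : (2 : F) ≠ 0 := Ring.two_ne_zero fun e => by
    have := FiniteField.even_card_of_char_two e
    rw [hF, Nat.odd_iff.1 hq] at this; omega
  have hB := sympBilin_nondegenerate (F := F) m
  have hA := sympBilin_isAlt (F := F) m
  obtain ⟨p, _⟩ := CharP.exists F
  have := Fact.mk (CharP.char_is_prime F p)
  obtain ⟨j, hj⟩ : ∃ j, j + 1 = 2 * m := ⟨2 * m - 1, by omega⟩
  have c : ∀ {i}, i + 1 ∈ ({2 * m} : Multiset ℕ) → i = j ∧ Multiset.count (i + 1) {2 * m} = 1 := fun h => by
    rw [Multiset.mem_singleton] at h; exact ⟨by omega, by simp [h]⟩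
  rw [card_classes _ (fun u => Tri.TI (spTri hB hA (spEquiv m F u)) j 1 1) fun x y hx hy => ⟨fun h => ?_, fun h => ?_⟩]
  · refine (Nat.card_congr (Equiv.subtypeUnivEquiv fun t => ?_)).trans (by simp)
    classical
    obtain ⟨g, a, b⟩ := exists_sp_inv p hB hA h2 (μ := {2 * m}) (by simp; omega) (by simp [two_mul])
      (fun e he => by rw [Multiset.count_eq_zero.2 fun h => by rw [Multiset.mem_singleton.1 h, Nat.odd_iff] at he; omega]; simp) (if t then {2 * m} else ∅)
    obtain ⟨g, rfl⟩ := (spEquiv m F).surjective g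
    have := b j (by simp [hj]) (Nat.odd_iff.2 (by omega))
    rw [(c (by simp [hj])).2] at this
    exact ⟨g, (RegU.uj_iff hm g).1 a, propext (this.trans (by by_cases t <;> simp [*]))⟩
  · obtain ⟨c, rfl⟩ := isConj_iff.1 h
    have h4 : Tri.Iso (spTri hB hA (spEquiv m F x)) (spTri hB hA (spEquiv m F (c * x * c⁻¹))) :=
      ⟨(spEquiv m F c).1, mem_SpG.1 (spEquiv m F c).2, fun v => by simp [-spEquiv_apply]⟩
    exact propext ⟨h4.inv, h4.symm.inv⟩
  · simpa using (spEquiv m F).symm.toMonoidHom.map_isConj (isConj_of_inv hB hA h2 ((RegU.uj_iff hm x).2 hx)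
      ((RegU.uj_iff hm y).2 hy) fun i a _ => by rw [(c a).2, (c a).1]; exact h.to_iff)

end Cfsg.Agent.S2591
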