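import Cfsg.Statements.S2592
import Cfsg.Agent.Geom.RegU

set_option autoImplicit false
open Cfsg

namespace Cfsg.Agent.S2592

open CF.Geom CF.Cls

/-- Over a finite field with q elements, q odd, the centraliser in Sp_2m(F) (m ≥ 1) of a regular unipotent element (u − 1 nilpotent of rank 2m − 1) has order 2 q^m. -/
theorem result {F : Type*} [Field F] [Fintype F] {q : ℕ} (hF : Fintype.card F = q) (hq : Odd q) {m : ℕ} (hm : 1 ≤ m) (u : Matrix.symplecticGroup (Fin m) F) (hnil : ((u : Matrix (Fin m ⊕ Fin m) (Fin m ⊕ Fin m) F) - 1) ^ (2 * m) = 0) (hreg : ((u : Matrix (Fin m ⊕ Fin m) (Fin m ⊕ Fin m) F) - 1).rank = 2 * m - 1) : Nat.card ↥(Subgroup.centralizer ({u} : Set ↥(Matrix.symplecticGroup (Fin m) F))) = 2 * q ^ m := by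
  have h2 : (2 : F) ≠ 0 := Ring.two_ne_zero fun e => by
    have := FiniteField.even_card_of_char_two e
    rw [hF, Nat.odd_iff.1 hq] at this; omega
  have h := eh_alt (sympBilin_nondegenerate (F := F) m) (sympBilin_isAlt m)
  rw [← hF, ← Nat.card_eq_fintype_card, ← RegU.card_cent h2 h (mem_SpG.1 (spEquiv m F u).2) hm
    ((RegU.uj_iff hm u).2 ⟨hnil, hreg⟩)]
  refine Nat.card_congr (Equiv.ofBijective (fun g => ⟨(spEquiv m F g.1).1.toLinearMap, congrArg
    (fun x => (spEquiv m F x).1.toLinearMap) (Subgroup.mem_centralizer_singleton_iff.1 g.2) |> fun e => by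
      simpa using e, mem_SpG.1 (spEquiv m F g.1).2⟩) ⟨fun a b e => Subtype.ext ((spEquiv m F).injective
        (Subtype.ext (LinearEquiv.toLinearMap_injective (congrArg Subtype.val e)))), fun ⟨φ, a, b⟩ => ?_⟩)
  obtain ⟨g, hg⟩ := (isWittPair_symp m).exists_equiv φ b
  let s : SpG (sympBilin m F) := ⟨g, mem_SpG.2 fun x y => by rw [hg, hg, b]⟩
  refine ⟨⟨(spEquiv m F).symm s, Subgroup.mem_centralizer_singleton_iff.2 ((spEquiv m F).injective
    (Subtype.ext (LinearEquiv.ext fun x => ?_)))⟩, Subtype.ext (LinearMap.ext fun x => by simp [s, hg])⟩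
  simpa [s, hg] using LinearMap.congr_fun a x

end Cfsg.Agent.S2592
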