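import Cfsg.Statements.S2594
import Cfsg.Agent.Cls.Inv2M

set_option autoImplicit false
open Cfsg

namespace Cfsg.Agent.S2594

open CF.Cls CF.Geom Module QuadraticMap

/-- Over a finite field with q elements, q even, an element t of Sp_2m(F) with rank(t − 1) = 1 (a symplectic transvection) has centraliser in Sp_2m(F) of order q^(2m−1) · |Sp_(2m−2)(q)| = q^(2m−1) · q^((m−1)²) · Π_(i=1)^(m−1) (q^(2i) − 1). -/
theorem result {F : Type*} [Field F] [Fintype F] [CharP F 2] {q : ℕ} (hF : Fintype.card F = q) {m : ℕ} (hm : 1 ≤ m) (t : Matrix.symplecticGroup (Fin m) F) (ht : ((t : Matrix (Fin m ⊕ Fin m) (Fin m ⊕ Fin m) F) - 1).rank = 1) : Nat.card ↥(Subgroup.centralizer ({t} : Set ↥(Matrix.symplecticGroup (Fin m) F))) = q ^ (2 * m - 1) * (q ^ ((m - 1) ^ 2) * ∏ i : Fin (m - 1), (q ^ (2 * ((i : ℕ) + 1)) - 1)) := by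
  have h2 : (2 : F) = 0 := CharTwo.two_eq_zero
  have h3 := (finrank_RU_spEquiv t).trans ht
  have hB := sympBilin_nondegenerate (F := F) m
  have hA := sympBilin_isAlt (F := F) m
  have hp := (spEquiv m F t).2.1
  have h4 : t ^ 2 = 1 := by
    obtain ⟨v, -, hv⟩ := finrank_eq_one_iff'.1 h3
    set g := (spEquiv m F t).1 with hg
    have h5 : ∀ x y, sympBilin m F (g x - x) (g y - y) = 0 := fun x y => by
      obtain ⟨a, ha⟩ := hv (nU g x)
      obtain ⟨b, hb⟩ := hv (nU g y)
      rw [← coe_nU, ← coe_nU, ← ha, ← hb]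
      simp [hA.self_eq_zero]
    have h6 : ∀ x, g (g x - x) = g x - x := fun x => by
      rw [← sub_eq_zero]
      refine hB.1 _ fun y => ?_
      obtain ⟨y, rfl⟩ := g.surjective y
      rw [map_sub, LinearMap.sub_apply, hp, ← neg_sub, ← map_sub, h5, neg_zero]
    rw [← (spEquiv m F).injective.eq_iff, map_pow, map_one, pow_two]
    refine Subtype.ext (LinearEquiv.ext fun x => ?_)
    have := h6 x
    rw [map_sub, sub_eq_iff_eq_add] at this
    refine this.trans (funext fun i => ?_)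
    simp [CharTwo.sub_eq_add, add_right_comm _ (x i), CharTwo.add_self_eq_zero]
  obtain ⟨e1, e2, e3, -⟩ := card_cent_Sp h2 t h4 ht
  rw [e1, e2.s2.card_odd (k := 0) e3, Nat.card_eq_fintype_card, hF]
  simp [spOrd]

end Cfsg.Agent.S2594
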