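import Cfsg.Statements.S2597
import Cfsg.Agent.Cls.Inv2M

set_option autoImplicit false
open Cfsg

namespace Cfsg.Agent.S2597

open CF.Cls CF.Geom Module QuadraticMap

/-- Number of conjugacy classes of involutions in Ω⁺_2m(F) (the commutator subgroup of the orthogonal group of Σ x_i y_i) over a finite field F of characteristic two, m ≥ 1, excluding the case m = 2 over the field of two elements: the involutions of Ω are those with s = rank(t − 1) even, giving two O-classes for each even s with 2 ≤ s ≤ m, each of which is a single Ω-class except that for m even the class with s = m and v ↦ f(v, tv) identically zero splits in two; in all 2⌊m/2⌋ + 1 classes if m is even and 2⌊m/2⌋ if m is odd. -/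
theorem result {F : Type*} [Field F] [Fintype F] [CharP F 2] {m : ℕ} (hm : 1 ≤ m) (h : Fintype.card F ≠ 2 ∨ m ≠ 2) : Nat.card {C : ConjClasses ↥(Cfsg.Omega F (Cfsg.quadFormPlus m F)) // ∃ g : ↥(Cfsg.Omega F (Cfsg.quadFormPlus m F)), ConjClasses.mk g = C ∧ orderOf g = 2} = 2 * (m / 2) + (if Even m then 1 else 0) := by
  have hQ := qPlus_nondegenerate (F := F) m
  obtain ⟨h1, U, h3, h4⟩ := index_plus hQ (isPlus_qPlus m) (m := m) (by simp [two_mul])
  refine (card_classes_congr (omegaEquiv (qPlus m F)) 2).trans ((card_classes_inv_Om
    CharTwo.two_eq_zero hQ (reflSub_eq_top_fin hQ (h.imp_right fun h => by simp; omega)) hm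
    (by simp [two_mul]) h3 (h4.symm ▸ h1)).trans ?_)
  simp [h4, two_mul]

end Cfsg.Agent.S2597
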