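import Cfsg.Statements.S2599
import Cfsg.Agent.Cls.Misc
import Cfsg.Agent.Geom.Forms

set_option autoImplicit false
open Cfsg

namespace Cfsg.Agent.S2599

open CF.Cls CF.Geom Module

/-- An irreducible invariant subspace of a semisimple isometry is non-degenerate or totally singular: let Q be a quadratic form on F^n (F finite of characteristic p) with non-degenerate polar form f, x an isometry of Q of order prime to p, and U a non-zero x-invariant subspace containing no x-invariant subspace other than 0 and U. Then U meets its f-orthogonal trivially, or Q vanishes on U, or p = 2, U is a line spanned by a non-singular vector and x fixes U pointwise. -/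
theorem result {F : Type*} [Field F] [Fintype F] {p : ℕ} [Fact p.Prime] [CharP F p] {n : ℕ} (Q : QuadraticForm F (Fin n → F)) (hQ : (QuadraticMap.polarBilin Q).Nondegenerate) (x : ↥(Cfsg.isometryGroup F ⇑Q)) (hx : (orderOf x).Coprime p) (U : Submodule F (Fin n → F)) (hU0 : U ≠ ⊥) (hUx : ∀ u ∈ U, ((x : Matrix.GeneralLinearGroup (Fin n) F) : Matrix (Fin n) (Fin n) F).mulVec u ∈ U) (hirr : ∀ W : Submodule F (Fin n → F), W ≤ U → (∀ w ∈ W, ((x : Matrix.GeneralLinearGroup (Fin n) F) : Matrix (Fin n) (Fin n) F).mulVec w ∈ W) → W = ⊥ ∨ W = U) : U ⊓ LinearMap.BilinForm.orthogonal (QuadraticMap.polarBilin Q) U = ⊥ ∨ (∀ u ∈ U, Q u = 0) ∨ (p = 2 ∧ Module.finrank F U = 1 ∧ (∃ u ∈ U, Q u ≠ 0) ∧ ∀ u ∈ U, ((x : Matrix.GeneralLinearGroup (Fin n) F) : Matrix (Fin n) (Fin n) F).mulVec u = u) := by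
  set A := ((x : Matrix.GeneralLinearGroup (Fin n) F) : Matrix (Fin n) (Fin n) F) with hA
  let g := (oEquiv Q x).1
  have hg : ∀ v, g v = A.mulVec v := fun _ => rfl
  have hmap : U.map (g : _ →ₗ[F] _) = U := by
    refine Submodule.eq_of_le_of_finrank_eq ?_ (LinearEquiv.finrank_map_eq _ U)
    rintro _ ⟨v, hv, rfl⟩; exact hUx v hv
  have hperp := map_perp (B := QuadraticMap.polarBilin Q) (g := g) (OG_polar (oEquiv Q x)) U
  rw [hmap] at hperp
  rcases hirr (U ⊓ LinearMap.BilinForm.orthogonal (QuadraticMap.polarBilin Q) U) inf_le_left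
    (fun w hw => ⟨hUx w hw.1, hperp.le ⟨w, hw.2, rfl⟩⟩) with h | h
  · exact Or.inl h
  right
  by_cases h1 : ∀ u ∈ U, Q u = 0
  · exact Or.inl h1
  right
  push Not at h1
  obtain ⟨u, hu, hQu⟩ := h1
  have h2 : ∀ a ∈ U, ∀ b ∈ U, QuadraticMap.polar Q a b = 0 := fun a ha b hb => (h.ge hb).2 a ha
  have h3 : (2 : F) = 0 := by
    have := h2 u hu u hu
    rw [QuadraticMap.polar_self, two_nsmul, ← two_mul, mul_eq_zero] at this
    exact this.resolve_right hQu
  have hp : p = 2 := by
    have := (CharP.cast_eq_zero_iff F p 2).1 (by exact_mod_cast h3)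
    exact (Nat.prime_dvd_prime_iff_eq Fact.out Nat.prime_two).1 this
  let W : Submodule F (Fin n → F) :=
    { carrier := {w | w ∈ U ∧ Q w = 0}
      zero_mem' := ⟨U.zero_mem, map_zero Q⟩
      add_mem' := fun {a b} ha hb => ⟨U.add_mem ha.1 hb.1, by
        have := h2 a ha.1 b hb.1
        rw [QuadraticMap.polar, ha.2, hb.2] at this
        simpa using this⟩
      smul_mem' := fun c a ha => ⟨U.smul_mem c ha.1, by rw [QuadraticMap.map_smul, ha.2]; simp⟩ }
  have hQ' : ∀ v, Q (A.mulVec v) = Q v := OG_map (oEquiv Q x)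
  have hW : W = ⊥ := (hirr W (fun w hw => hw.1)
    (fun w hw => ⟨hUx w hw.1, (hQ' w).trans hw.2⟩)).resolve_right (fun h => hQu (h.ge hu).2)
  have h4 : ∀ a ∈ U, ∀ b ∈ U, Q a = Q b → a = b := by
    intro a ha b hb hab
    have : a - b ∈ W := ⟨U.sub_mem ha hb, by
      have h5 := h2 (a - b) (U.sub_mem ha hb) b hb
      rw [QuadraticMap.polar, sub_add_cancel, hab] at h5
      simpa using h5⟩
    rwa [hW, Submodule.mem_bot, sub_eq_zero] at this
  refine ⟨hp, ?_, ⟨u, hu, hQu⟩, fun v hv => h4 _ (hUx v hv) v hv (hQ' v)⟩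
  have hu0 : u ≠ 0 := by rintro rfl; exact hQu (map_zero Q)
  suffices hU : U = F ∙ u by rw [hU, finrank_span_singleton hu0]
  refine le_antisymm (fun v hv => ?_) ((Submodule.span_singleton_le_iff_mem _ _).2 hu)
  obtain ⟨d, hd⟩ := isSquare_of_two_eq_zero h3 (Q v / Q u)
  rw [h4 v hv (d • u) (U.smul_mem d hu) (by
    rw [QuadraticMap.map_smul, ← hd, smul_eq_mul, div_mul_cancel₀ _ hQu])]
  exact Submodule.smul_mem _ _ (Submodule.mem_span_singleton_self u)

end Cfsg.Agent.S2599
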