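import Cfsg.Statements.S2612
import Cfsg.Agent.Geom.Levi

set_option autoImplicit false
open Cfsg

namespace Cfsg.Agent.S2612

/-- For the hyperbolic quadratic form Σ x_i y_i on F^(2m) (F finite, m ≥ 1, excluding m = 2 over the field of two elements), Ω⁺_2m(F) (the commutator subgroup of the orthogonal group) contains an element interchanging the two complementary maximal totally singular subspaces {y = 0} and {x = 0} if and only if m is even (dimension divisible by 4). -/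
theorem result {F : Type*} [Field F] [Fintype F] {m : ℕ} (hm : 1 ≤ m) (h : Fintype.card F ≠ 2 ∨ m ≠ 2) : (∃ g : ↥(Cfsg.isometryGroup F (Cfsg.quadFormPlus m F)), g ∈ Cfsg.Omega F (Cfsg.quadFormPlus m F) ∧ (∀ v : Fin m ⊕ Fin m → F, (∀ i, v (Sum.inr i) = 0) → ∀ i, (((g : Matrix.GeneralLinearGroup (Fin m ⊕ Fin m) F) : Matrix (Fin m ⊕ Fin m) (Fin m ⊕ Fin m) F).mulVec v) (Sum.inl i) = 0) ∧ (∀ v : Fin m ⊕ Fin m → F, (∀ i, v (Sum.inl i) = 0) → ∀ i, (((g : Matrix.GeneralLinearGroup (Fin m ⊕ Fin m) F) : Matrix (Fin m ⊕ Fin m) (Fin m ⊕ Fin m) F).mulVec v) (Sum.inr i) = 0)) ↔ Even m := by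
  have hQ := CF.Geom.qPlus_nondegenerate (F := F) m
  have hU := CF.Geom.maxTS_ker_inr (F := F) m
  have hW := CF.Geom.maxTS_ker_inl (F := F) m
  have htop := CF.Geom.reflSub_eq_top_fin hQ (h.imp id fun h => by simp; omega)
  have key : ∀ g : CF.Geom.OG (CF.Geom.qPlus m F),
      (∀ v : Fin m ⊕ Fin m → F, (∀ i, v (.inr i) = 0) → ∀ i, g.1 v (.inl i) = 0) →
      ∃ vs : List (Fin m ⊕ Fin m → F), (∀ v ∈ vs, CF.Geom.qPlus m F v ≠ 0) ∧
        (vs.map (CF.Geom.oRefl _)).prod = g ∧ (Even vs.length ↔ Even m) := fun g hg => by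
    obtain ⟨vs, hvs, h1⟩ := CF.Geom.mem_reflSub_iff.1 (htop ▸ Subgroup.mem_top g)
    refine ⟨vs, hvs, h1, ?_⟩
    rw [hU.even_length_iff hQ vs hvs, h1, CF.Geom.map_eq_of_le g.1
      (fun u hu => funext (hg u (congrFun hu))) (hW.finrank_eq hU).le,
      (CF.Geom.maxTS_qPlus_iff.1 hU).1, Submodule.finrank_eq_zero.2, Nat.sub_zero]
    rw [eq_bot_iff]
    rintro v ⟨h2, h3⟩
    ext (i | i)
    · exact congrFun h3 i
    · exact congrFun h2 i
  constructor
  · rintro ⟨g, h1, h2, -⟩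
    obtain ⟨vs, hvs, h3, h4⟩ := key (CF.Geom.oEquiv _ g) h2
    have h5 := (CF.Geom.mem_Omega_iff (CF.Geom.qPlus m F) g).1 h1
    rw [← h3, CF.Geom.prod_oRefl_mem_commutator_iff hQ htop vs hvs] at h5
    exact h4.1 h5.1
  · intro he
    let s : CF.Geom.OG (CF.Geom.qPlus m F) :=
      ⟨LinearEquiv.funCongrLeft F F (Equiv.sumComm (Fin m) (Fin m)),
        CF.Geom.mem_OG.2 fun v => by simp [CF.Geom.qPlus_apply, mul_comm]⟩
    obtain ⟨vs, hvs, h3, h4⟩ := key s fun v hv i => hv i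
    have hf := CF.Geom.qFrame_qPlus (F := F) m
    let j : Fin m := ⟨0, hm⟩
    obtain ⟨a, ha, h5⟩ := CF.Geom.exists_oTor_mul_mem hQ (hf.qe' j) (hf.qf' j) (hf.ef_self j) vs hvs
      (h4.2 he)
    rw [h3] at h5
    obtain ⟨g, hg⟩ := (CF.Geom.oEquiv (CF.Geom.qPlus m F)).surjective
      (CF.Geom.oTor _ (Pi.single (.inl j) 1) (Pi.single (.inr j) 1) a * s)
    have h6 : ∀ v, (g : GL (Fin m ⊕ Fin m) F).1.mulVec v = (CF.Geom.oTor (CF.Geom.qPlus m F)
        (Pi.single (.inl j) 1) (Pi.single (.inr j) 1) a).1 (v ∘ Sum.swap) := fun v => by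
      rw [← CF.Geom.oEquiv_apply, hg]; rfl
    refine ⟨g, (CF.Geom.mem_Omega_iff (CF.Geom.qPlus m F) g).2 (hg ▸ h5), fun v hv i => ?_,
      fun v hv i => ?_⟩ <;>
    · rw [h6, CF.Geom.oTor_apply (hf.qe' j) (hf.qf' j) (hf.ef_self j) ha, QuadraticMap.polar_comm,
        CF.Geom.polar_qPlus_single_inr, QuadraticMap.polar_comm, CF.Geom.polar_qPlus_single_inl]
      simp [hv]

end Cfsg.Agent.S2612
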