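import Cfsg.Statements.S2614
import Cfsg.Agent.Geom.Disc

set_option autoImplicit false
open Cfsg

namespace Cfsg.Agent.S2614

/-- For the form x_0² + Σ x_j y_j on F^(2m+1), F finite with q elements, q odd, and 1 ≤ i ≤ m: the involution of determinant one negating the first i hyperbolic pairs (and fixing x_0 and the other pairs) lies in Ω_(2m+1)(q) (commutator subgroup of the orthogonal group) if and only if q^i ≡ 1 (mod 4); its (−1)-eigenspace is a hyperbolic 2i-space. -/
theorem result {F : Type*} [Field F] [Fintype F] {q : ℕ} (hF : Fintype.card F = q) (hq : Odd q) {m : ℕ} (i : ℕ) (hi : 1 ≤ i) (him : i ≤ m) : (∃ g : ↥(Cfsg.isometryGroup F (Cfsg.quadFormOdd m F)), g ∈ Cfsg.Omega F (Cfsg.quadFormOdd m F) ∧ ((g : Matrix.GeneralLinearGroup (Unit ⊕ (Fin m ⊕ Fin m)) F) : Matrix (Unit ⊕ (Fin m ⊕ Fin m)) (Unit ⊕ (Fin m ⊕ Fin m)) F) = Matrix.diagonal (fun k : Unit ⊕ (Fin m ⊕ Fin m) => if (Sum.elim (fun _ : Unit => i) (Sum.elim (fun j : Fin m => (j : ℕ)) (fun j : Fin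 m => (j : ℕ))) k) < i then (-1 : F) else 1)) ↔ q ^ i % 4 = 1 := by
  subst hF
  have h2 := CF.Geom.two_ne_zero_of_odd_card hq
  let D : Matrix (Unit ⊕ (Fin m ⊕ Fin m)) (Unit ⊕ (Fin m ⊕ Fin m)) F := Matrix.diagonal (fun k : Unit ⊕ (Fin m ⊕ Fin m) => if (Sum.elim (fun _ : Unit => i) (Sum.elim (fun j : Fin m => (j : ℕ)) (fun j : Fin m => (j : ℕ))) k) < i then (-1 : F) else 1)
  have hD : ∀ v, D.mulVec (D.mulVec v) = v := fun v => by
    ext k; simp only [D, Matrix.mulVec_diagonal]; split_ifs <;> simp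
  let g : CF.Geom.OG (CF.Geom.qOdd m F) := ⟨LinearEquiv.ofInvolutive D.mulVecLin hD,
    CF.Geom.mem_OG.2 fun v => by
      simp only [CF.Geom.qOdd_apply]
      congr 1
      · show D.mulVec v _ ^ 2 = _
        simp [D, Matrix.mulVec_diagonal]
      refine Finset.sum_congr rfl fun j _ => ?_
      show D.mulVec v _ * D.mulVec v _ = _
      by_cases hj : (j : ℕ) < i <;> simp [D, Matrix.mulVec_diagonal, hj]⟩
  have hg : ∀ v, g.1 v = D.mulVec v := fun v => rfl
  refine (CF.Geom.exists_mem_Omega_iff (CF.Geom.qOdd m F) g _ hg).trans ?_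
  rw [CF.Geom.mem_commutator_iff_of_qFrame h2 (CF.Geom.qOdd_nondegenerate h2 m)
    ((CF.Geom.qFrame_qOdd m).comp (Fin.castLE_injective him)) g, Fintype.card_fin]
  · intro j; rw [hg]; ext k
    by_cases hk : k = .inr (.inl (Fin.castLE him j)) <;> simp [D, Matrix.mulVec_diagonal, hk]
  · intro j; rw [hg]; ext k
    by_cases hk : k = .inr (.inr (Fin.castLE him j)) <;> simp [D, Matrix.mulVec_diagonal, hk]
  · intro x h3 h4
    rw [hg]; ext k
    simp only [D, Matrix.mulVec_diagonal]
    split_ifs with hk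
    · rcases k with k | k | k
      · simp at hk
      · have := h4 ⟨k, hk⟩
        simp [CF.Geom.polar_qOdd, Pi.single_apply] at this
        have h5 : x (.inr (.inl k)) = 0 := this
        simp [h5]
      · have := h3 ⟨k, hk⟩
        simp [CF.Geom.polar_qOdd, Pi.single_apply] at this
        have h5 : x (.inr (.inr k)) = 0 := this
        simp [h5]
    · simp

end Cfsg.Agent.S2614
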