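import Cfsg.Statements.S2615
import Cfsg.Agent.Geom.Disc

set_option autoImplicit false
open Cfsg

namespace Cfsg.Agent.S2615

/-- For an elliptic form Σ_(j<m−1) x_j y_j + (z₁² + a z₁z₂ + b z₂²) (anisotropic binary part) on F^(2m), F finite with q elements, q odd, and 1 ≤ i ≤ m − 1: the involution negating the first i hyperbolic pairs and fixing the rest lies in Ω⁻_2m(q) (commutator subgroup of the orthogonal group) if and only if q^i ≡ 1 (mod 4). -/
theorem result {F : Type*} [Field F] [Fintype F] {q : ℕ} (hF : Fintype.card F = q) (hq : Odd q) {m : ℕ} (a b : F) (hab : ∀ z₁ z₂ : F, z₁ ^ 2 + a * z₁ * z₂ + b * z₂ ^ 2 = 0 → z₁ = 0 ∧ z₂ = 0) (i : ℕ) (hi : 1 ≤ i) (him : i + 1 ≤ m) : (∃ g : ↥(Cfsg.isometryGroup F (Cfsg.quadFormMinus (m - 1) F a b)), g ∈ Cfsg.Omega F (Cfsg.quadFormMinus (m - 1) F a b) ∧ ((g : Matrix.GeneralLinearGroup ((Fin (m - 1) ⊕ Fin (m - 1)) ⊕ Fin 2) F) : Matrix ((Fin (m - 1) ⊕ Fin (m - 1)) ⊕ Fin 2) ((Fin (m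 - 1) ⊕ Fin (m - 1)) ⊕ Fin 2) F) = Matrix.diagonal (fun k : (Fin (m - 1) ⊕ Fin (m - 1)) ⊕ Fin 2 => if (Sum.elim (Sum.elim (fun j : Fin (m - 1) => (j : ℕ)) (fun j : Fin (m - 1) => (j : ℕ))) (fun _ : Fin 2 => i) k) < i then (-1 : F) else 1)) ↔ q ^ i % 4 = 1 := by
  subst hF
  have h2 := CF.Geom.two_ne_zero_of_odd_card hq
  have him' : i ≤ m - 1 := by omega
  let D : Matrix ((Fin (m - 1) ⊕ Fin (m - 1)) ⊕ Fin 2) ((Fin (m - 1) ⊕ Fin (m - 1)) ⊕ Fin 2) F := Matrix.diagonal (fun k : (Fin (m - 1) ⊕ Fin (m - 1)) ⊕ Fin 2 => if (Sum.elim (Sum.elim (fun j : Fin (m - 1) => (j : ℕ)) (fun j : Fin (m - 1) => (j : ℕ))) (fun _ : Fin 2 => i) k) < i then (-1 : F) else 1)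
  have hD : ∀ v, D.mulVec (D.mulVec v) = v := fun v => by
    ext k; simp only [D, Matrix.mulVec_diagonal]; split_ifs <;> simp
  let g : CF.Geom.OG (CF.Geom.qMinus (m - 1) F a b) := ⟨LinearEquiv.ofInvolutive D.mulVecLin hD,
    CF.Geom.mem_OG.2 fun v => by
      simp only [CF.Geom.qMinus_apply]
      congr 1
      · refine Finset.sum_congr rfl fun j _ => ?_
        show D.mulVec v _ * D.mulVec v _ = _
        by_cases hj : (j : ℕ) < i <;> simp [D, Matrix.mulVec_diagonal, hj]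
      · show D.mulVec v _ ^ 2 + a * D.mulVec v _ * D.mulVec v _ + b * D.mulVec v _ ^ 2 = _
        simp [D, Matrix.mulVec_diagonal]⟩
  have hg : ∀ v, g.1 v = D.mulVec v := fun v => rfl
  refine (CF.Geom.exists_mem_Omega_iff (CF.Geom.qMinus (m - 1) F a b) g _ hg).trans ?_
  rw [CF.Geom.mem_commutator_iff_of_qFrame h2 (CF.Geom.qMinus_nondegenerate _ hab)
    ((CF.Geom.qFrame_qMinus (m - 1) a b).comp (Fin.castLE_injective him')) g, Fintype.card_fin]
  · intro j; rw [hg]; ext k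
    by_cases hk : k = .inl (.inl (Fin.castLE him' j)) <;> simp [D, Matrix.mulVec_diagonal, hk]
  · intro j; rw [hg]; ext k
    by_cases hk : k = .inl (.inr (Fin.castLE him' j)) <;> simp [D, Matrix.mulVec_diagonal, hk]
  · intro x h3 h4
    rw [hg]; ext k
    simp only [D, Matrix.mulVec_diagonal]
    split_ifs with hk
    · rcases k with (k | k) | k
      · have := h4 ⟨k, hk⟩
        simp [CF.Geom.polar_qMinus, Pi.single_apply] at this
        have h5 : x (.inl (.inl k)) = 0 := this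
        simp [h5]
      · have := h3 ⟨k, hk⟩
        simp [CF.Geom.polar_qMinus, Pi.single_apply] at this
        have h5 : x (.inl (.inr k)) = 0 := this
        simp [h5]
      · simp at hk
    · simp

end Cfsg.Agent.S2615
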