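import Cfsg.Statements.S2619
import Cfsg.Agent.Geom.Forms

set_option autoImplicit false
open Cfsg

namespace Cfsg.Agent.S2619

/-- Over a finite field of characteristic two, given an alternating bilinear form B on a finite-dimensional space, a basis (v_i) and scalars (λ_i), there is exactly one quadratic form whose polar form is B and whose value at each v_i is λ_i. -/
theorem result {F V ι : Type*} [Field F] [Finite F] [CharP F 2] [AddCommGroup V] [Module F V] [Fintype ι] (b : Module.Basis ι F V) (B : LinearMap.BilinForm F V) (hB : B.IsAlt) (c : ι → F) : ∃! Q : QuadraticForm F V, QuadraticMap.polarBilin Q = B ∧ ∀ i, Q (b i) = c i := by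
  classical
  have h2 : (2 : F) = 0 := CharTwo.two_eq_zero
  obtain ⟨n, ⟨e⟩⟩ := Finite.exists_equiv_fin ι
  let C : LinearMap.BilinForm F V := b.constr F fun i => b.constr F fun j =>
    if e i < e j then B (b i) (b j) else if i = j then c i else 0
  have hC : ∀ i j, C (b i) (b j) =
      if e i < e j then B (b i) (b j) else if i = j then c i else 0 := fun i j => by
    simp only [C, Module.Basis.constr_basis]
  have h1 : QuadraticMap.polarBilin (LinearMap.BilinMap.toQuadraticMap C) = B := by
    refine LinearMap.ext_basis b b fun i j => ?_
    rw [QuadraticMap.polarBilin_apply_apply, LinearMap.BilinMap.polar_toQuadraticMap, hC, hC]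
    rcases lt_trichotomy (e i) (e j) with h | h | h
    · have : j ≠ i := by rintro rfl; exact lt_irrefl _ h
      simp [h, h.not_gt, this]
    · obtain rfl := e.injective h
      simp [hB (b i), ← two_mul, h2]
    · have : i ≠ j := by rintro rfl; exact lt_irrefl _ h
      simp only [h, h.not_gt, this, if_true, if_false, zero_add]
      rw [← hB.neg_eq, CharTwo.neg_eq]
  refine ⟨LinearMap.BilinMap.toQuadraticMap C, ⟨h1, fun i => by simp [hC]⟩, ?_⟩
  rintro Q ⟨h3, h4⟩
  ext v
  exact CF.Geom.quad_map_of_basis b LinearMap.id (Q := LinearMap.BilinMap.toQuadraticMap C)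
    (Q' := Q) (fun u v => by
      rw [← QuadraticMap.polarBilin_apply_apply, ← QuadraticMap.polarBilin_apply_apply, h1, h3]
      rfl) (fun i => by simp [h4, hC]) v

end Cfsg.Agent.S2619
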