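import Cfsg.Statements.S2620
import Cfsg.Agent.Geom.Disc

set_option autoImplicit false
open Cfsg

namespace Cfsg.Agent.S2620

theorem aux {q : ℕ} (hq : Odd q) (m : ℕ) : q ^ m % 4 = 1 ↔ Even (m * (q - 1) / 2) := by
  obtain ⟨k, rfl⟩ := hq
  have h1 : m * (2 * k + 1 - 1) / 2 = m * k := by
    rw [Nat.add_sub_cancel, mul_left_comm, Nat.mul_div_cancel_left _ two_pos]
  rw [h1, Nat.even_mul]
  rcases Nat.even_or_odd' k with ⟨j, rfl | rfl⟩
  · have : (2 * (2 * j) + 1) % 4 = 1 := by omega
    simp [Nat.pow_mod, this]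
  · have : (2 * (2 * j + 1) + 1) % 4 = 3 := by omega
    rw [Nat.pow_mod, this]
    rcases Nat.even_or_odd' m with ⟨i, rfl | rfl⟩
    · simp [pow_mul, Nat.pow_mod]
    · simp [pow_succ, pow_mul, Nat.pow_mod, Nat.mul_mod]

/-- Discriminant of the hyperbolic quadratic form Σ_(i<m) x_i y_i over a field with q elements, q odd, m ≥ 1: the determinant of the Gram matrix of its polar form in any basis is a square if and only if m(q − 1)/2 is even (equivalently q^m ≡ 1 (mod 4)). -/
theorem result {F : Type*} [Field F] [Fintype F] {q : ℕ} (hF : Fintype.card F = q) (hq : Odd q) {m : ℕ} (hm : 1 ≤ m) {ι : Type*} [Fintype ι] [DecidableEq ι] (b : Module.Basis ι F (Fin m ⊕ Fin m → F)) : IsSquare (Matrix.of (fun i j : ι => QuadraticMap.polar (Cfsg.quadFormPlus m F) (b i) (b j))).det ↔ Even (m * (q - 1) / 2) := by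
  subst hF
  have h2 := CF.Geom.two_ne_zero_of_odd_card hq
  refine (CF.Geom.isSquare_det_gram_iff h2 (CF.Geom.qPlus_nondegenerate m) (m := m)
    (by simp [two_mul]) b).trans ?_
  simp [CF.Geom.isPlus_qPlus, aux hq]

end Cfsg.Agent.S2620
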