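import Cfsg.Statements.S2622
import Cfsg.Agent.Geom.Disc

set_option autoImplicit false
open Cfsg

namespace Cfsg.Agent.S2622

/-- Over a finite field of characteristic two, a non-degenerate symmetric bilinear form that is not alternating (some vector v has B(v, v) ≠ 0) admits an orthonormal basis. -/
theorem result {F V : Type*} [Field F] [Finite F] [CharP F 2] [AddCommGroup V] [Module F V] [FiniteDimensional F V] {n : ℕ} (hV : Module.finrank F V = n) (B : LinearMap.BilinForm F V) (hS : B.IsSymm) (hB : B.Nondegenerate) (hna : ∃ v : V, B v v ≠ 0) : ∃ b : Module.Basis (Fin n) F V, ∀ i j, B (b i) (b j) = if i = j then 1 else 0 := by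
  have h2 : (2 : F) = 0 := CharTwo.two_eq_zero
  have hr : B.IsRefl := hS.isRefl
  have key : ∀ k ≤ n, ∃ v : Fin k → V, CF.Geom.OrthFam B v ∧ (∀ i, B (v i) (v i) = 1) ∧
      (k < n → ∃ w ∈ CF.Geom.perp B (Submodule.span F (Set.range v)), B w w ≠ 0) := by
    intro k hk
    induction k with
    | zero =>
      obtain ⟨w, hw⟩ := hna
      exact ⟨Fin.elim0, ⟨fun i => i.elim0, fun i => i.elim0⟩, fun i => i.elim0,
        fun _ => ⟨w, CF.Geom.mem_perp_range.2 fun i => i.elim0, hw⟩⟩
    | succ k ih =>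
      obtain ⟨v, h1, h3, h4⟩ := ih (by omega)
      obtain ⟨w₀, hw₀, hw0⟩ := h4 (by omega)
      obtain ⟨t, ht⟩ := CF.Geom.isSquare_of_two_eq_zero h2 (B w₀ w₀)⁻¹
      obtain ⟨w, hw, hw1⟩ : ∃ w ∈ CF.Geom.perp B (Submodule.span F (Set.range v)), B w w = 1 :=
        ⟨t • w₀, Submodule.smul_mem _ _ hw₀, by simp [← mul_assoc, ← ht, hw0]⟩
      have snoc : ∀ w ∈ CF.Geom.perp B (Submodule.span F (Set.range v)), B w w = 1 →
          CF.Geom.OrthFam B (Fin.snoc v w : Fin (k + 1) → V) ∧
          (∀ i, B ((Fin.snoc v w : Fin (k + 1) → V) i) ((Fin.snoc v w : Fin (k + 1) → V) i) = 1) ∧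
          ∀ x, x ∈ CF.Geom.perp B (Submodule.span F (Set.range (Fin.snoc v w : Fin (k + 1) → V))) ↔
            x ∈ CF.Geom.perp B (Submodule.span F (Set.range v)) ∧ B w x = 0 := fun w hw hw1 => by
        refine ⟨h1.snoc hr (by rw [hw1]; exact one_ne_zero) hw, fun i => ?_, fun x => ?_⟩
        · refine Fin.lastCases ?_ (fun i => ?_) i
          · simpa using hw1
          · simpa using h3 i
        · simp only [CF.Geom.mem_perp_range, Fin.forall_fin_succ', Fin.snoc_castSucc, Fin.snoc_last]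
      obtain ⟨h5, h6, h7⟩ := snoc w hw hw1
      by_cases hc : k + 1 < n → ∃ x ∈ CF.Geom.perp B
        (Submodule.span F (Set.range (Fin.snoc v w : Fin (k + 1) → V))), B x x ≠ 0
      · exact ⟨_, h5, h6, hc⟩
      push Not at hc
      obtain ⟨hc1, hc2⟩ := hc
      have h8 := h5.finrank_perp (σ := RingHom.id F) Function.surjective_id hB
      rw [Fintype.card_fin] at h8
      obtain ⟨e, he, he0⟩ := Submodule.exists_mem_ne_zero_of_ne_bot (p := CF.Geom.perp B
        (Submodule.span F (Set.range (Fin.snoc v w : Fin (k + 1) → V))))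
        (by intro h; rw [h, finrank_bot] at h8; omega)
      obtain ⟨f₀, hf₀, hef₀⟩ : ∃ f ∈ CF.Geom.perp B
          (Submodule.span F (Set.range (Fin.snoc v w : Fin (k + 1) → V))), B f e ≠ 0 := by
        by_contra hc
        push Not at hc
        exact he0 (Submodule.disjoint_def.1 (CF.Geom.disjoint_perp_perp' (σ := RingHom.id F)
          Function.surjective_id hB h5.disjoint) e he (CF.Geom.mem_perp.2 hc))
      obtain ⟨f, hf, hef⟩ : ∃ f ∈ CF.Geom.perp B
          (Submodule.span F (Set.range (Fin.snoc v w : Fin (k + 1) → V))), B f e = 1 :=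
        ⟨(B f₀ e)⁻¹ • f₀, Submodule.smul_mem _ _ hf₀, by simp [hef₀]⟩
      have hee := hc2 e he
      have hff := hc2 f hf
      obtain ⟨he1, he2⟩ := (h7 e).1 he
      obtain ⟨hf1, hf2⟩ := (h7 f).1 hf
      obtain ⟨h9, h10, h11⟩ := snoc (w + e) (Submodule.add_mem _ hw he1)
        (by simp [hw1, hee, he2, hS.eq e w])
      refine ⟨_, h9, h10, fun _ => ⟨w + f, (h11 _).2 ⟨Submodule.add_mem _ hw hf1, ?_⟩, ?_⟩⟩
      · simp [hw1, hf2, he2, hS.eq e w, hS.eq e f, hef, one_add_one_eq_two, h2]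
      · simp [hw1, hff, hf2, hS.eq f w]
  obtain ⟨v, h1, h3, -⟩ := key n le_rfl
  obtain ⟨b, hb⟩ := CF.Geom.exists_basis_of_li h1.linearIndependent (by simp [hV])
  refine ⟨b, fun i j => ?_⟩
  rw [hb, hb]
  split_ifs with hij
  · rw [hij, h3]
  · exact h1.orth i j hij

end Cfsg.Agent.S2622
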