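import Cfsg.Statements.S2623
import Cfsg.Agent.Geom.Disc

set_option autoImplicit false
open Cfsg

namespace Cfsg.Agent.S2623

/-- Over a finite field of odd order, two quadratic forms on F^n with non-degenerate polar forms are isometric (related by an invertible linear change of variables) if and only if their discriminants (determinants of the Gram matrices of their polar forms) lie in the same square class. -/
theorem result {F : Type*} [Field F] [Fintype F] (h2 : (2 : F) ≠ 0) {n : ℕ} (Q₁ Q₂ : QuadraticForm F (Fin n → F)) (h₁ : (QuadraticMap.polarBilin Q₁).Nondegenerate) (h₂ : (QuadraticMap.polarBilin Q₂).Nondegenerate) : (∃ g : (Fin n → F) ≃ₗ[F] (Fin n → F), ∀ v, Q₂ (g v) = Q₁ v) ↔ IsSquare ((Matrix.of (fun i j : Fin n => QuadraticMap.polar ⇑Q₁ (Pi.single i 1) (Pi.single j 1))).det * (Matrix.of (fun i j : Fin n => QuadraticMap.polar ⇑Q₂ (Pi.single i 1) (Pi.single j 1))).det) := by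
  have e : ∀ Q : QuadraticForm F (Fin n → F), Matrix.of (fun i j : Fin n =>
      QuadraticMap.polar ⇑Q (Pi.single i 1) (Pi.single j 1)) =
      CF.Geom.gram (QuadraticMap.polarBilin Q) (Pi.basisFun F (Fin n)) := fun Q => by
    ext i j; simp
  rw [e, e]
  constructor
  · rintro ⟨g, hg⟩
    obtain ⟨t, ht, h⟩ := CF.Geom.exists_det_gram_eq_of_equiv g (c := 1)
      (CF.Geom.polar_equiv g (Q := Q₁) (Q' := Q₂) (fun v => by rw [one_mul, hg]))
      (Pi.basisFun F (Fin n)) (Pi.basisFun F (Fin n))
    exact ⟨t * (CF.Geom.gram (QuadraticMap.polarBilin Q₁) (Pi.basisFun F (Fin n))).det,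
      by rw [h]; ring⟩
  · intro h
    obtain ⟨g, hg⟩ := CF.Geom.exists_equiv_of_isSquare_disc h2 (CF.Geom.polarBilin_isSymm Q₁) h₁
      (CF.Geom.polarBilin_isSymm Q₂) h₂ rfl _ _ h
    exact ⟨g, fun v => CF.Geom.quad_eq_of_polar_eq h2 (hg v v)⟩

end Cfsg.Agent.S2623
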