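import Cfsg.Statements.S2625
import Cfsg.Agent.Geom.Disc

set_option autoImplicit false
open Cfsg

namespace Cfsg.Agent.S2625

/-- For a quadratic form Q on F^n with non-degenerate polar form, F finite and n odd (so |F| is odd), the multiplier of any similarity is a square: if g is an invertible linear map with Q(g v) = c·Q(v) for all v then c is a square. -/
theorem result {F : Type*} [Field F] [Fintype F] {n : ℕ} (hn : Odd n) (Q : QuadraticForm F (Fin n → F)) (hQ : (QuadraticMap.polarBilin Q).Nondegenerate) (g : (Fin n → F) ≃ₗ[F] (Fin n → F)) (c : F) (hg : ∀ v, Q (g v) = c * Q v) : IsSquare c := by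
  obtain ⟨t, ht, h⟩ := CF.Geom.exists_det_gram_eq_of_equiv g (CF.Geom.polar_equiv g hg)
    (Pi.basisFun F (Fin n)) (Pi.basisFun F (Fin n))
  have h0 := CF.Geom.det_gram_ne_zero hQ (Pi.basisFun F (Fin n))
  obtain ⟨k, rfl⟩ := hn
  rw [Fintype.card_fin] at h
  have h1 : (t * c ^ k) ^ 2 * c = 1 := mul_right_cancel₀ h0 (by linear_combination -h)
  have h2 : t * c ^ k ≠ 0 := fun e => by simp [e] at h1
  rw [← CF.Geom.isSquare_sq_mul_iff h2, h1]
  exact IsSquare.one

end Cfsg.Agent.S2625
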