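import Cfsg.Statements.S2627
import Cfsg.Agent.Geom.Levi

set_option autoImplicit false
open Cfsg

namespace Cfsg.Agent.S2627

/-- For an orthogonal direct sum Q = Q₁ ⊕ Q₂ of quadratic forms with non-degenerate polar forms over a finite field, an isometry g₁ of Q₁ extended by the identity on the second summand lies in Ω(Q) (the commutator subgroup of the orthogonal group of Q) if and only if g₁ lies in Ω(Q₁). (Excluded: the field of two elements when the first summand or the whole space has dimension 4, where the commutator subgroup of O⁺₄(2) is smaller than the group usually called Ω.) -/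
theorem result {F : Type*} [Field F] [Fintype F] {k l : ℕ} (h : Fintype.card F ≠ 2 ∨ (k ≠ 4 ∧ k + l ≠ 4)) (Q₁ : QuadraticForm F (Fin k → F)) (Q₂ : QuadraticForm F (Fin l → F)) (h₁ : (QuadraticMap.polarBilin Q₁).Nondegenerate) (h₂ : (QuadraticMap.polarBilin Q₂).Nondegenerate) (g₁ : ↥(Cfsg.isometryGroup F ⇑Q₁)) : (∃ g : ↥(Cfsg.isometryGroup F (fun v : Fin k ⊕ Fin l → F => Q₁ (v ∘ Sum.inl) + Q₂ (v ∘ Sum.inr))), g ∈ Cfsg.Omega F (fun v : Fin k ⊕ Fin l → F => Q₁ (v ∘ Sum.inl) + Q₂ (v ∘ Sum.inr)) ∧ ((g : Matrix.GeneralLinearGroup (Fin k ⊕ Fin l) F) : Matrix (Fin k ⊕ Fin l) (Fin k ⊕ Fin l) F) = Matrix.fromBlocks ((g₁ : Matrix.GeneralLinearGroup (Fin k) F) : Matrix (Fin k) (Fin k) F) 0 0 1) ↔ g₁ ∈ Cfsg.Omega F ⇑Q₁ := by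
  have hD := CF.Geom.orthDecomp_qSum Q₁ Q₂
  have hQ := CF.Geom.nondegenerate_of_orthDecomp hD h₁ h₂
  refine (CF.Geom.exists_mem_Omega_qSum_iff Q₁ Q₂ g₁ 1).trans ?_
  have h3 := CF.Geom.reflSub_eq_top_fin h₁ (h.imp id fun h => by simpa using h.1)
  have h4 := CF.Geom.reflSub_eq_top_fin hQ (h.imp id fun h => by simpa using h.2)
  obtain ⟨vs, hvs, h5⟩ := CF.Geom.mem_reflSub_iff.1 (h3 ▸ Subgroup.mem_top (CF.Geom.oEquiv Q₁ g₁))
  have h6 : ∀ v, CF.Geom.qSum Q₁ Q₂
      ((LinearEquiv.sumArrowLequivProdArrow (Fin k) (Fin l) F F).symm (v, 0)) = Q₁ v := fun v => by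
    show Q₁ v + Q₂ 0 = _
    simp
  rw [CF.Geom.mem_Omega_iff, map_one, ← h5, hD.hom_prod_oRefl_left,
    CF.Geom.prod_oRefl_mem_commutator_iff hQ h4 _ (by simpa [h6] using hvs),
    CF.Geom.prod_oRefl_mem_commutator_iff h₁ h3 _ hvs, List.length_map, List.map_map]
  simp only [Function.comp_def, h6]

end Cfsg.Agent.S2627
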