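import Cfsg.Statements.S2628
import Cfsg.Agent.Geom.Levi

set_option autoImplicit false
open Cfsg

namespace Cfsg.Agent.S2628

/-- For the orthogonal direct sum Q ⊕ Q of two copies of a quadratic form Q with non-degenerate polar form on F^k (F finite), every isometry g of Q acting diagonally, diag(g, g), lies in Ω(Q ⊕ Q), the commutator subgroup of the orthogonal group of Q ⊕ Q. (Excluded: k = 2 over the field of two elements, where Q ⊕ Q is the hyperbolic 4-space whose orthogonal group's commutator subgroup is smaller than the group usually called Ω.) -/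
theorem result {F : Type*} [Field F] [Fintype F] {k : ℕ} (h : Fintype.card F ≠ 2 ∨ k ≠ 2) (Q : QuadraticForm F (Fin k → F)) (hQ : (QuadraticMap.polarBilin Q).Nondegenerate) (g : ↥(Cfsg.isometryGroup F ⇑Q)) : ∃ x : ↥(Cfsg.isometryGroup F (fun v : Fin k ⊕ Fin k → F => Q (v ∘ Sum.inl) + Q (v ∘ Sum.inr))), x ∈ Cfsg.Omega F (fun v : Fin k ⊕ Fin k → F => Q (v ∘ Sum.inl) + Q (v ∘ Sum.inr)) ∧ ((x : Matrix.GeneralLinearGroup (Fin k ⊕ Fin k) F) : Matrix (Fin k ⊕ Fin k) (Fin k ⊕ Fin k) F) = Matrix.fromBlocks ((g : Matrix.GeneralLinearGroup (Fin k) F) : Matrix (Fin k) (Fin k) F) 0 0 ((g : Matrix.GeneralLinearGroup (Fin k) F) : Matrix (Fin k) (Fin k) F) := by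
  have hD := CF.Geom.orthDecomp_qSum Q Q
  have hQ' := CF.Geom.nondegenerate_of_orthDecomp hD hQ hQ
  rw [CF.Geom.exists_mem_Omega_qSum_iff]
  have h4 := CF.Geom.reflSub_eq_top_fin hQ' (h.imp id fun h => by simp; omega)
  let s : CF.Geom.OG (CF.Geom.qSum Q Q) :=
    ⟨LinearEquiv.funCongrLeft F F (Equiv.sumComm (Fin k) (Fin k)),
      CF.Geom.mem_OG.2 fun v => add_comm _ _⟩
  have h5 : hD.hom (1, CF.Geom.oEquiv Q g) * s = s * hD.hom (CF.Geom.oEquiv Q g, 1) := by
    ext1; ext1 v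
    obtain ⟨⟨x, y⟩, rfl⟩ :=
      (LinearEquiv.sumArrowLequivProdArrow (Fin k) (Fin k) F F).symm.surjective v
    have h6 : ∀ x y, s.1 ((LinearEquiv.sumArrowLequivProdArrow (Fin k) (Fin k) F F).symm (x, y)) =
        (LinearEquiv.sumArrowLequivProdArrow (Fin k) (Fin k) F F).symm (y, x) := fun x y => by
      ext (i | i) <;> rfl
    rw [Subgroup.coe_mul, Subgroup.coe_mul, LinearEquiv.mul_apply, LinearEquiv.mul_apply, h6,
      hD.hom_apply, hD.hom_apply, h6]
  have h7 := CF.Geom.sq_mem_commutator h4 (hD.hom (CF.Geom.oEquiv Q g, 1))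
  rw [← Abelianization.ker_of, MonoidHom.mem_ker] at h7 ⊢
  apply_fun Abelianization.of at h5
  rw [map_mul, map_mul, mul_comm, mul_right_inj] at h5
  rw [← Prod.fst_mul_snd (CF.Geom.oEquiv Q g, CF.Geom.oEquiv Q g), map_mul, map_mul, h5, ← map_mul,
    h7]

end Cfsg.Agent.S2628
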