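import Cfsg.Statements.S2629
import Cfsg.Agent.Geom.Families

set_option autoImplicit false
open Cfsg

namespace Cfsg.Agent.S2629

/-- For the hyperbolic form Σ x_i y_i on F^(2m) over a finite field of odd order (m ≥ 1), an isometry g preserves the class of the maximal totally singular subspace U₀ = {y = 0} (that is, m − dim(U₀ ∩ gU₀) is even) if and only if det g = 1: the stabiliser of each of the two classes of maximal totally singular subspaces is SO. -/
theorem result {F : Type*} [Field F] [Fintype F] (h2 : (2 : F) ≠ 0) {m : ℕ} (hm : 1 ≤ m) (g : ↥(Cfsg.isometryGroup F (Cfsg.quadFormPlus m F))) : Even (m - Module.finrank F ↥(LinearMap.ker (LinearMap.funLeft F F (Sum.inr : Fin m → Fin m ⊕ Fin m)) ⊓ (LinearMap.ker (LinearMap.funLeft F F (Sum.inr : Fin m → Fin m ⊕ Fin m))).map (Matrix.mulVecLin ((g : Matrix.GeneralLinearGroup (Fin m ⊕ Fin m) F) : Matrix (Fin m ⊕ Fin m) (Fin m ⊕ Fin m) F)))) ↔ ((g : Matrix.GeneralLinearGroup (Fin m ⊕ Fin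 m) F) : Matrix (Fin m ⊕ Fin m) (Fin m ⊕ Fin m) F).det = 1 := by
  have hQ := CF.Geom.qPlus_nondegenerate (F := F) m
  have hU := CF.Geom.maxTS_ker_inr (F := F) m
  obtain ⟨vs, hvs, h⟩ := CF.Geom.mem_reflSub_iff.1
    (CF.Geom.reflSub_eq_top_of_two_ne_zero hQ h2 ▸ Subgroup.mem_top (CF.Geom.oEquiv _ g))
  have h1 := hU.even_length_iff hQ vs hvs
  rw [h, (CF.Geom.maxTS_qPlus_iff.1 hU).1] at h1
  refine h1.symm.trans ?_
  rw [← CF.Geom.prod_oRefl_mem_SOG_iff h2 vs hvs, h, CF.Geom.mem_SOG,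
    CF.Geom.det_oEquiv (CF.Geom.qPlus m F) g]

end Cfsg.Agent.S2629
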