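import Cfsg.Statements.S2632
import Cfsg.Agent.Geom.Families

set_option autoImplicit false
open Cfsg

namespace Cfsg.Agent.S2632

/-- Ω is transitive on non-degenerate subspaces of each isometry type: for a quadratic form Q on F^n, n ≥ 3, with non-degenerate polar form (F finite; excluding dimension 4 over the field of two elements), if U and W are subspaces on which the polar form is non-degenerate and there is a Q-preserving linear isomorphism U → W, then some element of Ω (the commutator subgroup of the orthogonal group) carries U to W. (In dimension 2 this fails: Ω can be {±1}, which fixes every line.) -/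
theorem result {F : Type*} [Field F] [Fintype F] {n : ℕ} (hn : 3 ≤ n) (h : Fintype.card F ≠ 2 ∨ n ≠ 4) (Q : QuadraticForm F (Fin n → F)) (hQ : (QuadraticMap.polarBilin Q).Nondegenerate) (U W : Submodule F (Fin n → F)) (hU : U ⊓ LinearMap.BilinForm.orthogonal (QuadraticMap.polarBilin Q) U = ⊥) (hW : W ⊓ LinearMap.BilinForm.orthogonal (QuadraticMap.polarBilin Q) W = ⊥) (e : U ≃ₗ[F] W) (he : ∀ u : U, Q (e u : Fin n → F) = Q (u : Fin n → F)) : ∃ g : ↥(Cfsg.isometryGroup F ⇑Q), g ∈ Cfsg.Omega F ⇑Q ∧ U.map (Matrix.mulVecLin ((g : Matrix.GeneralLinearGroup (Fin n) F) : Matrix (Fin n) (Fin n) F)) = W := by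
  obtain ⟨g, hg, h1, -⟩ := (CF.Geom.isWittPair_quad Q hQ).exists_isom_map_eq e
    (fun x y => by
      simp only [QuadraticMap.polarBilin_apply_apply, QuadraticMap.polar, he, ← Submodule.coe_add,
        ← map_add]) he
  obtain ⟨k, hk, h2⟩ := CF.Geom.exists_mem_commutator_nondeg hQ
    (CF.Geom.reflSub_eq_top_fin hQ (by simpa using h)) (by simpa using hn) (disjoint_iff.2 hW)
    ⟨g, hg⟩
  exact CF.Geom.exists_Omega_map_eq
    ⟨_, h2, by rw [CF.Geom.map_mul_coe, h1, CF.Geom.mem_stabSet_iff_map_eq.1 hk]⟩

end Cfsg.Agent.S2632
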