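import Cfsg.Statements.S2634
import Cfsg.Agent.Geom.Families

set_option autoImplicit false
open Cfsg

namespace Cfsg.Agent.S2634

/-- Over a finite field of characteristic two, Ω (the commutator subgroup of the orthogonal group of a quadratic form Q on F^n with non-degenerate polar form; excluding dimension 4 over the field of two elements) acts transitively on the non-singular 1-spaces: for u, v with Q(u) ≠ 0 and Q(v) ≠ 0 some element of Ω carries the line through u to the line through v. -/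
theorem result {F : Type*} [Field F] [Fintype F] [CharP F 2] {n : ℕ} (h : Fintype.card F ≠ 2 ∨ n ≠ 4) (Q : QuadraticForm F (Fin n → F)) (hQ : (QuadraticMap.polarBilin Q).Nondegenerate) (u v : Fin n → F) (hu : Q u ≠ 0) (hv : Q v ≠ 0) : ∃ g : ↥(Cfsg.isometryGroup F ⇑Q), g ∈ Cfsg.Omega F ⇑Q ∧ (F ∙ ((g : Matrix.GeneralLinearGroup (Fin n) F) : Matrix (Fin n) (Fin n) F).mulVec u) = F ∙ v := by
  have h2 : (2 : F) = 0 := CharTwo.two_eq_zero
  obtain ⟨c, hc, h1⟩ := CF.Geom.exists_eq_sq_mul_of_isSquare_mul hu hv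
    (CF.Geom.isSquare_of_two_eq_zero h2 _)
  obtain ⟨g, hg, h3⟩ := (CF.Geom.isWittPair_quad Q hQ).exists_isom_vec (x := u) (y := c • v)
    (by rintro rfl; simp at hu) (smul_ne_zero hc (by rintro rfl; simp at hv))
    (by rw [CF.Geom.quad_smul, h1])
  obtain ⟨k, hk, h4⟩ := CF.Geom.exists_mul_mem_commutator
    (CF.Geom.reflSub_eq_top_fin hQ (by simpa using h))
    (CF.Geom.stabSet _ (F ∙ v : Submodule F (Fin n → F)))
    (fun w hw => ⟨CF.Geom.oRefl Q v, CF.Geom.mem_stabSet_iff_map_eq.2 (CF.Geom.map_oRefl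
      (Or.inl (Submodule.mem_span_singleton_self v))),
      CF.Geom.oRefl_mul_mem_commutator hQ hw hv (CF.Geom.isSquare_of_two_eq_zero h2 _)⟩) ⟨g, hg⟩
  obtain ⟨x, hx, h5⟩ := CF.Geom.exists_Omega_map_eq (U := F ∙ u) (W := F ∙ v) ⟨_, h4, by
    rw [CF.Geom.map_mul_coe, Submodule.map_span, Set.image_singleton, LinearEquiv.coe_coe, h3,
      Submodule.span_singleton_smul_eq hc.isUnit, CF.Geom.mem_stabSet_iff_map_eq.1 hk]⟩
  exact ⟨x, hx, by rwa [Submodule.map_span, Set.image_singleton] at h5⟩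

end Cfsg.Agent.S2634
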