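import Cfsg.Statements.S2636
import Cfsg.Agent.Cls.Cnt
import Cfsg.Agent.Known.Aut.Descent

set_option autoImplicit false
open Cfsg

namespace Cfsg.Agent.S2636

open CF.Cls CF.Known Matrix


/-- Centraliser of a field automorphism in PGL_n: let F be the field with q = q₀^r elements, σ a field automorphism of F of prime order r (so its fixed field has q₀ elements) and n ≥ 1. The invertible matrices g whose entrywise image under σ is a scalar multiple of g — those whose coset modulo scalars is fixed by σ — number (q − 1)/(q₀ − 1) · |GL_n(q₀)|; equivalently the centraliser in PGL_n(q) of the induced automorphism has the order of PGL_n(q₀). -/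
theorem result {F : Type*} [Field F] [Fintype F] {q₀ r n : ℕ} (hr : r.Prime) (hn : 1 ≤ n) (hF : Fintype.card F = q₀ ^ r) (σ : F ≃+* F) (hσ : orderOf σ = r) : Nat.card {g : GL (Fin n) F // ∃ c : F, c ≠ 0 ∧ (g : Matrix (Fin n) (Fin n) F).map σ = c • (g : Matrix (Fin n) (Fin n) F)} = (q₀ ^ r - 1) / (q₀ - 1) * ∏ i : Fin n, (q₀ ^ n - q₀ ^ (i : ℕ)) := by
  obtain ⟨p, d, hp, -, hd, rfl⟩ := exists_eq_prime_pow hr.ne_zero hF
  have := Fact.mk hp
  have : Nonempty (Fin n) := ⟨⟨0, hn⟩⟩
  obtain ⟨F₀, _, _, hF₀⟩ := exists_fixed_field p hd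
  obtain ⟨i, E⟩ := exists_isFixEmb (F₀ := F₀) (hF.trans (pow_mul p d r).symm) σ
    (by rw [hF₀, hσ, Nat.mul_div_cancel _ hr.pos])
  have h1 := card_mul_set (scal (Fin n)) (GeneralLinearGroup.map i) (Units.map i.toMonoidHom)
    (scal (Fin n)) scal_injective (fun a b h => Units.ext (Matrix.ext fun x y =>
      i.injective (congrArg (fun z : GL (Fin n) F => z.1 x y) h)))
    (Units.map_injective i.injective) (fun t g => scalars_commute (scal_mem t) _) (map_scal i)
    (fun t g h => by
      obtain ⟨c, rfl⟩ := (map_mem_scalars_iff i g).1 (h ▸ scal_mem t)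
      exact ⟨c, scal_injective ((map_scal i c).symm.trans h.symm)⟩)
  rw [Nat.card_units, Nat.card_units, Matrix.card_GL_field, Nat.card_eq_fintype_card (α := F),
    Nat.card_eq_fintype_card (α := F₀), hF, hF₀] at h1
  have h2 : 0 < p ^ d - 1 := Nat.sub_pos_of_lt (Nat.one_lt_pow hd hp.one_lt)
  rw [← Nat.mul_left_inj h2.ne', mul_right_comm,
    Nat.div_mul_cancel (Nat.sub_one_dvd_pow_sub_one _ _), ← h1]
  congr 1
  refine Nat.card_congr (Equiv.subtypeEquivRight (fun g => ⟨?_, ?_⟩))
  · rintro ⟨c, hc, h⟩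
    refine E.exists_scal_map ⟨Units.mk0 c hc, ?_⟩
    rw [eq_inv_mul_iff_mul_eq]
    exact Units.ext (by rw [coe_fieldAct, h, Units.val_mul]; erw [coe_scal]; simp)
  · rintro ⟨t, g, rfl⟩
    refine ⟨σ t * (t : F)⁻¹, by simp, ?_⟩
    ext a b
    simp [coe_scal, E.apply, mul_assoc]

end Cfsg.Agent.S2636
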