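import Cfsg.Statements.S2637
import Cfsg.Agent.Cls.Red

set_option autoImplicit false
open Cfsg

namespace Cfsg.Agent.S2637

open CF.Cls CF.Geom Module Polynomial

theorem sim_of_irred {F V W : Type*} [Field F] [AddCommGroup V] [Module F V] [AddCommGroup W]
    [Module F W] [FiniteDimensional F V] [FiniteDimensional F W] {π : F[X]} (h1 : π.Monic)
    (h2 : Irreducible π) {f : End F V} {g : End F W} (hf : aeval f π = 0) (hg : aeval g π = 0)
    (h : finrank F V = finrank F W) : Sim f g := by
  have key : ∀ s : Multiset F[X], (∀ a ∈ s, IsPP a) → (∀ a ∈ s, a ∣ π) →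
      s = Multiset.replicate s.card π := fun s h3 h4 => Multiset.eq_replicate.2 ⟨rfl, fun a ha =>
    eq_of_monic_of_associated (h3 a ha).monic h1 ((h2.dvd_iff.1 (h4 a ha)).elim
      (fun h => absurd (natDegree_eq_zero_of_isUnit h) (h3 a ha).natDegree_pos.ne')
      Associated.symm)⟩
  have e1 := key _ (ed_isPP f) ((aeval_eq_zero_iff_ed f π).1 hf)
  have e2 := key _ (ed_isPP g) ((aeval_eq_zero_iff_ed g π).1 hg)
  rw [finrank_eq_ed f, finrank_eq_ed g, e1, e2] at h
  simp only [Multiset.map_replicate, Multiset.sum_replicate, smul_eq_mul] at h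
  rw [sim_iff_ed, e1, e2, Nat.eq_of_mul_eq_mul_right h2.natDegree_pos h]


theorem exists_ext.{u} {F : Type u} [Field F] [Fintype F] {q : ℕ} (hF : Fintype.card F = q)
    (hq : q % 3 = 2) : ∃ (K : Type u) (_ : Field K) (_ : Fintype K) (_ : Algebra F K) (ω : K),
      finrank F K = 2 ∧ ω ^ 2 + ω + 1 = 0 ∧
      (∀ c : K, ∃ a b, c = algebraMap F K a + algebraMap F K b * ω) ∧
      ∀ r : F, r ^ 2 ≠ -1 + -1 * r := by
  have h0 : ∀ r : F, r ^ 2 ≠ -1 + -1 * r := fun r hr => by
    have h1 : r ^ 3 = 1 := by linear_combination (r - 1) * hr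
    have h2 := FiniteField.pow_card r
    obtain ⟨k, hk⟩ : ∃ k, q = 3 * k + 2 := ⟨q / 3, by omega⟩
    rw [hF, hk, pow_add, pow_mul, h1, one_pow, one_mul] at h2
    have h4 : r = 1 := by linear_combination h1 - (r + 1) * h2
    have h3 : ((3 : ℕ) : F) = 0 := by
      rw [h4] at hr; push_cast; linear_combination hr
    obtain ⟨p, hp, n, hpp, hn⟩ := FiniteField.card' F
    have := Fact.mk hpp
    have h5 := char_dvd_card (F := F) p
    rw [(Nat.prime_dvd_prime_iff_eq hpp Nat.prime_three).1
      ((CharP.cast_eq_zero_iff F p 3).1 h3)] at h5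
    omega
  have := Fact.mk h0
  have : Finite (QuadraticAlgebra F (-1) (-1)) := Module.finite_of_finite F
  exact ⟨QuadraticAlgebra F (-1) (-1), inferInstance, Fintype.ofFinite _, inferInstance, ⟨0, 1⟩,
    QuadraticAlgebra.finrank_eq_two _ _, by ext <;> simp [pow_two, QuadraticAlgebra.re_one, QuadraticAlgebra.im_one],
    fun c => ⟨c.re, c.im, by ext <;> simp⟩, h0⟩

/-- Centraliser of a fixed-point-free element of order three in Sp_2m(q) when q ≡ 2 (mod 3): if x ∈ Sp_2m(F) (|F| = q, m ≥ 1) satisfies x³ = 1 and x − 1 is invertible, then its centraliser in Sp_2m(F) has the order of the unitary group GU_m(q), namely q^(m(m−1)/2) Π_(i=1)^m (q^i − (−1)^i) (x lies in the centre of a subgroup GU_m(q) of Sp_2m(q)). -/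
theorem result {F : Type*} [Field F] [Fintype F] {q : ℕ} (hF : Fintype.card F = q) (hq : q % 3 = 2) {m : ℕ} (hm : 1 ≤ m) (x : Matrix.symplecticGroup (Fin m) F) (hx3 : x ^ 3 = 1) (hfpf : IsUnit ((x : Matrix (Fin m ⊕ Fin m) (Fin m ⊕ Fin m) F) - 1)) : (Nat.card ↥(Subgroup.centralizer ({x} : Set ↥(Matrix.symplecticGroup (Fin m) F))) : ℤ) = (q : ℤ) ^ (m * (m - 1) / 2) * ∏ i : Fin m, ((q : ℤ) ^ ((i : ℕ) + 1) - (-1) ^ ((i : ℕ) + 1)) := by
  obtain ⟨K, _, _, _, ω, h1, hω, hω', hirr⟩ := exists_ext hF hq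
  have hK : Fintype.card K = q ^ 2 := by rw [Module.card_eq_pow_finrank (K := F), hF, h1]
  obtain ⟨σ, hσ, hσ1, hσ2⟩ := exists_conj hK
  have hω2 : σ ω * ω = 1 := by
    obtain ⟨k, hk⟩ : ∃ k, q = 3 * k + 2 := ⟨q / 3, by omega⟩
    have : ω ^ 3 = 1 := by linear_combination (ω - 1) * hω
    rw [hσ, hk, ← pow_succ, show 3 * k + 2 + 1 = 3 * (k + 1) by ring, pow_mul, this, one_pow]
  have hi : ∀ x, σ x = x ↔ ∃ y, algebraMap F K y = x := by
    have h3 : ∀ y, σ (algebraMap F K y) = algebraMap F K y := fun y => by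
      rw [hσ, ← map_pow, ← hF, FiniteField.pow_card]
    refine fun x => ⟨fun hx => ?_, fun ⟨y, hy⟩ => hy ▸ h3 y⟩
    have h4 : Function.Bijective (fun y => (⟨algebraMap F K y, (hσ _).symm.trans (h3 y)⟩ :
        {x : K // x ^ q = x})) := Function.Injective.bijective_of_nat_card_le
      (fun a b h => (algebraMap F K).injective (congrArg Subtype.val h))
      (by rw [card_fixed_eq hK, Nat.card_eq_fintype_card, hF])
    obtain ⟨y, hy⟩ := h4.2 ⟨x, (hσ x).symm.trans hx⟩
    exact ⟨y, congrArg Subtype.val hy⟩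
  have e := eh_hermSesq hσ2 (Fin m)
  obtain ⟨l, h2, h3⟩ := exists_lin_alt h1
  have e0 := eh_alt (trForm_nondegenerate e.nondegenerate _ e.surj h2)
    (trForm_isAlt (e.isSymm e) hi h3)
  let x₀ : End F (Fin m → K) := (LinearMap.lsmul K _ ω).restrictScalars F
  have hx₀ : ∀ v, x₀ v = ω • v := fun _ => rfl
  let f : End F _ := Matrix.toLin' x.1
  have hf1 : IsUnit (f - 1) := by
    have := hfpf.map Matrix.toLinAlgEquiv'
    rwa [map_sub, map_one] at this
  have hf3 : f ^ 3 = 1 := by
    rw [← Matrix.toLin'_pow, ← SubmonoidClass.coe_pow, hx3]; exact Matrix.toLin'_one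
  have hf2 : f ^ 2 + f + 1 = 0 := hf1.mul_left_cancel (by
    rw [mul_zero, ← sub_eq_zero.2 hf3]
    simp only [mul_add, sub_mul, mul_one, one_mul, pow_succ', pow_zero]; abel)
  have hdeg : (X ^ 2 + X + 1 : F[X]).natDegree = 2 := by compute_degree!
  obtain ⟨Z, z1, z2⟩ := (eh_alt (sympBilin_nondegenerate m) (sympBilin_isAlt m)).exists_isom_of_unit
    e0 (A := f) (A' := x₀) (mem_SpG.1 (spEquiv m F x).2) (fun u v => by
      rw [trForm_apply, trForm_apply, hx₀, hx₀, map_smul, LinearMap.map_smulₛₗ,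
        LinearMap.smul_apply, smul_smul, mul_comm, hω2, one_smul])
    (sim_of_irred (π := X ^ 2 + X + 1) (by monicity!)
      ((irreducible_iff_roots_eq_zero_of_degree_le_three hdeg.ge (by omega)).2
        (Multiset.eq_zero_of_forall_notMem fun t ht => hirr t (by
          have := (mem_roots'.1 ht).2
          simp only [IsRoot, eval_add, eval_pow, eval_X, eval_one] at this
          linear_combination this)))
      (by simpa using hf2) (LinearMap.ext fun v => by
        simp only [map_add, map_mul, aeval_X, map_one, pow_two, LinearMap.add_apply, End.mul_apply,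
          hx₀, End.one_apply, smul_smul, LinearMap.zero_apply]
        rw [← add_smul, ← pow_two, ← one_smul K v, smul_smul, mul_one, ← add_smul, hω, zero_smul])
      (by rw [← finrank_mul_finrank F K (Fin m → K), h1]; simp [two_mul])) (by
        have h4 : f * f - 1 = (f - 1) * (-f ^ 2) := by
          rw [neg_eq_of_add_eq_zero_right ((add_assoc (f ^ 2) f 1).symm.trans hf2)]
          simp only [mul_add, sub_mul, mul_one, one_mul]; abel
        rw [h4]
        exact hf1.mul ((IsUnit.of_pow_eq_one hf3 three_ne_zero).pow 2).neg)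
  let ψ : UG (hermSesq (Fin m) σ) →* SpG (trForm (hermSesq (Fin m) σ) (fun a => (hi _).2 ⟨a, rfl⟩) l) :=
    ((resHom F K _).comp (Subgroup.subtype _)).codRestrict _
      (fun g => mem_SpG.2 (fun u v => congrArg l (mem_UG.1 g.2 u v)))
  let E : _ ≃* SpG _ := (spEquiv m F).trans (isomCongr Z z1 (Q' := fun _ => 0) (fun _ => rfl))
  have hE : ∀ v, (E x).1 v = ω • v := fun v => by
    obtain ⟨v, rfl⟩ := Z.surjective v
    exact (congrArg (fun w => Z (f w)) (Z.symm_apply_apply v)).trans (z2 v)
  have h4 : ψ.range = (Subgroup.centralizer {x}).map E.toMonoidHom := by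
    ext g
    obtain ⟨g, rfl⟩ := E.surjective g
    rw [show E g = E.toMonoidHom g from rfl, Subgroup.mem_map_iff_mem E.injective,
      Subgroup.mem_centralizer_singleton_iff, ← E.injective.eq_iff, map_mul, map_mul]
    constructor
    · rintro ⟨k, hk⟩
      refine Subtype.ext (LinearEquiv.ext fun v => ?_)
      change (E.toMonoidHom g).1 ((E x).1 v) = (E x).1 ((E.toMonoidHom g).1 v)
      rw [hE, hE, ← hk]
      exact map_smul k.1 ω v
    · intro h
      have h5 : ∀ (c : K) v, (E g).1 (c • v) = c • (E g).1 v := fun c v => by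
        obtain ⟨a, b, h6⟩ := hω' c
        have h7 : (E g).1 ((E x).1 v) = (E x).1 ((E g).1 v) :=
          congrArg (fun z : SpG _ => z.1 v) h
        rw [hE, hE] at h7
        rw [h6]
        simp only [add_smul, mul_smul, algebraMap_smul, map_add, map_smul, h7]
      let k : (Fin m → K) ≃ₗ[K] (Fin m → K) := { (E g).1 with map_smul' := h5 }
      refine ⟨⟨k, mem_UG.2 (fun u v => eq_of_lin_mul h2 (fun c => ?_))⟩, rfl⟩
      have h6 := mem_SpG.1 (E g).2 u (c • v)
      rw [trForm_apply, trForm_apply, h5, map_smul, map_smul (hermSesq (Fin m) σ u)] at h6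
      exact h6
  rw [← card_GU_int hK, Nat.card_congr (guEquiv m hσ).toEquiv,
    Nat.card_congr (MonoidHom.ofInjective (f := ψ) (fun a b h => Subtype.ext
      (resHom_injective (F := F) (congrArg Subtype.val h)))).toEquiv, h4,
    Subgroup.card_map_of_injective E.injective]

end Cfsg.Agent.S2637
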