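import Cfsg.Statements.S2638
import Cfsg.Agent.Cls.OrdR

set_option autoImplicit false
open Cfsg

namespace Cfsg.Agent.S2638

open CF.Cls Polynomial

/-- If an element x of GL_n(q), n ≥ 1, has prime order r and the multiplicative order of q modulo r is n (r is a primitive prime divisor of q^n − 1, so x acts irreducibly), then the centraliser of x in GL_n(q) is cyclic of order q^n − 1 (the multiplicative group of the field with q^n elements, a Singer cycle). -/
theorem result {F : Type*} [Field F] [Fintype F] {p q : ℕ} [Fact p.Prime] [CharP F p] (hF : Fintype.card F = q) {n r : ℕ} (hn : 1 ≤ n) (hr : r.Prime) (hrp : r ≠ p) (hi : orderOf (q : ZMod r) = n) (x : GL (Fin n) F) (hx : orderOf x = r) : IsCyclic ↥(Subgroup.centralizer ({x} : Set (GL (Fin n) F))) ∧ Nat.card ↥(Subgroup.centralizer ({x} : Set (GL (Fin n) F))) = q ^ n - 1 := by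
  subst hF
  have h2 : (Matrix.toLin' (x : Matrix (Fin n) (Fin n) F) : Module.End F _) ^ r = 1 := by
    rw [← Matrix.toLin'_pow, ← Units.val_pow_eq_pow_val, ← hx, pow_orderOf_eq_one, Units.val_one,
      Matrix.toLin'_one]; rfl
  have h1 := (pow_eq_one_iff_nt p hr hrp _).1 h2
  obtain ⟨c, h3, h4⟩ := ed_eq_nt (Matrix.toLin' (x : Matrix (Fin n) (Fin n) F))
  rw [sum_natDegree_facs p hr hrp h1, hi, Module.finrank_fin_fun] at h4
  have h5 : nt (Matrix.toLin' (x : Matrix (Fin n) (Fin n) F)) ≠ 0 := by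
    intro h0
    have h6 : aeval (x : Matrix (Fin n) (Fin n) F) (X - 1 : F[X]) = 0 := by
      rw [aeval_eq_zero_iff_edM, edM, h3, h0, add_zero]
      intro a ha; rw [Multiset.eq_of_mem_replicate ha]
    have h7 : x = 1 := Units.ext (by simpa [sub_eq_zero] using h6)
    rw [h7, orderOf_one] at hx
    exact hr.one_lt.ne hx
  have h6 := Multiset.card_pos.2 h5
  have h7 : (nt (Matrix.toLin' (x : Matrix (Fin n) (Fin n) F))).card = 1 := by nlinarith
  obtain ⟨a, ha⟩ := Multiset.card_eq_one.1 h7
  rw [h7] at h4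
  rw [show c = 0 by omega, ha, Multiset.replicate_zero, zero_add] at h3
  have h8 := h1 a (by rw [ha]; simp)
  have := Fact.mk (mem_facs.1 h8).2.1
  have := fd_adjoinRoot (mem_facs.1 h8).1.ne_zero
  have : Finite (AdjoinRoot a) := Module.finite_of_finite F
  obtain ⟨e1⟩ := nonempty_centralizer_GL x
  obtain ⟨e2⟩ := ((h3 ▸ hasED_ed _ : HasED _ {a}).sim (hasED_cyc a)).nonempty_CG
  let e := (unitsEquivCG a).trans (e1.trans e2).symm
  refine ⟨isCyclic_of_surjective e e.surjective, ?_⟩
  rw [← Nat.card_congr e.toEquiv, Nat.card_units, Module.natCard_eq_pow_finrank (K := F),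
    finrank_adjoinRoot, (facs_spec p hr hrp).1 a h8, hi, Nat.card_eq_fintype_card]

end Cfsg.Agent.S2638
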