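import Cfsg.Statements.S2639
import Cfsg.Agent.Cls.Red

set_option autoImplicit false
open Cfsg

namespace Cfsg.Agent.S2639

open CF.Cls CF.Geom Module


/-- The unitary group embeds in the symplectic group of twice the dimension over the subfield: for a field K with q² elements and a field F with q elements (isomorphic to the subfield of K of order q), there is an injective homomorphism GU_m(q) → Sp_2m(F). -/
theorem result {K F : Type*} [Field K] [Fintype K] [Field F] [Fintype F] {q : ℕ} (hK : Fintype.card K = q ^ 2) (hF : Fintype.card F = q) (m : ℕ) : ∃ φ : ↥(Cfsg.GU m K q) →* ↥(Matrix.symplecticGroup (Fin m) F), Function.Injective φ := by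
  obtain ⟨σ, hσ, hσ1, hσ2⟩ := exists_conj hK
  obtain ⟨i, hi⟩ := exists_fix_emb hK hF hσ
  let _ := i.toAlgebra
  have e := eh_hermSesq hσ2 (Fin m)
  have h1 : finrank F K = 2 := finrank_eq_of_card (hK.trans (by rw [hF]))
  obtain ⟨l, h2, h3⟩ := exists_lin_alt h1
  exact exists_hom_Sp (trForm_nondegenerate e.nondegenerate _ e.surj h2)
    (trForm_isAlt (e.isSymm e) hi h3) (fun g hg u v => congrArg l (hg u v))
    (by rw [← finrank_mul_finrank F K, h1, finrank_fin_fun])
    ((Subgroup.subtype _).comp (guEquiv m hσ).toMonoidHom)
    (Subtype.val_injective.comp (guEquiv m hσ).injective) (fun g => mem_UG.1 (guEquiv m hσ g).2)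

end Cfsg.Agent.S2639
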