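import Cfsg.Statements.S2642
import Cfsg.Agent.Cls.GU
import Cfsg.Agent.Cls.UnipGL

set_option autoImplicit false
open Cfsg

namespace Cfsg.Agent.S2642

open CF.Cls CF.Geom


/-- Number of conjugacy classes of elements of order p in the general unitary group GU_n(q), q a power of p: every unipotent Jordan type occurs and the classes correspond to the partitions of n with all parts at most p other than the all-ones partition, exactly as in GL_n; so there are (number of partitions of n with parts ≤ p) − 1 classes. -/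
theorem result {K : Type*} [Field K] [Fintype K] {p q n : ℕ} [Fact p.Prime] [CharP K p] (hK : Fintype.card K = q ^ 2) : Nat.card {C : ConjClasses ↥(Cfsg.GU n K q) // ∃ g : ↥(Cfsg.GU n K q), ConjClasses.mk g = C ∧ orderOf g = p} = (Finset.univ.filter (fun μ : Nat.Partition n => ∀ a ∈ μ.parts, a ≤ p)).card - 1 := by
  obtain ⟨σ, hσ, hσ1, hσ2⟩ := exists_conj hK
  have key : ∀ g : Cfsg.GU n K q, g ^ p = 1 ↔
      (((g : GL (Fin n) K) : Matrix (Fin n) (Fin n) K) - 1) ^ p = 0 := fun g => by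
    have h1 := GL_pow_eq_one_iff p (g : GL (Fin n) K) 1
    rw [pow_one] at h1
    rw [← h1, Subtype.ext_iff]; rfl
  rw [card_classes_orderOf Fact.out, card_classes _
    (fun g : Cfsg.GU n K q => jtM ((g : GL (Fin n) K) : Matrix (Fin n) (Fin n) K))
    (fun x y hx hy => by
      rw [isConj_GU_iff hσ hσ1 hσ2, isConj_iff_jtM ⟨p, (key x).1 hx⟩ ⟨p, (key y).1 hy⟩]),
    ← card_partition_filter n (fun t => ∀ a ∈ t, a ≤ p)]
  congr 1
  refine Nat.card_congr (Equiv.subtypeEquivRight (fun t => ⟨?_, ?_⟩))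
  · rintro ⟨g, hg, rfl⟩
    exact ⟨jtM_pos _, (jtM_sum _).trans (Fintype.card_fin n),
      (unipM_pow_eq_zero_iff ⟨p, (key g).1 hg⟩ p).1 ((key g).1 hg)⟩
  · rintro ⟨h1, h2, h3⟩
    obtain ⟨g, hg, rfl⟩ := exists_GU_jtM hσ hσ1 hσ2 t h1 h2
    exact ⟨g, (key g).2 ((unipM_pow_eq_zero_iff hg p).2 h3), rfl⟩

end Cfsg.Agent.S2642
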