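import Cfsg.Statements.S2643
import Cfsg.Agent.Cls.GU

set_option autoImplicit false
open Cfsg

namespace Cfsg.Agent.S2643

open CF.Cls CF.Geom


/-- Regular unipotent classes of SU_n(q), n ≥ 2: the elements u of the special unitary group (isometries of Σ u_i v_i^q of determinant one over the field with q² elements) with (u − 1)^n = 0 and rank(u − 1) = n − 1 form exactly gcd(n, q + 1) conjugacy classes of SU_n(q). -/
theorem result {K : Type*} [Field K] [Fintype K] {q n : ℕ} (hK : Fintype.card K = q ^ 2) (hn : 2 ≤ n) : Nat.card {C : ConjClasses ↥(Cfsg.SU n K q) // ∃ u : ↥(Cfsg.SU n K q), ConjClasses.mk u = C ∧ (((u : GL (Fin n) K) : Matrix (Fin n) (Fin n) K) - 1) ^ n = 0 ∧ (((u : GL (Fin n) K) : Matrix (Fin n) (Fin n) K) - 1).rank = n - 1} = Nat.gcd n (q + 1) := by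
  obtain ⟨σ, hσ, hσ1, hσ2⟩ := exists_conj hK
  have h := eh_hermSesq hσ2 (Fin n)
  have : Nonempty (Fin n) := ⟨⟨0, by omega⟩⟩
  obtain ⟨g, h1, h2⟩ := exists_GU_jtM (n := n) hσ hσ1 hσ2 {n} (by simpa using by omega) (by simp)
  let x : Cfsg.SU n K q := ⟨⟨_, det_eq_one_of_unip h1⟩, mem_SU.2 (mem_GU.1 g.2)⟩
  rw [card_classes_ker (udet h.nondegenerate) (udet_surjective (h.isHerm hσ1) _) (suToUG n hσ)
    (suToUG_injective n hσ) ((suToUG_range n hσ).trans (ker_udet _).symm) x _ (fun u => ?_)]
  · have h3 := sim_cyc_of_jt ((unip_toLin'_iff _).2 h1) h2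
    have h4 : (Subgroup.centralizer {suToUG n hσ x}).map (udet h.nondegenerate) =
        (powMonoidHom n : normOne σ →* normOne σ).range := by
      ext l
      rw [h.mem_map_udet]
      constructor
      · intro hl
        obtain ⟨c, h5, h6⟩ := h.detU_regular (by omega) h3 hl
        exact ⟨⟨Units.mk0 c (by rintro rfl; simp at h5), h5⟩, Subtype.ext (Units.ext h6)⟩
      · rintro ⟨c, rfl⟩
        exact h.detU_pow hσ1 (pres_GU hσ g) ((unip_toLin'_iff _).2 h1)
          (Multiset.mem_of_le h2.ge (Multiset.mem_singleton_self n)) c.2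
    rw [h4, IsCyclic.index_powMonoidHom_range, card_normOne hK hσ, Nat.gcd_comm]
  · rw [isConj_suToUG_iff hσ hσ1 hσ2]
    show (u.1.1 - 1) ^ n = 0 ∧ (u.1.1 - 1).rank = n - 1 ↔
      IsConj ((g : GL (Fin n) K) : Matrix (Fin n) (Fin n) K) u.1.1
    constructor
    · rintro ⟨h3, h4⟩
      rw [isConj_iff_jtM h1 ⟨n, h3⟩, h2]
      have := (jtM_regular_iff ⟨n, h3⟩ (by simp; omega)).2 (by simpa using h4)
      simpa using this.symm
    · intro h
      have h3 := (jtM_regular_iff h1 (by simp; omega)).1 (by simpa using h2)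
      have h4 := unipM_pow_card h1
      rw [Fintype.card_fin] at h3 h4
      refine ⟨?_, by rw [← rank_sub_one_eq_of_isConj h, h3]⟩
      have h5 := rank_sub_one_pow_eq_of_isConj h n
      rw [h4, Matrix.rank_zero] at h5
      have h6 := finrank_ker_add_rank ((u.1.1 - 1) ^ n)
      rw [← h5, add_zero, ← Module.finrank_fintype_fun_eq_card K] at h6
      have h7 := Submodule.eq_top_of_finrank_eq h6
      rw [LinearMap.ker_eq_top, LinearEquiv.map_eq_zero_iff] at h7
      exact h7

end Cfsg.Agent.S2643
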