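import Cfsg.Statements.S2644
import Cfsg.Agent.Cls.GU

set_option autoImplicit false
open Cfsg

namespace Cfsg.Agent.S2644

open CF.Cls CF.Geom


/-- In the special unitary group SU_n(q) with n ≥ 3 (isometries of Σ u_i v_i^q of determinant one over the field with q² elements), any two transvections (elements t with t − 1 of rank one and square zero) are conjugate. -/
theorem result {K : Type*} [Field K] [Fintype K] {q n : ℕ} (hK : Fintype.card K = q ^ 2) (hn : 3 ≤ n) (s t : ↥(Cfsg.SU n K q)) (hs : Cfsg.IsTransvection (((s : GL (Fin n) K) : Matrix (Fin n) (Fin n) K))) (ht : Cfsg.IsTransvection (((t : GL (Fin n) K) : Matrix (Fin n) (Fin n) K))) : IsConj s t := by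
  obtain ⟨σ, hσ, hσ1, hσ2⟩ := exists_conj hK
  have h1 : (s.1.1 - 1) ^ 2 = 0 := by rw [pow_two]; exact hs.2
  have h2 : (t.1.1 - 1) ^ 2 = 0 := by rw [pow_two]; exact ht.2
  refine isConj_SU_of hσ hσ1 hσ2 (isConj_of_sq_zero h1 h2 (hs.1.trans ht.1.symm)) (fun l hl => ?_)
  rw [← pow_one l]
  refine (eh_hermSesq hσ2 _).detU_pow hσ1 (pres_SU hσ s) ((unip_toLin'_iff _).2 ⟨2, h1⟩) ?_ hl
  by_contra h
  have h3 := card_jtM ⟨2, h1⟩
  have h4 := jtM_sum s.1.1
  have h5 := Multiset.card_nsmul_le_sum (s := jtM s.1.1) (a := 2)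
    (fun d hd => by
      have := jtM_pos _ d hd
      have : d ≠ 1 := fun h' => h (h' ▸ hd)
      omega)
  rw [show (s.1.1 - 1).rank = 1 from hs.1, Fintype.card_fin] at h3
  rw [Fintype.card_fin] at h4
  simp only [smul_eq_mul] at h5
  omega

end Cfsg.Agent.S2644
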