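import Cfsg.Statements.S2645
import Cfsg.Agent.Cls.SpO3

set_option autoImplicit false
open Cfsg

namespace Cfsg.Agent.S2645

open CF.Cls CF.Geom Polynomial


/-- Number of conjugacy classes of elements of odd prime order r, r different from the characteristic, in the symplectic group Sp_2m(q): let i be the multiplicative order of q modulo r and t = (r − 1)/i. If i is odd the eigenvalue orbits pair off (Λ ≠ Λ⁻¹) and the classes correspond to the non-zero (t/2)-tuples (a_j) with 2i Σ a_j ≤ 2m, giving C(⌊m/i⌋ + t/2, t/2) − 1 classes; if i is even (Λ = Λ⁻¹) they correspond to the non-zero t-tuples with i Σ a_j ≤ 2m, giving C(⌊2m/i⌋ + t, t) − 1 classes. -/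
theorem result {F : Type*} [Field F] [Fintype F] {p q : ℕ} [Fact p.Prime] [CharP F p] (hF : Fintype.card F = q) (m r i t : ℕ) (hr : r.Prime) (hr2 : r ≠ 2) (hrp : r ≠ p) (hi : i = orderOf (q : ZMod r)) (ht : t * i = r - 1) : Nat.card {C : ConjClasses ↥(Matrix.symplecticGroup (Fin m) F) // ∃ g : Matrix.symplecticGroup (Fin m) F, ConjClasses.mk g = C ∧ orderOf g = r} = if Odd i then Nat.choose (m / i + t / 2) (t / 2) - 1 else Nat.choose (2 * m / i + t) t - 1 := by
  subst hF
  have h0 := orderOf_card_pos (F := F) p hr hrp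
  obtain ⟨Φ, h1, h2, h3⟩ := card_stable (F := F) p hr hr2 hrp (hi ▸ ht)
  rw [card_ord_classes (Matrix.symplecticGroup (Fin m) F).subtype hr
    (fun x y hx _ h => isConj_Sp_of (natCast_ne_zero_of_coprime p
      ((Nat.coprime_primes hr Fact.out).2 hrp)) hx h),
    Nat.card_congr (Equiv.subtypeEquivRight (q := fun s : Multiset F[X] =>
      (∀ a ∈ s, a ∈ facs F r) ∧ s.map (cr (RingHom.id F)) = s ∧ s.card * i ≤ 2 * m) (fun s => ?_)),
    h3 (fun c => c * i ≤ 2 * m)]
  · rw [← hi] at h0 h1 ⊢
    split_ifs at h1 ⊢ with h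
    · rw [card_ms_cond Φ h2 (m / i) False (fun c => 2 * c * i ≤ 2 * m) (fun k => by
        rw [Nat.le_div_iff_mul_le h0, mul_assoc]; simp), h1]; simp
    · rw [card_ms_cond Φ h2 (2 * m / i) False (fun c => 1 * c * i ≤ 2 * m) (fun k => by
        rw [Nat.le_div_iff_mul_le h0]; simp), h1]; simp
  · have h4 := nt_SpG_iff p hr hr2 hrp (sympBilin_nondegenerate (F := F) m) (sympBilin_isAlt m) s
    rw [Module.finrank_fintype_fun_eq_card, Fintype.card_sum, Fintype.card_fin, ← two_mul,
      ← hi] at h4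
    rw [← h4, (spEquiv m F).surjective.exists]
    refine exists_congr (fun g => ?_)
    rw [← map_pow, MulEquiv.map_eq_one_iff]; rfl

end Cfsg.Agent.S2645
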