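import Cfsg.Statements.S2646
import Cfsg.Agent.Cls.CentU

set_option autoImplicit false
open Cfsg

namespace Cfsg.Agent.S2646

/-- Order of the centraliser in the general unitary group GU_n(q) of a unipotent element of given Jordan type: if u ∈ GU_n(q) (isometries of Σ u_i v_i^q over the field with q² elements) is similar to the unipotent matrix with a_i Jordan blocks of size i (all sizes at least 1), then its centraliser in GU_n(q) has order q^γ · Π_i |GU_(a_i)(q)| with γ = 2 Σ_(i<j) i a_i a_j + Σ_i (i − 1) a_i², the same exponent as in GL_n(q), where |GU_a(q)| = q^(a(a−1)/2) Π_(k=1)^a (q^k − (−1)^k). -/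
theorem result {K : Type*} [Field K] [Fintype K] {q n t : ℕ} (hK : Fintype.card K = q ^ 2) (d : Fin t → ℕ) (hd : ∀ k, 1 ≤ d k) (e : ((k : Fin t) × Fin (d k)) ≃ Fin n) (u : ↥(Cfsg.GU n K q)) (hu : IsConj (Matrix.reindex e e (Cfsg.jordanTypeMatrix d K)) ((u : GL (Fin n) K) : Matrix (Fin n) (Fin n) K)) : (Nat.card ↥(Subgroup.centralizer ({u} : Set ↥(Cfsg.GU n K q))) : ℤ) = (q : ℤ) ^ (2 * (∑ i ∈ Finset.range (Finset.univ.sup d + 1), ∑ j ∈ Finset.range (Finset.univ.sup d + 1), if i < j then i * (Finset.univ.filter (fun k : Fin t => d k = i)).card * (Finset.univ.filter (fun k : Fin t => d k = j)).card else 0) + ∑ i ∈ Finset.range (Finset.univ.sup d + 1), (i - 1) * (Finset.univ.filter (fun k : Fin t => d k = i)).card ^ 2) * ∏ i ∈ Finset.range (Finset.univ.sup d + 1), ((q : ℤ) ^ ((Finset.univ.filter (fun k : Fin t => d k = i)).card * ((Finset.univ.filter (fun k : Fin t => d k = i)).card - 1) / 2) * ∏ j : Fin (Finset.univ.filter (fun k : Fin t => d k = i)).card, ((q :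 ℤ) ^ ((j : ℕ) + 1) - (-1) ^ ((j : ℕ) + 1))) := by
  open CF.Geom CF.Cls in
  obtain ⟨σ, hσ, hσ1, hσ2⟩ := exists_conj hK
  have h1 := eh_hermSesq hσ2 (Fin n)
  obtain ⟨X, hX⟩ : Sim (uE K d) (Matrix.toLin' ((u : GL (Fin n) K) : Matrix (Fin n) (Fin n) K)) :=
    (sim_jordanType d).symm.trans ((sim_reindex e _).trans ((isConj_iff_sim _ _).1 hu))
  have h2 : Pres (pull (hermSesq (Fin n) σ) X.toLinearMap) (uE K d) := fun x y => by
    simpa [hX] using pres_GU hσ u (X x) (X y)
  have hD : ∀ k, d k < Finset.univ.sup d + 1 := fun k =>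
    Nat.lt_succ_of_le (Finset.le_sup (Finset.mem_univ k))
  have h3 := card_cent_uE hd (h1.pull_equiv X) h2 hK hσ hσ1 hD (card_ker_dl_eq hd hD _ fun _ => rfl)
  rw [(h1.pull_equiv X).card_cent_congr h1 hσ1 h2 (pres_GU hσ u) ⟨X, hX⟩] at h3
  have h4 : Nat.card (Subgroup.centralizer ({u} : Set ↥(Cfsg.GU n K q))) =
      Nat.card ↥(UG (hermSesq (Fin n) σ) ⊓
        CG (Matrix.toLin' ((u : GL (Fin n) K) : Matrix (Fin n) (Fin n) K))) :=
    Nat.card_congr ⟨fun x => ⟨(guEquiv n hσ x.1).1, (guEquiv n hσ x.1).2, mem_CG.2 fun v => by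
      have := congrArg (fun g => (guEquiv n hσ g).1 v) (Subgroup.mem_centralizer_singleton_iff.1 x.2)
      simp only [map_mul] at this
      exact this⟩, fun x => ⟨(guEquiv n hσ).symm ⟨x.1, x.2.1⟩,
        Subgroup.mem_centralizer_singleton_iff.2 ((guEquiv n hσ).injective (by
          simp only [map_mul, MulEquiv.apply_symm_apply]
          exact Subtype.ext (LinearEquiv.ext (mem_CG.1 x.2.2))))⟩, fun x => by simp, fun x => by simp⟩
  rw [h4, h3, Nat.cast_mul, Nat.cast_pow, Nat.cast_prod, Finset.prod_range]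
  exact congrArg _ (Finset.prod_congr rfl fun j _ => by rw [Fintype.card_subtype, card_GU_int hK])

end Cfsg.Agent.S2646
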