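import Cfsg.Statements.S2665
import Cfsg.Agent.Cls.Lang

set_option autoImplicit false
open scoped MatrixGroups
open Cfsg

namespace Cfsg.Agent.S2665

open CF.Cls Module


/-- The Lang–Steinberg Theorem for the general linear group. Let `K` be an algebraically closed field of prime characteristic `p`, let `q = p^f` with `f ≥ 1`, and let `σ` be the endomorphism of GL_n(K) raising every matrix entry to the `q`-th power. Then every element `g` of GL_n(K) can be written `g = x · σ(x)⁻¹` for some `x` in GL_n(K): the map `x ↦ x σ(x)⁻¹` is surjective. -/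
theorem result {K : Type*} [Field K] [IsAlgClosed K] (p : ℕ) [Fact p.Prime] [CharP K p]
    (f : ℕ) (hf : 1 ≤ f) (n : ℕ) (g : GL (Fin n) K) :
    ∃ x : GL (Fin n) K, g = x * (Matrix.GeneralLinearGroup.map (iterateFrobenius K p f) x)⁻¹ := by
  let φ := iterateFrobenius K p f
  let T : (Fin n → K) →ₛₗ[φ] (Fin n → K) :=
    { toFun := fun v => (g : Matrix (Fin n) (Fin n) K).mulVec (φ ∘ v)
      map_add' := fun u v => by
        rw [← Matrix.mulVec_add]; congr 1; ext i; simp
      map_smul' := fun c v => by
        rw [← Matrix.mulVec_smul]; congr 1; ext i; simp }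
  have h1 := span_fixed_eq_top (q := p ^ f) (iterateFrobenius_def p f)
    (Nat.one_lt_pow (by omega) (Fact.out : p.Prime).one_lt) T (fun u v h => by
      have := Matrix.mulVec_injective_of_isUnit g.isUnit h
      exact funext (fun i => φ.injective (congrFun this i)))
  obtain ⟨s, h2, h3, h4⟩ := exists_linearIndependent K {v | T v = v}
  let b := Basis.mk h4 (by rw [Subtype.range_coe, h3, h1])
  let b' := b.reindex (b.indexEquiv (Pi.basisFun K (Fin n)))
  have h5 : ∀ j, T (b' j) = b' j := fun j => by
    rw [Basis.reindex_apply, Basis.mk_apply]; exact h2 (Subtype.property _)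
  obtain ⟨x, hx⟩ := @isUnit_of_invertible _ _ _ ((Pi.basisFun K (Fin n)).invertibleToMatrix b')
  refine ⟨x, ?_⟩
  rw [eq_mul_inv_iff_mul_eq]
  ext i j
  have := congrFun (h5 j) i
  simp only [T, LinearMap.coe_mk, AddHom.coe_mk, Matrix.mulVec, dotProduct,
    Function.comp_apply] at this
  simpa [Matrix.mul_apply, hx, Basis.toMatrix_apply] using this

end Cfsg.Agent.S2665
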