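import Cfsg.Statements.S2671
import Cfsg.Agent.Cls.GU

set_option autoImplicit false
open Cfsg

namespace Cfsg.Agent.S2671

open CF.Cls CF.Geom Polynomial

theorem aux {r q : ℕ} [Fact r.Prime] (hr2 : r ≠ 2) (hq : (q : ZMod r) ≠ 0) :
    (∃ j : ℕ, (q : ZMod r) + ((q ^ 2 : ℕ) : ZMod r) ^ j = 0) ↔ orderOf (q : ZMod r) % 4 = 2 := by
  have : Fact (2 < r) := ⟨lt_of_le_of_ne (Fact.out : r.Prime).two_le hr2.symm⟩
  let u : (ZMod r)ˣ := Units.mk0 _ hq
  have hu : (q : ZMod r) = u := rfl
  rw [Nat.cast_pow, hu, orderOf_units]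
  constructor
  · rintro ⟨j, hj⟩
    rw [← pow_mul, add_eq_zero_iff_neg_eq] at hj
    have h1 : u ^ (2 * (2 * j)) = u ^ (2 * 1) := Units.ext (by
      rw [Units.val_pow_eq_pow_val, Units.val_pow_eq_pow_val, mul_comm, pow_mul, ← hj]; simp)
    have h2 : u ^ (2 * j) ≠ u ^ 1 := fun h => by
      have := congrArg Units.val h
      rw [Units.val_pow_eq_pow_val, ← hj, pow_one, neg_eq_iff_add_eq_zero, ← two_mul,
        mul_eq_zero] at this
      refine this.elim (fun h => ?_) u.ne_zero
      exact ZMod.neg_one_ne_one (n := r) (by linear_combination -h)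
    rw [pow_eq_pow_iff_modEq] at h1
    rw [Ne, pow_eq_pow_iff_modEq] at h2
    rcases Nat.even_or_odd (orderOf u) with ⟨k, hk⟩ | h
    · by_contra h3
      have h4 := h1.of_dvd (show 4 ∣ orderOf u by omega)
      unfold Nat.ModEq at h4; omega
    · exact absurd (h1.cancel_left_of_coprime (Nat.coprime_two_right.2 h)) h2
  · intro h
    obtain ⟨k, hk⟩ : ∃ k, orderOf u = 2 * (2 * k + 1) := ⟨orderOf u / 4, by omega⟩
    have h1 : ((u : ZMod r) ^ (2 * k + 1)) ^ 2 = 1 := by
      rw [← pow_mul, mul_comm, ← hk, ← Units.val_pow_eq_pow_val, pow_orderOf_eq_one, Units.val_one]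
    have h2 := (sq_eq_one_iff.1 h1).resolve_left (by
      rw [← Units.val_pow_eq_pow_val, Units.val_eq_one]
      exact pow_ne_one_of_lt_orderOf (by omega) (by omega))
    refine ⟨k + 1, ?_⟩
    rw [← pow_mul, show 2 * (k + 1) = 2 * k + 1 + 1 by ring, pow_succ, h2]; simp


/-- Number of conjugacy classes of elements of odd prime order r in the general unitary group GU_n(q), for r not dividing q(q + 1): let i be the multiplicative order of q modulo r, b = i if i is odd and b = i/2 if i is even, and s = (r − 1)/b. If i ≢ 2 (mod 4) the eigenvalue orbits pair off into dual pairs of totally isotropic blocks and there are C(⌊n/(2b)⌋ + s/2, s/2) − 1 classes; if i ≡ 2 (mod 4) each orbit gives a non-degenerate block of dimension i/2 and there are C(⌊2n/i⌋ + s, s) − 1 classes. -/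
theorem result {K : Type*} [Field K] [Fintype K] {p q n r i b s : ℕ} [Fact p.Prime] [CharP K p] (hK : Fintype.card K = q ^ 2) (hr : r.Prime) (hr2 : r ≠ 2) (hrp : r ≠ p) (hi : i = orderOf (q : ZMod r)) (hi2 : i ≠ 2) (hb : b = if Odd i then i else i / 2) (hs : s * b = r - 1) : Nat.card {C : ConjClasses ↥(Cfsg.GU n K q) // ∃ g : ↥(Cfsg.GU n K q), ConjClasses.mk g = C ∧ orderOf g = r} = if i % 4 = 2 then Nat.choose (2 * n / i + s) s - 1 else Nat.choose (n / (2 * b) + s / 2) (s / 2) - 1 := by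
  obtain ⟨σ, hσ, hσ1, hσ2⟩ := exists_conj hK
  have := Fact.mk hr
  have h0 := orderOf_card_pos (F := K) p hr hrp
  have hq : (q : ZMod r) ≠ 0 := by
    intro h
    rw [hK, Nat.cast_pow, h, zero_pow two_ne_zero, orderOf_zero] at h0
    omega
  have hi0 : 0 < i := by
    rw [hi, show (q : ZMod r) = Units.mk0 _ hq from rfl, orderOf_units]; exact orderOf_pos _
  have hb' : orderOf (Fintype.card K : ZMod r) = b := by
    rw [hK, Nat.cast_pow, orderOf_pow' _ two_ne_zero, ← hi, hb]
    split_ifs with h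
    · rw [Nat.coprime_two_right.2 h, Nat.div_one]
    · rw [Nat.gcd_eq_right (even_iff_two_dvd.1 (Nat.not_odd_iff_even.1 h))]
  have h1 := (facs_spec (F := K) p hr hrp).2
  rw [hb'] at h0 h1
  have h2 : (facs K r).card = s := Nat.eq_of_mul_eq_mul_right h0 (h1.trans hs.symm)
  have hq₀ : ∃ k, q = p ^ k := by
    obtain ⟨m, -, hm⟩ := FiniteField.card K p
    obtain ⟨k, -, hk⟩ := (Nat.dvd_prime_pow (Fact.out : p.Prime)).1
      (show q ∣ p ^ (m : ℕ) by rw [← hm, hK]; exact dvd_pow_self q two_ne_zero)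
    exact ⟨k, hk⟩
  have h3 : ∀ π ∈ facs K r, cr σ π = π ↔ i % 4 = 2 := fun π hπ => by
    rw [cr_eq_iff hσ hσ2 hr p hrp hq₀ hπ, hK, aux hr2 hq, hi]
  let ρ := (Units.coeHom _).comp (Cfsg.GU n K q).subtype
  have hρ : ∀ g, g ^ r = 1 ↔ (Matrix.toLin' (ρ g) : Module.End K _) ^ r = 1 := fun g => by
    rw [← Matrix.toLin'_pow, ← map_pow, Module.End.one_eq_id, ← Matrix.toLin'_one,
      Matrix.toLin'.injective.eq_iff]
    exact ⟨fun h => by rw [h, map_one], fun h => Subtype.ext (Units.ext h)⟩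
  rw [card_ord_classes ρ hr (fun x y _ _ h => (isConj_GU_iff hσ hσ1 hσ2 x y).2 h),
    Nat.card_congr (Equiv.subtypeEquivRight (q := fun t : Multiset K[X] =>
      (∀ a ∈ t, a ∈ facs K r) ∧ t.map (cr σ) = t ∧ t.card * b ≤ n) (fun t => ⟨?_, ?_⟩))]
  · split_ifs with h
    · rw [hb, if_neg (by rw [Nat.odd_iff]; omega)] at h0
      rw [← h2, ← (card_ms_le (facs K r) _).1]
      congr 1
      refine Nat.card_congr (Equiv.subtypeEquivRight (fun t => and_congr_right (fun ht => ?_)))
      rw [Nat.le_div_iff_mul_le hi0, hb, if_neg (by rw [Nat.odd_iff]; omega),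
        Multiset.map_congr rfl (fun a ha => (h3 a (ht a ha)).2 h), Multiset.map_id']
      obtain ⟨k, rfl⟩ : ∃ k, i = 2 * k := ⟨i / 2, by omega⟩
      rw [Nat.mul_div_cancel_left _ two_pos, mul_left_comm]
      simp
    · obtain ⟨Ψ, h4, h5⟩ := card_ms_inv (facs K r) (cr σ)
        (fun a ha => cr_mem_facs hσ2 hr p hrp ha)
        (fun a ha => cr_cr hσ2 (mem_facs.1 ha).1 (coeff_ne_zero_of_facs hr ha))
        (fun a ha h4 => h ((h3 a ha).1 h4))
      rw [h5 (fun c => c * b ≤ n), show s / 2 = Ψ.card by omega, ← (card_ms_le Ψ _).1]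
      congr 1
      refine Nat.card_congr (Equiv.subtypeEquivRight (fun t => and_congr_right (fun _ => ?_)))
      rw [Nat.le_div_iff_mul_le (by omega), mul_left_comm, mul_assoc]
  · rintro ⟨g, hg, rfl⟩
    have h4 := card_nt_le p hr hrp ((hρ g).1 hg)
    rw [hb', Module.finrank_fin_fun] at h4
    exact ⟨(pow_eq_one_iff_nt p hr hrp _).1 ((hρ g).1 hg),
      (eh_hermSesq hσ2 _).nt_pres (pres_GU hσ g), by omega⟩
  · rintro ⟨h4, h5, h6⟩
    obtain ⟨A, hA⟩ := exists_GU_edM (n := n) hσ hσ1 hσ2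
      (s := Multiset.replicate (n - t.card * b) (X - 1) + t)
      (fun a ha => by
        rcases Multiset.mem_add.1 ha with h | h
        · rw [Multiset.eq_of_mem_replicate h]
          exact isPP_of_irreducible monic_X_sub_one irreducible_X_sub_one
        · exact isPP_of_irreducible (mem_facs.1 (h4 a h)).1 (mem_facs.1 (h4 a h)).2.1)
      (fun a ha => by
        rcases Multiset.mem_add.1 ha with h | h
        · rw [Multiset.eq_of_mem_replicate h]; simpa using not_X_dvd_X_sub_one_pow (F := K) 1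
        · exact not_X_dvd_of_facs hr (h4 a h))
      (by rw [Multiset.map_add, h5, Multiset.map_replicate, cr_X_sub_one])
      (by
        rw [Multiset.map_add, Multiset.sum_add, sum_natDegree_facs p hr hrp h4, hb']
        simp [natDegree_X_sub_one]; omega)
    have h7 := hasED_ed (Matrix.toLin' (ρ A))
    rw [show ed (Matrix.toLin' (ρ A)) = _ from hA] at h7
    have h8 := h7.nt_eq p hr hrp h4
    exact ⟨A, (hρ A).2 ((pow_eq_one_iff_nt p hr hrp _).2 (by rwa [h8])), h8⟩

end Cfsg.Agent.S2671
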