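import Cfsg.Statements.S2672
import Cfsg.Agent.Cls.PR1

set_option autoImplicit false
open Cfsg

namespace Cfsg.Agent.S2672

open CF.Cls CF.Geom


/-- Number of conjugacy classes of elements of odd prime order r in PGU_n(q) = GU_n(q)/scalars (n ≥ 3) when r divides q + 1: as in the linear case with q − 1 replaced by q + 1, the classes correspond to the rotation orbits on r-tuples of eigenvalue multiplicities summing to n with every entry < n, plus r − 1 further classes when r divides n; in all (C(n+r−1, r−1) − r − [r ∣ n])/r + r·[r ∣ n]. -/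
theorem result {K : Type*} [Field K] [Fintype K] {q n r : ℕ} (hK : Fintype.card K = q ^ 2) (hn : 3 ≤ n) (hr : r.Prime) (hr2 : r ≠ 2) (hrq : r ∣ q + 1) : Nat.card {C : ConjClasses (↥(Cfsg.GU n K q) ⧸ Subgroup.center ↥(Cfsg.GU n K q)) // ∃ g : ↥(Cfsg.GU n K q) ⧸ Subgroup.center ↥(Cfsg.GU n K q), ConjClasses.mk g = C ∧ orderOf g = r} = (Nat.choose (n + r - 1) (r - 1) - r - (if r ∣ n then 1 else 0)) / r + r * (if r ∣ n then 1 else 0) := by
  obtain ⟨p, hp, -, hp', -⟩ := FiniteField.card' K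
  have := Fact.mk hp'
  have : Nonempty (Fin n) := ⟨⟨0, by omega⟩⟩
  obtain ⟨σ, a1, a2, a3⟩ := exists_conj hK
  rw [← Nat.card_eq_fintype_card] at hK
  have h1 := toE_injective (φ := (Units.coeHom _).comp (Cfsg.GU n K q).subtype)
    (Units.val_injective.comp Subtype.val_injective)
  have h2 : ∀ g ∈ Subgroup.center (Cfsg.GU n K q), ∃ c : K,
      toE ((Units.coeHom _).comp (Cfsg.GU n K q).subtype) g = algebraMap K _ c := fun g hg => by
    obtain ⟨c, hc⟩ := center_su_scalar (isHerm_hermSesq a2 a3) (hermSesq_nondegenerate σ)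
      (by simp; omega) (ρ := (guEquiv n a1).toMonoidHom)
      (fun x _ => (guEquiv n a1).surjective x) g hg
    exact ⟨c, LinearMap.ext hc⟩
  have h3 : ∀ a : Kˣ, Units.map (algebraMap K (AlgebraicClosure K) : K →* AlgebraicClosure K) a ^ (-(q : ℤ)) =
      Units.map (algebraMap K (AlgebraicClosure K) : K →* AlgebraicClosure K) a ↔ σ a * a = 1 := fun a => by
    rw [zpow_neg, inv_eq_iff_mul_eq_one, zpow_natCast, Units.ext_iff, a1,
      ← (algebraMap K (AlgebraicClosure K)).injective.eq_iff]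
    simp
  refine card_ord_quot (K := AlgebraicClosure K) (ta_ac K p) (pq_neg p hK) hr ?_ (by omega) _
    QuotientGroup.mk_surjective (fun g => ev _ (toE ((Units.coeHom _).comp (Cfsg.GU n K q).subtype) g)) (fun J => ⟨fun hJ => ?_, ?_⟩)
    (isConj_quot_iff p h1 (fun g g' => ?_) h2 (fun a => ⟨fun ⟨z, hz⟩ => (h3 a).2 ?_, fun h => ?_⟩)
      fun c hc => ?_) (orderOf_mk_dvd_iff p h1 h2)
  · rw [← neg_add', dvd_neg]; exact_mod_cast hrq
  · obtain ⟨x, rfl⟩ := exists_UG_ev p hK a1 a2 (eh_hermSesq a3 (Fin n)) (J := J) (by simpa using hJ)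
    obtain ⟨g, rfl⟩ := (guEquiv n a1).surjective x
    exact ⟨g, rfl⟩
  · rintro ⟨g, rfl⟩
    simpa [toE_eq] using adm_ev_pres (K := AlgebraicClosure K) p hK a1 (eh_hermSesq a3 (Fin n))
      (pres_GU a1 g)
  · rw [isConj_GU_iff a1 a2 a3, isConj_iff_sim]; rfl
  · have h4 : Pres (hermSesq (Fin n) σ) (algebraMap K (Module.End K (Fin n → K)) a) :=
      hz ▸ pres_GU a1 z
    simpa [hermSesq, mul_comm, Pi.single_apply, apply_ite σ] using
      h4 (Pi.single ⟨0, by omega⟩ 1) (Pi.single ⟨0, by omega⟩ 1)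
  · obtain ⟨z, hz⟩ := (guEquiv n a1).surjective ⟨LinearEquiv.smulOfUnit a, mem_UG.2 fun u v => by
      simp [LinearEquiv.smulOfUnit, Units.smul_def, ← mul_assoc, mul_comm _ (σ a), (h3 a).1 h]⟩
    exact ⟨z, congrArg (·.1.toLinearMap) hz⟩
  · have h4 : (c ^ (-(q : ℤ))) ^ (-(q : ℤ)) = c := by rw [hc, hc]
    rw [← zpow_mul, neg_mul_neg, ← Nat.cast_mul, ← sq, ← hK, zpow_natCast] at h4
    simpa using congrArg Units.val h4

end Cfsg.Agent.S2672
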