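import Cfsg.Statements.S2673
import Cfsg.Agent.Cls.SpO3

set_option autoImplicit false
open Cfsg

namespace Cfsg.Agent.S2673

open CF.Cls CF.Geom Polynomial


/-- Number of conjugacy classes of elements of odd prime order r ≠ p in the orthogonal group O_(2m+1)(q) of x_0² + Σ x_j y_j, q odd: with i the multiplicative order of q mod r and t = (r − 1)/i, there are C(⌊m/i⌋ + t/2, t/2) − 1 classes if i is odd (dual pairs of totally singular i-blocks) and C(⌊(2m+1)/i⌋ + t, t) − 1 if i is even (elliptic i-blocks). -/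
theorem result {F : Type*} [Field F] [Fintype F] {p q : ℕ} [Fact p.Prime] [CharP F p] (hF : Fintype.card F = q) (hq : Odd q) (m r i t : ℕ) (hr : r.Prime) (hr2 : r ≠ 2) (hrp : r ≠ p) (hi : i = orderOf (q : ZMod r)) (ht : t * i = r - 1) : Nat.card {C : ConjClasses ↥(Cfsg.isometryGroup F (Cfsg.quadFormOdd m F)) // ∃ g : ↥(Cfsg.isometryGroup F (Cfsg.quadFormOdd m F)), ConjClasses.mk g = C ∧ orderOf g = r} = if Odd i then Nat.choose (m / i + t / 2) (t / 2) - 1 else Nat.choose ((2 * m + 1) / i + t) t - 1 := by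
  subst hF
  have h0 := orderOf_card_pos (F := F) p hr hrp
  obtain ⟨Φ, h1, h2, h3⟩ := card_stable (F := F) p hr hr2 hrp (hi ▸ ht)
  have h4 := card_ord_O p hr hr2 hrp (qOdd_nondegenerate (two_ne_zero_of_odd_card hq) m)
  rw [coe_qOdd] at h4
  rw [h4, Nat.card_congr (Equiv.subtypeEquivRight (q := fun s : Multiset F[X] =>
      (∀ a ∈ s, a ∈ facs F r) ∧ s.map (cr (RingHom.id F)) = s ∧ s.card * i ≤ 2 * m + 1)
      (fun s => ?_)), h3 (fun c => c * i ≤ 2 * m + 1)]
  · rw [← hi] at h0 h1 ⊢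
    split_ifs at h1 ⊢ with h
    · rw [card_ms_cond Φ h2 (m / i) False (fun c => 2 * c * i ≤ 2 * m + 1) (fun k => by
        rw [Nat.le_div_iff_mul_le h0, mul_assoc]; simp; omega), h1]; simp
    · rw [card_ms_cond Φ h2 ((2 * m + 1) / i) False (fun c => 1 * c * i ≤ 2 * m + 1) (fun k => by
        rw [Nat.le_div_iff_mul_le h0]; simp), h1]; simp
  · refine and_congr_right (fun h5 => and_congr_right (fun h6 => ?_))
    obtain ⟨k, hk⟩ := even_card_mul p hr hr2 hrp h5 h6
    simp only [Fintype.card_sum, Fintype.card_fin, Fintype.card_unique, hi, hk]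
    exact ⟨fun h => by omega, fun h => ⟨by omega, fun h' => by omega⟩⟩

end Cfsg.Agent.S2673
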