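import Cfsg.Statements.S2674
import Cfsg.Agent.Cls.SpO3

set_option autoImplicit false
open Cfsg

namespace Cfsg.Agent.S2674

open CF.Cls CF.Geom Polynomial


/-- Number of conjugacy classes of elements of odd prime order r ≠ p in the orthogonal group O⁺_2m(q) of Σ x_j y_j (m ≥ 1): with i the multiplicative order of q mod r and t = (r − 1)/i — if i is odd, C(⌊m/i⌋ + t/2, t/2) − 1; if i is even, C(⌊2m/i⌋ + t, t) − 1 minus, when i divides 2m with odd quotient, the C(2m/i + t − 1, t − 1) tuples using the whole space (an odd number of elliptic i-blocks fills an elliptic, not a hyperbolic, space). -/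
theorem result {F : Type*} [Field F] [Fintype F] {p q : ℕ} [Fact p.Prime] [CharP F p] (hF : Fintype.card F = q) (m r i t : ℕ) (hm : 1 ≤ m) (hr : r.Prime) (hr2 : r ≠ 2) (hrp : r ≠ p) (hi : i = orderOf (q : ZMod r)) (ht : t * i = r - 1) : Nat.card {C : ConjClasses ↥(Cfsg.isometryGroup F (Cfsg.quadFormPlus m F)) // ∃ g : ↥(Cfsg.isometryGroup F (Cfsg.quadFormPlus m F)), ConjClasses.mk g = C ∧ orderOf g = r} = if Odd i then Nat.choose (m / i + t / 2) (t / 2) - 1 else Nat.choose (2 * m / i + t) t - 1 - (if i ∣ 2 * m ∧ Odd (2 * m / i) then Nat.choose (2 * m / i + t - 1) (t - 1) else 0) := by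
  subst hF
  have h0 := orderOf_card_pos (F := F) p hr hrp
  obtain ⟨Φ, h1, h2, h3⟩ := card_stable (F := F) p hr hr2 hrp (hi ▸ ht)
  have h4 := card_ord_O p hr hr2 hrp (qPlus_nondegenerate (F := F) m)
  rw [coe_qPlus] at h4
  simp only [isPlus_qPlus, true_iff, Fintype.card_sum, Fintype.card_fin, ← two_mul, ← hi] at h4
  rw [h4, h3 (fun c => c * i ≤ 2 * m ∧ (c * i = 2 * m → Odd i ∨ Even c))]
  rw [← hi] at h0 h1 ⊢
  by_cases h : Odd i
  · simp only [if_pos h] at h1 ⊢
    rw [card_ms_cond Φ h2 (m / i) False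
      (fun c => 2 * c * i ≤ 2 * m ∧ (2 * c * i = 2 * m → Odd i ∨ Even (2 * c))) (fun k => by
        rw [Nat.le_div_iff_mul_le h0, mul_assoc]; simp [h]), h1]; simp
  · simp only [if_neg h] at h1 ⊢
    rw [card_ms_cond Φ h2 (2 * m / i) (i ∣ 2 * m ∧ Odd (2 * m / i))
      (fun c => 1 * c * i ≤ 2 * m ∧ (1 * c * i = 2 * m → Odd i ∨ Even (1 * c))) (fun k => by
        rw [Nat.le_div_iff_mul_le h0, one_mul]
        refine and_congr_right (fun _ => ⟨fun h5 h6 h7 => ?_, fun h5 h6 => Or.inr ?_⟩)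
        · rw [← h7, ← Nat.not_even_iff_odd] at h6
          exact h6.2 ((h5 (by rw [h7, Nat.div_mul_cancel h6.1])).resolve_left h)
        · rw [← h6, Nat.mul_div_cancel _ h0] at h5
          exact Nat.not_odd_iff_even.1 (fun h7 => h5 ⟨dvd_mul_left _ _, h7⟩ rfl)), h1]

end Cfsg.Agent.S2674
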