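import Cfsg.Statements.S2675
import Cfsg.Agent.Cls.SpO3

set_option autoImplicit false
open Cfsg

namespace Cfsg.Agent.S2675

open CF.Cls CF.Geom Polynomial


/-- Number of conjugacy classes of elements of odd prime order r ≠ p in the orthogonal group O⁻_2m(q) of an elliptic form Σ_(j<m−1) x_j y_j + z₁² + a z₁z₂ + c z₂² (binary part anisotropic, m ≥ 1): with i the multiplicative order of q mod r and t = (r − 1)/i — if i is odd, C(⌊m/i⌋ + t/2, t/2) − 1 minus, when i divides m, the C(m/i + t/2 − 1, t/2 − 1) tuples filling the whole space (dual pairs of totally singular blocks fill a hyperbolic space); if i is even, C(⌊2m/i⌋ + t, t) − 1 minus, when i divides 2m with even quotient, the C(2m/i + t − 1, t − 1) tuples filling the whole space with an even number of elliptic blocks. -/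
theorem result {F : Type*} [Field F] [Fintype F] {p q : ℕ} [Fact p.Prime] [CharP F p] (hF : Fintype.card F = q) (m r i t : ℕ) (hm : 1 ≤ m) (a c : F) (hac : ∀ z₁ z₂ : F, z₁ ^ 2 + a * z₁ * z₂ + c * z₂ ^ 2 = 0 → z₁ = 0 ∧ z₂ = 0) (hr : r.Prime) (hr2 : r ≠ 2) (hrp : r ≠ p) (hi : i = orderOf (q : ZMod r)) (ht : t * i = r - 1) : Nat.card {C : ConjClasses ↥(Cfsg.isometryGroup F (Cfsg.quadFormMinus (m - 1) F a c)) // ∃ g : ↥(Cfsg.isometryGroup F (Cfsg.quadFormMinus (m - 1) F a c)), ConjClasses.mk g = C ∧ orderOf g = r} = if Odd i then Nat.choose (m / i + t / 2) (t / 2) - 1 - (if i ∣ m then Nat.choose (m / i + t / 2 - 1) (t / 2 - 1) else 0) else Nat.choose (2 * m / i + t) t - 1 - (if i ∣ 2 * m ∧ Even (2 * m / i) then Nat.choose (2 * m / i + t - 1) (t - 1) else 0) := by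
  subst hF
  have h0 := orderOf_card_pos (F := F) p hr hrp
  obtain ⟨Φ, h1, h2, h3⟩ := card_stable (F := F) p hr hr2 hrp (hi ▸ ht)
  have h4 := card_ord_O p hr hr2 hrp (qMinus_nondegenerate (F := F) (m - 1) hac)
  rw [coe_qMinus] at h4
  simp only [not_isPlus_qMinus _ hac, false_iff, Fintype.card_sum, Fintype.card_fin, ← hi,
    show m - 1 + (m - 1) + 2 = 2 * m by omega] at h4
  rw [h4, h3 (fun c => c * i ≤ 2 * m ∧ (c * i = 2 * m → ¬ (Odd i ∨ Even c)))]
  rw [← hi] at h0 h1 ⊢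
  by_cases h : Odd i
  · simp only [if_pos h] at h1 ⊢
    rw [card_ms_cond Φ h2 (m / i) (i ∣ m)
      (fun c => 2 * c * i ≤ 2 * m ∧ (2 * c * i = 2 * m → ¬ (Odd i ∨ Even (2 * c)))) (fun k => by
        rw [Nat.le_div_iff_mul_le h0, mul_assoc, Nat.mul_le_mul_left_iff two_pos,
          Nat.mul_right_inj two_ne_zero]
        refine and_congr_right (fun _ => ⟨fun h5 h6 h7 => ?_, fun h5 h6 _ => ?_⟩)
        · exact h5 (by rw [h7, Nat.div_mul_cancel h6]) (Or.inl h)
        · rw [← h6, Nat.mul_div_cancel _ h0] at h5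
          exact h5 (dvd_mul_left _ _) rfl), h1]
  · simp only [if_neg h] at h1 ⊢
    rw [card_ms_cond Φ h2 (2 * m / i) (i ∣ 2 * m ∧ Even (2 * m / i))
      (fun c => 1 * c * i ≤ 2 * m ∧ (1 * c * i = 2 * m → ¬ (Odd i ∨ Even (1 * c)))) (fun k => by
        rw [Nat.le_div_iff_mul_le h0, one_mul]
        refine and_congr_right (fun _ => ⟨fun h5 h6 h7 => ?_, fun h5 h6 h7 => ?_⟩)
        · rw [← h7] at h6
          exact h5 (by rw [h7, Nat.div_mul_cancel h6.1]) (Or.inr h6.2)
        · rw [← h6, Nat.mul_div_cancel _ h0] at h5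
          exact h5 ⟨dvd_mul_left _ _, h7.resolve_left h⟩ rfl), h1]

end Cfsg.Agent.S2675
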