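import Cfsg.Statements.S2677
import Cfsg.Agent.Cls.Cnt
import Cfsg.Agent.Known.Aut.PSUField

set_option autoImplicit false
open Cfsg

namespace Cfsg.Agent.S2677

open CF.Cls CF.Known Matrix


/-- Centraliser of a field automorphism of odd prime order in PGU_n(q): let q = q₀^r with r an odd prime, K the field with q² elements and σ a field automorphism of K of order r (fixed field of order q₀²). The elements g of GU_n(q) whose entrywise image under σ is a scalar multiple of g — those whose coset modulo the q + 1 unitary scalars is fixed by σ — number (q + 1)/(q₀ + 1) · |GU_n(q₀)|; equivalently the centraliser in PGU_n(q) of the induced automorphism has the order of PGU_n(q₀). -/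
theorem result {K : Type*} [Field K] [Fintype K] {q₀ q r n : ℕ} (hr : r.Prime) (hr2 : r ≠ 2) (hn : 1 ≤ n) (hq : q = q₀ ^ r) (hK : Fintype.card K = q ^ 2) (σ : K ≃+* K) (hσ : orderOf σ = r) : (Nat.card {g : ↥(Cfsg.GU n K q) // ∃ c : K, c ≠ 0 ∧ ((g : GL (Fin n) K) : Matrix (Fin n) (Fin n) K).map σ = c • ((g : GL (Fin n) K) : Matrix (Fin n) (Fin n) K)} : ℤ) = ((q + 1) / (q₀ + 1) : ℕ) * ((q₀ : ℤ) ^ (n * (n - 1) / 2) * ∏ i : Fin n, ((q₀ : ℤ) ^ ((i : ℕ) + 1) - (-1) ^ ((i : ℕ) + 1))) := by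
  obtain ⟨p, d, hp, -, hd, rfl⟩ := exists_eq_prime_pow (q := q₀) (r := r * 2)
    (mul_ne_zero hr.ne_zero two_ne_zero) (by rw [hK, hq, pow_mul])
  have := Fact.mk hp
  have : Nonempty (Fin n) := ⟨⟨0, hn⟩⟩
  have : NeZero n := ⟨by omega⟩
  obtain ⟨F₀, _, _, hF₀⟩ := exists_fixed_field p (d := 2 * d) (by omega)
  obtain ⟨j, J⟩ := exists_isConjug hK
  have hdr : d * r / orderOf σ = d := by rw [hσ, Nat.mul_div_cancel _ hr.pos]
  obtain ⟨hF₀', i, j₀, E, J₀, hc⟩ := exists_su_descent (F₀ := F₀) (hq.trans (pow_mul p d r).symm)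
    hK J (σ := σ) (hσ ▸ hr.odd_of_ne_two hr2) (hσ ▸ dvd_mul_left r d) (by rw [hdr, hF₀])
  rw [hdr] at hF₀' J₀
  let θ : Cfsg.GU n F₀ (p ^ d) →* Cfsg.GU n K q :=
    ((GeneralLinearGroup.map i).comp (Subgroup.subtype _)).codRestrict _ fun g =>
      J.mem_GU_iff.2 ((herm_map' hc g.1.1).trans (by
        rw [J₀.mem_GU_iff.1 g.2, Matrix.map_one _ (map_zero i) (map_one i)]))
  let κ : normOne F₀ (p ^ d) →* normOne K q :=
    ((Units.map i.toMonoidHom).comp (Subgroup.subtype _)).codRestrict _ fun c =>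
      J.mem_normOne.2 (by
        change i c.1 * j (i c.1) = 1
        rw [hc, ← map_mul, J₀.mem_normOne.1 c.2, map_one])
  have key : ∀ {F : Type _} [Field F] {j : F →+* F} {q : ℕ} (J : IsConjug j q) (c : Fˣ),
      scal (Fin n) c ∈ Cfsg.GU n F q ↔ c ∈ normOne F q := fun J c => by
    rw [J.mem_GU_iff, J.mem_normOne, coe_scal, transpose_smul, map_smul' _ _ _ (map_mul _),
      smul_mul_smul_comm, Matrix.map_one _ (map_zero _) (map_one _), transpose_one, mul_one]
    exact ⟨fun h => by simpa using congrFun (congrFun h 0) 0, fun h => by rw [h, one_smul]⟩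
  have key₀ : ∀ (c : F₀ˣ), scal (Fin n) c ∈ Cfsg.GU n F₀ (p ^ d) ↔ c ∈ normOne F₀ (p ^ d) :=
    fun c => by
    rw [J₀.mem_GU_iff, J₀.mem_normOne, coe_scal, transpose_smul, map_smul' _ _ _ (map_mul _),
      smul_mul_smul_comm, Matrix.map_one _ (map_zero _) (map_one _), transpose_one, mul_one]
    exact ⟨fun h => by simpa using congrFun (congrFun h 0) 0, fun h => by rw [h, one_smul]⟩
  let τ : normOne K q →* Cfsg.GU n K q :=
    ((scal (Fin n)).comp (Subgroup.subtype _)).codRestrict _ fun c => (key J c.1).2 c.2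
  let τ₀ : normOne F₀ (p ^ d) →* Cfsg.GU n F₀ (p ^ d) :=
    ((scal (Fin n)).comp (Subgroup.subtype _)).codRestrict _ fun c => (key₀ c.1).2 c.2
  have h1 := card_mul_set τ θ κ τ₀
    (fun a b h => Subtype.ext (scal_injective (congrArg Subtype.val h)))
    (fun a b h => Subtype.ext (Units.ext (Matrix.ext fun x y =>
      i.injective (congrFun (congrFun (congrArg (fun z => z.1.1) h) x) y))))
    (fun a b h => Subtype.ext (Units.map_injective i.injective (congrArg Subtype.val h)))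
    (fun t g => Subtype.ext (scalars_commute (scal_mem t.1) _))
    (fun c => Subtype.ext (map_scal i c.1))
    (fun t g h => by
      have h : scal (Fin n) t.1 = GeneralLinearGroup.map i g.1 := congrArg Subtype.val h
      obtain ⟨c, hc⟩ := (map_mem_scalars_iff i g.1).1 (h ▸ scal_mem t.1)
      have hc : scal (Fin n) c = g.1 := hc
      exact ⟨⟨c, (key₀ c).1 (hc ▸ g.2)⟩, Subtype.ext (scal_injective
        ((map_scal i c).symm.trans (by rw [hc, ← h])))⟩)
  rw [card_normOne hK, card_normOne hF₀'] at h1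
  have h2 : p ^ d + 1 ∣ q + 1 := by
    simpa [hq] using (hr.odd_of_ne_two hr2).nat_add_dvd_pow_add_pow (p ^ d) 1
  rw [← card_GU_int hF₀', ← Nat.cast_mul, Nat.cast_inj, ← Nat.mul_left_inj (p ^ d).succ_ne_zero,
    mul_right_comm, Nat.div_mul_cancel h2, ← h1]
  congr 1
  refine Nat.card_congr (Equiv.subtypeEquivRight (fun g => ⟨?_, ?_⟩))
  · rintro ⟨c, hc0, h⟩
    obtain ⟨t, g₀, hg⟩ := E.exists_scal_map (g := g.1) ⟨Units.mk0 c hc0, by
      rw [eq_inv_mul_iff_mul_eq]
      exact Units.ext (by rw [coe_fieldAct, h, Units.val_mul]; erw [coe_scal]; simp)⟩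
    have h6 := J.mem_GU_iff.1 g.2
    rw [hg, Units.val_mul, coe_scal, smul_mul_assoc, one_mul, transpose_smul,
      map_smul' _ _ _ j.map_mul, smul_mul_smul_comm, ← eq_inv_smul_iff₀ (by simp)] at h6
    obtain ⟨m, hm⟩ := map_eq_smul_one ((herm_map' hc g₀.1).symm.trans h6)
    obtain ⟨u, hu⟩ := J₀.exists_scal_mem_GU hm
    have h7 : g.1 = scal (Fin n) (t * (Units.map i.toMonoidHom u)⁻¹) * (θ ⟨_, hu⟩).1 := by
      rw [hg]
      show _ = _ * GeneralLinearGroup.map i (scal (Fin n) u * g₀)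
      rw [map_mul, map_mul, map_scal, map_inv, mul_assoc, inv_mul_cancel_left]
    exact ⟨⟨_, (key J _).1 (((Cfsg.GU n K q).mul_mem_cancel_right (θ ⟨_, hu⟩).2).1 (h7 ▸ g.2))⟩,
      ⟨_, hu⟩, Subtype.ext h7⟩
  · rintro ⟨t, g, rfl⟩
    refine ⟨σ t.1 * (t.1 : K)⁻¹, by simp, ?_⟩
    have : (τ t * θ g).1.1 = (scal (Fin n) t.1).1 * g.1.1.map i := rfl
    rw [this]
    ext a b
    simp [coe_scal, E.apply, mul_assoc]

end Cfsg.Agent.S2677
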