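import Cfsg.Statements.S2678
import Cfsg.Agent.Cls.Red

set_option autoImplicit false
open Cfsg

namespace Cfsg.Agent.S2678

open CF.Cls CF.Geom Module


/-- Field-extension embedding of symplectic groups: for a field K with q² elements and a field F with q elements there is an injective homomorphism Sp_2a(K) → Sp_4a(F). -/
theorem result {K F : Type*} [Field K] [Fintype K] [Field F] [Fintype F] {q : ℕ} (hK : Fintype.card K = q ^ 2) (hF : Fintype.card F = q) (a : ℕ) : ∃ φ : ↥(Matrix.symplecticGroup (Fin a) K) →* ↥(Matrix.symplecticGroup (Fin (2 * a)) F), Function.Injective φ := by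
  obtain ⟨σ, hσ, -, -⟩ := exists_conj hK
  obtain ⟨i, -⟩ := exists_fix_emb hK hF hσ
  let _ := i.toAlgebra
  have h1 : finrank F K = 2 := finrank_eq_of_card (hK.trans (by rw [hF]))
  obtain ⟨l, h2, -⟩ := exists_lin_alt h1
  exact exists_hom_Sp (trForm_nondegenerate (sympBilin_nondegenerate a) (fun _ => rfl)
    Function.surjective_id h2) (fun v => (congrArg l (sympBilin_isAlt a v)).trans (map_zero l))
    (fun g hg u v => congrArg l (hg u v))
    (by rw [← finrank_mul_finrank F K, h1]; simp [two_mul])
    ((Subgroup.subtype _).comp (spEquiv a K).toMonoidHom)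
    (Subtype.val_injective.comp (spEquiv a K).injective) (fun g => mem_SpG.1 (spEquiv a K g).2)

end Cfsg.Agent.S2678
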