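import Cfsg.Statements.S2679
import Cfsg.Agent.Cls.Red
import Cfsg.Agent.Known.Aut.OrthDesc

set_option autoImplicit false
open Cfsg

namespace Cfsg.Agent.S2679

open CF.Cls CF.Geom Module


/-- An elliptic orthogonal group embeds in the hyperbolic orthogonal group of the same dimension over the quadratic extension: for a field F with q elements and a field K with q² elements there is an injective homomorphism from O⁻_2m(F) (isometries of Σ_(j<m−1) x_j y_j + z₁² + a z₁z₂ + c z₂², binary part anisotropic) to O⁺_2m(K) (isometries of Σ_(j<m) x_j y_j over K). -/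
theorem result {F K : Type*} [Field F] [Fintype F] [Field K] [Fintype K] {q : ℕ} (hF : Fintype.card F = q) (hK : Fintype.card K = q ^ 2) {m : ℕ} (hm : 1 ≤ m) (a c : F) (hac : ∀ z₁ z₂ : F, z₁ ^ 2 + a * z₁ * z₂ + c * z₂ ^ 2 = 0 → z₁ = 0 ∧ z₂ = 0) : ∃ φ : ↥(Cfsg.isometryGroup F (Cfsg.quadFormMinus (m - 1) F a c)) →* ↥(Cfsg.isometryGroup K (Cfsg.quadFormPlus m K)), Function.Injective φ := by
  obtain ⟨σ, hσ, -, -⟩ := exists_conj hK
  obtain ⟨i, -⟩ := exists_fix_emb hK hF hσ
  let _ := i.toAlgebra
  obtain ⟨t, ht⟩ := CF.Known.Aniso.exists_root hac (K := K)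
    (finrank_eq_of_card (hK.trans (by rw [hF])))
  have hd : i a ^ 2 - 4 * i c ≠ 0 := by
    have := (map_ne_zero i).2 (disc_ne_zero_of_anisotropic hac)
    simpa [map_ofNat] using this
  obtain ⟨E, hE⟩ := (CF.Known.isPlus_qMinus (m := m - 1) hd ht).exists_equiv_qPlus
    (qMinus_nondegenerate_of_disc _ hd) (m := m) (by simp; omega)
  have X := CF.Known.ext_qMinus i (m - 1) a c
  rw [← coe_qMinus, ← coe_qPlus]
  let ψ : Cfsg.isometryGroup F (qMinus (m - 1) F a c) →*
      Cfsg.isometryGroup K (qMinus (m - 1) K (i a) (i c)) :=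
    ((Matrix.GeneralLinearGroup.map i).comp (Subgroup.subtype _)).codRestrict _ (fun g =>
      mem_isometryGroup.2 (fun v => by
        simpa using X.mult' X (g := g.1) (c := 1) (by simpa using mem_isometryGroup.1 g.2) v))
  let E' := (oEquiv _).trans ((ogCongr E hE).trans (oEquiv _).symm)
  exact ⟨E'.toMonoidHom.comp ψ, fun x y h => Subtype.ext (Units.ext (Matrix.ext fun k l =>
    i.injective (congrArg (fun z => z.1.1 k l) (E'.injective h))))⟩

end Cfsg.Agent.S2679
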