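import Cfsg.Statements.S2682
import Cfsg.Agent.Cls.Inv2M

set_option autoImplicit false
open Cfsg

namespace Cfsg.Agent.S2682

open CF.Cls CF.Geom Module QuadraticMap

/-- Centraliser order of an involution t of Sp_2m(q), q even, with s = rank(t − 1) even and f(v, tv) ≠ 0 for some v, f the symplectic form (type c_s): |C(t)| = q^(2ms − (3s² − 3s)/2 − 1) · |Sp_(s−2)(q)| · |Sp_(2m−2s)(q)|. -/
theorem result {F : Type*} [Field F] [Fintype F] [CharP F 2] {q : ℕ} (hF : Fintype.card F = q) {m s : ℕ} (t : Matrix.symplecticGroup (Fin m) F) (ht : t ^ 2 = 1) (hs : ((t : Matrix (Fin m ⊕ Fin m) (Fin m ⊕ Fin m) F) - 1).rank = s) (heven : Even s) (hna : ∃ v : Fin m ⊕ Fin m → F, Cfsg.sympForm m F v ((t : Matrix (Fin m ⊕ Fin m) (Fin m ⊕ Fin m) F).mulVec v) ≠ 0) : Nat.card ↥(Subgroup.centralizer ({t} : Set ↥(Matrix.symplecticGroup (Fin m) F))) = q ^ (2 * m * s - (3 * s ^ 2 - 3 * s) / 2 - 1) * ((q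 : ℕ) ^ (((s - 2) / 2) ^ 2) * ∏ i : Fin ((s - 2) / 2), (q ^ (2 * ((i : ℕ) + 1)) - 1)) * ((q : ℕ) ^ ((m - s) ^ 2) * ∏ i : Fin (m - s), (q ^ (2 * ((i : ℕ) + 1)) - 1)) := by
  obtain ⟨e1, e2, e3, e4⟩ := card_cent_Sp CharTwo.two_eq_zero t ht hs
  obtain ⟨k, rfl⟩ := even_iff_two_dvd.1 heven
  obtain ⟨e5, e6⟩ := e2.s2.card_even (fun h => hna.elim fun v hv => hv
    ((sympBilin_apply m _ _).symm.trans (e2.isAlt_iff.1 h v))) e3
  rw [e1, e6, Nat.card_eq_fintype_card, hF, show (2 * k - 2) / 2 = k - 1 by omega, mul_right_comm,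
    ← mul_assoc, ← pow_add]
  have h1 : 2 * k * (2 * k) ≤ m * (2 * k) := Nat.mul_le_mul_right _ e4
  have h2 : 1 * k ≤ k * k := Nat.mul_le_mul_right _ e5
  congr 3
  rw [show 2 * m * (2 * k) = 2 * (m * (2 * k)) by ring, show (2 * k) ^ 2 = 4 * (k * k) by ring]
  rw [show 2 * k * (2 * k) = 4 * (k * k) by ring] at h1
  omega

end Cfsg.Agent.S2682
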