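import Cfsg.Statements.S2684
import Cfsg.Agent.Cls.Inv2M

set_option autoImplicit false
open Cfsg

namespace Cfsg.Agent.S2684

open CF.Cls CF.Geom Module QuadraticMap

/-- For the hyperbolic form Q = Σ x_j y_j on F^(2m) over a finite field with q elements, q even (excluding m = 2 over the field of two elements), and an involution x ≠ 1 of the orthogonal group with s = rank(x − 1) even and Q vanishing on the image of x − 1 (equivalently f(v, xv) = 0 for all v, where f(u, w) = Q(u + w) − Q(u) − Q(w) is the bilinear form of Q; type a_s, which lies in Ω): its centraliser in Ω (the commutator subgroup of the orthogonal group) has order q^(2ms − (3s² + s)/2) · |Sp_s(q)| · |Ω⁺_(2m−2s)(q)|, where |Ω⁺_2k(q)| = q^(k(k−1)) (q^k − 1) Π_(i=1)^(k−1) (q^(2i) − 1) for k ≥ 1 and the last factor is 1 when s = m. -/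
theorem result {F : Type*} [Field F] [Fintype F] [CharP F 2] {q : ℕ} (hF : Fintype.card F = q) {m s : ℕ} (h : Fintype.card F ≠ 2 ∨ m ≠ 2) (x : ↥(Cfsg.isometryGroup F (Cfsg.quadFormPlus m F))) (hx : x ^ 2 = 1) (hx1 : x ≠ 1) (hs : (((x : Matrix.GeneralLinearGroup (Fin m ⊕ Fin m) F) : Matrix (Fin m ⊕ Fin m) (Fin m ⊕ Fin m) F) - 1).rank = s) (heven : Even s) (halt : ∀ v : Fin m ⊕ Fin m → F, Cfsg.quadFormPlus m F ((((x : Matrix.GeneralLinearGroup (Fin m ⊕ Fin m) F) : Matrix (Fin m ⊕ Fin m) (Fin m ⊕ Fin m) F) - 1).mulVec v) = 0) : Nat.card {g : ↥(Cfsg.Omega F (Cfsg.quadFormPlus m F)) // (g : ↥(Cfsg.isometryGroup F (Cfsg.quadFormPlus m F))) * x = x * (g : ↥(Cfsg.isometryGroup F (Cfsg.quadFormPlus m F)))} = q ^ (2 * m * s - (3 * s ^ 2 + s) / 2) * ((q : ℕ) ^ ((s / 2) ^ 2) * ∏ i : Fin (s / 2), (q ^ (2 * ((i : ℕ) + 1)) - 1)) * (if s = m then 1 else q ^ ((m - s) * (m - s - 1)) * (q ^ (m - s) - 1) * ∏ i : Fin (m - s - 1), (q ^ (2 * ((i : ℕ) + 1)) - 1)) :=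 by
  have h2 : (2 : F) = 0 := CharTwo.two_eq_zero
  have hQ := qPlus_nondegenerate (F := F) m
  have h1 := sq_map_eq_one (oEquiv (qPlus m F)) hx
  have h3 := si_of h2 hQ (polar_isAlt h2 _) h1
  have h4 := (finrank_RU_oEquiv (Q := qPlus m F) x).trans hs
  have h5 := (sing_RU_oEquiv (Q := qPlus m F) x).2 halt
  have h6 := (isWittPair_quad _ hQ).two_mul_finrank_le h3.le_perp
  have htop := reflSub_eq_top_fin hQ (h.imp_right fun h => by simp; omega)
  have h7 := card_centralizer_isom (isWittPair_quad _ hQ) h3 (quad_RU_congr h2 _ _)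
  rw [card_fix_OG_sing hQ (isPlus_qPlus m) (m := m) (by simp [two_mul]) h5 h4,
    card_SpG' h3.s2.nd (h3.isAlt_iff.2 ((alt_iff_sing h2 _).2 h5)) (m := s / 2)
    (h4.trans (Nat.two_mul_div_two_of_even heven).symm), Nat.card_eq_fintype_card (α := F), hF] at h7
  rw [h4] at h6
  simp only [finrank_fintype_fun_eq_card, Fintype.card_sum, Fintype.card_fin] at h6
  refine (card_cent_Omega_eq (Q := qPlus m F) x).trans ?_
  split_ifs with h8
  · rw [card_cent_commutator_max h2 hQ htop (maxTS_qPlus_iff.2 ⟨h4.trans h8, h5⟩), h7,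
      if_pos (by omega), mul_right_comm]
    rfl
  · have h9 := card_cent_commutator h2 hQ htop h1 fun h => h8 (h4.symm.trans (maxTS_qPlus_iff.1 h).1)
    apply Nat.eq_of_mul_eq_mul_right two_pos
    rw [h9, h7, if_neg (by omega), spOrd, omOrd]
    ring

end Cfsg.Agent.S2684
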