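import Cfsg.Statements.S2685
import Cfsg.Agent.Cls.Inv2M

set_option autoImplicit false
open Cfsg

namespace Cfsg.Agent.S2685

open CF.Cls CF.Geom Module QuadraticMap

/-- For the hyperbolic form Q = Σ x_j y_j on F^(2m) over a finite field with q elements, q even (excluding m = 2 over the field of two elements), and an involution x of the orthogonal group with s = rank(x − 1) even and Q not vanishing on the image of x − 1 (f(v, xv) ≠ 0 for some v, where f(u, w) = Q(u + w) − Q(u) − Q(w) is the bilinear form of Q; type c_s, which lies in Ω): its centraliser in Ω (the commutator subgroup of the orthogonal group) has order q^(2m(s−1) − (3s² − 5s)/2 − 1) · |Sp_(s−2)(q)| · |Sp_(2m−2s)(q)|. -/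
theorem result {F : Type*} [Field F] [Fintype F] [CharP F 2] {q : ℕ} (hF : Fintype.card F = q) {m s : ℕ} (h : Fintype.card F ≠ 2 ∨ m ≠ 2) (x : ↥(Cfsg.isometryGroup F (Cfsg.quadFormPlus m F))) (hx : x ^ 2 = 1) (hs : (((x : Matrix.GeneralLinearGroup (Fin m ⊕ Fin m) F) : Matrix (Fin m ⊕ Fin m) (Fin m ⊕ Fin m) F) - 1).rank = s) (heven : Even s) (hna : ∃ v : Fin m ⊕ Fin m → F, Cfsg.quadFormPlus m F ((((x : Matrix.GeneralLinearGroup (Fin m ⊕ Fin m) F) : Matrix (Fin m ⊕ Fin m) (Fin m ⊕ Fin m) F) - 1).mulVec v) ≠ 0) : Nat.card {g : ↥(Cfsg.Omega F (Cfsg.quadFormPlus m F)) // (g : ↥(Cfsg.isometryGroup F (Cfsg.quadFormPlus m F))) * x = x * (g : ↥(Cfsg.isometryGroup F (Cfsg.quadFormPlus m F)))} = q ^ (2 * m * (s - 1) - (3 * s ^ 2 - 5 * s) / 2 - 1) * ((q : ℕ) ^ (((s - 2) / 2) ^ 2) * ∏ i : Fin ((s - 2) / 2), (q ^ (2 * ((i : ℕ) + 1)) - 1)) * ((q : ℕ) ^ ((m - s) ^ 2) * ∏ i : Fin (m - s), (q ^ (2 * ((i : ℕ) + 1)) - 1)) := by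
  have h2 : (2 : F) = 0 := CharTwo.two_eq_zero
  have h3 := si_of h2 (qPlus_nondegenerate m) (polar_isAlt h2 _)
    (sq_map_eq_one (oEquiv (qPlus m F)) hx)
  have h4 := (finrank_RU_oEquiv (Q := qPlus m F) x).trans hs
  have h5 : ¬ ∀ u ∈ RU (oEquiv (qPlus m F) x).1, qPlus m F u = 0 := fun hn =>
    hna.elim fun v hv => hv ((sing_RU_oEquiv (Q := qPlus m F) x).1 hn v)
  have h6 := (isWittPair_quad _ (qPlus_nondegenerate m)).two_mul_finrank_le h3.le_perp
  obtain ⟨k, rfl⟩ := even_iff_two_dvd.1 heven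
  obtain ⟨e5, e6⟩ := h3.s2.card_even (fun h => h5 ((alt_iff_sing h2 _).1 (h3.isAlt_iff.1 h))) h4
  obtain ⟨k, rfl⟩ := Nat.exists_eq_add_of_le' e5
  refine (card_cent_Omega_nonsing h2 h x hx (k := 2 * k + 1) hs h5).trans ?_
  rw [e6, Nat.card_eq_fintype_card, hF, show (2 * (k + 1) - 2) / 2 = k + 1 - 1 by omega,
    mul_right_comm, ← mul_assoc, ← pow_add]
  rw [h4] at h6
  simp only [finrank_fintype_fun_eq_card, Fintype.card_sum, Fintype.card_fin] at h6
  have h1 : (2 * k + 2) * (2 * k + 1) ≤ m * (2 * k + 1) := Nat.mul_le_mul_right _ (by omega)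
  congr 3
  rw [show 2 * (k + 1) - 1 = 2 * k + 1 by omega,
    show 2 * m * (2 * k + 1) = 2 * (m * (2 * k + 1)) by ring,
    show (2 * k + 1) ^ 2 = 4 * (k * k) + 4 * k + 1 by ring,
    show (2 * (k + 1)) ^ 2 = 4 * (k * k) + 8 * k + 4 by ring]
  rw [show (2 * k + 2) * (2 * k + 1) = 4 * (k * k) + 6 * k + 2 by ring] at h1
  omega

end Cfsg.Agent.S2685
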