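import Cfsg.Statements.S2703
import Cfsg.Agent.Known.Aut.GrFam

set_option autoImplicit false
open Cfsg

namespace Cfsg.Agent.S2703

/-- Let T = PSL_n(F) over the field with q elements, q odd, n = 2m ≥ 4 even, and ι the inverse-transpose automorphism. Its centralizer in G = Inndiag(T) (the image of PGL_n(F)) is isomorphic to the projective conformal orthogonal group of the plus-type form Σ xᵢ yᵢ in dimension n when n(q − 1)/4 is even, and to that of a minus-type form (Σ xᵢ yᵢ + z₁² + a z₁ z₂ + b z₂² with anisotropic binary part) when n(q − 1)/4 is odd. -/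
theorem result {F : Type*} [Field F] [Fintype F] (hodd : Odd (Fintype.card F)) {n m : ℕ} (hm : 2 ≤ m) (hnm : n = 2 * m) (ι : MulAut (Matrix.ProjectiveSpecialLinearGroup (Fin n) F)) (hι : Cfsg.IsInverseTransposeAutPSL ι) :
    (Even (n * (Fintype.card F - 1) / 4) → Nonempty (↥(Cfsg.inndiagPSL n F ⊓ Subgroup.centralizer {ι}) ≃* Cfsg.PGO F (Cfsg.quadFormPlus m F))) ∧ (¬ Even (n * (Fintype.card F - 1) / 4) → ∃ a b : F, (∀ z₁ z₂ : F, z₁ ^ 2 + a * z₁ * z₂ + b * z₂ ^ 2 = 0 → z₁ = 0 ∧ z₂ = 0) ∧ Nonempty (↥(Cfsg.inndiagPSL n F ⊓ Subgroup.centralizer {ι}) ≃* Cfsg.PGO F (Cfsg.quadFormMinus (m - 1) F a b))) := by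
  have h2 := CF.Geom.two_ne_zero_of_odd_card hodd
  have r : (CF.Known.gfamSL (F := F) (n := n) (by omega)).rel ι 1 :=
    ⟨1, (CF.Known.isInverseTransposePSL_iff ι).1 hι, by simp, Or.inl Matrix.transpose_one⟩
  have key := (CF.Known.isPlus_one_iff (ι := Fin n) h2 (m := m) (by simpa)).trans
    ((CF.Geom.isSquare_neg_one_pow_iff h2 m).trans ((CF.Known.pow_mod_four hodd).trans
      (CF.Known.even_half_iff hodd).symm))
  rw [show n * (Fintype.card F - 1) / 4 = m * (Fintype.card F - 1) / 2 by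
    rw [hnm, mul_assoc]; omega, ← key]
  obtain ⟨a, b, hab⟩ := CF.Known.exists_aniso (F := F)
  exact ⟨(CF.Known.gfamSL _).cent_plus h2 hnm r Matrix.transpose_one, fun h => ⟨a, b, hab,
    (CF.Known.gfamSL _).cent_minus h2 hm hnm r Matrix.transpose_one h hab⟩⟩

end Cfsg.Agent.S2703
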