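import Cfsg.Statements.S2710
import Cfsg.Agent.Known.Aut.GrFam

set_option autoImplicit false
open Cfsg

namespace Cfsg.Agent.S2710

/-- Let T = PSU_n(q) with n ≥ 4 divisible by 4 (n = 2m) and q odd, realised over the field F with q² elements, G = Inndiag(T) the image of PGU_n(q), and φ the standard field automorphism of T attached to the q-th power map of F (it induces inverse-transpose on the unitary matrices and is a graph automorphism). Its centralizer in G is isomorphic to the projective conformal orthogonal group of the plus-type form Σ xᵢ yᵢ in dimension n over a field F₀ with q elements. (Dimensions n ≡ 2 (mod 4) are not covered.) -/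
theorem result {F : Type*} [Field F] [Fintype F] {q : ℕ} (hodd : Odd q) (hF : Fintype.card F = q ^ 2) {n m : ℕ} (hm : 2 ≤ m) (hnm : n = 2 * m) (h4 : 4 ∣ n) (F₀ : Type*) [Field F₀] [Fintype F₀] (hF₀ : Fintype.card F₀ = q) (σ : F ≃+* F) (hσ : ∀ a : F, σ a = a ^ q) (φ : MulAut (Cfsg.PSU n F q)) (hφ : Cfsg.IsFieldAutPSUOf σ φ) :
    Nonempty (↥(Cfsg.inndiagPSU n F q ⊓ Subgroup.centralizer {φ}) ≃* Cfsg.PGO F₀ (Cfsg.quadFormPlus m F₀)) := by
  obtain ⟨τ, i, J, E⟩ := CF.Known.exists_conj_emb hF hF₀
  obtain rfl : σ = τ := RingEquiv.ext fun a => (hσ a).trans (J.eq a).symm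
  have h2 := CF.Geom.two_ne_zero_of_odd_card (hF₀ ▸ hodd)
  refine (CF.Known.gfamSU J E hF (by omega)).cent_plus h2 hnm (A := 1) ⟨by simp, ?_⟩ Matrix.transpose_one
    ((CF.Known.isPlus_one_iff h2 (m := m) (by simpa)).2 (by
      rw [Even.neg_one_pow (by rw [even_iff_two_dvd]; omega)]; exact IsSquare.one))
  rw [(CF.Known.isFieldAutPSU_iff σ φ).1 hφ]
  exact CF.Known.relSU_field σ i

end Cfsg.Agent.S2710
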