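import Cfsg.Statements.S2734
import Cfsg.Agent.Chev.Fold

set_option autoImplicit false
open Cfsg

namespace Cfsg.Agent.S2734

open CF.Chev CF.BN Cfsg.Lie

/-- The folding of `D₄` onto `G₂`. -/
def fm (r : ℕ) : List (ℕ × ℤ) :=
  [[(0, -1)], [(1, -1)], [(2, -1), (3, -1), (6, 1)], [(4, 1), (7, -1), (8, -1)],
    [(5, 1), (10, 1), (11, 1)], [(9, 1)], [(14, 1)], [(18, 1), (13, 1), (12, 1)],
    [(15, -1), (16, -1), (19, 1)], [(17, 1), (20, -1), (21, -1)], [(22, -1)], [(23, -1)]].getD r []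

theorem aux (F : Type*) [Field F] [Finite F] :
    Nonempty ((twD4 (RingHom.id F)).Fix ≃* chevG2.group F) := by
  have := Fact.mk (CharP.char_is_prime F (ringChar F))
  have M := ltD4 (φ := RingHom.id F) (q := 1) (p := ringChar F) (by simp) fun _ => rfl
  let ρ := (certG2.fold (certD4.sound_ctS (repD4 F).toPreSt sameLenD4) fm
    (by decide +kernel)).toSt goodG2.noA1
  have h1 : ∀ (r : Fin chevG2.nroots) t, ρ.x r t =
      wN (repD4 F).toPreSt ((fm r).map fun a => (a.1, a.2 * t)) := fun r t => by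
    simp only [wN, List.map_map]; rfl
  have h2 : ∀ i : Fin chevG2.rank, (cbG2.simple i).1 = [7, 6].getD i 0 ∧
      (cbG2.neg (cbG2.simple i)).1 = [4, 5].getD i 0 := by decide +kernel
  have h3 : ∀ r : Fin chevG2.nroots, tabG2.pos r → ∀ a ∈ fm r, tabD4.pos a.1 := by decide +kernel
  rw [linkG2.group_eq]
  refine M.nonempty_fix_equiv (linkD4.center_group F) (TF_inf_ker_D4 (isGr_twD4 _) fun _ => rfl)
    (by rintro _ ⟨c, hc, rfl⟩; exact tor_memD4 (by simp) _ ((isGr_twD4 _).mem_TF.1 hc)) (ρ' := ρ)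
    goodG2.conn ((Subgroup.closure_le _).2 ?_) (fun j t => ?_) (ρ.U_le_iff.2 fun r hr t =>
      certD4.foldX_mem _ fm (h3 r (certG2.pos_iff.1 hr)) t) (i := ⟨1, by decide⟩) fun h => ?_
  · rintro _ ⟨_, ⟨t, -, r, hr, rfl⟩ | ⟨t, r, hr, rfl⟩, rfl⟩ <;>
      simp only [List.mem_cons, List.not_mem_nil, or_false] at hr <;> rcases hr with rfl | rfl
    · simpa [h1, fm] using! ρ.x_mem_Gp ⟨6, by decide⟩ t
    · simpa [h1, fm] using! ρ.x_mem_Gp ⟨5, by decide⟩ t
    · simpa [h1, fm] using! ρ.x_mem_Gp ⟨7, by decide⟩ t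
    · simpa [h1, fm] using! ρ.x_mem_Gp ⟨4, by decide⟩ t
  · rw [h1, h1, (h2 j).1, (h2 j).2]
    fin_cases j
    · exact ⟨Subgroup.subset_closure ⟨_, Or.inr ⟨t, (18, 13, 12), by decide, rfl⟩, by simp [fm]⟩,
        Subgroup.subset_closure ⟨_, Or.inr ⟨t, (5, 10, 11), by decide, rfl⟩, by simp [fm]⟩⟩
    · exact ⟨Subgroup.subset_closure ⟨_, Or.inl ⟨t, by simp, 14, by decide, rfl⟩, by simp [fm]⟩,
        Subgroup.subset_closure ⟨_, Or.inl ⟨t, by simp, 9, by decide, rfl⟩, by simp [fm]⟩⟩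
  · rw [h1, (h2 _).2] at h
    have := ((linkD4.faithful_gpRep F).x_mem_U_iff cbD4.closed_pos cbD4.isNil_pos
      (r := ⟨9, by decide⟩) one_ne_zero).1 (by simpa [fm, wN, xN] using! h)
    revert this; decide +kernel

/-- In the Chevalley group of type D₄ over a finite field F (the matrix group generated by the root elements), a graph automorphism attached to a symmetry π of the Dynkin diagram (sending each fundamental root element x_p(t) to x_{π(p)}(t) and each x_{−p}(t) to x_{−π(p)}(t)) that has order 3 — a standard triality graph automorphism, π being a 3-cycle of the three outer nodes — has fixed-point subgroup isomorphic to the Chevalley group of type G₂ over F. -/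
theorem result {F : Type*} [Field F] [Fintype F] (τ : MulAut ↥(Cfsg.Lie.chevD4.group F)) (hτ : Cfsg.Lie.chevD4.IsGraphAut τ) (hτ3 : orderOf τ = 3) :
    Nonempty (↥(MonoidHom.eqLocus τ.toMonoidHom (MonoidHom.id ↥(Cfsg.Lie.chevD4.group F))) ≃* ↥(Cfsg.Lie.chevG2.group F)) := by
  obtain ⟨π, hπ, h⟩ := linkD4.std_of_isGraphAut slD4 notLongD4 hτ
  obtain ⟨e⟩ := aux F
  have h2 : (linkD4.gpRep F).Std (τ * τ) (π * π) 1 fun _ => RingEquiv.refl F :=
    ⟨fun i t => by simp [h.1], fun i t => by simp [h.2]⟩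
  obtain h3 | rfl | h3 : π * π = 1 ∨ π = pD4 ∨ π * π = pD4 := by
    have := (mem_sym_iff carD4).1 hπ
    clear h h2 hπ
    have key : ∀ π : Equiv.Perm (Fin 4), (∀ i j, matL cmD4 (π i) (π j) = matL cmD4 i j) →
      π * π = 1 ∨ π = pD4 ∨ π * π = pD4 := by decide +kernel
    exact key π this
  · simpa [hτ3] using orderOf_dvd_of_pow_eq_one
      ((sq τ).trans ((h3 ▸ h2).eq_one (linkD4.gpRep_Gp F)))
  · exact ⟨(MulEquiv.subgroupCongr (by rw [eq_σ_of_std (isGr_twD4 _) h]; rfl)).trans e⟩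
  refine ⟨(MulEquiv.subgroupCongr (Subgroup.ext fun g => ?_)).trans e⟩
  rw [Tw.mem_Fix, ← eq_σ_of_std (isGr_twD4 _) (h3 ▸ h2)]
  have h4 : τ (τ (τ g)) = g := DFunLike.congr_fun (hτ3 ▸ pow_orderOf_eq_one τ : τ ^ 3 = 1) g
  refine ⟨fun h : τ g = g => by simp [h], fun h : τ (τ g) = g => ?_⟩
  rwa [h] at h4

end Cfsg.Agent.S2734
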