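import Cfsg.Statements.S2738
import Cfsg.Agent.Classical.Linear

set_option autoImplicit false
open Cfsg
open scoped commutatorElement

namespace Cfsg.Agent.S2738

theorem aux {G : Type*} [Group G] {K : Subgroup G} (hK : (Subgroup.center G).IsComplement' K) :
    commutator G ≤ K := Subgroup.commutator_le.2 fun a _ b _ => by
  obtain ⟨⟨⟨z, hz⟩, k, hk⟩, rfl⟩ := hK.2 a
  obtain ⟨⟨⟨y, hy⟩, l, hl⟩, rfl⟩ := hK.2 b
  have hz' := Subgroup.mem_center_iff.1 hz
  have hy' := Subgroup.mem_center_iff.1 hy
  have : ⁅z * k, y * l⁆ = k * l * k⁻¹ * l⁻¹ := by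
    calc _ = z * (k * y * l * k⁻¹) * z⁻¹ * (l⁻¹ * y⁻¹) := by rw [commutatorElement_def]; group
      _ = y * (k * l * k⁻¹ * l⁻¹) * y⁻¹ := by rw [← hz', hy']; group
      _ = _ := by rw [← hy']; group
  exact this ▸ mul_mem (mul_mem (mul_mem hk hl) (inv_mem hk)) (inv_mem hl)

/-- The special linear group SL(3, 4) has centre of order 3 and does not split over it: no subgroup is a complement to the centre (so SL(3, 4) is a non-split central extension of PSL(3, 4) by a group of order 3). -/
theorem result (F : Type*) [Field F] [Fintype F] (hF : Fintype.card F = 4) : Nat.card ↥(Subgroup.center (Matrix.SpecialLinearGroup (Fin 3) F)) = 3 ∧ ¬ ∃ K : Subgroup (Matrix.SpecialLinearGroup (Fin 3) F), Subgroup.IsComplement' (Subgroup.center (Matrix.SpecialLinearGroup (Fin 3) F)) K := by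
  have h3 : Nat.card ↥(Subgroup.center (Matrix.SpecialLinearGroup (Fin 3) F)) = 3 := by
    rw [CF.Classical.card_center_SL, Nat.card_eq_fintype_card, hF]; rfl
  refine ⟨h3, fun ⟨K, hK⟩ => ?_⟩
  have := aux hK
  rw [CF.Classical.commutator_SL_eq_top (by simp), top_le_iff] at this
  have := hK.card_mul_card
  rw [‹K = ⊤›, Subgroup.card_top, h3] at this
  have := Nat.card_pos (α := Matrix.SpecialLinearGroup (Fin 3) F)
  omega

end Cfsg.Agent.S2738
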