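import Cfsg.Statements.S2751
import Cfsg.Agent.Gold3.Main

set_option autoImplicit false
open Cfsg

namespace Cfsg.Agent.S2751


/-- Goldschmidt's bound for amalgams of index (3, 3): let M₁ and M₂ be finite subgroups of a group G such that M₁ ⊓ M₂ is a Sylow 2-subgroup of both M₁ and M₂, each quotient Mᵢ / O₂(Mᵢ) is isomorphic to the symmetric group of degree 3, and no nontrivial subgroup of M₁ ⊓ M₂ is normal in both M₁ and M₂. Then M₁ ⊓ M₂ has order at most 2^7. -/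
theorem result {G : Type*} [Group G] (M₁ M₂ : Subgroup G) [Finite M₁] [Finite M₂] (ha₁ : ∃ P : Sylow 2 M₁, (P : Subgroup M₁) = (M₁ ⊓ M₂).subgroupOf M₁) (ha₂ : ∃ P : Sylow 2 M₂, (P : Subgroup M₂) = (M₁ ⊓ M₂).subgroupOf M₂) (hb₁ : Nonempty (M₁ ⧸ Cfsg.pCore 2 M₁ ≃* Equiv.Perm (Fin 3))) (hb₂ : Nonempty (M₂ ⧸ Cfsg.pCore 2 M₂ ≃* Equiv.Perm (Fin 3))) (hc : ∀ N : Subgroup G, N ≤ M₁ ⊓ M₂ → (N.subgroupOf M₁).Normal → (N.subgroupOf M₂).Normal → N = ⊥) : Nat.card ↥(M₁ ⊓ M₂) ≤ 2 ^ 7 := by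
    refine CF.Gold3.WA.bound ⟨⟨inferInstance, ?_, CF.Loc.relIndex_eq_six_of_equiv hb₁⟩,
      ⟨inferInstance, ?_, CF.Loc.relIndex_eq_six_of_equiv hb₂⟩, fun X hX h1 h2 => hc X hX
        ((Subgroup.normal_subgroupOf_iff_le_normalizer (hX.trans inf_le_left)).2 h1)
        ((Subgroup.normal_subgroupOf_iff_le_normalizer (hX.trans inf_le_right)).2 h2)⟩
    · obtain ⟨S, hS⟩ := ha₁
      exact CF.Loc.isSyl_of_subgroupOf inf_le_left S hS
    · obtain ⟨S, hS⟩ := ha₂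
      rw [inf_comm]
      exact CF.Loc.isSyl_of_subgroupOf inf_le_right S hS

end Cfsg.Agent.S2751
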