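import Cfsg.Statements.S2758
import Cfsg.Agent.Loc.Dih
-- import your own Cfsg.Agent.* helpers here

set_option autoImplicit false
open Cfsg

namespace Cfsg.Agent.S2758

open Cfsg CF.Loc Subgroup
open scoped commutatorElement


/-- For an odd prime p and a finite group G the following are equivalent: the dihedral group of order 2p is involved in G; some element of 2-power order normalizes but does not centralize some p-subgroup of G; some element of 2-power order inverts some nonidentity element of p-power order. -/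
theorem result {G : Type*} [Group G] [Finite G] {p : ℕ} [Fact p.Prime] (hp : p ≠ 2) : (Cfsg.Involves (DihedralGroup p) G ↔ ∃ (x : G) (P : Subgroup G), (∃ k : ℕ, orderOf x = 2 ^ k) ∧ IsPGroup p ↥P ∧ x ∈ Subgroup.normalizer (P : Set G) ∧ x ∉ Subgroup.centralizer (P : Set G)) ∧ (Cfsg.Involves (DihedralGroup p) G ↔ ∃ x y : G, (∃ k : ℕ, orderOf x = 2 ^ k) ∧ (∃ k : ℕ, orderOf y = p ^ k) ∧ y ≠ 1 ∧ x * y * x⁻¹ = y⁻¹) := by
  have hp' : p.Prime := Fact.out
  have a : Involves (DihedralGroup p) G → ∃ x y : G, (∃ k : ℕ, orderOf x = 2 ^ k) ∧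
      (∃ k : ℕ, orderOf y = p ^ k) ∧ y ≠ 1 ∧ x * y * x⁻¹ = y⁻¹ := fun h => by
    obtain ⟨x, -, y, -, ⟨k, a⟩, b, c⟩ := inv_of_involves_dihedral hp h
    exact ⟨x, y, orderOf_eq_pow_of_mem (isPGroup_zpowers a) (mem_zpowers x), ⟨1, by simpa using b⟩,
      ne_one_of_orderOf_eq b, c⟩
  have b : (∃ x y : G, (∃ k : ℕ, orderOf x = 2 ^ k) ∧ (∃ k : ℕ, orderOf y = p ^ k) ∧ y ≠ 1 ∧
      x * y * x⁻¹ = y⁻¹) → ∃ (x : G) (P : Subgroup G), (∃ k : ℕ, orderOf x = 2 ^ k) ∧
      IsPGroup p P ∧ x ∈ normalizer (P : Set G) ∧ x ∉ centralizer (P : Set G) := by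
    rintro ⟨x, y, h1, ⟨k, h2⟩, h3, h4⟩
    refine ⟨x, zpowers y, h1, isPGroup_zpowers_of_orderOf h2, mem_normalizer_of_conj_mem
      fun z hz => ?_, fun hh => ?_⟩
    · rw [inverts_of_mem_zpowers h4 hz]; exact inv_mem hz
    · exact ne_inv_of_odd (h2 ▸ (hp'.odd_of_ne_two hp).pow) h3
        ((conj_eq_of_mem_centralizer hh (mem_zpowers y)).symm.trans h4)
  have c : (∃ (x : G) (P : Subgroup G), (∃ k : ℕ, orderOf x = 2 ^ k) ∧ IsPGroup p P ∧
      x ∈ normalizer (P : Set G) ∧ x ∉ centralizer (P : Set G)) →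
      Involves (DihedralGroup p) G := by
    rintro ⟨x, P, ⟨k, h1⟩, h2, h3, h4⟩
    exact (inv_of_normalizes h2 le_top (h1 ▸ pow_orderOf_eq_one x) trivial h3 h4).involves hp
  exact ⟨⟨b ∘ a, c⟩, ⟨a, c ∘ b⟩⟩

end Cfsg.Agent.S2758
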