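import Cfsg.Statements.S2762
import Cfsg.Agent.PLocal.Qd2

set_option autoImplicit false
open Cfsg

namespace Cfsg.Agent.S2762

/-- Structure of Qd over a finite field F of characteristic p (the affine subgroup of SL₃(F)): its largest normal p-subgroup is the group of translations (matrices with upper-left block the identity), the block-diagonal matrices form a complement isomorphic to SL₂(F), and the translation subgroup is a natural SL₂(F)-module for that complement. -/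
theorem result {F : Type*} [Field F] [Fintype F] {p : ℕ} [Fact p.Prime] [CharP F p] : (∀ M : ↥(Cfsg.qdOver F), M ∈ Cfsg.pCore p ↥(Cfsg.qdOver F) ↔ ((M : Matrix.SpecialLinearGroup (Fin 3) F) : Matrix (Fin 3) (Fin 3) F) 0 0 = 1 ∧ ((M : Matrix.SpecialLinearGroup (Fin 3) F) : Matrix (Fin 3) (Fin 3) F) 0 1 = 0 ∧ ((M : Matrix.SpecialLinearGroup (Fin 3) F) : Matrix (Fin 3) (Fin 3) F) 1 0 = 0 ∧ ((M : Matrix.SpecialLinearGroup (Fin 3) F) : Matrix (Fin 3) (Fin 3) F) 1 1 = 1) ∧ ∃ K : Subgroup ↥(Cfsg.qdOver F), (∀ M : ↥(Cfsg.qdOver F), M ∈ K ↔ ((M : Matrix.SpecialLinearGroup (Fin 3) F) : Matrix (Fin 3) (Fin 3) F) 0 2 = 0 ∧ ((M : Matrix.SpecialLinearGroup (Fin 3) F) : Matrix (Fin 3) (Fin 3) F) 1 2 = 0) ∧ K ⊓ Cfsg.pCore p ↥(Cfsg.qdOver F) = ⊥ ∧ K ⊔ Cfsg.pCore p ↥(Cfsg.qdOver F) = ⊤ ∧ Nonempty (↥K ≃* Matrix.SpecialLinearGroup (Fin 2) F) ∧ Cfsg.IsNaturalSL2Module F (Cfsg.pCore p ↥(Cfsg.qdOver F)) K := by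
  have hK : ∀ M : Cfsg.qdOver F, M ∈ (CF.PLocal.qdInr (F := F)).range ↔
      CF.PLocal.qdCol M = 0 := fun M =>
    ⟨fun ⟨A, hA⟩ => hA ▸ CF.PLocal.qdCol_mk A 0, fun h => ⟨CF.PLocal.qdBlk M, by
      rw [CF.PLocal.qdInr_apply, ← h, CF.PLocal.qdMk_blk_col]⟩⟩
  have hinf : (CF.PLocal.qdInr (F := F)).range ⊓ CF.PLocal.qdBlk.ker = ⊥ := by
    rw [eq_bot_iff]
    rintro M ⟨h1, h2⟩
    exact CF.PLocal.qd_ext (by rw [map_one]; exact h2) (by rw [(hK M).1 h1, CF.PLocal.qdCol_one])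
  rw [CF.PLocal.pCore_qdOver p]
  refine ⟨fun M => ?_, (CF.PLocal.qdInr (F := F)).range, fun M => ?_, hinf, ?_,
    ⟨(MonoidHom.ofInjective CF.PLocal.qdInr_injective).symm⟩,
    Subgroup.le_normalizer_of_normal, CF.PLocal.qdBlk.comp (Subgroup.subtype _),
    { toFun := fun v => CF.PLocal.qdCol v.toMul.1
      invFun := fun v => Additive.ofMul ⟨CF.PLocal.qdMk 1 v, CF.PLocal.qdMk_mem_ker v⟩
      left_inv := fun v => ?_
      right_inv := fun v => CF.PLocal.qdCol_mk _ _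
      map_add' := fun v w => ?_ }, fun A => ⟨⟨_, A, rfl⟩, CF.PLocal.qdBlk_inr A⟩, ?_, fun l v => ?_⟩
  · rw [MonoidHom.mem_ker]
    constructor
    · intro h
      have h := congrArg Subtype.val h
      exact ⟨congrFun (congrFun h 0) 0, congrFun (congrFun h 0) 1, congrFun (congrFun h 1) 0,
        congrFun (congrFun h 1) 1⟩
    · rintro ⟨h1, h2, h3, h4⟩
      apply Subtype.ext
      change _ = (1 : Matrix (Fin 2) (Fin 2) F)
      rw [CF.PLocal.qdBlk_val, h1, h2, h3, h4, Matrix.one_fin_two]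
  · rw [hK]
    constructor
    · intro h
      exact ⟨congrFun h 0, congrFun h 1⟩
    · rintro ⟨h1, h2⟩
      rw [CF.PLocal.qdCol, h1, h2]
      ext i
      fin_cases i <;> rfl
  · rw [eq_top_iff]
    intro M _
    rw [sup_comm, ← CF.PLocal.qdMk_blk_col M]
    have := Subgroup.mul_mem_sup (CF.PLocal.qdMk_mem_ker (CF.PLocal.qdCol M))
      (show CF.PLocal.qdInr (CF.PLocal.qdBlk M) ∈ (CF.PLocal.qdInr (F := F)).range from ⟨_, rfl⟩)
    rwa [CF.PLocal.qdInr_apply, CF.PLocal.qdMk_mul, one_mul, Matrix.mulVec_zero, add_zero] at this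
  · exact Subtype.ext (CF.PLocal.qd_ext ((CF.PLocal.qdBlk_mk _ _).trans v.toMul.2.symm)
      (CF.PLocal.qdCol_mk _ _))
  · change CF.PLocal.qdCol (v.toMul.1 * w.toMul.1) = _
    rw [CF.PLocal.qdCol_mul, show CF.PLocal.qdBlk v.toMul.1 = 1 from v.toMul.2]
    simp
  · rw [CF.PLocal.centralizer_ker_qdBlk]
    rfl
  · refine ⟨⟨l * v * (l : Cfsg.qdOver F)⁻¹, Subgroup.Normal.conj_mem inferInstance _ v.2 _⟩, rfl, ?_⟩
    obtain ⟨v, hv⟩ := v
    obtain ⟨u, rfl⟩ := CF.PLocal.mem_ker_qdBlk.1 hv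
    change CF.PLocal.qdCol (_ * CF.PLocal.qdMk 1 u * _) = Matrix.mulVec _
      (CF.PLocal.qdCol (CF.PLocal.qdMk 1 u))
    rw [CF.PLocal.qd_conj, CF.PLocal.qdCol_mk, CF.PLocal.qdCol_mk]
    rfl

end Cfsg.Agent.S2762
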