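import Cfsg.Statements.S2763
import Cfsg.Agent.PLocal.Qd2

set_option autoImplicit false
open Cfsg

namespace Cfsg.Agent.S2763

/-- In the group Qd(p) (p prime; the natural semidirect product of an elementary abelian group of order p² by SL₂(p)), the normalizer of every nontrivial characteristic subgroup of a Sylow p-subgroup S equals the normalizer of S, which is a proper subgroup; in particular no such characteristic subgroup is normal. -/
theorem result {p : ℕ} [Fact p.Prime] (S : Sylow p ↥(Cfsg.qd p)) (T : Subgroup ↥(S : Subgroup ↥(Cfsg.qd p))) (hT : T ≠ ⊥) (hTc : T.Characteristic) : Subgroup.normalizer ((T.map (S : Subgroup ↥(Cfsg.qd p)).subtype : Subgroup ↥(Cfsg.qd p)) : Set ↥(Cfsg.qd p)) = Subgroup.normalizer ((S : Subgroup ↥(Cfsg.qd p)) : Set ↥(Cfsg.qd p)) ∧ Subgroup.normalizer ((S : Subgroup ↥(Cfsg.qd p)) : Set ↥(Cfsg.qd p)) ≠ ⊤ := by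
  have h1 : ((T.map (S : Subgroup ↥(Cfsg.qd p)).subtype).subgroupOf
      (S : Subgroup ↥(Cfsg.qd p))).Characteristic := by
    rwa [Subgroup.subgroupOf, Subgroup.comap_map_eq_self_of_injective (Subgroup.subtype_injective _)]
  exact CF.PLocal.qdOver_normalizer_eq (F := ZMod p) (CF.Transfer.isSylowIn_top S)
    (Subgroup.map_subtype_le _) (fun h => hT ((Subgroup.map_eq_bot_iff_of_injective _
      (Subgroup.subtype_injective _)).1 h)) h1

end Cfsg.Agent.S2763
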