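import Cfsg.Statements.S2764
import Cfsg.Agent.PLocal.PushJ

set_option autoImplicit false
open Cfsg

namespace Cfsg.Agent.S2764

open CF.Loc CF.FF Subgroup in

/-- Pushing up for a rank-one quotient: let G be a finite group and p a prime with C_G(O_p(G)) ≤ O_p(G), suppose G/K ≅ PSL₂(p^n) for some normal subgroup K and some n ≥ 1, that a Sylow p-subgroup S of G lies in exactly one maximal subgroup of G, and that no nontrivial characteristic subgroup of S is normal in G. Then G/O_p(G) ≅ SL₂(p^n), and every noncentral chief factor U/W of G inside O_p(G) is a natural SL₂-module over the field with p^n elements for the action of G/W. -/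
theorem result {G : Type*} [Group G] [Finite G] {p : ℕ} [Fact p.Prime] (S : Sylow p G) (hE₁ : Subgroup.centralizer (Cfsg.pCore p G : Set G) ≤ Cfsg.pCore p G) (hE₂ : ∃! M : Subgroup G, IsCoatom M ∧ (S : Subgroup G) ≤ M) (K : Subgroup G) [K.Normal] (F : Type) [Field F] [Fintype F] (n : ℕ) (hn : 1 ≤ n) (hF : Fintype.card F = p ^ n) (hE₃ : Nonempty (G ⧸ K ≃* Matrix.ProjectiveSpecialLinearGroup (Fin 2) F)) (hd : ∀ T : Subgroup ↥(S : Subgroup G), T ≠ ⊥ → T.Characteristic → ¬ (T.map (S : Subgroup G).subtype).Normal) : Nonempty (G ⧸ Cfsg.pCore p G ≃* Matrix.SpecialLinearGroup (Fin 2) F) ∧ ∀ (U W : Subgroup G) [W.Normal], U ≤ Cfsg.pCore p G → Cfsg.IsChiefFactor U W → ¬ ⁅U, (⊤ : Subgroup G)⁆ ≤ W → Cfsg.IsNaturalSL2Module F (U.map (QuotientGroup.mk' W)) (⊤ : Subgroup (G ⧸ W)) := by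
  obtain ⟨M, k, e⟩ := exists_pu_of_equiv hF (isSyl_top S) hE₂ hE₃
  obtain ⟨h, r, -, b⟩ := k.char (isCharP_top_iff.2 hE₁) hd
  obtain ⟨ρ, ψ, s⟩ := h.exists_sec e
  refine ⟨(exists_equiv_of_ker (χ := MonoidHom.mk' ρ fun g k => s.ρmul g trivial k trivial) (QuotientGroup.mk'_surjective _)
    (fun m => let ⟨g, _, e⟩ := s.ρsurj m; ⟨g, e⟩) (Subgroup.ext fun x => ?_)).elim fun e _ => ⟨e⟩, fun U W _ hU c nc => ?_⟩
  · rw [QuotientGroup.ker_mk', ← pCoreOf_top]
    exact ⟨fun e => (s.ρ_eq_one_iff trivial).2 fun v hv => cm_one (hv.2 x e) ▸ one_mem _,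
      fun e => h.ker_le' b trivial ((s.ρ_eq_one_iff trivial).1 e)⟩
  rw [← pCoreOf_top] at hU
  have c0 : W ⊔ (U ⊓ 𝐎[p](⊤)) = U := by rw [inf_of_le_left hU, sup_of_le_right c.1.le]
  have key : W ⊔ (U ⊓ 𝐕[p]((⊤ : Subgroup G))) = U → IsNaturalSL2Module F (U.map (QuotientGroup.mk' W)) ⊤ := fun c1 =>
    s.chief c c1 ((chief_cases c s.norm₀).resolve_right fun c2 => nc (chief_cent h.syl c hU c2 (Y₀ := ⊥) (by simp)
      (comm_le_of_cent (inf_le_right.trans (centralizer_anti le_top)))))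
  rcases b with b | ⟨-, -, ⟨D, -, d2, d3, F', _, _, σ, χ, t⟩, -⟩
  · exact key ((chief_cases c s.norm).resolve_left fun a => nc (chief_cent h.syl c hU c0 a b.res))
  rcases chief_cases c t.norm₀ with a | c1
  · obtain ⟨σ, χ, t⟩ := t.exists_field h.syl h.um d3 e
    exact t.chief c c0 a
  · exact key ((chief_cases c s.norm).resolve_left fun a => nc (chief_cent h.syl c hU c1 a d2))

end Cfsg.Agent.S2764
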