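import Cfsg.Statements.S2765
import Cfsg.Agent.PLocal.PushK

set_option autoImplicit false
open Cfsg

namespace Cfsg.Agent.S2765

open CF.Loc in
theorem exp_eq {G : Type*} [Group G] {S : Subgroup G} {p k : ℕ} (hp : p.Prime) (h1 : ∀ x ∈ S, x ^ p ^ (k + 1) = 1)
    (h2 : ∃ x ∈ S, x ^ p ^ k ≠ 1) : Monoid.exponent S = p ^ (k + 1) :=
  Nat.eq_prime_pow_of_dvd_least_prime_pow hp (fun e => let ⟨x, hx, h⟩ := h2; h (congrArg Subtype.val
    (Monoid.exponent_dvd_iff_forall_pow_eq_one.1 e ⟨x, hx⟩)))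
    (Monoid.exponent_dvd_iff_forall_pow_eq_one.2 fun x => Subtype.ext (h1 x x.2))

open CF.Loc CF.FF Subgroup in

/-- In the same pushing-up situation (G finite, C_G(O_p(G)) ≤ O_p(G), G/K ≅ PSL₂(p^n) with n ≥ 1, a Sylow p-subgroup S in exactly one maximal subgroup, no nontrivial characteristic subgroup of S normal in G), one of the following holds: (I) S has nilpotency class 2, exponent 4 if p = 2 and exponent p otherwise, and G has exactly one noncentral chief factor inside O_p(G); or (II) p = 3, S has class 3 and exponent 9, and G has exactly two noncentral chief factors inside O_p(G). 'Exactly one' is phrased as: some noncentral chief factor U/W inside O_p(G) with G acting hypercentrally on W and on O_p(G)/U; 'exactly two' analogously with a chain. -/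
theorem result {G : Type*} [Group G] [Finite G] {p : ℕ} [Fact p.Prime] (S : Sylow p G) (hE₁ : Subgroup.centralizer (Cfsg.pCore p G : Set G) ≤ Cfsg.pCore p G) (hE₂ : ∃! M : Subgroup G, IsCoatom M ∧ (S : Subgroup G) ≤ M) (K : Subgroup G) [K.Normal] (F : Type) [Field F] [Fintype F] (n : ℕ) (hn : 1 ≤ n) (hF : Fintype.card F = p ^ n) (hE₃ : Nonempty (G ⧸ K ≃* Matrix.ProjectiveSpecialLinearGroup (Fin 2) F)) (hd : ∀ T : Subgroup ↥(S : Subgroup G), T ≠ ⊥ → T.Characteristic → ¬ (T.map (S : Subgroup G).subtype).Normal) : ((S : Subgroup G).lowerCentralSeries 2 = ⊥ ∧ (S : Subgroup G).lowerCentralSeries 1 ≠ ⊥ ∧ (p = 2 → Monoid.exponent ↥(S : Subgroup G) = 4) ∧ (p ≠ 2 → Monoid.exponent ↥(S : Subgroup G) = p) ∧ (∃ U W : Subgroup G, W ≤ U ∧ U ≤ (Cfsg.pCore p G) ∧ Cfsg.IsChiefFactor U W ∧ ¬ ⁅U, (⊤ : Subgroup G)⁆ ≤ W ∧ (∃ k : ℕ, Cfsg.iterCommutator W ⊤ k = ⊥) ∧ (∃ k : ℕ, Cfsg.iterCommutator (Cfsg.pCore p G) ⊤ k ≤ U)))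 ∨ (p = 3 ∧ (S : Subgroup G).lowerCentralSeries 3 = ⊥ ∧ (S : Subgroup G).lowerCentralSeries 2 ≠ ⊥ ∧ Monoid.exponent ↥(S : Subgroup G) = 9 ∧ (∃ U₁ W₁ U₂ W₂ : Subgroup G, W₁ ≤ U₁ ∧ U₁ ≤ W₂ ∧ W₂ ≤ U₂ ∧ U₂ ≤ (Cfsg.pCore p G) ∧ Cfsg.IsChiefFactor U₁ W₁ ∧ Cfsg.IsChiefFactor U₂ W₂ ∧ ¬ ⁅U₁, (⊤ : Subgroup G)⁆ ≤ W₁ ∧ ¬ ⁅U₂, (⊤ : Subgroup G)⁆ ≤ W₂ ∧ (∃ k : ℕ, Cfsg.iterCommutator W₁ ⊤ k = ⊥) ∧ (∃ k : ℕ, Cfsg.iterCommutator W₂ ⊤ k ≤ U₁) ∧ (∃ k : ℕ, Cfsg.iterCommutator (Cfsg.pCore p G) ⊤ k ≤ U₂))) := by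
  obtain ⟨M, k, e⟩ := exists_pu_of_equiv hF (isSyl_top S) hE₂ hE₃
  obtain ⟨h, r, -, b⟩ := k.char (isCharP_top_iff.2 hE₁) hd
  obtain ⟨ρ, ψ, s⟩ := h.exists_sec e
  rw [← pCoreOf_top]
  generalize (S : Subgroup G) = S at *
  have hp : p.Prime := Fact.out
  have pS := h.syl.isPGroup
  have nc : ∀ T : Subgroup S, T.Characteristic → T.map S.subtype ≤ 𝐊[p]((⊤ : Subgroup G)) → T.map S.subtype = ⊥ :=
    fun T c a => by
      by_contra e
      exact hd T (by rintro rfl; simp at e) c (normal_of_top_le_normalizer (norm_of_le_K h.syl a (le_normalizer_map_subtype T)))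
  have f1 : ⁅S, S⁆ ≤ 𝚽(S) := CF.Solv.commutator_le_map_frattini pS
  have f2 : 𝚽(𝚽(S)) ≤ 𝐊[p]((⊤ : Subgroup G)) → ∀ x ∈ S, x ^ p ^ (1 + 1) = 1 := fun a x hx => by
    have := nc ((frattini (frattini S)).map (frattini S).subtype) inferInstance (by
      rwa [CF.Solv.map_map_frattini (pS.to_subgroup _)])
    rw [CF.Solv.map_map_frattini (pS.to_subgroup _)] at this
    rw [pow_succ, pow_one, pow_mul]
    exact mem_bot.1 (this.le (CF.Solv.pow_mem_map_frattini (pS.to_le (map_subtype_le _)) (CF.Solv.pow_mem_map_frattini pS hx)))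
  have s0 : ⁅S, S⁆ ≠ ⊥ := fun e => h.not_comm_le (((commutator_mono h.V_le le_rfl).trans e.le).trans bot_le)
  have hR := pResidualOf_le p (⊤ : Subgroup G)
  have key : ∀ {F : Type} [Field F] {ρ ψ} {Y Y₀ : Subgroup G}, Sec F Y Y₀ ⊤ S ρ ψ → IsChiefFactor Y Y₀ ∧ ¬ ⁅Y, ⊤⁆ ≤ Y₀ :=
    fun s => ⟨s.isChief fun e => s.not_res_le h.syl ((commutator_le_left_of_le_normalizer (hR.trans s.norm)).trans e),
      fun e => s.not_res_le h.syl ((commutator_mono le_rfl hR).trans e)⟩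
  have z : ∃ k : ℕ, iterCommutator (𝐕[p]((⊤ : Subgroup G)) ⊓ 𝐂((⊤ : Subgroup G))) ⊤ k = ⊥ :=
    ⟨1, commutator_eq_bot_iff_le_centralizer.2 inf_le_right⟩
  rcases b with b | b
  · have c := nc ⁅frattini S, ⊤⁆ inferInstance (by rw [map_commutator, top_map_subtype]; exact b.comm h.syl)
    rw [map_commutator, top_map_subtype] at c
    refine Or.inl ⟨le_bot_iff.1 ((commutator_mono f1 le_rfl).trans c.le), s0, fun h2 => ?_, fun h2 => ?_, _, _, s.le₀, inf_le_left,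
      (key s).1, (key s).2, z, exists_iter_le h.syl le_rfl (le_normalizer_pCoreOf p ⊤) s.norm inf_le_left b.res⟩
    · subst h2
      refine exp_eq hp (f2 (b.frat2 h.syl r.ea)) (by_contra fun e => s0 (commutator_eq_bot_iff_le_centralizer.2 fun x hx y hy => ?_))
      push Not at e
      have i := fun x hx => inv_eq_of_mul_eq_one_right ((pow_two x).symm.trans (e x hx))
      rw [← i _ (mul_mem hy hx), mul_inv_rev, i x hx, i y hy]
    · have c1 := nc (powerClosure p 1 ⊤) (char_of fun f a b => by rw [pow_map, b]) (by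
        rw [pow_map, top_map_subtype]
        exact (closure_le _).2 (by rintro _ ⟨x, hx, rfl⟩; rw [pow_one]; exact b.pow h2 x hx))
      rw [pow_map, top_map_subtype] at c1
      obtain ⟨x, hx, x0⟩ := SetLike.not_le_iff_exists.1 h.ne
      exact (exp_eq (k := 0) hp (fun x hx => mem_bot.1 (c1.le (subset_closure ⟨x, hx, rfl⟩))) ⟨x, hx, by
        rintro e; rw [pow_zero, pow_one] at e; exact x0 (e ▸ one_mem _)⟩).trans (pow_one p)
  · obtain ⟨D, d1, d2, d3, F', _, _, σ, χ, t⟩ := b.sec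
    have c := nc ⁅⁅frattini S, ⊤⁆, ⊤⁆ inferInstance (by rw [map_commutator, map_commutator, top_map_subtype]; exact b.comm)
    rw [map_commutator, map_commutator, top_map_subtype] at c
    have h3 := b.three
    subst h3
    exact Or.inr ⟨rfl, le_bot_iff.1 ((commutator_mono (commutator_mono f1 le_rfl) le_rfl).trans c.le), b.nq,
      exp_eq hp (f2 b.frat) b.pow, _, _, _, _, s.le₀, d1, t.le₀, le_rfl, (key s).1, (key t).1, (key s).2, (key t).2, z,
      exists_iter_le h.syl t.le₀ t.norm₀ s.norm d1 d2, 0, le_rfl⟩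

end Cfsg.Agent.S2765
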