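import Cfsg.Statements.S2766
import Cfsg.Agent.PLocal.PushL

set_option autoImplicit false
open Cfsg

namespace Cfsg.Agent.S2766

open CF.Loc CF.FF Subgroup in

/-- Let p ≥ 5 be prime and G a maximal p-local subgroup of a finite group H (G is the normalizer of a nontrivial p-subgroup and lies in no other such normalizer). Suppose C_G(O_p(G)) ≤ O_p(G), G/K ≅ PSL₂(p^n) for some normal K and n ≥ 1, a Sylow p-subgroup S of G lies in exactly one maximal subgroup of G, and N_H(S) is not contained in G. Then G = G₀ × E for subgroups G₀ ≅ Qd(p^n) (the natural semidirect product of the plane over the field with p^n elements by SL₂) and E an elementary abelian p-group. -/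
theorem result {H : Type*} [Group H] [Finite H] {p : ℕ} [Fact p.Prime] (hp : 5 ≤ p) (G : Subgroup H) (hloc : ∃ R : Subgroup H, IsPGroup p ↥R ∧ R ≠ ⊥ ∧ G = Subgroup.normalizer (R : Set H)) (hmax : ∀ R : Subgroup H, IsPGroup p ↥R → R ≠ ⊥ → G ≤ Subgroup.normalizer (R : Set H) → Subgroup.normalizer (R : Set H) = G) (S : Sylow p ↥G) (hE₁ : Subgroup.centralizer (Cfsg.pCore p ↥G : Set ↥G) ≤ Cfsg.pCore p ↥G) (hE₂ : ∃! M : Subgroup ↥G, IsCoatom M ∧ (S : Subgroup ↥G) ≤ M) (K : Subgroup ↥G) [K.Normal] (F : Type) [Field F] [Fintype F] (n : ℕ) (hn : 1 ≤ n) (hF : Fintype.card F = p ^ n) (hE₃ : Nonempty (↥G ⧸ K ≃* Matrix.ProjectiveSpecialLinearGroup (Fin 2) F)) (hN : ¬ Subgroup.normalizer (((S : Subgroup ↥G).map G.subtype : Subgroup H) : Set H) ≤ G) : ∃ G₀ E : Subgroup H, Cfsg.IsInternalDirectProduct G₀ E G ∧ Cfsg.IsElementaryAbelian p E ∧ Nonempty (↥G₀ ≃* ↥(Cfsg.qdOver F)) := by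
  obtain ⟨M, k, e⟩ := exists_pu_of_equiv hF (isSyl_top S) hE₂ hE₃
  have i := G.subtype_injective
  have k' := k.map i
  rw [← relIndex_map_map_of_injective _ _ i, ← core_map i] at e
  rw [← MonoidHom.range_eq_map, range_subtype] at k' e
  have hm : ∀ Y ≤ (S : Subgroup G).map G.subtype, Y ≠ ⊥ → G ≤ 𝐍(Y) → 𝐍(Y) ≤ G := fun Y a b c =>
    (hmax Y (k'.syl.isPGroup.to_le a) b c).le
  obtain ⟨h, r, b⟩ := k'.single (isCharP_iff.2 hE₁) le_rfl fun Y a b c => by_contra fun d => hN (b.trans (hm Y a d c))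
  replace b := b.resolve_right fun c => by have := c.three; omega
  obtain ⟨g, hg, -, h0, ab⟩ := h.core_ab r b hm hN
  have h' := h.cj g
  rw [cj_eq_self hg] at h'
  have hF' := Nat.card_eq_fintype_card.trans hF
  have h1 : (p : F) = 0 := (pow_eq_zero_iff' (n := n).1 (by rw [← Nat.cast_pow, ← hF, FiniteField.cast_card_eq_zero])).1
  obtain ⟨a, c⟩ := h.qd_prod r b h' (cj_V (p := p) g G ▸ h0) ab e (hF' ▸ (by omega : 4 ≤ p).trans (Nat.le_self_pow (by omega) p))
    (by omega) fun h2 => by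
      have := (CharP.charP_iff_prime_eq_zero (R := F) Fact.out).2 h1
      have := Nat.le_of_dvd two_pos ((CharP.cast_eq_zero_iff F p 2).1 (by exact_mod_cast h2))
      omega
  exact ⟨_, _, a, isElemAb_of_le (h.ea r.ea) inf_le_left, c⟩

end Cfsg.Agent.S2766
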