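import Cfsg.Statements.S2772
import Cfsg.Agent.PLocal.PushL

set_option autoImplicit false
open Cfsg

namespace Cfsg.Agent.S2772

open CF.Loc CF.FF Subgroup in

/-- Sims' Theorem in local form: let H be a finite non-abelian simple group and G a maximal subgroup of H with C_G(O₂(G)) ≤ O₂(G), such that N_H(S) is not contained in G for a Sylow 2-subgroup S of G and G/O₂(G) is dihedral of order 2q for a prime q. Then G is isomorphic to the symmetric group of degree 4 or to its direct product with a group of order 2. -/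
theorem result {H : Type*} [Group H] [Finite H] [IsSimpleGroup H] (hna : ¬ IsMulCommutative H) (G : Subgroup H) (hG : IsCoatom G) (hchar : Subgroup.centralizer (Cfsg.pCore 2 ↥G : Set ↥G) ≤ Cfsg.pCore 2 ↥G) (S : Sylow 2 ↥G) (hN : ¬ Subgroup.normalizer (((S : Subgroup ↥G).map G.subtype : Subgroup H) : Set H) ≤ G) (q : ℕ) (hq : q.Prime) (hD : Nonempty (↥G ⧸ Cfsg.pCore 2 ↥G ≃* DihedralGroup q)) : Nonempty (↥G ≃* Equiv.Perm (Fin 4)) ∨ Nonempty (↥G ≃* Equiv.Perm (Fin 4) × Multiplicative (ZMod 2)) := by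
  have hS := isSyl_map S
  set T := (S : Subgroup G).map G.subtype
  have hm : ∀ Y ≤ T, Y ≠ ⊥ → G ≤ 𝐍(Y) → 𝐍(Y) ≤ G := fun Y a b c => (c.eq_or_lt.resolve_right fun d => by
    have := normal_of_top_le_normalizer (hG.2 _ d).ge
    exact hG.1 (top_le_iff.1 (((this.eq_bot_or_eq_top.resolve_left b).ge.trans a).trans hS.le))).ge
  have e1 : 𝐎[2](G).relIndex T * T.relIndex G = 2 * q := by
    obtain ⟨e⟩ := hD
    have : NeZero q := ⟨hq.ne_zero⟩
    rw [relIndex_mul_relIndex _ _ _ hS.pCoreOf_le hS.le, relIndex, pCoreOf_subgroupOf, index, Nat.card_congr e.toEquiv,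
      DihedralGroup.nat_card]
  obtain ⟨k, e2⟩ : ∃ k, 𝐎[2](G).relIndex T = 2 ^ k := hS.isPGroup.index _
  have e3 := hS.not_dvd_relIndex
  have e4 : T.relIndex G = q := ((Nat.dvd_prime hq).1 (((Nat.Prime.coprime_iff_not_dvd Nat.prime_two).2 e3).symm.dvd_of_dvd_mul_left
    (e1 ▸ dvd_mul_left _ _))).resolve_left fun e => by
      have e5 := pCoreOf_eq_self (hS.isPGroup.to_le (relIndex_eq_one.1 e))
      rw [e, e5, relIndex_eq_one.2 hS.le] at e1
      omega
  have e5 : 𝐎[2](G).relIndex T = 2 := Nat.eq_of_mul_eq_mul_right hq.pos (e4 ▸ e1)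
  have k : PU 2 G T T := ⟨hS, ⟨le_rfl, lt_of_le_of_ne hS.le fun e => hq.ne_one (by rw [← e4, relIndex_eq_one.2 e.ge]),
    fun X a b => relIndex_eq_one.1 (((Nat.dvd_prime hq).1 (e4 ▸ relIndex_mul_relIndex _ _ _ a b.le ▸ dvd_mul_right _ _)).resolve_right
      fun e => b.not_ge (relIndex_eq_one.1 (Nat.eq_of_mul_eq_mul_left hq.pos (by
        have := relIndex_mul_relIndex _ _ _ a b.le
        rwa [e, e4, ← mul_one q, mul_assoc, one_mul] at this))))⟩,
    fun e => by rw [relIndex_eq_one.2 e] at e5; omega, commutator_le_of_relIndex_two e5 (hS.le.trans (le_normalizer_pCoreOf 2 G))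
      le_normalizer, Or.inr e5⟩
  obtain ⟨h, r, b⟩ := k.single (isCharP_iff.2 hchar) le_rfl fun Y a b c => by_contra fun d => hN (b.trans (hm Y a d c))
  replace b := b.resolve_right fun c => absurd c.three (by decide)
  obtain ⟨g, hg, -, h0, ab⟩ := h.core_ab r b hm hN
  have h' := h.cj g
  rw [cj_eq_self hg] at h'
  have z1 : 𝐕[2](G) ⊓ 𝐂(G) ≤ 𝐙[T] := (inf_le_inf_left _ (centralizer_anti hS.le)).trans h.zc.le
  refine h.equiv_S4 r b h' (cj_V (p := 2) g G ▸ h0) ab e5 (cj_le_of_mem_normalizer (le_norm_zc le_rfl hg) z1) (card_cj g _).ge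
    (by_contra fun d => h0 ?_)
  have n : ∀ Y ≤ 𝐕[2](G) ⊓ 𝐂(G), Y ≠ ⊥ → 𝐍(Y) = G := fun Y a b =>
    have c := (le_centralizer_comm.1 (a.trans inf_le_right)).trans (centralizer_le_normalizer _)
    le_antisymm (hm Y (a.trans (z1.trans inf_le_left)) b c) c
  have e6 := n (cj[g⁻¹] (𝐕[2](G) ⊓ 𝐂(G) ⊓ cj[g] (𝐕[2](G) ⊓ 𝐂(G)))) (cj_le_iff.2 (by rw [inv_inv]; exact inf_le_right))
    (mt cj_eq_bot_iff.1 d)
  rw [← cj_normalizer, n _ inf_le_left d] at e6
  rw [cj_V, cj_eq_self (inv_inv g ▸ inv_mem (cj_eq_self_iff.1 e6))]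
  exact inf_le_left

end Cfsg.Agent.S2772
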