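import Cfsg.Statements.S2773
import Cfsg.Agent.PLocal.TrA

set_option autoImplicit false
universe u
open Cfsg

namespace Cfsg.Agent.S2773

open CF.FF CF.Loc Subgroup in

/-- For every nontrivial finite 3-group S there is a nontrivial characteristic subgroup K of S such that, in every finite group G containing S as a Sylow 3-subgroup, S ∩ G' is the product of S ∩ (C_G(Z(S)))' and S ∩ (N_G(K))' (derived subgroups; product taken elementwise). -/
theorem result {S : Type u} [Group S] [Finite S] [Nontrivial S] (hS : IsPGroup 3 S) : ∃ K : Subgroup S, K ≠ ⊥ ∧ K.Characteristic ∧ ∀ (G : Type u) [Group G] [Finite G] (τ : S →* G), Function.Injective τ → (∃ P : Sylow 3 G, (P : Subgroup G) = τ.range) → ∀ g : G, g ∈ τ.range ⊓ commutator G ↔ ∃ a ∈ τ.range ⊓ ⁅Subgroup.centralizer ((τ.range ⊓ Subgroup.centralizer (τ.range : Set G) : Subgroup G) : Set G), Subgroup.centralizer ((τ.range ⊓ Subgroup.centralizer (τ.range : Set G) : Subgroup G) : Set G)⁆, ∃ b ∈ τ.range ⊓ ⁅Subgroup.normalizer ((K.map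 τ : Subgroup G) : Set G), Subgroup.normalizer ((K.map τ : Subgroup G) : Set G)⁆, g = a * b := by
  have : Fact (Nat.Prime 3) := ⟨Nat.prime_three⟩
  refine ⟨FK 3 S, cpf_K.1 S hS inferInstance, characteristic_iff_map_eq.2 (cpf_K.2 S S hS), fun G _ _ τ a ⟨P, hP⟩ g => ?_⟩
  have e : inducedFunctor (FK 3) (P : Subgroup G) = (FK 3 S).map τ := by
    rw [inducedFunctor, ← cpf_K.2 S P hS ((MonoidHom.ofInjective a).trans (MulEquiv.subgroupCongr hP.symm)), map_map]; rfl
  have n : 𝐍((P : Subgroup G)) ≤ 𝐍((FK 3 S).map τ) := e ▸ norm_of_char (map_subtype_le _) (CF.Transfer.ind_characteristic cpf_K P.isPGroup')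
  have c : (P : Subgroup G) ≤ 𝐂(𝐙[(P : Subgroup G)]) := le_centralizer_comm.1 inf_le_right
  rw [← hP]
  refine ⟨fun hg => ?_, fun ⟨a, ha, b, hb, e⟩ => e ▸ mul_mem ⟨ha.1, commutator_mono le_top le_top ha.2⟩
    ⟨hb.1, commutator_mono le_top le_top hb.2⟩⟩
  have := ((CF.Transfer.transfer_ZK (by decide) P).trans (sup_le ((CF.Transfer.inf_commutator_normalizer_le P c).trans
    (sup_le_sup_left (inf_le_inf_left _ (commutator_mono n n)) _)) (e ▸ le_sup_right))) hg
  obtain ⟨a, ha, b, hb, e⟩ := (mem_sup_of_le_normalizer (inf_le_left.trans (le_normalizer_inf le_normalizer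
    (le_normalizer_commutator (c.trans le_normalizer) (c.trans le_normalizer))))).1 this
  exact ⟨a, ha, b, hb, e.symm⟩

end Cfsg.Agent.S2773
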