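import Cfsg.Statements.S2779
import Cfsg.Agent.Classical.NatMod

set_option autoImplicit false
open Cfsg

namespace Cfsg.Agent.S2779

/-- Let L act on the elementary abelian p-group V (inside a finite group, by conjugation, faithfully) as SL₂(F) on its natural module, F a field with p^n elements, and let S be a Sylow p-subgroup of L. Then [V, S, S] = 1; |V| = p^(2n) and |C_V(S)| = p^n; and for every nonidentity s ∈ S and every v ∈ V outside C_V(S): C_V(s) = C_V(S) = [V, S] = [V, s] = the subgroup generated by the commutators [v, t], t ∈ S. -/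
theorem result {G : Type*} [Group G] [Finite G] {p : ℕ} [Fact p.Prime] {F : Type*} [Field F] [Fintype F] (n : ℕ) (hF : Fintype.card F = p ^ n) (V L : Subgroup G) (hnat : Cfsg.IsNaturalSL2Module F V L) (hf : L ⊓ Subgroup.centralizer (V : Set G) = ⊥) (S : Sylow p ↥L) (T : Subgroup G) (hT : T = ((S : Subgroup ↥L).map L.subtype)) : ⁅⁅V, T⁆, T⁆ = ⊥ ∧ Nat.card V = p ^ (2 * n) ∧ Nat.card ↥(V ⊓ Subgroup.centralizer ((T : Subgroup G) : Set G)) = p ^ n ∧ ∀ s ∈ T, s ≠ 1 → (V ⊓ Subgroup.centralizer ({s} : Set G)) = (V ⊓ Subgroup.centralizer ((T : Subgroup G) : Set G)) ∧ ⁅V, T⁆ = (V ⊓ Subgroup.centralizer ((T : Subgroup G) : Set G)) ∧ ⁅V, Subgroup.zpowers s⁆ = (V ⊓ Subgroup.centralizer ((T : Subgroup G) : Set G)) ∧ ∀ v ∈ V, v ∉ Subgroup.centralizer (T : Set G) → Subgroup.closure {x : G | ∃ t ∈ T, x = v * t * v⁻¹ * t⁻¹} = (V ⊓ Subgroup.centralizer ((T : Subgroup G) : Set G)) := by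
  open CF.Classical Subgroup in
  have hF' : Nat.card F = p ^ n := by rwa [Nat.card_eq_fintype_card]
  obtain ⟨ρ, φ, h⟩ := exists_natForm hF' hnat hf S
  rw [← hT] at h
  have hVT : ⁅V, T⁆ ≤ V ⊓ centralizer (T : Set G) := h.commutator_le le_rfl
  refine ⟨?_, by rw [h.card_V, hF', ← pow_mul, mul_comm], by rw [h.card_C, hF'],
    fun s hs h1 => ⟨?_, le_antisymm hVT (h.le_commutator hs h1 hs),
      le_antisymm (h.commutator_le ((zpowers_le).2 hs))
        (h.le_commutator hs h1 (mem_zpowers s)), fun v hv hv' => le_antisymm ?_ ?_⟩⟩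
  · rw [commutator_eq_bot_iff_le_centralizer]
    exact hVT.trans inf_le_right
  · refine le_antisymm ?_ (inf_le_inf_left _ (centralizer_le (Set.singleton_subset_iff.2 hs)))
    intro g hg
    obtain ⟨x, rfl⟩ := (h.mem g).1 hg.1
    exact ⟨hg.1, (h.mem_cent x).2 ((h.comm_T hs h1 x).1 (hg.2 s rfl))⟩
  · rw [closure_le]
    rintro _ ⟨t, ht, rfl⟩
    exact hVT (commutator_mem_commutator hv ht)
  · intro g hg
    obtain ⟨a, rfl⟩ := (h.mem_C g).1 hg
    obtain ⟨x, rfl⟩ := (h.mem v).1 hv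
    have x0 : x 1 ≠ 0 := fun e => hv' ((h.mem_cent x).2 e)
    obtain ⟨t, ht, e⟩ := h.exists_T (-(a / x 1))
    refine subset_closure ⟨t, ht, ?_⟩
    rw [h.comm_eq ((h.memT t).1 ht).1 e]
    congr 2
    field_simp

end Cfsg.Agent.S2779
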