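import Cfsg.Statements.S2780
import Cfsg.Agent.Classical.NatMod

set_option autoImplicit false
open Cfsg

namespace Cfsg.Agent.S2780

/-- Let L act on the elementary abelian p-group V (inside a finite group, faithfully) as SL₂(F) on its natural module, F a field with p^n elements, S a Sylow p-subgroup of L. Then: for every g ∈ L not normalizing S, V is the internal direct product of C_V(S) and C_V(gSg⁻¹); every nonidentity element of L of order prime to p acts on V without nonidentity fixed points; and C_V(S) and V/C_V(S) are irreducible for N_L(S): the only N_L(S)-invariant subgroups of C_V(S) are 1 and C_V(S), and the only N_L(S)-invariant subgroups between C_V(S) and V are those two. -/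
theorem result {G : Type*} [Group G] [Finite G] {p : ℕ} [Fact p.Prime] {F : Type*} [Field F] [Fintype F] (n : ℕ) (hF : Fintype.card F = p ^ n) (V L : Subgroup G) (hnat : Cfsg.IsNaturalSL2Module F V L) (hf : L ⊓ Subgroup.centralizer (V : Set G) = ⊥) (S : Sylow p ↥L) (T : Subgroup G) (hT : T = ((S : Subgroup ↥L).map L.subtype)) : (∀ g ∈ L, g ∉ Subgroup.normalizer (T : Set G) → Cfsg.IsInternalDirectProduct (V ⊓ Subgroup.centralizer ((T : Subgroup G) : Set G)) (V ⊓ Subgroup.centralizer ((T.map (MulAut.conj g).toMonoidHom : Subgroup G) : Set G)) V) ∧ (∀ x ∈ L, x ≠ 1 → (orderOf x).Coprime p → (V ⊓ Subgroup.centralizer ({x} : Set G)) = ⊥) ∧ (∀ U : Subgroup G, U ≤ (V ⊓ Subgroup.centralizer ((T : Subgroup G) : Set G)) → L ⊓ Subgroup.normalizer (T : Set G) ≤ Subgroup.normalizer (U : Set G) → U = ⊥ ∨ U = (V ⊓ Subgroup.centralizer ((T : Subgroup G) : Set G))) ∧ (∀ U : Subgroup G, (V ⊓ Subgroup.centralizer ((T : Subgroup G) : Set G)) ≤ U → U ≤ V → L ⊓ Subgroup.normalizer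 (T : Set G) ≤ Subgroup.normalizer (U : Set G) → U = (V ⊓ Subgroup.centralizer ((T : Subgroup G) : Set G)) ∨ U = V) := by
  open CF.Classical Subgroup Matrix in
  have hF' : Nat.card F = p ^ n := by rwa [Nat.card_eq_fintype_card]
  obtain ⟨ρ, φ, h⟩ := exists_natForm hF' hnat hf S
  rw [← hT] at h
  have hd : ∀ a : Fˣ, ∃ l ∈ L ⊓ normalizer (T : Set G), ∀ x y, l * φ ![x, y] * l⁻¹ =
      φ ![a * x, (a⁻¹ : Fˣ) * y] := fun a => by
    obtain ⟨l, hl, e⟩ := h.ρsurj (sbor a 0)
    refine ⟨l, ⟨hl, h.mem_normalizer hl e⟩, fun x y => ?_⟩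
    rw [h.conj l hl, e, sbor_mulVec]; simp
  refine ⟨fun g hg hg' => ?_, fun x hx h1 hc => ?_, fun U hU hN => ?_, fun U hU hU' hN => ?_⟩
  · obtain ⟨a, b, c, d, e, he⟩ := exists_sl2 (ρ g)
    have c0 : c ≠ 0 := fun c0 => by
      obtain ⟨a', ha⟩ := eq_sbor (s := ρ g) (by rw [he]; exact c0)
      exact hg' (h.mem_normalizer hg ha)
    have key : ∀ x, φ x ∈ centralizer ((T.map (MulAut.conj g).toMonoidHom : Subgroup G) : Set G) ↔
        -c * x 0 + a * x 1 = 0 := fun x => by
      have h2 := h.conj _ (L.inv_mem hg) x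
      have h3 := h.mem_cent (((ρ g⁻¹ : Matrix.SpecialLinearGroup (Fin 2) F) :
        Matrix (Fin 2) (Fin 2) F) *ᵥ x)
      rw [← h2, h.ρinv hg, he, sl2_inv] at h3
      refine Iff.trans ?_ (h3.trans (by simp [mulVec, dotProduct, Fin.sum_univ_two]))
      constructor
      · intro hx t ht
        have := hx (g * t * g⁻¹) ⟨t, ht, rfl⟩
        calc t * (g⁻¹ * φ x * g⁻¹⁻¹) = g⁻¹ * (g * t * g⁻¹ * φ x) * g := by group
          _ = _ := by rw [this]; group
      · rintro hx _ ⟨t, ht, rfl⟩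
        have := hx t ht
        change g * t * g⁻¹ * φ x = φ x * (g * t * g⁻¹)
        calc g * t * g⁻¹ * φ x = g * (t * (g⁻¹ * φ x * g⁻¹⁻¹)) * g⁻¹ := by group
          _ = _ := by rw [this]; group
    refine ⟨inf_le_left, inf_le_left, fun u hu v hv => ?_, ?_, le_antisymm
      (sup_le inf_le_left inf_le_left) fun v hv => ?_⟩
    · obtain ⟨x, rfl⟩ := (h.mem u).1 hu.1
      obtain ⟨y, rfl⟩ := (h.mem v).1 hv.1
      rw [← h.add, ← h.add, add_comm]
    · rw [eq_bot_iff]
      rintro v ⟨h1, h2⟩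
      obtain ⟨y, rfl⟩ := (h.mem_C v).1 h1
      have := (key _).1 h2.2
      obtain rfl : y = 0 := by simpa [c0] using this
      rw [mem_bot, ← h.zero]
      congr 1; ext i; fin_cases i <;> rfl
    · obtain ⟨x, rfl⟩ := (h.mem v).1 hv
      have : x = ![x 0 - a * x 1 / c, 0] + ![a * x 1 / c, x 1] := by
        ext i; fin_cases i <;> simp
      rw [this, h.add]
      refine mul_mem_sup ((h.mem_C _).2 ⟨_, rfl⟩) ⟨h.mem_V _, (key _).2 ?_⟩
      simp; field_simp; ring
  · rw [eq_bot_iff]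
    rintro v ⟨hv, hv'⟩
    obtain ⟨y, rfl⟩ := (h.mem v).1 hv
    by_contra y0
    have y1 : y ≠ 0 := by rintro rfl; exact y0 h.zero
    have e := (h.comm_iff hx y).1 (hv' x rfl)
    have := charP_of_card_eq_pow hF'
    have hp := sl2_pow_char_of_fix p (ρ x) y1 e
    have h4 : ∀ k : ℕ, ρ (x ^ k) = ρ x ^ k := fun k => by
      induction k with
      | zero => simpa using h.ρone
      | succ k ih => rw [pow_succ, h.ρmul _ (L.pow_mem hx k) _ hx, ih, pow_succ]
    have h5 := orderOf_dvd_of_pow_eq_one (h.ρinj _ (L.pow_mem hx p) ((h4 p).trans hp))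
    exact h1 (orderOf_eq_one_iff.1 (Nat.Coprime.eq_one_of_dvd hc h5))
  · by_cases h0 : U = ⊥
    · exact Or.inl h0
    refine Or.inr (le_antisymm hU fun v hv => ?_)
    obtain ⟨u, hu, u1⟩ := (U.bot_or_exists_ne_one).resolve_left h0
    obtain ⟨y, rfl⟩ := (h.mem_C u).1 (hU hu)
    obtain ⟨x, rfl⟩ := (h.mem_C v).1 hv
    have z : φ ![0, 0] = 1 := by rw [← h.zero]; congr 1; ext i; fin_cases i <;> rfl
    have y0 : y ≠ 0 := by rintro rfl; exact u1 z
    by_cases x0 : x = 0
    · rw [x0, z]; exact U.one_mem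
    obtain ⟨l, hl, e⟩ := hd (Units.mk0 (x / y) (div_ne_zero x0 y0))
    have := (mem_normalizer_iff.1 (hN hl) _).1 hu
    rw [e] at this
    simpa [y0] using this
  · by_cases h0 : U ≤ V ⊓ centralizer (T : Set G)
    · exact Or.inl (le_antisymm h0 hU)
    refine Or.inr (le_antisymm hU' fun v hv => ?_)
    obtain ⟨u, hu, u1⟩ := SetLike.not_le_iff_exists.1 h0
    obtain ⟨y, rfl⟩ := (h.mem u).1 (hU' hu)
    obtain ⟨x, rfl⟩ := (h.mem v).1 hv
    have y0 : y 1 ≠ 0 := fun e => u1 ⟨h.mem_V _, (h.mem_cent _).2 e⟩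
    by_cases x0 : x 1 = 0
    · exact hU ⟨h.mem_V _, (h.mem_cent _).2 x0⟩
    obtain ⟨l, hl, e⟩ := hd (Units.mk0 (y 1 / x 1) (div_ne_zero y0 x0))
    have h2 := (mem_normalizer_iff.1 (hN hl) (φ ![y 0, y 1])).1 (by
      convert hu; ext i; fin_cases i <;> rfl)
    rw [e] at h2
    have : x = ![x 0 - y 1 / x 1 * y 0, 0] + ![y 1 / x 1 * y 0, x 1] := by
      ext i; fin_cases i <;> simp
    rw [this, h.add]
    refine U.mul_mem (hU ((h.mem_C _).2 ⟨_, rfl⟩)) ?_
    simpa [y0] using h2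

end Cfsg.Agent.S2780
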