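import Cfsg.Statements.S2781
import Cfsg.Agent.Loc.PRed
-- import your own Cfsg.Agent.* helpers here

set_option autoImplicit false
open Cfsg

namespace Cfsg.Agent.S2781

open Cfsg CF.Loc Subgroup
open scoped commutatorElement


/-- Let H act faithfully by conjugation on the elementary abelian p-subgroup V of a finite group, let O^p(H) be the subgroup of H generated by its elements of order prime to p, and T a Sylow p-subgroup of O^p(H). If V is generated by the H-conjugates of C_V(T) (V is the smallest H-invariant subgroup containing C_V(T)), then V = [V, O^p(H)]·C_V(O^p(H)). -/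
theorem result {G : Type*} [Group G] [Finite G] {p : ℕ} [Fact p.Prime] (V H : Subgroup G) (hV : Cfsg.IsElementaryAbelian p V) (hHV : H ≤ Subgroup.normalizer (V : Set G)) (hf : H ⊓ Subgroup.centralizer (V : Set G) = ⊥) (R : Subgroup G) (hR : R = (Cfsg.pResidual p ↥H).map H.subtype) (S : Sylow p ↥R) (T : Subgroup G) (hT : T = ((S : Subgroup ↥R).map R.subtype)) (hgen : ∀ W : Subgroup G, H ≤ Subgroup.normalizer (W : Set G) → (V ⊓ Subgroup.centralizer ((T : Subgroup G) : Set G)) ≤ W → V ≤ W) : ⁅V, R⁆ ⊔ (V ⊓ Subgroup.centralizer ((R : Subgroup G) : Set G)) = V := by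
  rw [pResidualOf_def] at hR
  have hS : IsSyl p T R := hT ▸ isSyl_map S
  have hRH : R ≤ H := hR ▸ pResidualOf_le p H
  have hn : H ≤ 𝐍(R) := hR ▸ le_normalizer_pResidualOf p H
  have h1 := hS.centralizer_eq_sup (isElemAb_isPGroup hV) (isElemAb_le_centralizer hV)
    (hRH.trans hHV)
  refine le_antisymm (sup_le (commutator_le_left_of_le_normalizer (hRH.trans hHV)) inf_le_left) ?_
  refine hgen _ (le_normalizer_sup (le_normalizer_commutator hHV hn)
    (le_normalizer_inf hHV (le_normalizer_centralizer hn))) (h1.ge.trans (sup_le_sup_right ?_ _))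
  exact inf_le_right.trans (commutator_mono inf_le_left (pResidualOf_le p R))

end Cfsg.Agent.S2781
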