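import Cfsg.Statements.S2787
import Cfsg.Agent.BN.ReeInv
import Cfsg.Agent.BN.ReeLink
import Cfsg.Agent.PLocal.Stable
import Cfsg.Agent.Classical.SL2
import Cfsg.Agent.BN.ModBound

set_option autoImplicit false
open Cfsg

namespace Cfsg.Agent.S2787

open Subgroup CF.PLocal CF.Transfer Matrix
open scoped MatrixGroups

/-- Sylow `2`-subgroups are abelian or dihedral. -/
def Dih (Γ : Type*) [Group Γ] : Prop :=
  ∀ S : Subgroup Γ, IsPGroup 2 S → ∀ x ∈ S, ∀ y ∈ S, x * y = y * x ∨ x * x = 1 ∨ y * y = 1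

theorem Dih.of_equiv {Γ Γ' : Type*} [Group Γ] [Group Γ'] (e : Γ ≃* Γ') (h : Dih Γ') : Dih Γ := by
  intro S hS x hx y hy
  simpa only [← map_mul, map_eq_one_iff _ e.injective, e.injective.eq_iff,
    MulEquiv.coe_toMonoidHom] using
    h _ (hS.map e.toMonoidHom) _ (mem_map_of_mem _ hx) _ (mem_map_of_mem _ hy)

theorem dih_psl {F : Type*} [Field F] [Finite F] (p : ℕ) [Fact p.Prime] [CharP F p] (h2 : p ≠ 2) :
    Dih PSL(2, F) := by
  intro S hS x hx y hy
  by_cases h : S = ⊥
  · rw [h, mem_bot] at hx; simp [hx]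
  obtain ⟨a, b, hab, -, h, -⟩ :=
    (CF.Classical.isL2_PSL F (AlgebraicClosure F)).exists_le_pairStab p h2.symm hS h
  have key : ∀ z ∈ S, z ∈ CF.Classical.torus _ a b ∨ z * z = 1 := fun z hz =>
    (CF.Classical.mem_pairStab.1 (h hz)).imp CF.Classical.mem_torus.2 fun h' => by
      obtain ⟨c, hc⟩ := CF.Classical.IsKlein.exists_fixed (X := OnePoint (AlgebraicClosure F)) z
      exact CF.Classical.IsKlein.eq_one_of_three _ a b c hab
        (by rintro rfl; exact hab (hc.symm.trans h'.1)) (by rintro rfl; exact hab (h'.2.symm.trans hc))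
        (by rw [mul_smul, h'.1, h'.2]) (by rw [mul_smul, h'.2, h'.1]) (by rw [mul_smul, hc, hc])
  rcases key x hx with h1 | h1
  · rcases key y hy with h2 | h2
    exacts [Or.inl (CF.Classical.torus_mul_comm hab h1 h2), Or.inr (Or.inr h2)]
  · exact Or.inr (Or.inl h1)

theorem not_pair {G : Type*} [Group G] [Finite G] {p : ℕ} [Fact p.Prime] (h2 : p ≠ 2)
    {V H : Subgroup G} [((centralizer (V : Set G)).subgroupOf H).Normal]
    (h : Dih (H ⧸ (centralizer (V : Set G)).subgroupOf H)) {a b : G} (ha : a ∈ H) (hb : b ∈ H) :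
    ¬ SL2PairOn p V a b := by
  rintro ⟨N, μ, hμ, φ, h1, h2', h3⟩
  have key : ∀ c : closure ({a, b} : Set G), (c : G) ∈ centralizer (V : Set G) → φ c = 1 := by
    intro c hc
    refine Subtype.ext (Matrix.ext_iff_mulVec.2 fun u => ?_)
    by_contra hu
    obtain ⟨π, e1, e2, e3, e4⟩ := h3 _ (sub_ne_zero.2 hu)
    have e5 := e4 c u
    rw [← hc _ (e1 u), mul_inv_cancel_right] at e5
    have := e3 ((φ c).1 *ᵥ u - (1 : SL(2, GaloisField p N)).1 *ᵥ u) u
    rw [Matrix.SpecialLinearGroup.coe_one, one_mulVec, sub_add_cancel, e5] at this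
    exact e2 (by simpa using this)
  let T₀ : Sylow 2 (closure ({a, b} : Set G)) := default
  let π := (QuotientGroup.mk' ((centralizer (V : Set G)).subgroupOf H)).comp
    (inclusion (closure_pair_le.2 ⟨ha, hb⟩))
  have hπ : ∀ c, π c = 1 → φ c = 1 := fun c hc => key c
    ((QuotientGroup.eq_one_iff (inclusion (closure_pair_le.2 ⟨ha, hb⟩) c)).1 hc)
  have hsq : ∀ x y, π x * π x = 1 → φ x * φ y = φ y * φ x := fun x y hx => by
    rcases SL2_eq_of_mul_self (two_ne_zero_of_charP _ h2) (M := φ x)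
      (by rw [← map_mul, hπ _ (by rwa [map_mul])]) with h | h <;> simp [h]
  have : Finite φ.range := Finite.of_surjective _ φ.rangeRestrict_surjective
  refine not_comm_of_upT_loT h2 φ.range.subtype φ.range.subtype_injective
    (closure_pair_rangeRestrict φ (closure_pair_top a b)) hμ h1 h2'
    (T₀.mapSurjective φ.rangeRestrict_surjective) ?_
  rw [Sylow.coe_mapSurjective]
  refine ⟨⟨?_⟩⟩
  rintro ⟨_, x, hx, rfl⟩ ⟨_, y, hy, rfl⟩
  refine Subtype.ext (Subtype.ext ?_)
  change φ x * φ y = φ y * φ x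
  rcases h _ (T₀.isPGroup'.map π) _ (mem_map_of_mem _ hx) _ (mem_map_of_mem _ hy) with h | h | h
  · rw [← mul_inv_eq_one, ← map_mul, ← map_mul, ← map_inv, ← map_mul]
    exact hπ _ (by simp only [map_mul, map_inv, h, mul_inv_cancel])
  · exact hsq x y h
  · exact (hsq y x h).symm

/-- Let p be a prime and let H act by conjugation on the elementary abelian p-subgroup V of a finite group, irreducibly (no H-invariant subgroups of V other than 1 and V) and nontrivially, and suppose H/C_H(V) is isomorphic to PSL₂(F) for a field F with p^n elements, p^n odd, or p = 3 and H/C_H(V) is isomorphic to a Ree group ²G₂(3^(2m+1)), m ≥ 1. Then no subgroup A of H acting nontrivially on V acts quadratically: [V, A, A] = 1 forces [V, A] = 1. -/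
theorem result {G : Type*} [Group G] [Finite G] {p : ℕ} [Fact p.Prime] (V H : Subgroup G) (hV : Cfsg.IsElementaryAbelian p V) (hHV : H ≤ Subgroup.normalizer (V : Set G)) (hirr : ∀ U : Subgroup G, U ≤ V → H ≤ Subgroup.normalizer (U : Set G) → U = ⊥ ∨ U = V) (hnt : ¬ H ≤ Subgroup.centralizer (V : Set G)) [hn : ((Subgroup.centralizer (V : Set G)).subgroupOf H).Normal] (hq : (∃ (F : Type) (_ : Field F) (_ : Fintype F) (n : ℕ), Fintype.card F = p ^ n ∧ Odd (Fintype.card F) ∧ Nonempty (↥H ⧸ (Subgroup.centralizer (V : Set G)).subgroupOf H ≃* Matrix.ProjectiveSpecialLinearGroup (Fin 2) F)) ∨ (p = 3 ∧ Cfsg.Lie.IsoRee (↥H ⧸ (Subgroup.centralizer (V : Set G)).subgroupOf H))) (A : Subgroup G) (hA : A ≤ H) (hquad : ⁅⁅V, A⁆, A⁆ = ⊥) : ⁅V, A⁆ = ⊥ := by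
  have key : p ≠ 2 ∧ Dih (H ⧸ (centralizer (V : Set G)).subgroupOf H) := by
    rcases hq with ⟨F, _, _, n, h1, h2, ⟨e⟩⟩ | ⟨rfl, K, _, _, m, hm, hK, ⟨e⟩⟩
    · have hn : n ≠ 0 := by
        rintro rfl
        exact Fintype.one_lt_card.ne' h1
      have hp2 : p ≠ 2 := by
        rintro rfl
        rw [h1] at h2
        exact Nat.not_odd_iff_even.2 (even_two.pow_of_ne_zero hn) h2
      have := charP_of_card_eq_prime_pow h1
      exact ⟨hp2, .of_equiv e (dih_psl p hp2)⟩
    · obtain ⟨T, ⟨D⟩⟩ := CF.BN.Ree.nonempty_ree hK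
      exact ⟨by decide, .of_equiv e fun S hS x hx y hy =>
        Or.inr (Or.inl (D.mul_self_of_isPGroup hS hx))⟩
  let C := (centralizer (V : Set G)).subgroupOf H
  let O := ((pCore p (H ⧸ C)).comap (QuotientGroup.mk' C)).map H.subtype
  have hO : A ≤ O := fun a ha => by
    have hq : ⁅⁅V, zpowers a⁆, zpowers a⁆ = ⊥ := eq_bot_iff.2 (hquad ▸ commutator_mono
      (commutator_mono le_rfl (zpowers_le.2 ha)) (zpowers_le.2 ha))
    refine ⟨⟨a, hA ha⟩, mk_mem_pCore_of_pairs fun g => ?_, rfl⟩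
    have hb := mul_mem (mul_mem g.2 (hA ha)) (inv_mem g.2)
    have := (quad_pair_EA hV (hHV (hA ha)) (hHV hb) hq (quadratic_conj' (hHV g.2) hq)).resolve_right
      (not_pair key.1 key.2 (hA ha) hb)
    refine map_le_iff_le_comap.1 ?_
    rw [map_pRes, map_closure_pair]
    exact this
  let ψ : H ⧸ C →* MulAut V := QuotientGroup.lift C (V.normalizerMonoidHom.comp (inclusion hHV))
    fun x hx => MulEquiv.ext fun v => Subtype.ext (by
      exact mul_inv_eq_iff_eq_mul.2 (hx _ v.2).symm)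
  have hV1 : V ≠ ⊥ := by
    rintro rfl
    exact hnt fun x _ y hy => by rw [mem_bot.1 hy, one_mul, mul_one]
  obtain ⟨v, hv, hv1⟩ := ((CF.Solv.pCore_isPGroup (p := p) (G := H ⧸ C)).map
    ψ).exists_fixed_point_of_prime_dvd_card_of_fixed_point V
    ((CF.BN.isPGroup_of_elem hV).card_eq_or_dvd.resolve_left (mt card_eq_one.1 hV1))
    (a := 1) (fun g => map_one g.1)
  have hn : H ≤ normalizer (V ⊓ centralizer (O : Set G) : Subgroup G) := by
    refine (le_inf hHV ?_).trans inf_normalizer_le_normalizer_inf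
    refine le_trans ?_ (CF.Solv.normalizer_le_normalizer_centralizer _)
    refine le_trans ?_ (le_normalizer_map _)
    rw [normalizer_eq_top, ← MonoidHom.range_eq_map, range_subtype]
  rcases hirr _ inf_le_left hn with h | h
  · refine absurd (Subtype.ext (mem_bot.1 (h.le ⟨v.2, ?_⟩))).symm hv1
    rintro _ ⟨x, hx, rfl⟩
    exact mul_inv_eq_iff_eq_mul.1 (congrArg Subtype.val (hv ⟨_, x, hx, rfl⟩))
  · rw [commutator_eq_bot_iff_le_centralizer]
    exact (h.ge.trans inf_le_right).trans (centralizer_le hO)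

end Cfsg.Agent.S2787
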