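import Cfsg.Statements.S2788
import Cfsg.Agent.BN.ModL2

set_option autoImplicit false
open Cfsg

namespace Cfsg.Agent.S2788

/-- Let H act faithfully by conjugation on the elementary abelian p-subgroup V of a finite group with H ≅ SL₂(F), F a field with p^n elements, S a Sylow p-subgroup of H, and A ≤ S a subgroup of order at least 3 acting quadratically on V ([V, A, A] = 1). Then |V/C_V(a)| ≥ p^n for every nonidentity a ∈ A. -/
theorem result {G : Type*} [Group G] [Finite G] {p : ℕ} [Fact p.Prime] (V H : Subgroup G) (hV : Cfsg.IsElementaryAbelian p V) (hHV : H ≤ Subgroup.normalizer (V : Set G)) (hf : H ⊓ Subgroup.centralizer (V : Set G) = ⊥) {F : Type*} [Field F] [Fintype F] (n : ℕ) (hF : Fintype.card F = p ^ n) (hiso : Nonempty (↥H ≃* Matrix.SpecialLinearGroup (Fin 2) F)) (S : Sylow p ↥H) (T : Subgroup G) (hT : T = ((S : Subgroup ↥H).map H.subtype)) (A : Subgroup G) (hA : A ≤ T) (hA3 : 3 ≤ Nat.card A) (hquad : ⁅⁅V, A⁆, A⁆ = ⊥) : ∀ a ∈ A, a ≠ 1 → p ^ n ≤ ((V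 ⊓ Subgroup.centralizer ({a} : Set G))).relIndex V := by
  obtain ⟨e⟩ := hiso
  subst hT
  intro a ha ha1
  obtain ⟨s, hs, rfl⟩ := hA ha
  have hp : p.Prime := Fact.out
  have : CharP F p := charP_of_card_eq_prime_pow hF
  rcases Nat.lt_or_ge n 2 with h | h
  · refine le_trans ?_ (CF.BN.le_relIndex_of_ne_one (CF.BN.isPGroup_of_elem hV) hf s.2 ha1)
    exact (Nat.pow_le_pow_right hp.pos (Nat.lt_succ_iff.1 h)).trans_eq (pow_one p)
  obtain ⟨k, hk⟩ := S.isPGroup' ⟨s, hs⟩
  have hk' : s ^ p ^ k = 1 := congrArg Subtype.val hk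
  refine (CF.BN.l2_bound hV hHV hf (Nat.card_eq_fintype_card.trans hF) h
    ((CF.Classical.slToPSL F).comp e.toMonoidHom)
    (CF.Classical.slToPSL_surjective.comp e.surjective) (fun h => ha1 ?_) (k := k)
    (by rw [← map_pow, hk', map_one])).1
  have := (CF.Classical.isCentralCoprime_slToPSL p).eq_of_apply_eq (g := e s) (h := 1) (m := k)
    (n := 0) (by rw [← map_pow, hk', map_one]) (one_pow _) h
  rw [(map_eq_one_iff e e.injective).1 this, map_one]

end Cfsg.Agent.S2788
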