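import Cfsg.Statements.S2793
import Cfsg.Agent.PLocal.ZFd

set_option autoImplicit false
open Cfsg

namespace Cfsg.Agent.S2793

open Subgroup CF.Transfer CF.PLocal CF.ZF

/-- Let p be an odd prime, S a Sylow p-subgroup of the finite group G, J(S) the subgroup generated by the abelian subgroups of S of largest order, and suppose Z(J(S)) does not control strong fusion in G. Put H = N_G(Z(J(S))). Then the group F(p) of upper triangular 3 × 3 matrices (a b c; 0 a⁻¹ d; 0 0 1) over the field with p elements is involved in H, and Z(J(S)) contains a subgroup C of order p with |N_H(C) : C_H(C)| = p − 1. -/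
theorem result {G : Type*} [Group G] [Finite G] {p : ℕ} [Fact p.Prime] (hp : p ≠ 2) (S : Sylow p G) (h : ¬ Cfsg.ControlsStrongFusion p (Cfsg.centerThompsonAOf (S : Subgroup G))) (H : Subgroup G) (hH : H = Subgroup.normalizer ((Cfsg.centerThompsonAOf (S : Subgroup G)) : Set G)) : Cfsg.Involves ↥(Cfsg.fOver (ZMod p)) ↥H ∧ ∃ C : Subgroup G, C ≤ (Cfsg.centerThompsonAOf (S : Subgroup G)) ∧ Nat.card C = p ∧ (H ⊓ Subgroup.centralizer (C : Set G)).relIndex (H ⊓ Subgroup.normalizer (C : Set G)) = p - 1 := by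
  subst hH
  have hp' : p.Prime := Fact.out
  rw [centerThompsonAOf_eq] at h ⊢
  have hS := isSylowIn_top S
  refine ⟨involves_normalizer hp _ G rfl _ hS (involves_trans
    (involves_of_injective _ (inclusion_injective fOver_le)) (by_contra fun e =>
      h (zj_controlsStrongFusion hp (Or.inl rfl) e S))), ?_⟩
  obtain ⟨u, hu⟩ := IsCyclic.exists_ofOrder_eq_natCard (α := (ZMod p)ˣ)
  rw [Nat.card_eq_fintype_card, ZMod.card_units] at hu
  have hl : ¬ p ∣ (u : ZMod p).val := fun e =>
    u.ne_zero (by rw [← ZMod.natCast_zmod_val (u : ZMod p), ZMod.natCast_eq_zero_iff]; exact e)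
  obtain ⟨c, c1, c2, g, c3⟩ : Eig (u : ZMod p).val (centerThompsonOf 0 (S : Subgroup G)) := by
    by_contra e
    have hsc := sc_of_not_eig hp hl _ G rfl _ _ hS le_rfl (normalizer_thompson_le 0 _) e
    exact h ((controlsStrongFusion_iff S hsc.1 (sc_le_normalizer hsc)).2 fun B hB g hg =>
      ctrlIn_of_sc_abelian hS (centerThompson_isMulCommutative 0 _) hsc B hB g (mem_top g) hg)
  obtain ⟨k, hk⟩ := orderOf_eq_pow_of_mem hS.isPGroup (centerThompson_le 0 _ c1)
  have hk0 : k ≠ 0 := fun e => c2 (orderOf_eq_one_iff.1 (by rw [hk, e, pow_zero]))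
  have d1 := orderOf_pow_orderOf_div (orderOf_pos c).ne' (hk ▸ dvd_pow_self p hk0 : p ∣ orderOf c)
  have d2 := pow_mem c1 (orderOf c / p)
  have d3 : g * c ^ (orderOf c / p) * g⁻¹ = (c ^ (orderOf c / p)) ^ (u : ZMod p).val := by
    rw [← conj_pow, c3, ← pow_mul, mul_comm, pow_mul]
  generalize c ^ (orderOf c / p) = d at d1 d2 d3
  obtain ⟨m, hm, e⟩ := burn hS (centerThompson_le_centralizer 0 _ (pow_mem d2 _))
    (centerThompson_le_centralizer 0 _ d2) d3
  have hc : Nat.card (zpowers d) = p := by rw [Nat.card_zpowers, d1]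
  refine ⟨zpowers d, zpowers_le.2 d2, hc, ?_⟩
  set H := normalizer (centerThompsonOf 0 (S : Subgroup G) : Set G)
  let φ : ↥(H ⊓ normalizer (zpowers d : Set G)) →* MulAut (zpowers d) :=
    (normalizerMonoidHom (zpowers d)).comp (inclusion inf_le_right)
  have hker : φ.ker = (H ⊓ centralizer (zpowers d : Set G)).subgroupOf
      (H ⊓ normalizer (zpowers d : Set G)) := by
    rw [← MonoidHom.comap_ker, normalizerMonoidHom_ker]
    ext x
    exact ⟨fun h => ⟨x.2.1, h⟩, fun h => h.2⟩
  rw [relIndex, ← hker, index_ker]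
  refine Nat.dvd_antisymm ?_ ?_
  · have := card_subgroup_dvd_card φ.range
    rwa [IsCyclic.card_mulAut, hc, Nat.totient_prime hp'] at this
  have m1 : m ∈ normalizer (zpowers d : Set G) := CF.PLocal.mem_normalizer_of_conj_mem (by
    rintro _ ⟨j, rfl⟩
    rw [← conj_zpow, e]; exact zpow_mem (pow_mem (mem_zpowers d) _) j)
  refine dvd_trans ?_ (orderOf_dvd_natCard (φ.rangeRestrict ⟨m, normalizer_thompson_le 0 _ hm, m1⟩))
  rw [← hu, orderOf_dvd_iff_pow_eq_one]
  have a1 := pow_orderOf_eq_one (φ.rangeRestrict ⟨m, normalizer_thompson_le 0 _ hm, m1⟩)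
  generalize orderOf (φ.rangeRestrict ⟨m, normalizer_thompson_le 0 _ hm, m1⟩) = j at a1
  rw [← map_pow, ← MonoidHom.mem_ker, MonoidHom.ker_rangeRestrict, hker] at a1
  have a2 : d * m ^ j = m ^ j * d := a1.2 d (mem_zpowers d)
  have a3 : ∀ i : ℕ, m ^ i * d * (m ^ i)⁻¹ = d ^ (u : ZMod p).val ^ i := fun i => by
    induction i with
    | zero => simp
    | succ i ih =>
      rw [pow_succ, pow_succ, pow_mul, ← ih, conj_pow, ← e]; group
  have a4 := a3 j
  rw [← a2, mul_inv_cancel_right, eq_comm, ← pow_one d, ← pow_mul, one_mul, pow_eq_pow_iff_modEq,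
    d1, ← ZMod.natCast_eq_natCast_iff] at a4
  ext
  simpa using a4

end Cfsg.Agent.S2793
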