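import Cfsg.Statements.S2799
import Cfsg.Agent.Fus.Sparse

set_option autoImplicit false
open Cfsg

namespace Cfsg.Agent.S2799
open CF.Fus Cfsg.FusionSystem

/-- Let S be a Sylow p-subgroup of the finite group G, J(S) the subgroup generated by the abelian subgroups of S of largest order, and x an element of S lying in the centre of N_G(J(S)). Assume that p is odd, or that x is a p-th power of an element of Z(S), or that the symmetric group of degree 4 is not involved in G. Then x is weakly closed in S with respect to G: every G-conjugate of x that lies in S equals x. -/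
theorem result {G : Type*} [Group G] [Finite G] {p : ℕ} [Fact p.Prime] (S : Sylow p G) (x : G) (hxS : x ∈ (S : Subgroup G)) (hxZ : x ∈ (Subgroup.center ↥(Subgroup.normalizer ((Cfsg.thompsonSubgroupAOf (S : Subgroup G)) : Set G))).map (Subgroup.normalizer ((Cfsg.thompsonSubgroupAOf (S : Subgroup G)) : Set G)).subtype) (h : p ≠ 2 ∨ (∃ z ∈ (S : Subgroup G) ⊓ Subgroup.centralizer ((S : Subgroup G) : Set G), z ^ p = x) ∨ ¬ Cfsg.Involves (Equiv.Perm (Fin 4)) G) : ∀ g : G, g * x * g⁻¹ ∈ (S : Subgroup G) → g * x * g⁻¹ = x := by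
    obtain ⟨y, hy, rfl⟩ := hxZ
    refine weakly_closed_of_thompson (sylIn_top S) hxS (fun g hg => ?_) (h.imp_right (Or.imp_left fun ⟨z, hz, e⟩ =>
      e ▸ Subgroup.subset_closure ⟨z, hz, by rw [pow_one]⟩))
    rw [← CF.PLocal.thompsonSubgroupAOf_eq] at hg
    exact mul_inv_eq_iff_eq_mul.2 (congrArg Subtype.val (Subgroup.mem_center_iff.1 hy ⟨g, hg⟩))

end Cfsg.Agent.S2799
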