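import Cfsg.Statements.S2856
import Cfsg.Agent.Loc.Amalgam2
-- import your own Cfsg.Agent.* helpers here

set_option autoImplicit false
open Cfsg

namespace Cfsg.Agent.S2856

open Cfsg CF.Loc Subgroup
open scoped commutatorElement


/-- Let (M₁, M₂) be an amalgam pair in X satisfying the rank-two standing hypothesis (characteristic p, the normalizers in M₁ and in M₂ of a Sylow p-subgroup of M₁ ∩ M₂ equal and contained in M₁ ∩ M₂, and strongly p-embedded residues), λ a vertex of the coset graph, L_λ the subgroup of its stabilizer generated by the p-elements, Q_λ = O_p of the stabilizer, O^p(L_λ) the subgroup of L_λ generated by its elements of order prime to p, and V_λ^{(k)} the subgroup generated by the Z_μ over the vertices μ at distance at most k from λ (Z_μ being generated by the Ω₁(Z(S)), S a Sylow p-subgroup of the stabilizer of μ). If n ≥ 1 and V_λ^{(n)} ≤ Q_λ, then O^p(L_λ) does not centralize V_λ^{(n)}/[V_λ^{(n)}, Q_λ], that is, [V_λ^{(n)}, O^p(L_λ)] is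 not contained in [V_λ^{(n)}, Q_λ]. -/
theorem result {X : Type*} [Group X] {p : ℕ} [Fact p.Prime] (M₁ M₂ : Subgroup X) (h : Cfsg.IsSpeAmalgamPair p M₁ M₂) (lam : Cfsg.CosetVertex M₁ M₂) (n : ℕ) (hn : 1 ≤ n) (V : Subgroup X) (hV : V = Cfsg.vertexVIter p M₁ M₂ n lam) (hVQ : V ≤ Cfsg.vertexQ p lam) : ¬ ⁅V, ((Cfsg.pResidual p ↥(Cfsg.pElementClosure p (MulAction.stabilizer X lam))).map (Cfsg.pElementClosure p (MulAction.stabilizer X lam)).subtype)⁆ ≤ ⁅V, Cfsg.vertexQ p lam⁆ := by
  intro hc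
  rw [pResidualOf_def] at hc
  obtain ⟨m, rfl⟩ : ∃ m, n = m + 1 := ⟨n - 1, by omega⟩
  obtain ⟨μ, hμ⟩ := exists_adj lam
  have hgen := h.1.1.1
  haveI := amal_finite h.1 lam
  haveI : Finite (vertexQ p lam) := finite_of_le (pCoreOf_le p _)
  set W := vertexVIter p M₁ M₂ m μ with hW
  set L := pResidualOf p (pElementClosure p (MulAction.stabilizer X lam)) with hL
  have hWV : W ≤ V := hV ▸ vIter_le_of_adj hgen m hμ
  have hQμ := vertexQ_le_of_adj h.1 hμ
  have hLG : L ≤ MulAction.stabilizer X lam := (pResidualOf_le p _).trans (pElementClosure_le p _)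
  have hVn : MulAction.stabilizer X lam ≤ 𝐍(V) := hV ▸ stab_le_normalizer_vIter hgen _ _
  have h1 : L ≤ 𝐍(⁅V, vertexQ p lam⁆ ⊔ W) := by
    refine le_normalizer_of_commutator_le (H := V) (sup_le ?_ hWV) (hc.trans le_sup_left)
    exact commutator_le_left_of_le_normalizer ((pCoreOf_le p _).trans hVn)
  have h2 : V ≤ ⁅V, vertexQ p lam⁆ ⊔ W := by
    conv_lhs => rw [hV]
    refine vIter_succ_le h.1 m fun ν hν => ?_
    obtain ⟨g, hg, rfl⟩ := spe_nbTrans_residual h lam μ ν hμ hν
    rw [← cj_vIter hgen]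
    exact cj_le_of_mem_normalizer (h1 hg) le_sup_right
  have h3 : V ≤ W := le_of_le_commutator_sup (isPGroup_pCoreOf p _) hVQ le_rfl
    (hQμ.trans (stab_le_normalizer_vIter hgen _ _)) h2
  have h4 : V = W := le_antisymm h3 hWV
  apply vIter_ne_bot h.1 m μ
  rw [← hW, ← h4]
  exact eq_bot_of_nbTrans' h.1.1 hμ (hVQ.trans (pCoreOf_le p _)) (hVQ.trans hQμ) le_rfl le_rfl
    hVn (h4 ▸ stab_le_normalizer_vIter hgen _ _) (nbTrans_stab _) (nbTrans_stab _)

end Cfsg.Agent.S2856
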