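import Cfsg.Statements.S2943
import Cfsg.Agent.Loc.JC5
-- import your own Cfsg.Agent.* helpers here

set_option autoImplicit false
open Cfsg

namespace Cfsg.Agent.S2943

open Cfsg CF.Loc Subgroup
open scoped commutatorElement


/-- Let G be a finite group of characteristic 2 type in which every 2-local subgroup is solvable and the centralizer of Ω₁(Z(S)) lies in N_G(S) for every Sylow 2-subgroup S, and let T be a nontrivial 2-subgroup (below, J is the Thompson subgroup generated by the elementary abelian 2-subgroups of largest order), L a subgroup in which T is a Sylow 2-subgroup with J(T) not contained in O₂(L) and C_G(O₂(L)) ≤ O₂(L), and K a J(T)-component contained in L. If Z(T) meets W_K = [Ω₁(Z(O₂(K))), K] nontrivially, then T normalizes K. -/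
theorem result {G : Type*} [Group G] [Finite G] (hL : Cfsg.IsCharacteristicTwoType G) (hN : ∀ N : Subgroup G, Cfsg.IsTwoLocal N → Group.IsSolvable ↥N)
    (hZ : ∀ S : Sylow 2 G, Subgroup.centralizer (Cfsg.omegaCenterOf (S : Subgroup G) : Set G) ≤ Subgroup.normalizer ((S : Subgroup G) : Set G)) (T : Subgroup G) (hT : IsPGroup 2 ↥T) (hT1 : T ≠ ⊥) (L : Subgroup G) (hLT : L ∈ Cfsg.jOvergroups T)
    (K : Subgroup G) (hK : Cfsg.IsJComponent T K) (hKL : K ≤ L)
    (hZW : T ⊓ Subgroup.centralizer (T : Set G) ⊓ Cfsg.wOf K ≠ ⊥) : T ≤ Subgroup.normalizer (K : Set G) := by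
  obtain ⟨h1, -, h3⟩ := mem_jOvergroups.1 hLT
  intro g hg
  refine ((zn_of hL hN hZ).ll h3).mem_normalizer_of_inf_ne h1 (isJComponent_iff.1 hK) hKL
    (h1.le hg) fun hh => hZW ?_
  rw [eq_bot_iff, ← hh]
  refine le_inf inf_le_right fun x hx => ?_
  have := conj_mem_cj g hx.2
  rwa [← mem_centralizer_iff'.1 hx.1.2 g hg |>.symm, mul_inv_cancel_right] at this

end Cfsg.Agent.S2943
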