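import Cfsg.Statements.S3084
import Cfsg.Agent.Xs.C

set_option autoImplicit false
open Cfsg

namespace Cfsg.Agent.S3084


/-- Let K be a group acting faithfully and linearly on a finite-dimensional vector space U of dimension 2n ≥ 2 over the field with two elements, preserving a quadratic form q whose polar bilinear form is non-degenerate and which vanishes on some n-dimensional subspace (a non-singular form of plus type). Then there is a finite group R with a normal extraspecial 2-subgroup Q of order 2^(2n+1), an isomorphism of R/Q with K, and a surjective homomorphism χ from Q onto (the additive group of) U with kernel the centre of Q, such that χ carries conjugation by any r in R to the action of the image of r in K, and an element a of Q squares to the identity exactly when q vanishes at χ(a). -/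
theorem result {K : Type*} [Group K] {U : Type*} [AddCommGroup U] [Module (ZMod 2) U] [Module.Finite (ZMod 2) U] (n : ℕ) (hn1 : 1 ≤ n) (hn : Module.finrank (ZMod 2) U = 2 * n) (ρ : Representation (ZMod 2) K U) (hρ : Function.Injective ρ) (q : QuadraticForm (ZMod 2) U) (hq : ∀ (k : K) (u : U), q (ρ k u) = q u) (hnd : (QuadraticMap.polarBilin q).Nondegenerate) (hplus : ∃ W : Submodule (ZMod 2) U, Module.finrank (ZMod 2) ↥W = n ∧ ∀ w ∈ W, q w = 0) : ∃ (R : Type) (_ : Group R) (_ : Finite R) (Q : Subgroup R) (hN : Q.Normal) (e : R ⧸ Q ≃* K) (χ : ↥Q →* Multiplicative U), Cfsg.IsExtraspecial 2 ↥Q ∧ Nat.card ↥Q = 2 ^ (2 * n + 1) ∧ Function.Surjective χ ∧ χ.ker = Subgroup.center ↥Q ∧ (∀ (r : R) (a : ↥Q), χ ⟨r * a * r⁻¹, hN.conj_mem (a : R) a.2 r⟩ = Multiplicative.ofAdd (ρ (e (r : R ⧸ Q)) (Multiplicative.toAdd (χ a)))) ∧ ∀ a : ↥Q, a * a = 1 ↔ q (Multiplicative.toAdd (χ a)) = 0 := by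
  open CF.LX CF.Xs Subgroup Module in
  let g : (Fin (2 * n) → ZMod 2) ≃ₗ[ZMod 2] U := .ofFinrankEq _ _ (by simp [hn])
  obtain ⟨E, _, _, p0, z, h0⟩ := exists_qm_group (q.comp g.toLinearMap)
  have h : QM (g ∘ p0) q z := h0.comp g fun _ => rfl
  have : Nontrivial U := nontrivial_of_finrank_pos (R := ZMod 2) (by omega)
  have e := h.ex hnd
  have := Fintype.ofFinite E
  have x := CF.Solv.isExtraspecial_top_iff.1 e.isExtraspecial
  obtain ⟨A, _, _, _, ε, τ, t⟩ := exists_tw h.ne h.zz h.zc (fun x a b =>
    (e.exists_conj' (mem_top x) a b).imp fun _ k => k.2) x.1.1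
  obtain ⟨R, _, _, ι, κ, h1, h2, h3, h4⟩ := exists_ext t h e ρ hρ hq
  let f := MonoidHom.ofInjective h1
  have hf : ∀ a : ι.range, ι (f.symm a) = a := fun a => congrArg Subtype.val (f.apply_symm_apply a)
  have hN : ι.range.Normal := h3 ▸ κ.normal_ker
  refine ⟨R, inferInstance, inferInstance, ι.range, hN, (QuotientGroup.quotientMulEquivOfEq h3.symm).trans
    (QuotientGroup.quotientKerEquivOfSurjective κ h2), h.hom.comp f.symm.toMonoidHom,
    CF.Even.isExtraspecial_of_equiv x f, by rw [← Nat.card_congr f.toEquiv, h.card, hn],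
    fun u => ?_, ?_, fun r a => ?_, fun a => ?_⟩
  · obtain ⟨y, hy⟩ := h.surj u.toAdd
    exact ⟨f y, by simpa [QM.hom] using congrArg Multiplicative.ofAdd hy⟩
  · ext a
    obtain ⟨y, rfl⟩ := f.surjective a
    rw [← MonoidHom.comap_ker, mem_comap, h.ker_hom, ← e.center_eq, top_inf_eq, coe_top, centralizer_univ]
    simp only [mem_center_iff, f.surjective.forall, ← map_mul, f.injective.eq_iff]
    simp
  · obtain ⟨y, hy, k⟩ := h4 r (f.symm a)
    have : f.symm ⟨r * a * r⁻¹, hN.conj_mem (a : R) a.2 r⟩ = y := h1 (by rw [hf, ← hy, hf])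
    change Multiplicative.ofAdd ((g ∘ p0) (f.symm _)) = _
    rw [this, k]; rfl
  · obtain ⟨y, rfl⟩ := f.surjective a
    rw [← map_mul, f.map_eq_one_iff, h.sq]
    simp [QM.hom]

end Cfsg.Agent.S3084
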