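import Cfsg.Statements.S3085
import Cfsg.Agent.LX.QM

set_option autoImplicit false
open Cfsg

namespace Cfsg.Agent.S3085

open CF.Loc CF.LX CF.Even CF.Geom Subgroup Module QuadraticMap

section
variable {E V : Type*} [Group E] [AddCommGroup V] [Module (ZMod 2) V] {p : E → V}
  {q : QuadraticForm (ZMod 2) V} {z : E} (h : QM p q z) (e : EX (⊤ : Subgroup E) z)
include h

theorem cases_of {x y : E} (k : p x = p y) : ∃ c, c * c = 1 ∧ (∀ w, w * c = c * w) ∧
    (∀ φ : MulAut E, φ z = z → φ c = c) ∧ x = c * y := by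
  rcases h.eq_iff.1 k with rfl | rfl
  · exact ⟨1, by simp, by simp, by simp, by simp⟩
  · exact ⟨z, h.zz, h.zc, fun _ a => a, rfl⟩

theorem moves {s : MulAut E} {x y : E} (hx : q (p x) = 1) (hs : h.rho e s = oRefl q (p x))
    (ss : s * s = 1) (hy : polar q (p x) (p y) = 1) : s x ≠ x := fun k => by
  have a := h.rho_apply e s y
  rw [hs, oRefl_apply, hx, hy, inv_one, one_mul, one_smul, sub_eq_add_neg, ZModModule.neg_eq_self,
    ← h.mul] at a
  obtain ⟨c, cc, -, hc, b⟩ := cases_of h a.symm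
  have : s (s y) = y := by rw [← MulAut.mul_apply, ss]; rfl
  rw [b, map_mul, map_mul, hc s (h.map_z e s), b, k, ← mul_assoc, ← mul_assoc, cc, one_mul, mul_assoc,
    mul_eq_left, h.sq, hx] at this
  exact one_ne_zero this

theorem fixes {s t : MulAut E} {a : V} {x y : E} (hx : q (p x) = 1) (hs : h.rho e s = oRefl q a)
    (ht : h.rho e t = oRefl q (p x)) (st : s * t = t * s) (h1 : polar q a (p y) = 0)
    (h2 : polar q (p x) (p y) = 1) : s x = x := by
  have a := h.rho_apply e t y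
  rw [ht, oRefl_apply, hx, h2, inv_one, one_mul, one_smul, sub_eq_add_neg, ZModModule.neg_eq_self,
    ← h.mul] at a
  obtain ⟨c, -, c1, hc, b⟩ := cases_of h a.symm
  have a' := h.rho_apply e s y
  rw [hs, oRefl_of_polar_eq_zero h1] at a'
  obtain ⟨d, -, -, hd, b'⟩ := cases_of h a'.symm
  have : s (t y) = t (s y) := by rw [← MulAut.mul_apply, st]; rfl
  rw [b, b', map_mul, map_mul, map_mul, hc s (h.map_z e s), hd t (h.map_z e t), b, b',
    ← mul_assoc d, c1 d, mul_assoc c, mul_assoc d] at this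
  simpa using this

end


/-- Let Q be an extraspecial 2-group of order 2^(2n+1) with n ≥ 3 that is of plus type (it contains an elementary abelian subgroup of order 2^(n+1)). Then the group of inner automorphisms of Q has no complement in the full automorphism group of Q: the extension of the inner automorphism group (elementary abelian of order 2^(2n)) by the outer automorphism group (the orthogonal group of plus type) does not split. -/
theorem result {Q : Type*} [Group Q] [Finite Q] (n : ℕ) (hn : 3 ≤ n) (hQ : Cfsg.IsExtraspecial 2 Q) (hcard : Nat.card Q = 2 ^ (2 * n + 1)) (hplus : ∃ E : Subgroup Q, Cfsg.IsElementaryAbelian 2 E ∧ Nat.card ↥E = 2 ^ (n + 1)) (L : Subgroup (MulAut Q)) : ¬ (Cfsg.Inn Q).IsComplement' L := by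
  intro hL
  obtain ⟨z, e⟩ := exists_ex (CF.Solv.isExtraspecial_top_iff.2 hQ)
  obtain ⟨p, q, h⟩ := e.exists_qm hcard
  have hr : Module.finrank (ZMod 2) (Fin (2 * n) → ZMod 2) = 2 * n := by simp
  obtain ⟨u, v, f⟩ := ((h.isPlus_iff e hr).2 hplus).exists_qFrame (h.nondeg e) hr
  have inj : ∀ s ∈ L, ∀ t ∈ L, h.rho e s = h.rho e t → s = t := fun s hs t ht k =>
    mul_inv_eq_one.1 (mem_bot.1 (hL.disjoint.le_bot ⟨h.ker_rho e ▸ MonoidHom.mem_ker.2
      (by rw [map_mul, k, ← map_mul, mul_inv_cancel, map_one]), L.mul_mem hs (L.inv_mem ht)⟩))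
  have sur : ∀ g, ∃ s ∈ L, h.rho e s = g := fun g => by
    obtain ⟨φ, rfl⟩ := h.rho_surj e g
    obtain ⟨⟨a, b⟩, rfl⟩ := hL.2 φ
    have : h.rho e a = 1 := MonoidHom.mem_ker.1 ((h.ker_rho e).ge a.2)
    exact ⟨b, b.2, by rw [map_mul, this, one_mul]⟩
  choose x hx using fun i => h.surj (u i + v i)
  have qx : ∀ i, q (p (x i)) = 1 := fun i => by rw [hx, quad_add, f.qe', f.qf', f.polar_ef]; simp
  have px : ∀ i j, polar q (p (x i)) (p (x j)) = 0 := fun i j => by
    rw [hx, hx, polar_add_left, polar_add_right, polar_add_right, f.polar_ee, f.polar_ff, f.polar_ef,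
      f.polar_fe, zero_add, add_zero, CharTwo.add_self_eq_zero]
  have pu : ∀ i j, polar q (p (x i)) (u j) = if i = j then 1 else 0 := fun i j => by
    rw [hx, polar_add_left, f.polar_ee, f.polar_fe, zero_add]
  obtain ⟨m, rfl⟩ : ∃ m, n = m + 3 := ⟨n - 3, by omega⟩
  have pa : ∀ w, polar q (p (x 0 * x 1 * x 2)) w =
      polar q (p (x 0)) w + polar q (p (x 1)) w + polar q (p (x 2)) w := fun w => by
    rw [h.mul, h.mul, polar_add_left, polar_add_left]
  have qa : q (p (x 0 * x 1 * x 2)) = 1 := by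
    rw [h.mul, h.mul, quad_add, quad_add, polar_add_left, px, px, px, qx, qx, qx]; decide
  obtain ⟨s, hs, k⟩ := sur (oRefl q (p (x 0 * x 1 * x 2)))
  have key : ∀ i j, i ≠ j → polar q (p (x 0 * x 1 * x 2)) (u i + u j) = 0 → s (x i) = x i :=
    fun i j hij c => by
      obtain ⟨t, ht, k'⟩ := sur (oRefl q (p (x i)))
      obtain ⟨y, hy⟩ := h.surj (u i + u j)
      refine fixes h e (y := y) (qx i) k k' (inj _ (L.mul_mem hs ht) _ (L.mul_mem ht hs) ?_) (hy ▸ c)
        (by rw [hy, polar_add_right, pu, pu]; simp [hij])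
      rw [map_mul, map_mul, k, k', ← mul_inv_eq_iff_eq_mul, conj_oRefl, oRefl_of_polar_eq_zero]
      rw [pa, px, px, px]; rfl
  obtain ⟨y, hy⟩ := h.surj (u 0)
  have d01 : (0 : Fin (m + 3)) ≠ 1 := by simp
  have d02 : (0 : Fin (m + 3)) ≠ 2 := by simp [Fin.ext_iff, Nat.mod_eq_of_lt]
  have d12 : (1 : Fin (m + 3)) ≠ 2 := by simp [Fin.ext_iff, Nat.mod_eq_of_lt]
  refine moves h e (y := y) qa k (inj _ (L.mul_mem hs hs) _ L.one_mem (by
    rw [map_mul, k, oRefl_mul_self, map_one])) (by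
      simp [pa, hy, pu, d01.symm, d02.symm]) ?_
  rw [map_mul, map_mul, key 0 1 d01, key 1 0 d01.symm, key 2 0 d02.symm] <;>
    simp [pa, polar_add_right, pu, d01, d02, d12, d01.symm, d02.symm, d12.symm,
      CharTwo.add_self_eq_zero]

end Cfsg.Agent.S3085
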