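import Cfsg.Statements.S3105
import Cfsg.Agent.GH2.H
import Cfsg.Agent.Classical.Linear
import Cfsg.Agent.PLocal.Constraint

set_option autoImplicit false
open Cfsg

namespace Cfsg.Agent.S3105


/-- Let X be a finite nonsolvable 2-constrained group with no nontrivial normal subgroup of odd order and of sectional 2-rank at most 4, and suppose X/O₂(X) is isomorphic to the projective special linear group of dimension 3 over the field with 2 elements. Then O₂(X) is elementary abelian of order 8 or 16, or is isomorphic to the direct product of a cyclic group of order 4 and an elementary abelian group of order 8. -/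
theorem result {X : Type*} [Group X] [Finite X] (hns : ¬ Group.IsSolvable X) (hc : Cfsg.IsPConstrained 2 X) (hO : Cfsg.oddCore X = ⊥)
  (h4 : Cfsg.SectionalPRankLE 2 4 X) {F : Type*} [Field F] [Fintype F] (hF : Fintype.card F = 2)
  (hQ : Nonempty (X ⧸ Cfsg.pCore 2 X ≃* Matrix.ProjectiveSpecialLinearGroup (Fin 3) F)) :
  (Cfsg.IsElementaryAbelian 2 (Cfsg.pCore 2 X) ∧ (Nat.card ↥(Cfsg.pCore 2 X) = 8 ∨ Nat.card ↥(Cfsg.pCore 2 X) = 16)) ∨
    Nonempty (↥(Cfsg.pCore 2 X) ≃* Multiplicative (ZMod 4) × (Fin 3 → Multiplicative (ZMod 2))) := by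
  haveI : Fact (Nat.Prime 2) := ⟨Nat.prime_two⟩
  obtain ⟨e⟩ := hQ
  haveI : IsSimpleGroup (Matrix.ProjectiveSpecialLinearGroup (Fin 3) F) :=
    CF.Classical.isSimpleGroup_PSL_of_three_le (by simp)
  have hL := CF.Classical.card_PSL_fin (F := F) 3 (by norm_num)
  rw [hF, Fin.prod_univ_three] at hL
  rcases (CF.GH2.l32_case (by simpa using hL) CF.Solv.pCore_isPGroup
    ((CF.PLocal.isPConstrained_iff_of_eq_bot hO).1 hc) (CF.GH2.SR.of_sec h4) e).2 with
    ⟨h1, h2⟩ | ⟨h1, h2, h3⟩
  · exact Or.inl ⟨⟨⟨⟨fun a b => Subtype.ext (CF.GH2.comm_of_sq h1 a.2 b.2)⟩⟩,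
      fun a ha => by rw [pow_two]; exact h1 a ha⟩, h2⟩
  · exact Or.inr (CF.GH2.Con.iso h1 h2 h3)

end Cfsg.Agent.S3105
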