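import Cfsg.Statements.S3106
import Cfsg.Agent.GH2.C

set_option autoImplicit false
open Cfsg

namespace Cfsg.Agent.S3106


/-- Let X be a finite nonsolvable 2-constrained group with no nontrivial normal subgroup of odd order and of sectional 2-rank at most 4, and suppose X/O₂(X) contains a subgroup isomorphic to the alternating group of degree 5. Then O₂(X) is elementary abelian of order 16, or O₂(X) is a central product of a quaternion group of order 8 and a dihedral group of order 8 (it has order 32 and is generated by two elementwise-commuting subgroups, one quaternion of order 8 and one dihedral of order 8, meeting in the centre). -/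
theorem result {X : Type*} [Group X] [Finite X] (hns : ¬ Group.IsSolvable X) (hc : Cfsg.IsPConstrained 2 X) (hO : Cfsg.oddCore X = ⊥)
    (h4 : Cfsg.SectionalPRankLE 2 4 X)
    (hQ : ∃ A : Subgroup (X ⧸ Cfsg.pCore 2 X), Nonempty (↥A ≃* ↥(alternatingGroup (Fin 5)))) :
    (Cfsg.IsElementaryAbelian 2 (Cfsg.pCore 2 X) ∧ Nat.card ↥(Cfsg.pCore 2 X) = 16) ∨
      (Nat.card ↥(Cfsg.pCore 2 X) = 32 ∧ ∃ A B : Subgroup ↥(Cfsg.pCore 2 X),
        Nonempty (↥A ≃* QuaternionGroup 2) ∧ Nonempty (↥B ≃* DihedralGroup 4) ∧ (∀ a ∈ A, ∀ b ∈ B, a * b = b * a) ∧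
          A ⊔ B = ⊤ ∧ A ⊓ B = Subgroup.center ↥(Cfsg.pCore 2 X)) := by
  haveI : Fact (Nat.Prime 2) := ⟨Nat.prime_two⟩
  obtain ⟨A, ⟨e⟩⟩ := hQ
  rcases CF.GH2.a5_case CF.Solv.pCore_isPGroup ((CF.PLocal.isPConstrained_iff_of_eq_bot hO).1 hc)
    (CF.GH2.SR.of_sec h4) e with ⟨h1, h2⟩ | h
  · exact Or.inl ⟨⟨⟨⟨fun a b => Subtype.ext (CF.GH2.comm_of_sq h1 a.2 b.2)⟩⟩,
      fun a ha => by rw [pow_two]; exact h1 a ha⟩, h2⟩
  · exact Or.inr h

end Cfsg.Agent.S3106
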