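import Cfsg.Statements.S3111
import Cfsg.Agent.PG.App
import Cfsg.Agent.Sig.SftE

set_option autoImplicit false
open Cfsg

namespace Cfsg.Agent.S3111
open CF.BG Subgroup
open scoped commutatorElement Pointwise

/-- Let G be a non-abelian finite simple group some Sylow 2-subgroup of which has a self-centralizing abelian normal subgroup of 2-rank at least 3. Then either the centralizer of every involution of G has no nontrivial normal subgroup of odd order, or G has an unbalancing triple: commuting involutions a, x and an x-invariant 2-component L of C_G(a) with L = O(L)[L, O(C_G(x)) ∩ C_G(a)], where O(·) denotes the largest normal subgroup of odd order. -/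
theorem result {G : Type*} [Group G] [Finite G] [IsSimpleGroup G] (hG : ¬ IsMulCommutative G)
    (S : Sylow 2 G) (A : Subgroup ↥(S : Subgroup G)) (hAn : A.Normal) (hAab : IsMulCommutative ↥A)
    (hAC : Subgroup.centralizer (A : Set ↥(S : Subgroup G)) = A) (hA3 : ¬ Cfsg.PRankLE 2 2 ↥A) :
    (∀ t : G, orderOf t = 2 → Cfsg.centralizerPPrimeCore 2 t = ⊥) ∨
      ∃ (a x : G) (L : Subgroup ↥(Subgroup.centralizer ({a} : Set G))), orderOf a = 2 ∧ orderOf x = 2 ∧ Commute a x ∧
        Cfsg.IsPComponent 2 L ∧ (∀ l ∈ L.map (Subgroup.centralizer ({a} : Set G)).subtype, x * l * x⁻¹ ∈ L.map (Subgroup.centralizer ({a} : Set G)).subtype) ∧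
        L.map (Subgroup.centralizer ({a} : Set G)).subtype =
          (Cfsg.oddCore ↥L).map ((Subgroup.centralizer ({a} : Set G)).subtype.comp L.subtype) ⊔
            ⁅L.map (Subgroup.centralizer ({a} : Set G)).subtype, Cfsg.centralizerPPrimeCore 2 x ⊓ Subgroup.centralizer ({a} : Set G)⁆ := by
  have hp := Nat.prime_two
  have hS := syl_sylow_top S
  obtain ⟨r, c⟩ := CF.Sig.conn_of_scn' S A hAn hAab hA3 hS
  have h0 : 𝐎 {2}ᶜ (⊤ : Subgroup G) = ⊥ :=
    ((normalIn_top.1 (O_normal {2}ᶜ (⊤ : Subgroup G))).eq_bot_or_eq_top).resolve_right fun e => by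
      have := pRank_eq_zero.2 (O_pi {2}ᶜ (⊤ : Subgroup G))
      rw [e, ← hS.syl_pRank] at this
      omega
  by_cases b : ∀ x a : G, CF.Bender.Iv x → CF.Bender.Iv a → x * a = a * x →
      CF.Sig.Oc 2 x ⊓ 𝐂₁ a ≤ CF.Sig.Oc 2 a
  · exact Or.inl fun t ht => (CF.Sig.cPPC_eq hp t).trans
      (CF.PG.kill_bal h0 hS r le_rfl c b (CF.Bender.iv_iff.2 ht))
  push Not at b
  obtain ⟨x, a, i, j, cm, n⟩ := b
  obtain ⟨L, h1, h2, h3⟩ := CF.PG.exists_unb i cm n
  obtain ⟨L, rfl⟩ := exists_map_subtype h1.le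
  refine Or.inr ⟨a, x, L, j.orderOf, i.orderOf, cm.symm, CF.Sig.pcomp_map_subtype.1 h1,
    fun l hl => conj_mem_of_norm h2 hl, ?_⟩
  rwa [← Subgroup.map_map, CF.Sig.map_oddCore, ← O_map_subtype, CF.Sig.cPPC_eq hp]

end Cfsg.Agent.S3111
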