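import Cfsg.Statements.S3112
import Cfsg.Agent.PG.App
import Cfsg.Agent.Sig.SftE

set_option autoImplicit false
open Cfsg

namespace Cfsg.Agent.S3112
open CF.BG Subgroup
open scoped commutatorElement Pointwise

/-- Let G be a finite group with no nontrivial normal subgroup of odd order, some Sylow 2-subgroup of which has a self-centralizing abelian normal subgroup of 2-rank at least 3. Let θ assign to each element a of G a subgroup θ(a), equivariantly (θ(g a g⁻¹) is the conjugate of θ(a) by g, for all g and a), in such a way that for every abelian 2-subgroup A of G of 2-rank at least 3 the restriction of θ to A is an A-signalizer functor (for the prime 2). Then θ(a) = 1 for every involution a lying in some abelian 2-subgroup of 2-rank at least 3. -/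
theorem result {G : Type*} [Group G] [Finite G] (hO : Cfsg.oddCore G = ⊥)
    (S : Sylow 2 G) (A : Subgroup ↥(S : Subgroup G)) (hAn : A.Normal) (hAab : IsMulCommutative ↥A)
    (hAC : Subgroup.centralizer (A : Set ↥(S : Subgroup G)) = A) (hA3 : ¬ Cfsg.PRankLE 2 2 ↥A)
    (θ : G → Subgroup G) (heq : ∀ (g a : G), θ (g * a * g⁻¹) = (θ a).map (MulAut.conj g).toMonoidHom)
    (hθ : ∀ B : Subgroup G, IsMulCommutative ↥B → IsPGroup 2 ↥B → ¬ Cfsg.PRankLE 2 2 ↥B → Cfsg.IsSignalizerFunctor 2 B θ) :
    ∀ B : Subgroup G, IsMulCommutative ↥B → IsPGroup 2 ↥B → ¬ Cfsg.PRankLE 2 2 ↥B → ∀ a ∈ B, orderOf a = 2 → θ a = ⊥ := by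
  intro B _ _ _ a _ ha
  have hp := Nat.prime_two
  have hS := syl_sylow_top S
  obtain ⟨r, c⟩ := CF.Sig.conn_of_scn' S A hAn hAab hA3 hS
  refine CF.PG.kill (CF.Sig.oddCore_eq.symm.trans hO) hS r le_rfl c (fun E v => ?_) (fun a g => (heq g a).symm)
    (CF.Bender.iv_iff.2 ha)
  obtain ⟨h1, h2, h3, h4⟩ := hθ E v.ab.abel.comm v.ab.pi.isPGroup ((not_pRankLE_iff hp).2 (v.ab.pRank_eq ▸ v.rk))
  have o := fun a ha a1 => (piNat_compl_single hp).2 (h2 a ha a1)
  exact ⟨v.ab, by have := v.rk; omega, h1, o, fun a ha a1 => le_norm_iff.2 (h3 a ha a1), h4,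
    fun a ha a1 => CF.PG.sol_pi (o a ha a1)⟩

end Cfsg.Agent.S3112
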