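import Mathlib
import Cfsg.Agent.Fgs2.InvFix
import Cfsg.Agent.Perm.AltOn
import Cfsg.Statements.S3117

set_option autoImplicit false
open Cfsg

namespace Cfsg.Agent.S3117

open CF.BG CF.Sig CF.Fgs2 Subgroup in

/-- If X is a finite 2-group containing exactly three involutions, then the automorphism group of X is solvable. -/
theorem result {X : Type*} [Group X] [Finite X] (h2 : IsPGroup 2 X) (h3 : Nat.card {x : X // orderOf x = 2} = 3) : Group.IsSolvable (MulAut X) := by
  refine CF.Fgs3.sol_top_iff.1 (sol_of_perfect fun A _ p => ?_)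
  have hA : _root_.commutator A = ⊤ := by
    apply map_injective A.subtype_injective
    rw [_root_.commutator_def, map_commutator, map_top_subtype, p]
  let f : MulAut X →* Equiv.Perm {x : X // orderOf x = 2} := MonoidHom.mk'
    (fun a => Equiv.subtypeEquiv a.toEquiv fun x => by simp) fun a b => rfl
  haveI := CF.Perm.isSolvable_perm (X := {x : X // orderOf x = 2}) (by omega)
  rw [eq_bot_iff]
  intro a ha
  refine MulEquiv.ext (fix_of_inv h2 hA A.subtype (fun b s hs => ?_) ⟨a, ha⟩)
  by_cases h1 : s = 1
  · rw [h1, map_one]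
  haveI : Fact (Nat.Prime 2) := ⟨Nat.prime_two⟩
  have := DFunLike.congr_fun (hom_triv hA (f.comp A.subtype) inferInstance b)
    ⟨s, orderOf_eq_prime (by rw [pow_two, hs]) h1⟩
  exact congrArg Subtype.val this

end Cfsg.Agent.S3117
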