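import Cfsg.Statements.S3121
import Cfsg.Agent.ZD.Tight
import Cfsg.Agent.Sig.FStar

set_option autoImplicit false
open Cfsg

namespace Cfsg.Agent.S3121
open CF.BG Subgroup
open scoped commutatorElement Pointwise

/-- Let G be a finite group whose generalized Fitting subgroup F*(G) is a non-abelian simple group, let H be a tightly embedded subgroup of G and N its normalizer. If H^g ∩ N has odd order for every element g of G outside N, then either H is normal in G or F*(G) has a strongly embedded subgroup. -/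
theorem result {G : Type*} [Group G] [Finite G]
    (hF : IsSimpleGroup ↥(Cfsg.generalizedFittingSubgroup G)) (hF' : ¬ IsMulCommutative ↥(Cfsg.generalizedFittingSubgroup G))
    (H : Subgroup G) (hH : Cfsg.IsTightlyEmbedded H)
    (hodd : ∀ g : G, g ∉ Subgroup.normalizer (H : Set G) →
      Odd (Nat.card ↥(H.map (MulAut.conj g).toMonoidHom ⊓ Subgroup.normalizer (H : Set G)))) :
    H.Normal ∨ ∃ M : Subgroup ↥(Cfsg.generalizedFittingSubgroup G), Cfsg.IsStronglyEmbedded M := by
  open CF.ZD CF.BG CF.Bender in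
  refine or_iff_not_imp_left.2 fun n => ?_
  have se := tight_se hH.1 hodd fun e => n (normalizer_eq_top_iff.1 e)
  set F := Cfsg.generalizedFittingSubgroup G
  set K := normalClosure (H : Set G)
  obtain ⟨s, hs, o⟩ := CF.Invol.se_exists_invol se
  obtain ⟨u, hu, o'⟩ := CF.Invol.se_exists_invol_not_mem se
  have h1 : F ≤ K := subgroupOf_eq_top.1 ((inferInstance : (K.subgroupOf F).Normal).eq_bot_or_eq_top.resolve_left
    fun e => CF.Sig.inf_fstar_ne_bot (N := K) (ne_bot_of_mem s.2 (iv_coe.2 (iv_iff.2 o)).ne)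
      (disjoint_iff.1 (subgroupOf_eq_bot.1 e)))
  obtain ⟨t, ht, hi⟩ := exists_iv (X := F) fun o =>
    hF' ⟨⟨IsSimpleGroup.comm_iff_isSolvable.2 (CF.Hyp.isSolvable_of_odd o)⟩⟩
  have h2 : ∀ x : K, orderOf x = 2 → (x : G) ∈ F := fun x hx => by
    obtain ⟨g, rfl⟩ := isConj_iff.1 (CF.Invol.se_isConj se ((iv_coe (g := ⟨t, h1 ht⟩)).1 hi).orderOf hx)
    exact CF.Sig.fstar_normal.conj_mem t ht g
  exact ⟨_, se_sub (fun k => hu (k (h2 u o'))) (h2 s o) hs (iv_coe.2 (iv_iff.2 o))
    fun t ht h3 it g hg => se_mem se (h1 ht) h3 it (h1 hg)⟩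

end Cfsg.Agent.S3121
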