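import Cfsg.Statements.S3354
import Cfsg.Agent.OnS.G

set_option autoImplicit false
open Cfsg

namespace Cfsg.Agent.S3354

/-- In a finite doubly transitive permutation group of degree at least 3, a one-point stabilizer is either a local subgroup (the normalizer of a non-trivial subgroup of prime-power order) or almost simple: it has a non-abelian simple normal subgroup with trivial centralizer (so that it embeds between that simple group and its automorphism group). -/
theorem result {G Ω : Type*} [Group G] [Finite G]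
    [MulAction G Ω] [FaithfulSMul G Ω] [Finite Ω] (hΩ : 3 ≤ Nat.card Ω)
    (h2 : MulAction.IsMultiplyPretransitive G Ω 2) (a : Ω) :
    Cfsg.IsLocalSubgroup (MulAction.stabilizer G a) ∨
    ∃ N : Subgroup (MulAction.stabilizer G a), N.Normal ∧ IsSimpleGroup N ∧ ¬ IsMulCommutative N ∧
      Subgroup.centralizer (N : Set (MulAction.stabilizer G a)) = ⊥ := by
  refine (CF.OnS.main hΩ h2 a).imp_right fun ⟨K, n, S, c⟩ => ⟨K.subgroupOf _, n.normal, ?_, fun i => S.na ?_, ?_⟩
  · have := S.simple
    exact (Subgroup.subgroupOfEquivOfLe n.le).isSimpleGroup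
  · exact CF.BG.abel_of_forall fun x hx y hy => congrArg Subtype.val (congrArg Subtype.val
      (i.1.comm ⟨⟨x, n.le hx⟩, hx⟩ ⟨⟨y, n.le hy⟩, hy⟩))
  · refine eq_bot_iff.2 fun x hx => Subtype.ext (CF.BG.eq_one_of_mem_bot c ⟨x.2, CF.BG.mem_cent.2 fun y hy => ?_⟩)
    exact congrArg Subtype.val (hx ⟨y, n.le hy⟩ hy)

end Cfsg.Agent.S3354
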