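import Cfsg.Statements.S3356
import Cfsg.Agent.Perm.HalfTrans

set_option autoImplicit false
open Cfsg

namespace Cfsg.Agent.S3356

open CF.Perm Subgroup MulAction
open scoped IsMulCommutative

/-- Let G be a finite 3/2-transitive permutation group: G acts faithfully and transitively on a finite set, the point stabilizers are non-trivial, and for each point a all orbits of G_a on the remaining points have the same size. Suppose G has a regular normal subgroup N and G is not a Frobenius group (some two-point stabilizer is non-trivial). Then N is an elementary abelian p-group for some prime p, and every non-trivial normal subgroup of G contains N (so N is the unique minimal normal subgroup). -/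
theorem result {G Ω : Type*} [Group G] [Finite G]
    [MulAction G Ω] [FaithfulSMul G Ω] [Finite Ω] (htrans : MulAction.IsPretransitive G Ω)
    (hne : ∀ a : Ω, MulAction.stabilizer G a ≠ ⊥)
    (hhalf : ∀ a b c : Ω, b ≠ a → c ≠ a →
      Nat.card (MulAction.orbit (MulAction.stabilizer G a) b) = Nat.card (MulAction.orbit (MulAction.stabilizer G a) c))
    (N : Subgroup G) [hN : N.Normal] (hNt : MulAction.IsPretransitive N Ω) (hNr : ∀ a : Ω, MulAction.stabilizer N a = ⊥)
    (hnotF : ∃ a b : Ω, a ≠ b ∧ MulAction.stabilizer G a ⊓ MulAction.stabilizer G b ≠ ⊥) :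
    (∃ p : ℕ, p.Prime ∧ IsMulCommutative N ∧ ∀ x ∈ N, x ^ p = 1) ∧
    (∀ M : Subgroup G, M.Normal → M ≠ ⊥ → N ≤ M) := by
  obtain ⟨α, β, hab, h⟩ := hnotF
  have h0 : ∀ n ∈ N, n • α = α → n = 1 := (stabilizer_subgroup_eq_bot_iff N α).1 (hNr α)
  let _ := MulDistribMulAction.compHom N
    ((MulAut.conjNormal (H := N)).comp (stabilizer G α).subtype)
  have h1 : ∀ (h : stabilizer G α) (n : N), ((h • n : N) : G) = h * n * h⁻¹ := fun _ _ => rfl
  have h2 : ∀ (h : stabilizer G α) (n : N), ((h • n : N) : G) • α = h • (n : G) • α := fun h n => by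
    rw [h1, mul_smul, mul_smul, show ((h⁻¹ : stabilizer G α) : G) • α = α from h⁻¹.2]; rfl
  have : FaithfulSMul (stabilizer G α) N := ⟨fun {g h} e => Subtype.ext
    (eq_of_smul_eq_smul (α := Ω) fun x => by
      obtain ⟨n, rfl⟩ := exists_smul_eq N α x
      exact (h2 g n).symm.trans ((congrArg (fun v : N => (v : G) • α) (e n)).trans (h2 h n)))⟩
  have h3 : ∀ w : N, stabilizer (stabilizer G α) w = stabilizer (stabilizer G α) ((w : G) • α) :=
    fun w => Subgroup.ext fun h => ⟨fun e => (h2 h w).symm.trans (by rw [e]), fun e => Subtype.ext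
      (eq_of_smul_eq_of_regular (hNr α) (h • w).2 w.2 ((h2 h w).trans e))⟩
  have hm : ∀ w : N, w ≠ 1 → (stabilizer (stabilizer G α) w).index =
      (stabilizer (stabilizer G α) β).index := fun w hw => by
    rw [h3, index_stabilizer, index_stabilizer]
    exact hhalf α _ β (fun e => hw (Subtype.ext (h0 _ w.2 e))) hab.symm
  have h4 : ∀ w : N, w ≠ 1 → stabilizer (stabilizer G α) w ≠ ⊥ := fun w hw e => h (by
    have h5 := hm w hw
    rw [e, index_bot, ← (stabilizer (stabilizer G α) β).card_mul_index] at h5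
    exact eq_bot_iff.2 fun g hg => congrArg Subtype.val ((card_eq_one.1 ((Nat.mul_eq_right
      index_ne_zero_of_finite).1 h5)).le (x := ⟨g, (mem_inf.1 hg).1⟩) hg.2))
  have hc : IsMulCommutative N := ⟨⟨half_comm hm h4⟩⟩
  obtain ⟨n, hn⟩ := exists_smul_eq N α β
  have : Nontrivial N := ⟨n, 1, fun e => hab (by simpa [e] using hn)⟩
  obtain ⟨p, hp, h5⟩ := Nat.exists_prime_and_dvd (Finite.one_lt_card (α := N)).ne'
  have := Fact.mk hp
  obtain ⟨z, hz⟩ := exists_prime_orderOf_dvd_card' p h5
  refine ⟨⟨p, hp, hc, fun x hx => congrArg Subtype.val (((half_irred hm h4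
    (B := (powMonoidHom p : N →* N).ker) fun h v hv => (smul_pow' h v p).symm.trans (by
      rw [show v ^ p = 1 from hv, smul_one])).resolve_left fun e => hp.one_lt.ne' (by
        rw [← hz, show z = 1 from e.le (hz ▸ pow_orderOf_eq_one z :), orderOf_one])).ge
          (mem_top (⟨x, hx⟩ : N)) :)⟩,
    fun M hM h6 => subgroupOf_eq_top.1 ((half_irred hm h4 (B := M.subgroupOf N)
      fun h v hv => hM.conj_mem _ hv h).resolve_left fun e => h6 (eq_bot_iff.2 fun m h7 => ?_))⟩
  have h8 := commute_of_normal_of_disjoint M N hM hN (subgroupOf_eq_bot.1 e)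
  obtain ⟨k, hk⟩ := exists_smul_eq N α (m • α)
  have h9 : (k : G)⁻¹ * m = 1 := eq_one_of_commute_trans (M := N) (a := α) (fun x hx =>
    ((Commute.inv_left (congrArg Subtype.val (mul_comm k ⟨x, hx⟩) :)).mul_left (h8 m x h7 hx)).eq)
    (by rw [mul_smul, ← hk]; exact inv_smul_smul (k : G) α)
  exact (subgroupOf_eq_bot.1 e).le_bot ⟨h7, inv_mul_eq_one.1 h9 ▸ k.2⟩

end Cfsg.Agent.S3356
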