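import Mathlib
import Cfsg.Statements.S3357
import Cfsg.Agent.Fgs1.FPF2

set_option autoImplicit false
open Cfsg

namespace Cfsg.Agent.S3357

open CF.Fgs1.Fpf

theorem exists_fin {G K V : Type*} [Group G] [Field K] [AddCommGroup V] [Module K V]
    [FiniteDimensional K V] (ρ : G →* Module.End K V) (h : IsFpf ρ) :
    ∃ ρ' : G →* Module.End K (Fin (Module.finrank K V) → K), IsFpf ρ' := by
  let e := (Module.finBasis K V).equivFun
  refine ⟨e.conjRingEquiv.toMonoidHom.comp ρ, fun g hg v hv => ?_⟩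
  have h1 : e (ρ g (e.symm v)) = v := hv
  have := h g hg (e.symm v) (e.injective (by rw [h1, e.apply_symm_apply]))
  simpa using this


/-- Let G be a finite group that occurs as a Frobenius complement. Then G has a faithful irreducible representation over an algebraic closure of the rationals in which no non-identity element of G has 1 as an eigenvalue: there are n ≥ 1 and an injective homomorphism ρ from G to GL(n) over that field, with no invariant subspace other than 0 and the whole space, such that for g ≠ 1 the only vector fixed by ρ(g) is 0. -/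
theorem result {G : Type*} [Group G] [Finite G]
    (hFC : ∃ (L : Type) (_ : Group L) (_ : Finite L) (H : Subgroup L), Cfsg.IsFrobeniusComplement H ∧ Nonempty (G ≃* H)) :
    ∃ (n : ℕ) (ρ : G →* GL (Fin n) (AlgebraicClosure ℚ)), 0 < n ∧ Function.Injective ρ ∧
      (∀ W : Submodule (AlgebraicClosure ℚ) (Fin n → AlgebraicClosure ℚ),
        (∀ g : G, ∀ w ∈ W, ((ρ g : GL (Fin n) (AlgebraicClosure ℚ)) : Matrix (Fin n) (Fin n) (AlgebraicClosure ℚ)).mulVec w ∈ W) → W = ⊥ ∨ W = ⊤) ∧
      ∀ g : G, g ≠ 1 → ∀ v : Fin n → AlgebraicClosure ℚ,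
        ((ρ g : GL (Fin n) (AlgebraicClosure ℚ)) : Matrix (Fin n) (Fin n) (AlgebraicClosure ℚ)).mulVec v = v → v = 0 := by
  classical
  set K := AlgebraicClosure ℚ
  have hex : ∃ n, 0 < n ∧ ∃ ρ : G →* Module.End K (Fin n → K), IsFpf ρ := by
    obtain ⟨V, _, _, _, _, ρ, h⟩ := (fpf_of_fc hFC).exists_rep K
    exact ⟨_, Module.finrank_pos, exists_fin ρ h⟩
  obtain ⟨n, ⟨hn, ρ, hρ⟩, hmin⟩ : ∃ n, (0 < n ∧ ∃ ρ : G →* Module.End K (Fin n → K), IsFpf ρ) ∧
      ∀ m, (0 < m ∧ ∃ ρ : G →* Module.End K (Fin m → K), IsFpf ρ) → n ≤ m :=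
    ⟨_, Nat.find_spec hex, fun m => Nat.find_min' hex⟩
  let σ : G →* Matrix (Fin n) (Fin n) K := LinearMap.toMatrixAlgEquiv'.toMonoidHom.comp ρ
  have hσ : ∀ g v, ((σ.toHomUnits g : GL (Fin n) K) : Matrix (Fin n) (Fin n) K).mulVec v = ρ g v :=
    fun g v => by simp [σ, LinearMap.toMatrixAlgEquiv', LinearMap.toMatrix'_mulVec]
  refine ⟨n, σ.toHomUnits, hn, ?_, fun W hW => ?_, fun g hg v hv => hρ g hg v (hσ g v ▸ hv)⟩
  · rw [injective_iff_map_eq_one]
    intro g hg
    by_contra h1
    have := hρ g h1 (fun _ => 1) (by rw [← hσ, hg]; simp)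
    exact one_ne_zero (congrFun this ⟨0, hn⟩)
  · by_contra h1
    push Not at h1
    have hW' : ∀ g, ∀ w ∈ W, ρ g w ∈ W := fun g w hw => hσ g w ▸ hW g w hw
    let τ : G →* Module.End K W :=
      { toFun g := (ρ g).restrict (hW' g)
        map_one' := by ext; simp
        map_mul' g h := by ext; simp }
    have hτ : IsFpf τ := fun g hg v hv => Subtype.ext (hρ g hg v (congrArg Subtype.val hv))
    haveI := Submodule.nontrivial_iff_ne_bot.mpr h1.1
    have h2 : n ≤ Module.finrank K W := hmin _ ⟨Module.finrank_pos, exists_fin τ hτ⟩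
    have h3 : Module.finrank K W < Module.finrank K (Fin n → K) := Submodule.finrank_lt h1.2
    rw [Module.finrank_fin_fun] at h3
    omega

end Cfsg.Agent.S3357
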