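import Mathlib
import Cfsg.Statements.S3358
import Cfsg.Agent.Fgs1.FPF8

set_option autoImplicit false
open Cfsg

namespace Cfsg.Agent.S3358

open Subgroup CF.Fgs1 CF.Fgs1.Fpf

theorem conj_pow_pow {X : Type*} [Group X] {x y : X} {r : ℕ} (h : x⁻¹ * y * x = y ^ r) (k : ℕ) :
    (x ^ k)⁻¹ * y * x ^ k = y ^ (r ^ k) := by
  induction k with
  | zero => simp
  | succ k ih =>
    have : x⁻¹ * y ^ (r ^ k) * x = (x⁻¹ * y * x) ^ (r ^ k) := by
      simpa using (conj_pow (a := x⁻¹) (b := y) (i := r ^ k)).symm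
    rw [pow_succ, mul_inv_rev, mul_assoc x⁻¹, mul_assoc x⁻¹, ← mul_assoc _ (x ^ k) x, ih,
      ← mul_assoc, this, h, ← pow_mul, pow_succ']

theorem card_le {X : Type*} [Group X] {x y : X} {n m r : ℕ} (hn : 0 < n) (hm : 0 < m)
    (hx : x ^ n = 1) (hy : y ^ m = 1) (h : x⁻¹ * y * x = y ^ r) (ht : closure {x, y} = ⊤) :
    Finite X ∧ Nat.card X ≤ n * m := by
  have hy' : ∀ k j : ℕ, y ^ j * x ^ k = x ^ k * y ^ (r ^ k * j) := fun k j => by
    rw [pow_mul, ← conj_pow_pow h k]
    have : ((x ^ k)⁻¹ * y * x ^ k) ^ j = (x ^ k)⁻¹ * y ^ j * x ^ k := by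
      simpa using (conj_pow (a := (x ^ k)⁻¹) (b := y) (i := j))
    rw [this]; group
  have hinv : ∀ (a : X) (s : ℕ), 0 < s → a ^ s = 1 → ∀ i : ℕ, (a ^ i)⁻¹ = a ^ (i * (s - 1)) :=
    fun a s hs ha i => by
      rw [inv_eq_iff_mul_eq_one, ← pow_add]
      obtain ⟨s, rfl⟩ : ∃ t, s = t + 1 := ⟨s - 1, by omega⟩
      rw [Nat.add_sub_cancel, show i + i * s = (s + 1) * i by ring, pow_mul, ha, one_pow]
  have key : ∀ g : X, ∃ i j : ℕ, g = x ^ i * y ^ j := fun g => by
    have hg : g ∈ closure {x, y} := ht ▸ mem_top g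
    induction hg using closure_induction with
    | mem g hg => rcases hg with rfl | rfl
                  exacts [⟨1, 0, by simp⟩, ⟨0, 1, by simp⟩]
    | one => exact ⟨0, 0, by simp⟩
    | mul a b _ _ ha hb =>
      obtain ⟨i, j, rfl⟩ := ha
      obtain ⟨k, l, rfl⟩ := hb
      exact ⟨i + k, r ^ k * j + l, by
        rw [mul_assoc, ← mul_assoc (y ^ j), hy', pow_add, pow_add]; group⟩
    | inv a _ ha =>
      obtain ⟨i, j, rfl⟩ := ha
      exact ⟨_, _, by rw [mul_inv_rev, hinv x n hn hx, hinv y m hm hy, hy']⟩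
  have hs : Function.Surjective fun p : Fin n × Fin m => x ^ p.1.1 * y ^ p.2.1 := fun g => by
    obtain ⟨i, j, rfl⟩ := key g
    exact ⟨(⟨i % n, Nat.mod_lt _ hn⟩, ⟨j % m, Nat.mod_lt _ hm⟩), by
      simp only [← pow_eq_pow_mod _ hx, ← pow_eq_pow_mod _ hy]⟩
  exact ⟨Finite.of_surjective _ hs, by simpa using Nat.card_le_card_of_surjective _ hs⟩

theorem zgroup {X : Type*} [Group X] [Finite X] [IsZGroup X] (hX : FPF X) :
    ∃ n m r : ℕ, 0 < n ∧ 0 < m ∧ Nat.Coprime (r - 1) m ∧ Nat.Coprime n m ∧ 1 ≤ r ∧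
        r ^ (n / ∏ p ∈ n.primeFactors, p) % m = 1 % m ∧
        Nonempty (X ≃* PresentedGroup
          ({FreeGroup.of (0 : Fin 2) ^ n, FreeGroup.of (1 : Fin 2) ^ m,
            (FreeGroup.of (0 : Fin 2))⁻¹ * FreeGroup.of 1 * FreeGroup.of 0 * (FreeGroup.of (1 : Fin 2) ^ r)⁻¹} :
            Set (FreeGroup (Fin 2)))) := by
  haveI := IsZGroup.isCyclic_commutator X
  have hcop := IsZGroup.coprime_commutator_index X
  obtain ⟨C, hC⟩ := exists_right_complement'_of_coprime hcop
  haveI : IsCyclic (X ⧸ commutator X) := IsZGroup.isCyclic_abelianization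
  haveI : IsCyclic C := isCyclic_of_surjective _ hC.symm.QuotientMulEquiv.surjective
  obtain ⟨x, hx⟩ := (Subgroup.isCyclic_iff_exists_zpowers_eq_top C).mp inferInstance
  obtain ⟨y, hy⟩ := (Subgroup.isCyclic_iff_exists_zpowers_eq_top (commutator X)).mp inferInstance
  have hm : orderOf y = Nat.card (commutator X) := by rw [← hy, Nat.card_zpowers]
  have hn : orderOf x = (commutator X).index := by
    rw [hC.symm.index_eq_card, ← hx, Nat.card_zpowers]
  have hyD : y ∈ commutator X := hy ▸ mem_zpowers y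
  obtain ⟨r0, hr0⟩ : x⁻¹ * y * x ∈ Submonoid.powers y := by
    rw [mem_powers_iff_mem_zpowers, hy]
    exact (inferInstance : (commutator X).Normal).conj_mem' y hyD x
  have hr : x⁻¹ * y * x = y ^ (r0 + orderOf y) := by rw [pow_add, pow_orderOf_eq_one, mul_one, ← hr0]
  have hr1 : 1 ≤ r0 + orderOf y := le_add_left (orderOf_pos y)
  generalize r0 + orderOf y = r at hr hr1
  have ht : closure {x, y} = ⊤ := by
    rw [Set.insert_eq, Subgroup.closure_union, ← zpowers_eq_closure, ← zpowers_eq_closure, hx, hy, sup_comm,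
      hC.sup_eq_top]
  refine ⟨orderOf x, orderOf y, r, orderOf_pos x, orderOf_pos y, ?_, hm ▸ hn ▸ hcop.symm, hr1,
    ?_, ?_⟩
  · let Z := zpowers (y ^ (r - 1))
    have hZ : Z ≤ commutator X := zpowers_le.mpr (pow_mem hyD _)
    haveI : Z.Normal := by
      refine ⟨fun a ha g => ?_⟩
      obtain ⟨k, rfl⟩ := ha
      obtain ⟨l, hl⟩ : g * y * g⁻¹ ∈ zpowers y :=
        hy ▸ (inferInstance : (commutator X).Normal).conj_mem y hyD g
      simp only at hl ⊢
      rw [← conj_zpow, ← conj_pow, ← hl, ← zpow_natCast, ← zpow_mul y, mul_comm l, zpow_mul,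
        zpow_natCast]
      exact zpow_mem (zpow_mem (mem_zpowers _) _) _
    have hxy : (x : X ⧸ Z) * y = y * x := by
      rw [← QuotientGroup.mk_mul, ← QuotientGroup.mk_mul, QuotientGroup.eq]
      have : (x * y)⁻¹ * (y * x) = y ^ (r - 1) := by
        rw [mul_inv_rev, mul_assoc, ← mul_assoc x⁻¹, hr]
        obtain ⟨r, rfl⟩ : ∃ t, r = t + 1 := ⟨r - 1, by omega⟩
        simp [pow_succ']
      rw [this]; exact mem_zpowers _
    have h1 : closure {(x : X ⧸ Z), (y : X ⧸ Z)} = ⊤ := by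
      have := congrArg (map (QuotientGroup.mk' Z)) ht
      rwa [MonoidHom.map_closure, Set.image_pair,
        map_top_of_surjective _ (QuotientGroup.mk'_surjective Z)] at this
    haveI : IsMulCommutative (closure {(x : X ⧸ Z), (y : X ⧸ Z)}) := isMulCommutative_closure (by
      rintro a (rfl | rfl) b (rfl | rfl)
      exacts [rfl, hxy, hxy.symm, rfl])
    have h2 : commutator X ≤ Z := by
      rw [_root_.commutator_def, commutator_le]
      intro a _ b _
      rw [← QuotientGroup.eq_one_iff]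
      change QuotientGroup.mk' Z _ = 1
      rw [map_commutatorElement, commutatorElement_eq_one_iff_mul_comm]
      exact comm_of_mem this (h1 ▸ mem_top _) (h1 ▸ mem_top _)
    have h3 : orderOf (y ^ (r - 1)) = orderOf y := by
      rw [← Nat.card_zpowers, hm, ← le_antisymm hZ h2]
    rw [orderOf_pow] at h3
    rcases Nat.div_eq_self.mp h3 with h | h
    · exact absurd h (orderOf_pos y).ne'
    · exact Nat.Coprime.symm h
  · let H := centralizer (commutator X : Set X) ⊓ C
    have h1 : ∏ p ∈ (orderOf x).primeFactors, p ∣ Nat.card H := by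
      refine Finset.prod_primes_dvd _ (fun p hp => (Nat.prime_of_mem_primeFactors hp).prime)
        fun p hp => ?_
      have hpn := Nat.dvd_of_mem_primeFactors hp
      have ho : orderOf (x ^ (orderOf x / p)) = p := orderOf_pow_orderOf_div (orderOf_pos x).ne' hpn
      rw [← ho]
      refine orderOf_dvd_natCard H ⟨hX.mem_centralizer (by rw [ho]; exact Nat.prime_of_mem_primeFactors hp)
        (le_normalizer_of_normal (mem_top _)) ?_, hx ▸ pow_mem (mem_zpowers x) _⟩
      rw [ho]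
      exact (hcop.symm.coprime_dvd_left (hn ▸ hpn))
    have h2 : H.relIndex C ∣ orderOf x / ∏ p ∈ (orderOf x).primeFactors, p := by
      obtain ⟨c, hc⟩ := h1
      have h3 : H.relIndex C * Nat.card H = orderOf x := by
        rw [← Nat.card_zpowers, hx]; rw [mul_comm]; exact CF.Transfer.card_mul_relIndex inf_le_right
      refine ⟨c, Nat.div_eq_of_eq_mul_right (Finset.prod_pos fun p hp =>
        (Nat.prime_of_mem_primeFactors hp).pos) ?_⟩
      conv_lhs => rw [← h3, hc]
      ring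
    obtain ⟨c, hc⟩ := h2
    have h3 : x ^ H.relIndex C ∈ H := by
      rw [show H.relIndex C = _ from inf_relIndex_right _ _]
      exact ⟨pow_relIndex_mem _ (hx ▸ mem_zpowers x), pow_mem (hx ▸ mem_zpowers x) _⟩
    have h4 := (pow_mem h3 c).1 y hyD
    rw [← pow_mul, ← hc] at h4
    have h5 := conj_pow_pow hr (orderOf x / ∏ p ∈ (orderOf x).primeFactors, p)
    rw [mul_assoc, h4, inv_mul_cancel_left] at h5
    exact (pow_eq_pow_iff_modEq.mp (h5.symm.trans (pow_one y).symm))
  · set R : Set (FreeGroup (Fin 2)) := {FreeGroup.of (0 : Fin 2) ^ orderOf x,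
      FreeGroup.of (1 : Fin 2) ^ orderOf y,
      (FreeGroup.of (0 : Fin 2))⁻¹ * FreeGroup.of 1 * FreeGroup.of 0 * (FreeGroup.of (1 : Fin 2) ^ r)⁻¹}
    have hR : ∀ w ∈ R, FreeGroup.lift ![x, y] w = 1 := by
      rintro w (rfl | rfl | rfl) <;> simp [pow_orderOf_eq_one, hr]
    have h1 : ∀ w ∈ R, PresentedGroup.mk R w = 1 := fun w hw => PresentedGroup.one_of_mem hw
    obtain ⟨_, h2⟩ := card_le (x := (PresentedGroup.of 0 : PresentedGroup R))
      (y := PresentedGroup.of 1) (r := r) (orderOf_pos x) (orderOf_pos y)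
      (by simpa [PresentedGroup.of] using h1 _ (Or.inl rfl))
      (by simpa [PresentedGroup.of] using h1 _ (Or.inr (Or.inl rfl)))
      (by simpa [mul_inv_eq_one, PresentedGroup.of] using h1 _ (Or.inr (Or.inr rfl))) (by
        rw [← PresentedGroup.closure_range_of R]; congr 1; ext; simp [eq_comm])
    have hs : Function.Surjective (PresentedGroup.toGroup hR) := by
      rw [← MonoidHom.range_eq_top, eq_top_iff, ← ht, closure_le]
      rintro _ (rfl | rfl)
      exacts [⟨.of 0, by simp⟩, ⟨.of 1, by simp⟩]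
    refine ⟨(MulEquiv.ofBijective _ (hs.bijective_of_nat_card_le ?_)).symm⟩
    rwa [← (commutator X).index_mul_card, ← hm, ← hn]


/-- Structure of solvable Frobenius complements. Let G be a finite solvable group that occurs as a Frobenius complement. Then G has a normal subgroup G₀ such that G/G₀ is isomorphic to a subgroup of Sym(4) (G₀ is the kernel of a homomorphism to Sym(4)), all Sylow subgroups of G₀ are cyclic, and G₀ has a presentation ⟨x, y | x^n = 1, y^m = 1, x⁻¹ y x = y^r⟩ with n, m ≥ 1, gcd(r − 1, m) = gcd(n, m) = 1 and r^(n/n′) ≡ 1 (mod m), where n′ is the product of the distinct primes dividing n. -/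
theorem result {G : Type*} [Group G] [Finite G] (hsol : Group.IsSolvable G)
    (hFC : ∃ (L : Type) (_ : Group L) (_ : Finite L) (H : Subgroup L), Cfsg.IsFrobeniusComplement H ∧ Nonempty (G ≃* H)) :
    ∃ G₀ : Subgroup G, G₀.Normal ∧
      (∃ f : G →* Equiv.Perm (Fin 4), f.ker = G₀) ∧
      (∀ (p : ℕ) [Fact p.Prime] (P : Sylow p G₀), IsCyclic P) ∧
      ∃ n m r : ℕ, 0 < n ∧ 0 < m ∧ Nat.Coprime (r - 1) m ∧ Nat.Coprime n m ∧ 1 ≤ r ∧
        r ^ (n / ∏ p ∈ n.primeFactors, p) % m = 1 % m ∧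
        Nonempty (G₀ ≃* PresentedGroup
          ({FreeGroup.of (0 : Fin 2) ^ n, FreeGroup.of (1 : Fin 2) ^ m,
            (FreeGroup.of (0 : Fin 2))⁻¹ * FreeGroup.of 1 * FreeGroup.of 0 * (FreeGroup.of (1 : Fin 2) ^ r)⁻¹} :
            Set (FreeGroup (Fin 2)))) := by
  obtain ⟨N, h1, h2, h3⟩ := (fpf_of_fc hFC).solvable_struct
  refine ⟨N, h1, ?_, fun _ _ _ => inferInstance, zgroup ((fpf_of_fc hFC).subgroup N)⟩
  rcases h3 with rfl | ⟨f, _, rfl⟩ | ⟨f, _, rfl⟩ | ⟨f, _, rfl⟩
  · exact ⟨1, MonoidHom.ker_one⟩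
  · let e : DihedralGroup 2 ≃ Fin 4 := Fintype.equivFinOfCardEq rfl
    exact ⟨(e.permCongrHom.toMonoidHom.comp (MulAction.toPermHom _ _)).comp f,
      MonoidHom.ker_comp_of_injective _ _ (e.permCongrHom.injective.comp MulAction.toPerm_injective)⟩
  · exact ⟨(Subgroup.subtype _).comp f, MonoidHom.ker_comp_of_injective _ _ (subtype_injective _)⟩
  · exact ⟨f, rfl⟩

end Cfsg.Agent.S3358
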