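import Cfsg.Statements.S3361
import Cfsg.Agent.Perm.Huppert3

set_option autoImplicit false
open Cfsg

namespace Cfsg.Agent.S3361

/-- Let q be a prime and V a non-trivial finite vector space over the field with q elements, and let G be a finite solvable group acting faithfully and linearly on V and regularly on the non-zero vectors (transitively, with only the identity fixing a non-zero vector). Then either V can be identified with the additive group of a finite field F so that every element of G acts as x ↦ a·σ(x) (a ∈ F, σ a field automorphism), or V has 5^2, 7^2, 11^2 or 23^2 elements. Moreover, if q ≠ 2 then G has a normal subgroup of index 2, except that when V has 25 elements G may be isomorphic to SL(2,3) and when V has 121 elements G may be isomorphic to SL(2,3) × C₅. -/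
theorem result
    (q : ℕ) [Fact q.Prime] {V : Type*} [AddCommGroup V] [Module (ZMod q) V] [Finite V] [Nontrivial V]
    {G : Type*} [Group G] [Finite G] (hsol : Group.IsSolvable G)
    (ρ : G →* (V ≃ₗ[ZMod q] V)) (hρ : Function.Injective ρ)
    (htrans : ∀ v w : V, v ≠ 0 → w ≠ 0 → ∃ g : G, ρ g v = w)
    (hreg : ∀ v : V, v ≠ 0 → ∀ g : G, ρ g v = v → g = 1) :
    ((∃ (F : Type) (_ : Field F) (_ : Fintype F) (e : V ≃+ F),
        ∀ g : G, ∃ (a : F) (σ : F ≃+* F), ∀ v : V, e (ρ g v) = a * σ (e v)) ∨
      Nat.card V ∈ ({25, 49, 121, 529} : Set ℕ)) ∧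
    (q ≠ 2 → (∃ N : Subgroup G, N.Normal ∧ N.index = 2) ∨
      (Nat.card V = 25 ∧ Nonempty (G ≃* Matrix.SpecialLinearGroup (Fin 2) (ZMod 3))) ∨
      (Nat.card V = 121 ∧ Nonempty (G ≃* Matrix.SpecialLinearGroup (Fin 2) (ZMod 3) × Multiplicative (ZMod 5)))) := by
  letI := DistribMulAction.compHom V ρ
  haveI : FaithfulSMul G V := ⟨fun h => hρ (LinearEquiv.ext h)⟩
  have h1 := Module.natCard_eq_pow_finrank (K := ZMod q) (V := V)
  rw [Nat.card_zmod] at h1
  exact (CF.Perm.Tr.regular (G := G) htrans hreg (GaloisField q (Module.finrank (ZMod q) V))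
    ((GaloisField.card _ _ Module.finrank_pos.ne').trans h1.symm)).imp
    (Or.imp_left fun h => ⟨_, _, Fintype.ofFinite _, h⟩) fun h hq =>
    (h (h1 ▸ ((Fact.out : q.Prime).odd_of_ne_two hq).pow)).imp_left
      fun ⟨N, hN⟩ => ⟨N, Subgroup.normal_of_index_eq_two hN, hN⟩

end Cfsg.Agent.S3361
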