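import Cfsg.Statements.S3362
import Cfsg.Agent.Perm.Sift

set_option autoImplicit false
open Cfsg

namespace Cfsg.Agent.S3362

open CF.Perm.SS MulAction

def C : List CF.Perm.SS.Lvl := [
  ⟨2, [[0, 1, 2, 4, 5, 3, 7, 8, 6, 10, 11, 9], [0, 1, 2, 6, 7, 8, 9, 10, 11, 3, 4, 5], [0, 1, 2, 3, 6, 9, 5, 8, 11, 4, 7, 10], [0, 1, 2, 3, 7, 11, 10, 5, 6, 8, 9, 4], [0, 1, 2, 3, 10, 8, 11, 6, 4, 7, 5, 9], [3, 1, 2, 0, 4, 5, 7, 6, 10, 11, 8, 9], [1, 0, 2, 3, 4, 5, 9, 10, 11, 6, 7, 8], [0, 2, 1, 3, 4, 5, 11, 9, 10, 7, 8, 6]],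
    [(2, [], [0, 1, 2, 3, 4, 5, 6, 7, 8, 9, 10, 11]),
     (1, [7], [0, 2, 1, 3, 4, 5, 11, 9, 10, 7, 8, 6]),
     (0, [7, 6], [2, 0, 1, 3, 4, 5, 7, 8, 6, 11, 9, 10]),
     (3, [7, 6, 5], [3, 0, 1, 2, 4, 5, 8, 7, 9, 10, 6, 11]),
     (5, [7, 6, 5, 0], [3, 0, 1, 4, 5, 2, 7, 9, 8, 6, 11, 10]),
     (9, [7, 6, 5, 1], [3, 0, 1, 8, 7, 9, 10, 6, 11, 2, 4, 5]),
     (4, [7, 6, 5, 0, 0], [3, 0, 1, 5, 2, 4, 9, 8, 7, 11, 10, 6]),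
     (11, [7, 6, 5, 0, 1], [3, 0, 1, 7, 9, 8, 6, 11, 10, 4, 5, 2]),
     (6, [7, 6, 5, 0, 2], [3, 0, 1, 4, 7, 6, 2, 8, 10, 5, 9, 11]),
     (7, [7, 6, 5, 0, 3], [3, 0, 1, 4, 9, 10, 11, 2, 7, 8, 6, 5]),
     (10, [7, 6, 5, 0, 4], [3, 0, 1, 4, 11, 8, 10, 7, 5, 9, 2, 6]),
     (8, [7, 6, 5, 0, 0, 4], [3, 0, 1, 5, 10, 7, 6, 9, 2, 8, 4, 11])],
    [[0], [1], [2], [3], [4], [5], [6]]⟩,
  ⟨1, [[0, 1, 2, 4, 5, 3, 7, 8, 6, 10, 11, 9], [0, 1, 2, 6, 7, 8, 9, 10, 11, 3, 4, 5], [0, 1, 2, 3, 6, 9, 5, 8, 11, 4, 7, 10], [0, 1, 2, 3, 7, 11, 10, 5, 6, 8, 9, 4], [0, 1, 2, 3, 10, 8, 11, 6, 4, 7, 5, 9], [3, 1, 2, 0, 4, 5, 7, 6, 10, 11, 8, 9], [1, 0, 2, 3, 4, 5, 9, 10, 11, 6, 7, 8]],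
    [(1, [], [0, 1, 2, 3, 4, 5, 6, 7, 8, 9, 10, 11]),
     (0, [6], [1, 0, 2, 3, 4, 5, 9, 10, 11, 6, 7, 8]),
     (3, [6, 5], [3, 0, 2, 1, 4, 5, 10, 9, 7, 8, 11, 6]),
     (5, [6, 5, 0], [3, 0, 2, 4, 5, 1, 9, 7, 10, 11, 6, 8]),
     (9, [6, 5, 1], [3, 0, 2, 10, 9, 7, 8, 11, 6, 1, 4, 5]),
     (4, [6, 5, 0, 0], [3, 0, 2, 5, 1, 4, 7, 10, 9, 6, 8, 11]),
     (11, [6, 5, 0, 1], [3, 0, 2, 9, 7, 10, 11, 6, 8, 4, 5, 1]),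
     (6, [6, 5, 0, 2], [3, 0, 2, 4, 9, 11, 1, 10, 8, 5, 7, 6]),
     (7, [6, 5, 0, 3], [3, 0, 2, 4, 7, 8, 6, 1, 9, 10, 11, 5]),
     (10, [6, 5, 0, 4], [3, 0, 2, 4, 6, 10, 8, 9, 5, 7, 1, 11]),
     (8, [6, 5, 0, 0, 4], [3, 0, 2, 5, 8, 9, 11, 7, 1, 10, 4, 6])],
    [[0], [1], [2], [3], [4], [5]]⟩,
  ⟨0, [[0, 1, 2, 4, 5, 3, 7, 8, 6, 10, 11, 9], [0, 1, 2, 6, 7, 8, 9, 10, 11, 3, 4, 5], [0, 1, 2, 3, 6, 9, 5, 8, 11, 4, 7, 10], [0, 1, 2, 3, 7, 11, 10, 5, 6, 8, 9, 4], [0, 1, 2, 3, 10, 8, 11, 6, 4, 7, 5, 9], [3, 1, 2, 0, 4, 5, 7, 6, 10, 11, 8, 9]],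
    [(0, [], [0, 1, 2, 3, 4, 5, 6, 7, 8, 9, 10, 11]),
     (3, [5], [3, 1, 2, 0, 4, 5, 7, 6, 10, 11, 8, 9]),
     (5, [5, 0], [3, 1, 2, 4, 5, 0, 6, 10, 7, 8, 9, 11]),
     (9, [5, 1], [3, 1, 2, 7, 6, 10, 11, 8, 9, 0, 4, 5]),
     (4, [5, 0, 0], [3, 1, 2, 5, 0, 4, 10, 7, 6, 9, 11, 8]),
     (11, [5, 0, 1], [3, 1, 2, 6, 10, 7, 8, 9, 11, 4, 5, 0]),
     (6, [5, 0, 2], [3, 1, 2, 4, 6, 8, 0, 7, 11, 5, 10, 9]),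
     (7, [5, 0, 3], [3, 1, 2, 4, 10, 11, 9, 0, 6, 7, 8, 5]),
     (10, [5, 0, 4], [3, 1, 2, 4, 9, 7, 11, 6, 5, 10, 0, 8]),
     (8, [5, 0, 0, 4], [3, 1, 2, 5, 11, 6, 8, 10, 0, 7, 4, 9])],
    [[0], [1], [2], [3], [4]]⟩,
  ⟨3, [[0, 1, 2, 4, 5, 3, 7, 8, 6, 10, 11, 9], [0, 1, 2, 6, 7, 8, 9, 10, 11, 3, 4, 5], [0, 1, 2, 3, 6, 9, 5, 8, 11, 4, 7, 10], [0, 1, 2, 3, 7, 11, 10, 5, 6, 8, 9, 4], [0, 1, 2, 3, 10, 8, 11, 6, 4, 7, 5, 9]],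
    [(3, [], [0, 1, 2, 3, 4, 5, 6, 7, 8, 9, 10, 11]),
     (5, [0], [0, 1, 2, 4, 5, 3, 7, 8, 6, 10, 11, 9]),
     (9, [1], [0, 1, 2, 6, 7, 8, 9, 10, 11, 3, 4, 5]),
     (4, [0, 0], [0, 1, 2, 5, 3, 4, 8, 6, 7, 11, 9, 10]),
     (11, [0, 1], [0, 1, 2, 7, 8, 6, 10, 11, 9, 4, 5, 3]),
     (6, [0, 2], [0, 1, 2, 4, 7, 10, 3, 6, 9, 5, 8, 11]),
     (7, [0, 3], [0, 1, 2, 4, 8, 9, 11, 3, 7, 6, 10, 5]),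
     (10, [0, 4], [0, 1, 2, 4, 11, 6, 9, 7, 5, 8, 3, 10]),
     (8, [0, 0, 4], [0, 1, 2, 5, 9, 7, 10, 8, 3, 6, 4, 11])],
    [[2], [3]]⟩,
  ⟨4, [[0, 1, 2, 3, 6, 9, 5, 8, 11, 4, 7, 10], [0, 1, 2, 3, 7, 11, 10, 5, 6, 8, 9, 4]],
    [(4, [], [0, 1, 2, 3, 4, 5, 6, 7, 8, 9, 10, 11]),
     (9, [0], [0, 1, 2, 3, 6, 9, 5, 8, 11, 4, 7, 10]),
     (11, [1], [0, 1, 2, 3, 7, 11, 10, 5, 6, 8, 9, 4]),
     (5, [0, 0], [0, 1, 2, 3, 5, 4, 9, 11, 10, 6, 8, 7]),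
     (10, [0, 1], [0, 1, 2, 3, 8, 10, 7, 9, 5, 11, 4, 6]),
     (8, [1, 0], [0, 1, 2, 3, 10, 8, 11, 6, 4, 7, 5, 9]),
     (6, [0, 0, 0], [0, 1, 2, 3, 9, 6, 4, 10, 7, 5, 11, 8]),
     (7, [0, 0, 1], [0, 1, 2, 3, 11, 7, 8, 4, 9, 10, 6, 5])],
    []⟩]


theorem ok : chainOK 12 C = true := by decide +kernel

/-- An explicit construction of the Mathieu groups of degrees 11 and 12. On the points 0, …, 11 let s = (3 4 5)(6 7 8)(9 10 11), t = (3 6 9)(4 7 10)(5 8 11), u = (4 6 5 9)(7 8 11 10), v = (4 7 5 11)(6 10 9 8), w = (4 10 5 8)(6 11 9 7), x₁ = (0 3)(6 7)(8 10)(9 11), x₂ = (0 1)(6 9)(7 10)(8 11), x₃ = (1 2)(6 11)(7 9)(8 10) (each written as a product of transpositions). Then the group M₁₂ generated by all eight permutations is sharply 5-transitive on the 12 points and has order 95040, and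 the group M₁₁ generated by the first seven has order 7920 and is the stabilizer of the point 2 in M₁₂. -/
theorem result
    (s t u v w x₁ x₂ x₃ : Equiv.Perm (Fin 12))
    (hs : s = Equiv.swap (3 : Fin 12) 5 * Equiv.swap (3 : Fin 12) 4 * Equiv.swap (6 : Fin 12) 8 * Equiv.swap (6 : Fin 12) 7 * Equiv.swap (9 : Fin 12) 11 * Equiv.swap (9 : Fin 12) 10) (ht : t = Equiv.swap (3 : Fin 12) 9 * Equiv.swap (3 : Fin 12) 6 * Equiv.swap (4 : Fin 12) 10 * Equiv.swap (4 : Fin 12) 7 * Equiv.swap (5 : Fin 12) 11 * Equiv.swap (5 : Fin 12) 8)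
    (hu : u = Equiv.swap (4 : Fin 12) 9 * Equiv.swap (4 : Fin 12) 5 * Equiv.swap (4 : Fin 12) 6 * Equiv.swap (7 : Fin 12) 10 * Equiv.swap (7 : Fin 12) 11 * Equiv.swap (7 : Fin 12) 8) (hv : v = Equiv.swap (4 : Fin 12) 11 * Equiv.swap (4 : Fin 12) 5 * Equiv.swap (4 : Fin 12) 7 * Equiv.swap (6 : Fin 12) 8 * Equiv.swap (6 : Fin 12) 9 * Equiv.swap (6 : Fin 12) 10) (hw : w = Equiv.swap (4 : Fin 12) 8 * Equiv.swap (4 : Fin 12) 5 * Equiv.swap (4 : Fin 12) 10 * Equiv.swap (6 : Fin 12) 7 * Equiv.swap (6 : Fin 12) 9 * Equiv.swap (6 : Fin 12) 11)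
    (hx₁ : x₁ = Equiv.swap (0 : Fin 12) 3 * Equiv.swap (6 : Fin 12) 7 * Equiv.swap (8 : Fin 12) 10 * Equiv.swap (9 : Fin 12) 11) (hx₂ : x₂ = Equiv.swap (0 : Fin 12) 1 * Equiv.swap (6 : Fin 12) 9 * Equiv.swap (7 : Fin 12) 10 * Equiv.swap (8 : Fin 12) 11)
    (hx₃ : x₃ = Equiv.swap (1 : Fin 12) 2 * Equiv.swap (6 : Fin 12) 11 * Equiv.swap (7 : Fin 12) 9 * Equiv.swap (8 : Fin 12) 10)
    (M₁₂ M₁₁ : Subgroup (Equiv.Perm (Fin 12))) (hM₁₂ : M₁₂ = Subgroup.closure {s, t, u, v, w, x₁, x₂, x₃})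
    (hM₁₁ : M₁₁ = Subgroup.closure {s, t, u, v, w, x₁, x₂}) :
    MulAction.IsMultiplyPretransitive M₁₂ (Fin 12) 5 ∧ (∀ y : Fin 5 ↪ Fin 12, MulAction.stabilizer M₁₂ y = ⊥) ∧
    Nat.card M₁₂ = 95040 ∧ Nat.card M₁₁ = 7920 ∧
    M₁₁ = M₁₂ ⊓ MulAction.stabilizer (Equiv.Perm (Fin 12)) (2 : Fin 12) := by
  have e1 : M₁₂ = grp 12 (gens C) := by
    have : gens C = [s, t, u, v, w, x₁, x₂, x₃].map enc := by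
      subst hs ht hu hv hw hx₁ hx₂ hx₃; decide +kernel
    rw [this, grp_map, hM₁₂]
    congr 1; ext; simp
  have e2 : M₁₁ = grp 12 (gens (C.drop 1)) := by
    have : gens (C.drop 1) = [s, t, u, v, w, x₁, x₂].map enc := by
      subst hs ht hu hv hw hx₁ hx₂; decide +kernel
    rw [this, grp_map, hM₁₁]
    congr 1; ext; simp
  have c1 : Nat.card M₁₂ = 95040 := e1 ▸ (card_grp ok).trans (by decide +kernel)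
  have c2 : Nat.card M₁₁ = 7920 := e2 ▸ (card_grp (chainOK_drop ok 1)).trans (by decide +kernel)
  let x : Fin 5 ↪ Fin 12 := ⟨![0, 1, 2, 3, 4], by decide⟩
  have hx : stabilizer M₁₂ x = ⊥ := by
    refine (Subgroup.eq_bot_iff_forall _).2 fun g hg => Subtype.ext ?_
    have h : ∀ i, (g : Equiv.Perm (Fin 12)) (x i) = x i := fun i => DFunLike.congr_fun hg i
    have := (mem_drop_iff ok 5 (g := g)).2 ⟨e1 ▸ g.2, fun b hb => by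
      have : ∀ b : Fin 12, (b : ℕ) ∈ (C.take 5).map (·.b) → ∃ i, b = x i := by decide +kernel
      obtain ⟨i, rfl⟩ := this b hb
      exact h i⟩
    simpa [show gens (C.drop 5) = [] from rfl, grp] using this
  have h5 : IsMultiplyPretransitive M₁₂ (Fin 12) 5 :=
    multTrans_of_card x (by erw [hx, c1]; simp [Nat.descFactorial])
  refine ⟨h5, fun y => ?_, c1, c2, ?_⟩
  · obtain ⟨g, rfl⟩ := exists_smul_eq M₁₂ x y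
    erw [stabilizer_smul_eq_stabilizer_map_conj, hx, Subgroup.map_bot]
  · rw [e1, e2]
    exact (stab_eq (L := C.head (by decide)) (c := C.drop 1) ok (by decide)).symm

end Cfsg.Agent.S3362
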