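import Cfsg.Statements.S3370
import Cfsg.Agent.Perm.Huppert3

set_option autoImplicit false
open Cfsg

namespace Cfsg.Agent.S3370

open Subgroup CF.Perm MulAction Module
open scoped IsMulCommutative Pointwise

theorem key {x : ℤ} (hx : Odd x) (h3 : 3 ≤ |x|) {n j : ℕ} (hn : Odd n) (h : x ^ n - 1 ∣ 2 ^ j) :
    n = 1 := by
  have h1 := geom_sum_mul x n
  have h2 : Odd (∑ i ∈ Finset.range n, x ^ i) := by
    rw [← ZMod.intCast_eq_one_iff_odd] at hx ⊢
    simpa [hx, ZMod.natCast_eq_one_iff_odd] using hn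
  obtain ⟨k, rfl⟩ : ∃ k, n = k + 1 := ⟨n - 1, (Nat.sub_add_cancel hn.pos).symm⟩
  rcases Int.isUnit_iff.1 ((Int.isCoprime_two_right.2 h2).pow_right.isUnit_of_dvd
    ((Dvd.intro _ h1).trans h)) with e | e <;> rw [e, pow_succ] at h1
  · have : x ^ k = 1 := mul_right_cancel₀ (b := x) (by rintro rfl; simp at h3) (by linarith)
    have := congrArg abs this
    rw [abs_pow, abs_one, pow_eq_one_iff_cases] at this
    omega
  · have := Int.le_of_dvd two_pos ((abs_dvd x 2).2 ⟨x ^ k + 1, by linarith⟩)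
    omega

theorem sd {G : Type*} [Group G] (φ : G →* GL (Fin 2) (ZMod 3)) (hφ : Function.Injective φ)
    (h : Nat.card G = 16) : IsQuasiDihedral G := by
  let X : GL (Fin 2) (ZMod 3) := ⟨!![1, 1; 1, 0], !![0, 1; 1, -1], by decide, by decide⟩
  let Y : GL (Fin 2) (ZMod 3) := ⟨!![2, 0; 1, 1], !![2, 0; 1, 1], by decide, by decide⟩
  have h1 : orderOf X = 2 ^ (2 + 1) := orderOf_eq_prime_pow (by decide) (by decide)
  have h2 : orderOf Y = 2 := orderOf_eq_prime (by decide) (by decide)
  have h3 : Y * X * Y⁻¹ = X ^ 3 := by decide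
  obtain ⟨T, hT⟩ := (IsPGroup.to_sup_of_normal_left' (p := 2) (H := zpowers X) (K := zpowers Y)
    (.of_card ((Nat.card_zpowers X).trans h1)) (.of_card (n := 1) ((Nat.card_zpowers Y).trans h2))
    (zpowers_le.2 (mem_normalizer_fintype (by
      rintro _ ⟨k, rfl⟩
      rw [← conj_zpow, h3]
      exact zpow_mem (pow_mem (mem_zpowers X) 3) k)))).exists_le_sylow
  obtain ⟨g, hg⟩ := exists_smul_eq (GL (Fin 2) (ZMod 3)) T (Sylow.ofCard φ.range (by
    rw [← Nat.card_congr (MonoidHom.ofInjective hφ).toEquiv, h, Matrix.card_GL_field]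
    decide +kernel))
  have h4 : ∀ x ∈ T, ∃ y, φ y = MulAut.conj g x := fun x hx =>
    (congrArg Sylow.toSubgroup hg).le (smul_mem_pointwise_smul x (MulAut.conj g) _ hx)
  obtain ⟨x, hx⟩ := h4 X (hT (mem_sup_left (mem_zpowers X)))
  obtain ⟨y, hy⟩ := h4 Y (hT (mem_sup_right (mem_zpowers Y)))
  refine ⟨3, le_rfl, h, x, y, ?_, ?_, hφ ?_⟩
  · rw [← orderOf_injective φ hφ, hx, MulEquiv.orderOf_eq, h1]
  · rw [← orderOf_injective φ hφ, hy, MulEquiv.orderOf_eq, h2]
  · rw [map_mul, map_mul, map_inv, map_pow, hx, hy, ← map_inv, ← map_mul, ← map_mul, h3, map_pow]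
    rfl

/-- Let q be a prime, V a non-trivial finite vector space over the field with q elements, and G a non-trivial finite p-group (p prime) acting faithfully and linearly on V and transitively on the non-zero vectors. Then either q = 2 and G has prime order p = |V| − 1; or p = 2, V has q elements with q = 2^m + 1 and G is cyclic of order 2^m; or p = 2, q = 3, V has 9 elements and G is cyclic of order 8, quaternion of order 8, or semidihedral of order 16. -/
theorem result (q : ℕ) [Fact q.Prime] {V : Type*} [AddCommGroup V] [Module (ZMod q) V] [Finite V] [Nontrivial V]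
    {G : Type*} [Group G] [Finite G] [Nontrivial G] (p : ℕ) [Fact p.Prime] (hG : IsPGroup p G)
    (ρ : G →* (V ≃ₗ[ZMod q] V)) (hρ : Function.Injective ρ)
    (htrans : ∀ v w : V, v ≠ 0 → w ≠ 0 → ∃ g : G, ρ g v = w) :
    (q = 2 ∧ p = Nat.card V - 1 ∧ Nat.card G = p) ∨
    (p = 2 ∧ Nat.card V = q ∧ (∃ m : ℕ, q = 2 ^ m + 1 ∧ Nat.card G = 2 ^ m) ∧ IsCyclic G) ∨
    (p = 2 ∧ q = 3 ∧ Nat.card V = 9 ∧
      ((IsCyclic G ∧ Nat.card G = 8) ∨ Nonempty (G ≃* QuaternionGroup 2) ∨ (Cfsg.IsQuasiDihedral G ∧ Nat.card G = 16))) := by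
  have hp : p.Prime := Fact.out
  have hq : q.Prime := Fact.out
  let _ := DistribMulAction.compHom V ρ
  have hf : ∀ g : G, (∀ v : V, g • v = v) → g = 1 := fun g h => hρ (by ext v; rw [map_one]; exact h v)
  have ht : Tr G V := htrans
  obtain ⟨v, hv⟩ := exists_ne (0 : V)
  have h1 : (stabilizer G v).index + 1 = Nat.card V := by
    rw [index_stabilizer, ← Set.ncard_compl_add_ncard ({0} : Set V), Set.ncard_singleton]
    congr 2
    exact Set.ext fun w => ⟨by rintro ⟨g, rfl⟩; exact mt (smul_eq_zero_iff_eq g).1 hv, ht v w hv⟩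
  obtain ⟨j, hj⟩ := hG.index (stabilizer G v)
  have hV := natCard_eq_pow_finrank (K := ZMod q) (V := V)
  rw [Nat.card_zmod] at hV
  have hn := finrank_pos (R := ZMod q) (M := V)
  have h2 : finrank (ZMod q) V = 1 → ∀ g : G, ∃ c : ZMod q, ∀ w : V, g • w = c • w := fun h g => by
    obtain ⟨c, hc⟩ := (finrank_eq_one_iff_of_nonzero' v hv).1 h (g • v)
    refine ⟨c, fun w => ?_⟩
    obtain ⟨d, rfl⟩ := (finrank_eq_one_iff_of_nonzero' v hv).1 h w
    rw [smul_comm c, hc]
    exact map_smul (ρ g) d v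
  have h3 : finrank (ZMod q) V = 1 → ∀ w : V, w ≠ 0 → ∀ g : G, g • w = w → g = 1 :=
    fun h w hw g e => by
      obtain ⟨c, hc⟩ := h2 h g
      refine hf g fun u => ?_
      rw [hc, smul_left_injective _ hw ((hc w).symm.trans (e.trans (one_smul _ w).symm)), one_smul]
  have h4 : (2 : ℤ) < Nat.card V := by
    by_contra h
    have := ht.card_eq (h3 (by_contra fun e => by
      have := Nat.pow_le_pow_left hq.two_le (finrank (ZMod q) V)
      have := Nat.pow_le_pow_right two_pos (show 2 ≤ finrank (ZMod q) V by omega)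
      omega))
    have := Finite.one_lt_card (α := G)
    omega
  have hj0 : j ≠ 0 := by rintro rfl; rw [pow_zero] at hj; omega
  rcases hq.eq_two_or_odd' with rfl | hq2
  · obtain ⟨k, hk⟩ : ∃ k, finrank (ZMod 2) V = k + 2 :=
      Nat.exists_eq_add_of_le' (by_contra fun e => by rw [show finrank (ZMod 2) V = 1 by omega] at hV; omega)
    have h5 : Odd p := hp.eq_two_or_odd'.resolve_left (by
      rintro rfl
      obtain ⟨j, rfl⟩ := Nat.exists_eq_succ_of_ne_zero hj0
      rw [hk, pow_add] at hV; rw [pow_succ] at hj; omega)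
    have h6 : Odd j := Nat.not_even_iff_odd.1 (by
      rintro ⟨i, rfl⟩
      obtain ⟨s, hs⟩ := h5.pow (n := i)
      rw [hj, pow_add, hs, hV, hk, pow_add] at h1
      have : (2 * s + 1) * (2 * s + 1) + 1 = 4 * (s * s + s) + 2 := by ring
      omega)
    obtain rfl := key (x := -p) (j := k + 2) (by simpa using h5) (by
      have := hp.two_le; obtain ⟨s, hs⟩ := h5; simp; omega) h6 (by
        rw [h6.neg_pow, ← neg_add', neg_dvd]
        exact_mod_cast (by rw [← hj, h1, hV, hk] : p ^ j + 1 = _).dvd)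
    rw [pow_one] at hj
    refine .inl ⟨rfl, by omega, ?_⟩
    suffices h : fixedPoints (stabilizer G v) V = Set.univ by
      rw [← card_mul_index (stabilizer G v), hj, show stabilizer G v = ⊥ from eq_bot_iff.2
        fun g hg => hf g fun w => h.ge trivial (⟨g, hg⟩ : stabilizer G v), card_bot, one_mul]
    have h7 := (hG.to_subgroup (stabilizer G v)).card_modEq_card_fixedPoints V
    have h8 : 1 < (fixedPoints (stabilizer G v) V).ncard :=
      (Set.one_lt_ncard (Set.toFinite _)).2 ⟨v, fun g => g.2, 0, fun g => smul_zero g, hv⟩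
    refine Set.eq_of_subset_of_ncard_le (Set.subset_univ _) ?_
    rw [Set.ncard_univ, ← h1, hj] at *
    have := Nat.le_of_dvd (Nat.sub_pos_of_lt h8) ((Nat.modEq_iff_dvd' h8.le).1
      ((Nat.add_modEq_left (n := p) (a := 1)).symm.trans h7))
    omega
  obtain rfl : p = 2 := by
    have : Even (p ^ j) := by
      rw [← hj, ← Nat.not_odd_iff_even, ← Nat.odd_add_one, h1, hV]
      exact hq2.pow
    exact (hp.even_iff).1 (Nat.even_pow.1 this).1
  have h5 : 3 ≤ q := by have := hq.two_le; obtain ⟨s, hs⟩ := hq2; omega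
  rcases Nat.even_or_odd (finrank (ZMod q) V) with ⟨k, hk⟩ | h6
  · have h6 : (q ^ k + 1) * (q ^ k - 1) = 2 ^ j := by
      rw [← Nat.sq_sub_sq, ← pow_mul, mul_two, ← hk]; omega
    obtain ⟨a, -, ha⟩ := (Nat.dvd_prime_pow Nat.prime_two).1 (Dvd.intro _ h6)
    obtain ⟨b, -, hb⟩ := (Nat.dvd_prime_pow Nat.prime_two).1 (Dvd.intro_left _ h6)
    have h7 : q ≤ q ^ k := Nat.le_self_pow (by omega) q
    have h8 : q ^ k = 3 := by
      rcases a with _ | _ | a <;> rcases b with _ | _ | b <;> (try rw [pow_succ, pow_succ] at ha) <;>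
        (try rw [pow_succ, pow_succ] at hb) <;> omega
    obtain rfl : q = 3 := by omega
    obtain rfl : k = 1 := Nat.pow_right_injective (by norm_num : 2 ≤ 3) h8
    let ψ := ((Matrix.GeneralLinearGroup.toLin' (finBasisOfFinrankEq (ZMod 3) V hk)).trans
      (LinearMap.GeneralLinearGroup.generalLinearEquiv _ V)).symm
    let φ := ψ.toMonoidHom.comp ρ
    have hφ : Function.Injective φ := ψ.injective.comp hρ
    have h9 := card_dvd_of_injective φ hφ
    rw [Matrix.card_GL_field, ← card_mul_index (stabilizer G v)] at h9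
    rw [hk] at hV
    have h10 : (stabilizer G v).index = 8 := by omega
    obtain ⟨i, hi⟩ := (hG.to_subgroup (stabilizer G v)).exists_card_eq
    have h11 := card_mul_index (stabilizer G v)
    rw [h10, hi] at h9 h11
    refine .inr (.inr ⟨rfl, rfl, hV, ?_⟩)
    rcases i with _ | _ | i
    · rcases (fpf_of_regular (G := G) (V := V) fun w hw g hg => by
        obtain ⟨k, rfl⟩ := ht v w hv hw
        exact conj_eq_one_iff.1 ((card_eq_one.1 hi).le (x := k⁻¹ * g * k⁻¹⁻¹) (by
          rw [mem_stabilizer_iff, inv_inv, mul_smul, mul_smul, hg, inv_smul_smul]))).isCyclic_or_quaternion (hG.to_subgroup ⊤) with h | ⟨-, n, -, ⟨e⟩⟩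
      · exact .inl ⟨isCyclic_of_surjective _ topEquiv.surjective, h11.symm⟩
      · have := Nat.card_congr e.toEquiv
        rw [card_top, ← h11, Nat.card_eq_fintype_card, QuaternionGroup.card] at this
        exact .inr (.inl ⟨topEquiv.symm.trans (by rwa [show 2 ^ n = 2 by omega] at e)⟩)
    · exact .inr (.inr ⟨sd φ hφ h11.symm, h11.symm⟩)
    · have := (Dvd.intro_left (2 ^ i) (by ring) : 32 ∣ 2 ^ (i + 1 + 1) * 8).trans h9
      simp at this
  have h7 := key (x := q) (j := j) (by simpa using hq2) (by simpa using h5) h6 (by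
    rw [show (q : ℤ) ^ finrank (ZMod q) V = 2 ^ j + 1 by exact_mod_cast (by omega)]; simp)
  rw [h7, pow_one] at hV
  have : IsMulCommutative G := ⟨⟨fun a b => hρ (LinearEquiv.ext fun w => by
    obtain ⟨c, hc⟩ := h2 h7 a
    obtain ⟨d, hd⟩ := h2 h7 b
    change (a * b) • w = (b * a) • w
    rw [mul_smul, mul_smul, hc, hd, hd, hc, smul_comm])⟩⟩
  exact .inr (.inl ⟨rfl, hV, ⟨j, by omega, (ht.card_eq (h3 h7)).trans (by omega)⟩,
    isCyclic_of_surjective _ (topEquiv (G := G)).surjective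
      (hH := (fpf_of_regular (h3 h7)).isCyclic_of_comm ⊤)⟩)

end Cfsg.Agent.S3370
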