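import Cfsg.Statements.S3371
import Cfsg.Agent.HT.C

set_option autoImplicit false
open Cfsg

namespace Cfsg.Agent.S3371
open Subgroup
open scoped commutatorElement Pointwise
open CF.HT

theorem coords {F V G : Type*} [Field F] [Finite F] [AddCommGroup V] [Module F V] [Group G]
    {ρ : G →* (V ≃ₗ[F] V)} [Finite G] [Finite V] [Nontrivial V] (h : Half 2 ρ)
    {z t : G} (hz : z ∈ center G) (z2 : z ^ 2 = 1) (z1 : z ≠ 1)
    (ht : ∀ g, g * t * g⁻¹ = t ∨ g * t * g⁻¹ = z * t) {v : V} (v0 : v ≠ 0) (hv : ρ t v = v)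
    (c1 : Nat.card (Fx ρ t) = Nat.card F) (c2 : Nat.card V = Nat.card F ^ 2) {s : G}
    (ss : s * s = 1) (st : s * t * s⁻¹ = z * t)
    (tr : ∀ u, u ≠ 0 → ρ t u = u → ∃ x, x * t = t * x ∧ s * x * s = x⁻¹ ∧ ρ x v = u)
    (cov : ∀ g, g * t = t * g → ∃ x, x * t = t * x ∧ s * x * s = x⁻¹ ∧ (g = x ∨ g = x * t)) :
    ∃ e : V ≃ₗ[F] (Fin 2 → F), ∀ f : (Fin 2 → F) ≃ₗ[F] (Fin 2 → F),
      (∃ g : G, f = e.symm.trans ((ρ g).trans e)) ↔
      ∃ a s : F, a ≠ 0 ∧ (s = 1 ∨ s = -1) ∧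
        ((∀ v, f v = ![a * v 0, s * a⁻¹ * v 1]) ∨ (∀ v, f v = ![s * a⁻¹ * v 1, a * v 0])) := by
  have si : s⁻¹ = s := inv_eq_of_mul_eq_one_right ss
  have sv : ∀ u, ρ s (ρ s u) = u := fun u => by rw [← act_mul, ss]; simp
  have tw : ρ t (ρ s v) = -ρ s v := by
    have : t * s = s * (z * t) := by rw [← st, si, ← mul_assoc, ← mul_assoc, ss, one_mul]
    rw [← act_mul, this, act_mul, act_mul, hv, h.neg hz z2 z1, map_neg]
  let L : (Fin 2 → F) →ₗ[F] V := Fintype.linearCombination F ![v, ρ s v]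
  have hL : ∀ c, L c = c 0 • v + c 1 • ρ s v := fun c => by
    simp [L, Fintype.linearCombination_apply, Fin.sum_univ_two]
  have inj : Function.Injective L := by
    rw [injective_iff_map_eq_zero]
    intro c hc
    have h1 := congrArg (ρ t) hc
    rw [hL] at hc h1
    rw [map_add, map_smul, map_smul, hv, tw, map_zero, smul_neg, ← hc, add_right_inj] at h1
    have h2 := h.eq_zero_of_neg h1
    rw [h2, add_zero] at hc
    ext i
    fin_cases i
    · exact (smul_eq_zero.1 hc).resolve_right v0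
    · exact (smul_eq_zero.1 h2).resolve_right (act_ne v0 s)
  let e := LinearEquiv.ofBijective L ((Nat.bijective_iff_injective_and_card _).2
    ⟨inj, by rw [c2, Nat.card_fun]; simp⟩)
  have he : ∀ c, e c = c 0 • v + c 1 • ρ s v := hL
  have line : ∀ u, ρ t u = u → ∃ a : F, a • v = u := fun u hu => by
    have : Function.Bijective (fun a : F => (⟨a • v, mem_Fx.2 (by rw [map_smul, hv])⟩ : Fx ρ t)) :=
      (Nat.bijective_iff_injective_and_card _).2
        ⟨fun a b e => smul_left_injective F v0 (congrArg Subtype.val e), c1.symm⟩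
    obtain ⟨a, ha⟩ := this.2 ⟨u, mem_Fx.2 hu⟩
    exact ⟨a, congrArg Subtype.val ha⟩
  have hx : ∀ (x : G) (a : F), a ≠ 0 → s * x * s = x⁻¹ → ρ x v = a • v →
      ρ x (ρ s v) = a⁻¹ • ρ s v := fun x a a0 h1 h2 => by
    have e1 : x * s = s * x⁻¹ := by rw [← h1, ← mul_assoc, ← mul_assoc, ss, one_mul]
    have e2 : ρ x⁻¹ v = a⁻¹ • v := by
      rw [eq_inv_smul_iff₀ a0, ← map_smul, ← h2, act_inv]
    rw [← act_mul, e1, act_mul, e2, map_smul]
  have diag : ∀ (g : G) (a b : F), ρ g v = a • v → ρ g (ρ s v) = b • ρ s v → ∀ c,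
      (e.symm.symm.trans ((ρ g).trans e.symm)) c = ![a * c 0, b * c 1] := fun g a b h1 h2 c => by
    rw [LinearEquiv.symm_symm, LinearEquiv.trans_apply, LinearEquiv.trans_apply,
      LinearEquiv.symm_apply_eq]
    simp only [he, map_add, map_smul, h1, h2, smul_smul, mul_comm]
    simp
  have anti : ∀ (g : G) (a b : F), ρ g v = a • v → ρ g (ρ s v) = b • ρ s v → ∀ c,
      (e.symm.symm.trans ((ρ (s * g)).trans e.symm)) c = ![b * c 1, a * c 0] :=
    fun g a b h1 h2 c => by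
    rw [LinearEquiv.symm_symm, LinearEquiv.trans_apply, LinearEquiv.trans_apply,
      LinearEquiv.symm_apply_eq]
    simp only [he, map_add, map_smul, act_mul, h1, h2, smul_smul, mul_comm, sv]
    simp [add_comm]
  have inH : ∀ g, g * t = t * g → ∃ a ε : F, a ≠ 0 ∧ (ε = 1 ∨ ε = -1) ∧ ρ g v = a • v ∧
      ρ g (ρ s v) = (ε * a⁻¹) • ρ s v := fun g hg => by
    obtain ⟨x, h1, h2, h3⟩ := cov g hg
    obtain ⟨a, ha⟩ := line (ρ x v) (by rw [← act_mul, ← h1, act_mul, hv])
    have a0 : a ≠ 0 := by rintro rfl; exact act_ne v0 x (by rw [← ha, zero_smul])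
    have := hx x a a0 h2 ha.symm
    rcases h3 with rfl | rfl
    · exact ⟨a, 1, a0, Or.inl rfl, ha.symm, by rw [this, one_mul]⟩
    · exact ⟨a, -1, a0, Or.inr rfl, by rw [act_mul, hv, ha], by
        rw [act_mul, tw, map_neg, this, neg_one_mul, neg_smul]⟩
  refine ⟨e.symm, fun f => ⟨?_, ?_⟩⟩
  · rintro ⟨g, rfl⟩
    rcases ht g with hg | hg
    · obtain ⟨a, ε, a0, hε, h1, h2⟩ := inH g (mul_inv_eq_iff_eq_mul.1 hg)
      exact ⟨a, ε, a0, hε, Or.inl (diag g _ _ h1 h2)⟩
    · obtain ⟨a, ε, a0, hε, h1, h2⟩ := inH (s * g) (by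
        rw [← mul_inv_eq_iff_eq_mul]
        calc s * g * t * (s * g)⁻¹ = s * (g * t * g⁻¹) * s⁻¹ := by group
          _ = z * (s * t * s⁻¹) := by rw [hg, ← mul_assoc s, mem_center_iff.1 hz s]; group
          _ = t := by rw [st, ← mul_assoc, ← pow_two, z2, one_mul])
      have := anti (s * g) _ _ h1 h2
      rw [← mul_assoc, ss, one_mul] at this
      exact ⟨a, ε, a0, hε, Or.inr this⟩
  · rintro ⟨a, ε, a0, hε, hf⟩
    obtain ⟨g, h1, h2⟩ : ∃ g, ρ g v = a • v ∧ ρ g (ρ s v) = (ε * a⁻¹) • ρ s v := by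
      obtain ⟨x, -, h2, h3⟩ := tr (a • v) (smul_ne_zero a0 v0) (by rw [map_smul, hv])
      have := hx x a a0 h2 h3
      rcases hε with rfl | rfl
      · exact ⟨x, h3, by rw [this, one_mul]⟩
      · exact ⟨x * t, by rw [act_mul, hv, h3], by
          rw [act_mul, tw, map_neg, this, neg_one_mul, neg_smul]⟩
    rcases hf with hf | hf
    · exact ⟨g, LinearEquiv.ext fun c => (hf c).trans (diag g _ _ h1 h2 c).symm⟩
    · exact ⟨s * g, LinearEquiv.ext fun c => (hf c).trans (anti g _ _ h1 h2 c).symm⟩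


/-- Let q be a prime, V a non-trivial finite vector space over the field with q elements, and G a finite p-group (p prime) acting faithfully and linearly on V such that all G-orbits on the non-zero vectors have the same size. Then one of the following holds: G is cyclic or generalized quaternion and acts semiregularly on the non-zero vectors; or V has q² elements with q = 2^m − 1 and G is dihedral of order 2^(m+1) or semidihedral of order 2^(m+2); or V has q² elements with q = 2^m + 1 and, in suitable coordinates V = F_q², G is exactly the group of maps (x, y) ↦ (a x, ± a⁻¹ y) and (x, y) ↦ (± a⁻¹ y, a x) with a ≠ 0; or V has 81 elements (q = 3) and G is a 2-group. -/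
theorem result (q : ℕ) [Fact q.Prime] {V : Type*} [AddCommGroup V] [Module (ZMod q) V] [Finite V] [Nontrivial V]
    {G : Type*} [Group G] [Finite G] (p : ℕ) [Fact p.Prime] (hG : IsPGroup p G)
    (ρ : G →* (V ≃ₗ[ZMod q] V)) (hρ : Function.Injective ρ)
    (hhalf : ∀ v w : V, v ≠ 0 → w ≠ 0 → Nat.card {u : V | ∃ g : G, ρ g v = u} = Nat.card {u : V | ∃ g : G, ρ g w = u}) :
    ((IsCyclic G ∨ ∃ n : ℕ, Nonempty (G ≃* QuaternionGroup n)) ∧ ∀ v : V, v ≠ 0 → ∀ g : G, ρ g v = v → g = 1) ∨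
    (Nat.card V = q ^ 2 ∧ ∃ m : ℕ, q = 2 ^ m - 1 ∧
      (Nonempty (G ≃* DihedralGroup (2 ^ m)) ∨ (Cfsg.IsQuasiDihedral G ∧ Nat.card G = 2 ^ (m + 2)))) ∨
    (Nat.card V = q ^ 2 ∧ (∃ m : ℕ, q = 2 ^ m + 1) ∧
      ∃ e : V ≃ₗ[ZMod q] (Fin 2 → ZMod q), ∀ f : (Fin 2 → ZMod q) ≃ₗ[ZMod q] (Fin 2 → ZMod q),
        (∃ g : G, f = e.symm.trans ((ρ g).trans e)) ↔
        ∃ a s : ZMod q, a ≠ 0 ∧ (s = 1 ∨ s = -1) ∧
          ((∀ v, f v = ![a * v 0, s * a⁻¹ * v 1]) ∨ (∀ v, f v = ![s * a⁻¹ * v 1, a * v 0]))) ∨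
    (Nat.card V = 81 ∧ q = 3 ∧ p = 2) := by
  have hq : q.Prime := Fact.out
  have hp : p.Prime := Fact.out
  have hst : ∀ v w : V, v ≠ 0 → w ≠ 0 → Nat.card (St ρ v) = Nat.card (St ρ w) := fun v w hv hw => by
    have := hhalf v w hv hw
    rw [orbit_card, orbit_card] at this
    apply Nat.eq_of_mul_eq_mul_right (Nat.pos_of_ne_zero (index_ne_zero_of_finite (H := St ρ w)))
    rw [card_mul_index, ← this, card_mul_index]
  have cW : ∀ W : Submodule (ZMod q) V, Nat.card W = q ^ Module.finrank (ZMod q) W := fun W => by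
    rw [Module.natCard_eq_pow_finrank (K := ZMod q), Nat.card_zmod]
  by_cases hpq : (p : ZMod q) = 0
  · obtain rfl : q = p := (Nat.prime_dvd_prime_iff_eq hq hp).1 ((ZMod.natCast_eq_zero_iff p q).1 hpq)
    let : MulAction G V := MulAction.compHom V ρ
    obtain ⟨b, hb, b0⟩ := hG.exists_fixed_point_of_prime_dvd_card_of_fixed_point V (by
      rw [Module.natCard_eq_pow_finrank (K := ZMod q), Nat.card_zmod]
      exact dvd_pow_self q Module.finrank_pos.ne') (a := 0) (fun g => map_zero (ρ g))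
    have hb' : St ρ b = ⊤ := eq_top_iff.2 fun g _ => hb g
    have all : ∀ g : G, g = 1 := fun g => hρ (by
      rw [map_one]
      refine LinearEquiv.ext fun v => ?_
      by_cases v0 : v = 0
      · simp [v0]
      · have := hst v b v0 b0.symm
        rw [hb', card_top] at this
        exact (eq_top_of_card_eq _ this).ge (mem_top g))
    have : Subsingleton G := ⟨fun a b => (all a).trans (all b).symm⟩
    exact Or.inl ⟨Or.inl inferInstance, fun _ _ g _ => all g⟩
  have h : Half p ρ := ⟨hp, hG, hρ, hpq, hst⟩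
  obtain ⟨v₀, hv₀⟩ := exists_ne (0 : V)
  by_cases sr : St ρ v₀ = ⊥
  · have sr' : ∀ v : V, v ≠ 0 → ∀ g : G, ρ g v = v → g = 1 := fun v v0 g hg => by
      have := hst v v₀ v0 hv₀
      rw [sr, card_bot, card_eq_one] at this
      exact mem_bot.1 (this.le hg)
    refine Or.inl ⟨?_, sr'⟩
    have key : ∀ x y : G, x ^ p = 1 → y ^ p = 1 → x ≠ 1 → Commute x y → y ∈ zpowers x :=
      fun x y hx hy x1 hc => by
        by_contra hxy
        obtain ⟨i, j, h1, w, w0, hw⟩ := exists_fix (ρ := ρ) hp hpq hx hy x1 hc hxy hv₀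
        exact h1 (sr' w w0 _ hw)
    refine (CF.Solv.isCyclic_or_quaternion hG fun x y hx hy x1 => ?_).imp id
      fun ⟨_, n, _, e⟩ => ⟨_, e⟩
    obtain ⟨z, -, hz, z1, zp⟩ := h.exists_central ⊤ (fun e => x1 (mem_bot.1 (e.le (mem_top x))))
    exact zpowers_le.2 (key x z hx zp x1 (mem_center_iff.1 hz x))
      (key z y zp hy z1 (mem_center_iff.1 hz y).symm)
  right
  have ns : ∀ v : V, v ≠ 0 → St ρ v ≠ ⊥ := fun v v0 e => sr (by
    rw [← card_eq_one, hst v₀ v hv₀ v0, e, card_bot])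
  have odd : p = 2 → Odd q := fun e => hq.odd_of_ne_two (by
    rintro rfl; subst e; exact hpq rfl)
  have fr : ∀ W : Submodule (ZMod q) V, Nat.card W ^ 2 = Nat.card V →
      Module.finrank (ZMod q) W ≠ 0 := fun W e e0 => by
    rw [cW, e0] at e
    exact absurd e (Finite.one_lt_card (α := V)).ne
  by_cases hn : ∀ A : Subgroup G, A.Normal → IsMulCommutative A → IsCyclic A
  · rcases CF.Solv.normalRankOne_cases hG hn with hc | ⟨rfl, n, a, c, h1, h2, h3, h4, h5, -⟩
    · have : (St ρ v₀).Normal := by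
        have := hc.isMulCommutative
        infer_instance
      exact absurd (h.normal_inf hv₀ le_rfl) sr
    · obtain ⟨s, m, c1, c2, c3⟩ := h.dqs h1 h2 h3 h4 h5 ns
      have := fr _ c1
      rw [cW] at c1 c2
      rw [num_add hq.two_le (odd rfl) this c2, pow_one] at c1 c2
      exact Or.inl ⟨c1.symm, m, by omega, c3⟩
  · push Not at hn
    obtain ⟨A, _, _, hA⟩ := hn
    obtain ⟨t, tZ, tp, ht, v, v0, hv⟩ := h.exists_w hA
    obtain rfl := h.two_of_w tZ ht tp v0 hv
    obtain ⟨z, -, hz, z1, z2⟩ := h.exists_central ⊤ (fun e => tZ (by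
      rw [mem_bot.1 (e.le (mem_top t))]; exact one_mem _))
    have ht' : ∀ g, g * t * g⁻¹ = t ∨ g * t * g⁻¹ = z * t := fun g => by
      have e : g * t * g⁻¹ = (g * t * g⁻¹ * t⁻¹) * t := by group
      have e2 := (show Commute _ t from (mem_center_iff.1 (ht g) t).symm).mul_pow 2
      rw [← e, conj_pow, tp, mul_one, mul_one, mul_inv_cancel, eq_comm] at e2
      by_cases e1 : g * t * g⁻¹ * t⁻¹ = 1
      · exact Or.inl (mul_inv_eq_one.1 e1)
      · exact Or.inr (by rw [e, h.central_eq hz z2 z1 (ht g) e2 e1])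
    obtain ⟨c1, ⟨m, c2⟩, s, ss, st, tr, cov⟩ := h.four hz z2 z1 tp ht' tZ v0 hv
    have c3 := cW (Fx ρ t)
    right
    rcases num_sub hq (odd rfl) (fr _ c1) (c3.symm.trans c2) with e | ⟨rfl, e⟩
    · rw [e, pow_one] at c3
      rw [c3] at c1 c2
      exact Or.inl ⟨c1.symm, ⟨m, c2⟩, coords h hz z2 z1 ht' v0 hv (by rw [c3, Nat.card_zmod])
        (by rw [← c1, Nat.card_zmod]) ss st tr cov⟩
    · exact Or.inr ⟨by rw [← c1, c3, e]; rfl, rfl, rfl⟩

end Cfsg.Agent.S3371
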