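import Cfsg.Statements.S3375
import Mathlib

set_option autoImplicit false
open Cfsg

namespace Cfsg.Agent.S3375

/-- Let γ be an automorphism of order 2 of a finite group H. (i) If γ fixes only the identity, then H is abelian and γ inverts every element. (ii) If γ has exactly two fixed points and H has a subgroup of index 2, then H has a γ-invariant abelian subgroup of index 2 on which γ acts by inversion. -/
theorem result {H : Type*} [Group H] [Finite H] (γ : MulAut H) (hγ : orderOf γ = 2) :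
    ((∀ h : H, γ h = h → h = 1) → (∀ a b : H, a * b = b * a) ∧ ∀ h : H, γ h = h⁻¹) ∧
    ((Nat.card {h : H // γ h = h} = 2 ∧ ∃ M : Subgroup H, M.index = 2) →
      ∃ A : Subgroup H, A.index = 2 ∧ IsMulCommutative A ∧ (∀ a ∈ A, γ a ∈ A) ∧ ∀ a ∈ A, γ a = a⁻¹) := by
  have i : Function.Involutive γ := fun x => by
    have := pow_orderOf_eq_one γ
    rw [hγ, pow_two] at this
    exact DFunLike.congr_fun this x
  refine ⟨fun h => ⟨MonoidHom.FixedPointFree.commute_all_of_involutive (φ := γ) h i,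
    congrFun (MonoidHom.FixedPointFree.coe_eq_inv_of_involutive (φ := γ) h i)⟩, fun ⟨h2, M, hM⟩ => ?_⟩
  obtain ⟨A, h3, h4⟩ : ∃ A : Subgroup H, A.index = 2 ∧ ∀ x, γ x ∈ A ↔ x ∈ A := by
    by_cases e : ∀ x, γ x ∈ M ↔ x ∈ M
    · exact ⟨M, hM, e⟩
    have m := @Subgroup.mul_mem_iff_of_index_two _ _ M hM
    let A : Subgroup H :=
      { carrier := {x | γ x ∈ M ↔ x ∈ M}
        mul_mem' := fun {a b} ha hb => by simp only [Set.mem_setOf_eq, map_mul, m] at *; tauto
        one_mem' := by simp
        inv_mem' := fun {a} ha => by simpa using ha }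
    obtain ⟨x, hx⟩ := not_forall.1 e
    refine ⟨A, Subgroup.index_eq_two_iff.2 ⟨x, fun b => ?_⟩, fun x => ?_⟩
    · change Xor (γ (b * x) ∈ M ↔ _) (γ b ∈ M ↔ _)
      simp only [map_mul, m, Xor]; tauto
    · change (γ (γ x) ∈ M ↔ _) ↔ (γ x ∈ M ↔ _)
      rw [i]; tauto
  let C := MonoidHom.eqLocus γ.toMonoidHom (MonoidHom.id H)
  have k : ∀ x y : H, (x : H ⧸ C) = y ↔ x * (γ x)⁻¹ = y * (γ y)⁻¹ := fun x y => by
    rw [QuotientGroup.eq]
    change γ (x⁻¹ * y) = x⁻¹ * y ↔ _
    rw [map_mul, map_inv]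
    constructor <;> intro h
    · calc _ = x * ((γ x)⁻¹ * γ y) * (γ y)⁻¹ := by group
        _ = _ := by rw [h]; group
    · calc _ = x⁻¹ * (x * (γ x)⁻¹) * γ y := by group
        _ = _ := by rw [h]; group
  let f : H ⧸ C → A := Quotient.lift (fun x => ⟨x * (γ x)⁻¹, by
    rw [Subgroup.mul_mem_iff_of_index_two h3, inv_mem_iff, h4]⟩)
    fun x y h => Subtype.ext ((k x y).1 (Quotient.sound h))
  have hf : Function.Bijective f := (Nat.bijective_iff_injective_and_card f).2 ⟨fun x y => by
    induction x using QuotientGroup.induction_on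
    induction y using QuotientGroup.induction_on
    exact fun h => (k _ _).2 (congrArg Subtype.val h), by
      have a := C.card_mul_index.trans A.index_mul_card.symm
      rw [show Nat.card C = 2 from h2, h3] at a
      exact mul_left_cancel₀ two_ne_zero a⟩
  have r : ∀ a ∈ A, γ a = a⁻¹ := fun a ha => by
    obtain ⟨x, hx⟩ := hf.2 ⟨a, ha⟩
    induction x using QuotientGroup.induction_on with | H x => ?_
    rw [← show x * (γ x)⁻¹ = a from congrArg Subtype.val hx, map_mul, map_inv, i]; group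
  refine ⟨A, h3, ⟨⟨fun a b => Subtype.ext (inv_injective ?_)⟩⟩, fun a => (h4 a).2, r⟩
  rw [← r _ (a * b).2, Subgroup.coe_mul, Subgroup.coe_mul, map_mul, r _ a.2, r _ b.2, mul_inv_rev]

end Cfsg.Agent.S3375
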