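import Cfsg.Statements.S3377
import Cfsg.Agent.Classical.Triangle

set_option autoImplicit false
open Cfsg

namespace Cfsg.Agent.S3377

/-- The alternating group of degree 5 has the presentation ⟨x, y | x³ = 1, y⁵ = 1, (xy)² = 1⟩: the group so presented is isomorphic to Alt(5). -/
theorem result :
    Nonempty (PresentedGroup ({FreeGroup.of (0 : Fin 2) ^ 3, FreeGroup.of (1 : Fin 2) ^ 5,
        (FreeGroup.of (0 : Fin 2) * FreeGroup.of 1) ^ 2} : Set (FreeGroup (Fin 2))) ≃* alternatingGroup (Fin 5)) := by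
  open CF.Classical in
  generalize hR : ({FreeGroup.of (0 : Fin 2) ^ 3, FreeGroup.of (1 : Fin 2) ^ 5,
        (FreeGroup.of (0 : Fin 2) * FreeGroup.of 1) ^ 2} : Set (FreeGroup (Fin 2))) = R
  have h1 : ∀ r ∈ R, PresentedGroup.mk R r = 1 := fun r hr => PresentedGroup.one_of_mem hr
  have h2 : (PresentedGroup.of 0 : PresentedGroup R) ^ 3 = 1 := h1 _ (hR ▸ Or.inl rfl)
  have h3 : (PresentedGroup.of 1 : PresentedGroup R) ^ 5 = 1 := h1 _ (hR ▸ Or.inr (Or.inl rfl))
  have h4 : (PresentedGroup.of 0 * PresentedGroup.of 1 : PresentedGroup R) ^ 2 = 1 :=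
    h1 _ (hR ▸ Or.inr (Or.inr rfl))
  obtain ⟨f, h5, h6, -⟩ := exists_hom_A5 h4 (y := (PresentedGroup.of 0)⁻¹)
    (by rw [inv_pow, h2, inv_one]) (by rw [conj_pow, h3]; simp)
  have h7 : ∀ r ∈ R, FreeGroup.lift ![a5y⁻¹, a5y * a5x] r = 1 := by
    subst hR
    rintro _ (rfl | rfl | rfl) <;> simp only [map_pow, map_mul, FreeGroup.lift_apply_of] <;> decide +kernel
  refine ⟨(MonoidHom.toMulEquiv (PresentedGroup.toGroup h7) f (PresentedGroup.ext fun i => ?_)
    (MonoidHom.eq_of_eqOn_dense isTri_a5.closure_eq_top_A5 ?_))⟩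
  · fin_cases i <;> simp [h5, h6, mul_assoc]
  · rintro _ (rfl | rfl) <;> simp [h5, h6]

end Cfsg.Agent.S3377
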