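import Mathlib
import Cfsg.Statements.S3379

set_option autoImplicit false
open Cfsg

namespace Cfsg.Agent.S3379

/-- Let G be a finite group all of whose Sylow subgroups are cyclic. Then G is generated by two elements x and y of coprime orders n and m with x⁻¹yx = y^r, where gcd(r − 1, m) = 1 and r^n ≡ 1 (mod m). -/
theorem result {G : Type*} [Group G] [Finite G]
    (hZ : ∀ (p : ℕ) [Fact p.Prime] (P : Sylow p G), IsCyclic (P : Subgroup G)) :
    ∃ (x y : G) (n m r : ℕ), Subgroup.closure {x, y} = ⊤ ∧ orderOf x = n ∧ orderOf y = m ∧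
      x⁻¹ * y * x = y ^ r ∧ Nat.Coprime (r - 1) m ∧ Nat.Coprime n m ∧ 1 ≤ r ∧ r ^ n % m = 1 % m := by
  haveI : IsZGroup G := ⟨fun p hp P => by haveI := Fact.mk hp; exact hZ p P⟩
  obtain ⟨H, hH⟩ := Subgroup.exists_right_complement'_of_coprime (IsZGroup.coprime_commutator_index G)
  obtain ⟨y, hy⟩ := ((commutator G).isCyclic_iff_exists_zpowers_eq_top).1 (IsZGroup.isCyclic_commutator G)
  haveI : IsCyclic H := by
    have h1 : IsCyclic (G ⧸ commutator G) := (inferInstance : IsCyclic (Abelianization G))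
    exact hH.symm.QuotientMulEquiv.isCyclic.1 h1
  obtain ⟨x, hx⟩ := (H.isCyclic_iff_exists_zpowers_eq_top).1 inferInstance
  have h1 : x⁻¹ * y * x ∈ Subgroup.zpowers y := by
    rw [hy]
    simpa using (inferInstance : (commutator G).Normal).conj_mem y (hy ▸ Subgroup.mem_zpowers y) x⁻¹
  rw [← mem_powers_iff_mem_zpowers] at h1
  obtain ⟨r0, hr0⟩ := h1
  have hr : x⁻¹ * y * x = y ^ (r0 + orderOf y) := by
    rw [pow_add, pow_orderOf_eq_one, mul_one]; exact hr0.symm
  have hpos := orderOf_pos y
  generalize hR : r0 + orderOf y = r at hr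
  have hr1 : 1 ≤ r := by omega
  have htop : Subgroup.closure {x, y} = ⊤ := by
    rw [eq_top_iff, ← hH.sup_eq_top, ← hx, ← hy]
    exact sup_le (Subgroup.zpowers_le.2 (Subgroup.subset_closure (by simp)))
      (Subgroup.zpowers_le.2 (Subgroup.subset_closure (by simp)))
  refine ⟨x, y, _, _, r, htop, rfl, rfl, hr, ?_, ?_, hr1, ?_⟩
  · have hle : Subgroup.zpowers (y ^ (r - 1)) ≤ commutator G :=
      hy ▸ Subgroup.zpowers_le.2 (Subgroup.npow_mem_zpowers _ _)
    haveI : (Subgroup.zpowers (y ^ (r - 1))).Normal := by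
      constructor
      intro n hn g
      have h2 : g * y * g⁻¹ ∈ Subgroup.zpowers y := by
        rw [hy]
        exact (inferInstance : (commutator G).Normal).conj_mem y (hy ▸ Subgroup.mem_zpowers y) g
      obtain ⟨k, hk⟩ := h2
      obtain ⟨j, rfl⟩ := hn
      refine ⟨k * j, ?_⟩
      simp only at hk ⊢
      rw [← conj_zpow, ← conj_pow, ← hk, ← zpow_natCast, ← zpow_natCast, ← zpow_mul, ← zpow_mul,
        ← zpow_mul]
      congr 1; ring
    have h2 : commutator G ≤ Subgroup.zpowers (y ^ (r - 1)) := by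
      have hc : Commute (QuotientGroup.mk' (Subgroup.zpowers (y ^ (r - 1))) x)
          (QuotientGroup.mk' (Subgroup.zpowers (y ^ (r - 1))) y) := by
        rw [Commute, SemiconjBy, ← map_mul, ← map_mul, QuotientGroup.mk'_apply,
          QuotientGroup.mk'_apply, QuotientGroup.eq]
        have : (x * y)⁻¹ * (y * x) = y ^ (r - 1) := by
          rw [mul_inv_rev, mul_assoc, ← mul_assoc x⁻¹, hr, inv_mul_eq_iff_eq_mul, ← pow_succ',
            Nat.sub_add_cancel hr1]
        rw [this]; exact Subgroup.mem_zpowers _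
      have h3 : IsMulCommutative (G ⧸ Subgroup.zpowers (y ^ (r - 1))) := by
        have h4 := congrArg (Subgroup.map (QuotientGroup.mk' (Subgroup.zpowers (y ^ (r - 1))))) htop
        rw [MonoidHom.map_closure, Subgroup.map_top_of_surjective _ (QuotientGroup.mk'_surjective _),
          Set.image_pair] at h4
        have h5 := Subgroup.isMulCommutative_closure (k := {QuotientGroup.mk'
          (Subgroup.zpowers (y ^ (r - 1))) x, QuotientGroup.mk' (Subgroup.zpowers (y ^ (r - 1))) y})
          (by
            rintro a (rfl | rfl) b (rfl | rfl)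
            exacts [rfl, hc, hc.symm, rfl])
        rw [h4] at h5
        exact ⟨⟨fun a b => setLike_mul_comm (s := (⊤ : Subgroup _)) trivial trivial⟩⟩
      exact Subgroup.Normal.quotient_commutative_iff_commutator_le.1 h3
    exact mem_zpowers_pow_iff.1 (h2 (hy ▸ Subgroup.mem_zpowers y))
  · rw [← Nat.card_zpowers, ← Nat.card_zpowers, hx, hy, ← hH.symm.index_eq_card]
    exact (IsZGroup.coprime_commutator_index G).symm
  · have h2 : ∀ k : ℕ, (x ^ k)⁻¹ * y * x ^ k = y ^ r ^ k := by
      intro k
      induction k with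
      | zero => simp
      | succ k ih =>
        rw [pow_succ, mul_inv_rev, mul_assoc x⁻¹, ← mul_assoc, mul_assoc x⁻¹, ih, pow_succ', pow_mul,
          ← hr]
        simpa using (conj_pow (a := x⁻¹) (b := y) (i := r ^ k)).symm
    have h3 := h2 (orderOf x)
    rw [pow_orderOf_eq_one, inv_one, one_mul, mul_one] at h3
    exact pow_eq_pow_iff_modEq.1 (h3.symm.trans (pow_one y).symm)

end Cfsg.Agent.S3379
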