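import Cfsg.Statements.S3380
import Cfsg.Agent.Perm.Huppert3
import Cfsg.Agent.Solv.CyclicMax
import Cfsg.Agent.Fgs1.Extra

set_option autoImplicit false
open Cfsg

namespace Cfsg.Agent.S3380

open Subgroup
open scoped IsMulCommutative commutatorElement

/-- Let a finite p-group G act faithfully and irreducibly on a non-trivial finite vector space V over the field with q elements (q prime), and suppose G is not cyclic, generalized quaternion, dihedral or semidihedral. Then G has a subgroup H of index p and V is the direct sum of p subspaces, each invariant under H, on none of which H acts faithfully, and which every element of G outside H permutes in a single p-cycle. -/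
theorem result
    (q : ℕ) [Fact q.Prime] {V : Type*} [AddCommGroup V] [Module (ZMod q) V] [Finite V] [Nontrivial V]
    {G : Type*} [Group G] [Finite G] (p : ℕ) [Fact p.Prime] (hG : IsPGroup p G)
    (ρ : G →* (V ≃ₗ[ZMod q] V)) (hρ : Function.Injective ρ)
    (hirr : ∀ W : Submodule (ZMod q) V, (∀ g : G, ∀ w ∈ W, ρ g w ∈ W) → W = ⊥ ∨ W = ⊤)
    (hnc : ¬ IsCyclic G) (hnq : ∀ n : ℕ, ¬ Nonempty (G ≃* QuaternionGroup n))
    (hnd : ∀ n : ℕ, ¬ Nonempty (G ≃* DihedralGroup n)) (hnsd : ¬ Cfsg.IsQuasiDihedral G) :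
    ∃ (H : Subgroup G) (W : Fin p → Submodule (ZMod q) V), H.index = p ∧
      iSup W = ⊤ ∧ iSupIndep W ∧
      (∀ h ∈ H, ∀ i, ∀ w ∈ W i, ρ h w ∈ W i) ∧
      (∀ i, ∃ h ∈ H, h ≠ 1 ∧ ∀ w ∈ W i, ρ h w = w) ∧
      ∀ g : G, g ∉ H → ∃ σ : Equiv.Perm (Fin p), orderOf σ = p ∧ ∀ i, (W i).map (ρ g : V →ₗ[ZMod q] V) = W (σ i) := by
  classical
  have hp : p.Prime := Fact.out
  obtain ⟨A, hA, hAc, hAn⟩ : ∃ A : Subgroup G, A.Normal ∧ IsMulCommutative A ∧ ¬ IsCyclic A := by
    by_contra! h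
    rcases CF.Solv.normalRankOne_cases hG h with h | ⟨-, n, a, c, h1, ha, hi, hc, hD, -⟩
    · exact hnc h
    · rcases hD.nonempty_equiv (by omega) ha hi hc with h | h | h
      exacts [hnd _ h.2.2, hnq _ h, hnsd h.2]
  have m : ∀ (s t : G) v, ρ (s * t) v = ρ s (ρ t v) := fun s t v => by rw [map_mul]; rfl
  let F : G → Submodule (ZMod q) V := fun t => LinearMap.ker ((ρ t).toLinearMap - LinearMap.id)
  have hF : ∀ t v, v ∈ F t ↔ ρ t v = v := fun t v => by simp [F, sub_eq_zero]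
  have h1 : ∀ g x, (F x).map (ρ g : V →ₗ[ZMod q] V) = F (g * x * g⁻¹) := fun g x => by
    ext v
    simp [Submodule.mem_map_equiv, hF, m, LinearEquiv.symm_apply_eq, eq_comm]
  have h2 : ∀ c ∈ center G, c ≠ 1 → F c = ⊥ := fun c hc e => (hirr _ fun g w hw => by
    have := Submodule.mem_map_of_mem (f := (ρ g : V →ₗ[ZMod q] V)) hw
    rwa [h1, mem_center_iff.1 hc, mul_inv_cancel_right] at this).resolve_right fun h =>
      e (hρ (LinearEquiv.ext fun v => by simpa using (hF c v).1 (h.ge trivial)))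
  have h3 : ∀ {x : G} {v} (n : ℕ), ρ x v = v → ρ (x ^ n) v = v := fun n h => by
    induction n with
    | zero => simp
    | succ n ih => rw [pow_succ, m, h, ih]
  have h4 : ∀ B : Subgroup G, IsMulCommutative B → ¬ IsCyclic B →
      ∃ b ∈ B, b ≠ 1 ∧ ∃ v, v ≠ 0 ∧ ρ b v = v := fun B _ hB => by
    by_contra! h
    let _ := DistribMulAction.compHom V (ρ.comp B.subtype)
    exact hB (isCyclic_of_surjective _ (topEquiv (G := B)).surjective (hH := (CF.Perm.fpf_of_regular
      (V := V) fun v hv g e => Subtype.ext (by_contra fun e' => h g g.2 e' v hv e)).isCyclic_of_comm ⊤))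
  let Ω := (powMonoidHom p : A →* A).ker.map A.subtype
  have hΩ : ∀ x, x ∈ Ω ↔ x ∈ A ∧ x ^ p = 1 := fun x =>
    ⟨by rintro ⟨x, h, rfl⟩; exact ⟨x.2, congrArg Subtype.val h⟩, fun h => ⟨⟨x, h.1⟩, Subtype.ext h.2, rfl⟩⟩
  have : Ω.Normal := ⟨fun x hx g => (hΩ _).2 ⟨hA.conj_mem _ ((hΩ x).1 hx).1 g, by
    rw [conj_pow, ((hΩ x).1 hx).2]; simp⟩⟩
  obtain ⟨b, hb, b1, v, hv, b2⟩ := h4 A hAc hAn
  have b3 := orderOf_pow_orderOf_div (orderOf_pos b).ne' ((hG.dvd_orderOf b1))
  have b4 : b ^ (orderOf b / p) ∈ Ω := (hΩ _).2 ⟨pow_mem hb _, orderOf_dvd_iff_pow_eq_one.1 b3.dvd⟩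
  have b5 : b ^ (orderOf b / p) ≠ 1 := fun e => hp.one_lt.ne (by rw [← b3, e, orderOf_one])
  obtain ⟨z, hz, zc, zo⟩ := CF.Fgs1.exists_center_orderOf hG (N := Ω) fun e => b5 (e.le b4)
  have := CF.Fgs1.normal_of_le_center (zpowers_le.2 zc)
  obtain ⟨y, hy, -, -, y1, -, y2⟩ := CF.Fgs1.exists_normal_card_mul hG (N := zpowers z) (M := Ω)
    (lt_of_le_of_ne (zpowers_le.2 hz) fun e => hv ((h2 _ (zpowers_le.2 zc (e.ge b4)) b5).le
      ((hF _ _).2 (h3 _ b2))))
  have hE : zpowers z ⊔ zpowers y ≤ Ω := sup_le (zpowers_le.2 hz) (zpowers_le.2 hy)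
  obtain ⟨a, ha, a1, u, hu, a2⟩ := h4 (zpowers z ⊔ zpowers y) ⟨⟨fun a b => Subtype.ext
    (congrArg Subtype.val (mul_comm (⟨a, ((hΩ _).1 (hE a.2)).1⟩ : A) ⟨b, ((hΩ _).1 (hE b.2)).1⟩) :)⟩⟩
    fun h => by
      have := Monoid.exponent_dvd_of_forall_pow_eq_one fun g : (zpowers z ⊔ zpowers y :) =>
        Subtype.ext ((hΩ _).1 (hE g.2)).2
      rw [IsCyclic.exponent_eq_card, y2, Nat.card_zpowers, zo] at this
      exact (Nat.le_of_dvd hp.pos this).not_gt (lt_mul_of_one_lt_left hp.pos hp.one_lt)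
  have a3 : ∀ g : G, ⁅g, a⁆ ∈ zpowers z := fun g => (QuotientGroup.eq_one_iff _).1 (by
    have : zpowers z ⊔ zpowers y ≤ (center _).comap (QuotientGroup.mk' (zpowers z)) :=
      sup_le (fun x hx => by
        rw [mem_comap, QuotientGroup.mk'_apply, (QuotientGroup.eq_one_iff x).2 hx]; exact one_mem _)
        (zpowers_le.2 (mem_center_iff.2 fun g => by
          obtain ⟨g, rfl⟩ := QuotientGroup.mk'_surjective _ g
          rw [eq_comm, ← commutatorElement_eq_one_iff_mul_comm, ← map_commutatorElement]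
          exact (QuotientGroup.eq_one_iff _).2 (y1 g)))
    change QuotientGroup.mk' _ ⁅g, a⁆ = 1
    rw [map_commutatorElement, commutatorElement_eq_one_iff_mul_comm]
    exact mem_center_iff.1 (this ha) _)
  let f : G →* G := MonoidHom.mk' (fun g => ⁅g, a⁆) fun g h => by
    have := mem_center_iff.1 (zpowers_le.2 zc (a3 h))
    rw [this, commutatorElement_def g, ← mul_assoc, ← mul_assoc, ← mul_assoc, ← this g]
    simp only [commutatorElement_def]; group
  have hf : ∀ g (n : ℕ), g * (a * z ^ n) * g⁻¹ = a * (f g * z ^ n) := fun g n => by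
    change _ = a * (⁅g, a⁆ * _)
    rw [← mul_assoc a, mem_center_iff.1 (zpowers_le.2 zc (a3 g)) a, ← mul_assoc g, mul_assoc _ _ g⁻¹,
      ← mem_center_iff.1 (pow_mem zc n), commutatorElement_def]
    group
  have h5 : ∀ g, ∃ k : Fin p, f g = z ^ (k : ℕ) := fun g => by
    obtain ⟨k, h1, h2⟩ := Finset.mem_image.1 (mem_zpowers_iff_mem_range_orderOf.1 (a3 g))
    exact ⟨⟨k, zo ▸ Finset.mem_range.1 h1⟩, h2.symm⟩
  have := NeZero.mk hp.ne_zero
  have h6 : ∀ g (k : Fin p), f g = z ^ (k : ℕ) → ∀ i : Fin p, (F (a * z ^ (i : ℕ))).map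
      (ρ g : V →ₗ[ZMod q] V) = F (a * z ^ ((i + k : Fin p) : ℕ)) := fun g k hk i => by
    rw [h1, hf, hk, ← pow_add, Fin.val_add, add_comm]
    nth_rewrite 5 [← zo]
    rw [pow_mod_orderOf]
  have a4 : a ∉ center G := fun h => hu ((h2 a h a1).le ((hF _ _).2 a2))
  have a5 : ∀ n : ℕ, Commute a (z ^ n) := fun n => mem_center_iff.1 (pow_mem zc n) a
  have h7 : ∀ x : G, x ^ p = 1 → F x = ⊥ → ∀ v, ∑ j ∈ Finset.range p, ρ (x ^ j) v = 0 :=
    fun x hx h v => h.le ((hF _ _).2 (by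
      rw [map_sum]
      have := Finset.sum_range_succ (fun j => ρ (x ^ j) v) p
      rw [Finset.sum_range_succ', hx, pow_zero, add_left_inj] at this
      simpa only [← m, ← pow_succ'] using this))
  have h8 : (p : ZMod q) ≠ 0 := fun h => by
    obtain rfl := (Nat.prime_dvd_prime_iff_eq Fact.out hp).1 ((ZMod.natCast_eq_zero_iff _ _).1 h)
    let _ := DistribMulAction.compHom V ρ
    obtain ⟨w, h1, h3⟩ := hG.exists_fixed_point_of_prime_dvd_card_of_fixed_point V (a := 0) (by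
      rw [Module.natCard_eq_pow_finrank (K := ZMod q), Nat.card_zmod]
      exact dvd_pow_self _ Module.finrank_pos.ne') fun g => smul_zero g
    exact h3 ((h2 z zc fun e => hp.one_lt.ne (by rw [← zo, e, orderOf_one])).le
      ((hF _ _).2 (h1 z))).symm
  refine ⟨f.ker, fun i => F (a * z ^ (i : ℕ)), ?_, (hirr _ fun g w hw => ?_).resolve_left fun e => hu
    (e.le (Submodule.mem_iSup_of_mem 0 ((hF _ _).2 (by simpa using a2)))), iSupIndep_def.2 fun i => ?_,
    fun h hh i w hw => ?_, fun i => ⟨_, ?_, fun e => ?_, fun w => (hF _ w).1⟩, fun g hg => ?_⟩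
  · rw [index_ker]
    refine (hp.eq_one_or_self_of_dvd _ ?_).resolve_left fun e => a4 (mem_center_iff.2 fun g =>
      commutatorElement_eq_one_iff_mul_comm.1 ((card_eq_one.1 e).le ⟨g, rfl⟩))
    rw [← zo, ← Nat.card_zpowers]
    exact card_dvd_of_le (by rintro _ ⟨g, rfl⟩; exact a3 g)
  · obtain ⟨k, hk⟩ := h5 g
    have := Submodule.mem_map_of_mem (f := (ρ g : V →ₗ[ZMod q] V)) hw
    simp only [Submodule.map_iSup, h6 g k hk] at this
    exact iSup_le (fun i => le_iSup (fun i : Fin p => F (a * z ^ (i : ℕ))) _) this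
  · let T : V →ₗ[ZMod q] V := ∑ j ∈ Finset.range p, (ρ ((a * z ^ (i : ℕ)) ^ j)).toLinearMap
    refine Submodule.disjoint_def.2 fun w h h' => (smul_eq_zero.1 ?_).resolve_left h8
    have h9 : T w = 0 := (iSup₂_le (a := LinearMap.ker T) fun k hk w hw => ?_) h'
    · simpa [-map_mul, -map_pow, T, h3 _ ((hF _ _).1 h), Nat.cast_smul_eq_nsmul] using h9
    have h9 : z ^ ((i - k : Fin p) : ℕ) * (a * z ^ (k : ℕ)) = a * z ^ (i : ℕ) := by
      rw [← mul_assoc, ← (a5 _).eq, mul_assoc, ← pow_add, ← pow_mod_orderOf, zo, ← Fin.val_add,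
        sub_add_cancel]
    have := h7 (z ^ ((i - k : Fin p) : ℕ)) (by
      rw [← pow_mul, mul_comm, pow_mul, orderOf_dvd_iff_pow_eq_one.1 zo.dvd, one_pow]) (h2 _ (pow_mem zc _) (pow_ne_one_of_lt_orderOf (fun e => hk
        (sub_eq_zero.1 (Fin.ext e)).symm) (zo ▸ (i - k).2))) w
    simpa [-map_mul, -map_pow, T, ← h9, Commute.mul_pow (mem_center_iff.1 (pow_mem zc _) _).symm, m,
      h3 _ ((hF _ _).1 hw)] using this
  · simpa using (h6 h 0 (by simpa using hh) i).le (Submodule.mem_map_of_mem hw)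
  · exact commutatorElement_eq_one_iff_commute.2 ((Commute.refl a).mul_left (a5 i).symm)
  · exact a4 (eq_inv_of_mul_eq_one_left e ▸ inv_mem (pow_mem zc _))
  · obtain ⟨k, hk⟩ := h5 g
    refine ⟨Equiv.addRight k, orderOf_eq_prime (by
      ext; simp [Equiv.Perm.coe_pow, show p • k = 0 by simpa using card_nsmul_eq_zero (x := k)])
      fun e => hg ?_, h6 g k hk⟩
    simpa [show k = 0 by simpa using DFunLike.congr_fun e 0] using hk

end Cfsg.Agent.S3380
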