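import Cfsg.Statements.S3381
import Cfsg.Agent.Fgs2.FrobCount

set_option autoImplicit false
open Cfsg

namespace Cfsg.Agent.S3381

open Module

/-- Let G be a finite group acting faithfully and linearly on a non-trivial finite vector space V over the field with q elements (q prime) so that every non-zero vector has a stabilizer of order 2, and suppose G has a central involution. Then V has q^(2r) elements for some r and G contains exactly q^r + 1 non-central involutions. -/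
theorem result
    (q : ℕ) [Fact q.Prime] {V : Type*} [AddCommGroup V] [Module (ZMod q) V] [Finite V] [Nontrivial V]
    {G : Type*} [Group G] [Finite G] (ρ : G →* (V ≃ₗ[ZMod q] V)) (hρ : Function.Injective ρ)
    (hstab : ∀ v : V, v ≠ 0 → Nat.card {g : G // ρ g v = v} = 2)
    (z : G) (hz : orderOf z = 2) (hzc : z ∈ Subgroup.center G) :
    ∃ r : ℕ, Nat.card V = q ^ (2 * r) ∧
      Nat.card {g : G // orderOf g = 2 ∧ g ∉ Subgroup.center G} = q ^ r + 1 := by
  have h1 : ∀ v : V, v ≠ 0 → ∃ t : G, (t ≠ 1 ∧ ρ t v = v) ∧ ∀ s, s ≠ 1 → ρ s v = v → s = t := by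
    intro v hv
    obtain ⟨t, h1, h2⟩ := (Nat.card_eq_two_iff' (⟨1, by simp⟩ : {g : G // ρ g v = v})).1 (hstab v hv)
    exact ⟨t, ⟨fun e => h1 (Subtype.ext e), t.2⟩, fun s hs e =>
      congrArg Subtype.val (h2 ⟨s, e⟩ fun e' => hs (congrArg Subtype.val e'))⟩
  choose! τ h1 h2 using h1
  have h3 : ∀ {v : V} {s t : G}, v ≠ 0 → s ≠ 1 → t ≠ 1 → ρ s v = v → ρ t v = v → s = t :=
    fun hv hs ht e e' => (h2 _ hv _ hs e).trans (h2 _ hv _ ht e').symm
  have m : ∀ (s t : G) v, ρ (s * t) v = ρ s (ρ t v) := fun s t v => by rw [map_mul]; rfl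
  have o : ∀ t : G, orderOf t = 2 ↔ t * t = 1 ∧ t ≠ 1 := fun t => by rw [orderOf_eq_prime_iff, sq]
  have h4 : ∀ t : G, t * t = 1 → ∀ v, ρ t (v + ρ t v) = v + ρ t v := fun t ht v => by
    rw [map_add, ← m, ht, map_one, add_comm]; rfl
  have h5 : ∀ c ∈ Subgroup.center G, orderOf c = 2 → ∀ u, ρ c u = u → u = 0 := by
    intro c hc ho u hu
    obtain ⟨o1, o2⟩ := (o c).1 ho
    have h : ∀ v, ρ c v ≠ v → v + ρ c v = 0 := fun v hv => by_contra fun e => by
      have h0 : v ≠ 0 := by rintro rfl; simp at hv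
      refine hv (h3 e o2 (h1 v h0).1 (h4 c o1 v) ?_ ▸ (h1 v h0).2)
      rw [map_add, ← m, Subgroup.mem_center_iff.1 hc, m, (h1 v h0).2]
    obtain ⟨v, hv⟩ : ∃ v, ρ c v ≠ v := not_forall.1 fun e => o2 (hρ (by ext; simp [e]))
    have h6 := h (v + u) (by simpa [hu] using hv)
    rw [map_add, hu, add_add_add_comm, h v hv, zero_add, ← two_smul (ZMod q)] at h6
    refine (smul_eq_zero.1 h6).resolve_left fun e => hv (add_left_cancel (a := v) ?_)
    rw [h v hv, ← two_smul (ZMod q), e, zero_smul]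
  have h6 : ∀ t : G, t * t = 1 → (∀ u, ρ t u = u → u = 0) → ∀ v, ρ t v = -v := fun t ht h v =>
    (neg_eq_of_add_eq_zero_right (h _ (h4 t ht v))).symm
  have hz1 := h6 z ((o z).1 hz).1 (h5 z hzc hz)
  let I := {g : G | orderOf g = 2 ∧ g ∉ Subgroup.center G}
  have h7 : ∀ v, v ≠ 0 → τ v ∈ I := fun v hv => by
    have : orderOf (τ v) = 2 := (o _).2 ⟨by_contra fun e => (h1 v hv).1 (mul_eq_left.1 (h2 v hv _ e
      (by rw [m, (h1 v hv).2, (h1 v hv).2]))), (h1 v hv).1⟩
    exact ⟨this, fun e => hv (h5 _ e this v (h1 v hv).2)⟩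
  have h8 : ∀ t ∈ I, ∃ u, u ≠ 0 ∧ ρ t u = u := fun t ht => by
    by_contra! h
    exact ht.2 (hρ (LinearEquiv.ext fun v => (hz1 v).trans (h6 t ((o t).1 ht.1).1
      (fun u e => by_contra fun e' => h u e' e) v).symm) ▸ hzc)
  have h9 : ∀ t ∈ I, t * z ∈ I := fun t ht => by
    have : t * z ∉ Subgroup.center G := fun e => ht.2 ((Subgroup.mul_mem_cancel_right _ hzc).1 e)
    refine ⟨(o _).2 ⟨?_, fun e => this (e ▸ one_mem _)⟩, this⟩
    rw [mul_assoc, ← mul_assoc z, ← Subgroup.mem_center_iff.1 hzc t, mul_assoc, ((o z).1 hz).1,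
      mul_one, ((o t).1 ht.1).1]
  let F : G → Submodule (ZMod q) V := fun t => LinearMap.ker ((ρ t).toLinearMap - LinearMap.id)
  have hF : ∀ t v, v ∈ F t ↔ ρ t v = v := fun t v => by simp [F, sub_eq_zero]
  have d1 : ∀ s ∈ I, ∀ t ∈ I, s ≠ t → finrank (ZMod q) (F s) + finrank (ZMod q) (F t) ≤ finrank (ZMod q) V :=
    fun s hs t ht e => Submodule.finrank_add_finrank_le_of_disjoint (Submodule.disjoint_def.2
      fun v h h' => by_contra fun hv => e (h3 hv ((o s).1 hs.1).2 ((o t).1 ht.1).2 ((hF _ _).1 h)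
        ((hF _ _).1 h')))
  have d2 : ∀ t ∈ I, finrank (ZMod q) V ≤ finrank (ZMod q) (F (t * z)) + finrank (ZMod q) (F t) := by
    intro t ht
    rw [← LinearMap.finrank_range_add_finrank_ker ((ρ t).toLinearMap - LinearMap.id)]
    refine Nat.add_le_add_right (Submodule.finrank_mono ?_) _
    rintro _ ⟨v, rfl⟩
    simp [hF, m, hz1, ← m t t, ((o t).1 ht.1).1]
  have d3 : ∀ t ∈ I, 2 * finrank (ZMod q) (F t) ≤ finrank (ZMod q) V := fun t ht => by
    obtain ⟨u, hu, e⟩ := h8 t ht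
    obtain ⟨w, hw, e'⟩ := h8 _ (h9 t ht)
    have h10 : ρ t w = -w := by rw [m, hz1, map_neg, neg_eq_iff_eq_neg] at e'; exact e'
    have h11 : ∀ v : V, v = -v → v = 0 := fun v h => h5 z hzc hz v ((hz1 v).trans h.symm)
    have h12 : u + w ≠ 0 := fun h => hw (h11 w (by
      have := congrArg (ρ t) h
      rw [map_add, e, h10, map_zero, ← h] at this
      exact (add_left_cancel this).symm))
    have := d1 t ht _ (h7 _ h12) fun h => hw (h11 w (by
      have := (h1 _ h12).2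
      rw [← h, map_add, e, h10] at this
      exact (add_left_cancel this).symm))
    have := d1 t ht _ (h9 _ (h7 _ h12)) fun h => hu (h11 u (by
      have := m (τ (u + w)) z (u + w)
      rw [← h, hz1, map_neg, (h1 _ h12).2, map_add, e, h10, neg_add] at this
      exact add_right_cancel this))
    have := d2 _ (h7 _ h12)
    omega
  have d4 : ∀ t ∈ I, finrank (ZMod q) V = 2 * finrank (ZMod q) (F t) := fun t ht => by
    have := d2 t ht; have := d3 t ht; have := d3 _ (h9 t ht); omega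
  obtain ⟨v, hv⟩ := exists_ne (0 : V)
  have hV := natCard_eq_pow_finrank (K := ZMod q) (V := V)
  rw [Nat.card_zmod, d4 _ (h7 v hv)] at hV
  refine ⟨_, hV, ?_⟩
  have hr := d4 _ (h7 v hv)
  generalize finrank (ZMod q) (F (τ v)) = r at hr hV
  have h10 := CF.Fgs2.ncard_eq_mul_of_fibers ({0}ᶜ : Set V) (Set.toFinite _) τ (q ^ r - 1)
    fun u hu => by
      have h := natCard_eq_pow_finrank (K := ZMod q) (V := F (τ u))
      rw [Nat.card_zmod] at h
      rw [show r = finrank (ZMod q) (F (τ u)) by have := d4 _ (h7 u hu); omega, ← h]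
      refine Eq.trans ?_ (Set.ncard_sdiff_singleton_of_mem (s := (F (τ u) : Set V)) (zero_mem (F (τ u))))
      congr 1
      ext w
      exact ⟨fun h => ⟨(hF _ _).2 (h.2 ▸ (h1 w h.1).2), h.1⟩, fun h =>
        ⟨h.2, (h2 w h.2 _ (h1 u hu).1 ((hF _ _).1 h.1)).symm⟩⟩
  rw [show τ '' {0}ᶜ = I from Set.Subset.antisymm (by rintro _ ⟨u, hu, rfl⟩; exact h7 u hu)
    fun t ht => (h8 t ht).imp fun u hu => ⟨hu.1, (h2 u hu.1 t ((o t).1 ht.1).2 hu.2).symm⟩,
    Set.ncard_compl, Set.ncard_singleton, hV, mul_comm 2, pow_mul, ← one_pow 2, Nat.sq_sub_sq,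
    one_pow] at h10
  refine (Nat.eq_of_mul_eq_mul_right (Nat.sub_pos_of_lt (Nat.one_lt_pow ?_ (Fact.out : q.Prime).one_lt))
    h10).symm
  have := finrank_pos (R := ZMod q) (M := V)
  omega

end Cfsg.Agent.S3381
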