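import Cfsg.Statements.S3382
import Cfsg.Agent.Known.Monom2

set_option autoImplicit false
open Cfsg

namespace Cfsg.Agent.S3382

/-- Let q = 2^m + 1 be a prime other than 5. Then the automorphism group of the group of linear maps of F_q² of the forms (x, y) ↦ (a x, ± a⁻¹ y) and (x, y) ↦ (± a⁻¹ y, a x) with a ≠ 0 is itself a 2-group. -/
theorem result (q m : ℕ) [Fact q.Prime] (hq : q = 2 ^ m + 1) (hq5 : q ≠ 5)
    (T : Subgroup ((Fin 2 → ZMod q) ≃ₗ[ZMod q] (Fin 2 → ZMod q)))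
    (hT : ∀ f, f ∈ T ↔ ∃ a s : ZMod q, a ≠ 0 ∧ (s = 1 ∨ s = -1) ∧
      ((∀ v, f v = ![a * v 0, s * a⁻¹ * v 1]) ∨ (∀ v, f v = ![s * a⁻¹ * v 1, a * v 0]))) :
    IsPGroup 2 (MulAut T) := by
  haveI : Finite ((Fin 2 → ZMod q) ≃ₗ[ZMod q] (Fin 2 → ZMod q)) := DFunLike.finite _
  let d : (ZMod q)ˣ × (ZMod q)ˣ →* ((Fin 2 → ZMod q) ≃ₗ[ZMod q] (Fin 2 → ZMod q)) :=
    ⟨⟨fun x => LinearEquiv.piCongrRight fun i => LinearEquiv.smulOfUnit (![x.1, x.2] i), by
      ext v i; fin_cases i <;> simp [LinearEquiv.smulOfUnit]⟩, fun x y => by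
      ext v i; fin_cases i <;> simp [LinearEquiv.smulOfUnit, Units.smul_def, mul_assoc]⟩
  have hd : ∀ a b v, d (a, b) v = ![a * v 0, b * v 1] := fun a b v => by
    ext i; fin_cases i <;> rfl
  let σ := LinearEquiv.funCongrLeft (ZMod q) (ZMod q) (Equiv.swap (0 : Fin 2) 1)
  have hσ : ∀ v, σ v = ![v 1, v 0] := fun v => by ext i; fin_cases i <;> rfl
  refine CF.Known.isPGroup_mulAut_monomial (F := ZMod q) (m := m) (d := d) (σ := σ)
    (by rw [Nat.card_units, Nat.card_zmod, hq]; rfl) (by rintro rfl; exact hq5 hq)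
    (fun ⟨a, b⟩ ⟨a', b'⟩ h => ?_) (LinearEquiv.ext fun v => ?_)
    (fun a b => LinearEquiv.ext fun v => by simp [hd, hσ]) fun f => (hT f).trans ⟨?_, ?_⟩
  · simpa [hd, Units.ext_iff] using DFunLike.congr_fun h 1
  · ext i; fin_cases i <;> simp [hσ]
  · rintro ⟨a, s, h1, h2, h3⟩
    have h4 : s * a⁻¹ ≠ 0 := by rcases h2 with rfl | rfl <;> simpa
    refine ⟨.mk0 a h1, .mk0 _ h4, Units.ext ?_, h3.imp (fun h => LinearEquiv.ext fun v => ?_)
      fun h => LinearEquiv.ext fun v => ?_⟩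
    · rcases h2 with rfl | rfl <;> simp [h1]
    · simp [h, hd]
    · simp [h, hd, hσ]
  · rintro ⟨a, b, h1, h2⟩
    refine ⟨a, a * b, a.ne_zero, sq_eq_one_iff.1 (by simpa using congrArg Units.val h1), ?_⟩
    rcases h2 with rfl | rfl
    · exact Or.inl fun v => by rw [hd, mul_right_comm (a : ZMod q), mul_inv_cancel₀ a.ne_zero, one_mul]
    · exact Or.inr fun v => by
        rw [mul_right_comm (a : ZMod q), mul_inv_cancel₀ a.ne_zero, one_mul]; simp [hd, hσ]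

end Cfsg.Agent.S3382
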