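import Mathlib
import Cfsg.Agent.Fgs2.AltSpec
import Cfsg.Statements.S3419

set_option autoImplicit false
open Cfsg

namespace Cfsg.Agent.S3419

open CF.Fgs2 in

/-- Let n ≥ 5 and let G be a finite group with the same order and the same set of element orders as the alternating group of degree n. Then G is not solvable. -/
theorem result {G : Type*} [Group G] [Finite G] (n : ℕ) (hn : 5 ≤ n)
    (hcard : Nat.card G = Nat.card ↥(alternatingGroup (Fin n)))
    (hspec : Set.range (orderOf : G → ℕ) = Set.range (orderOf : ↥(alternatingGroup (Fin n)) → ℕ)) :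
    ¬ Group.IsSolvable G := by
  by_cases h : 11 ≤ n
  · obtain ⟨N, H, _, -, -, s, nc, -⟩ := alt_section h hcard hspec
    exact fun _ => nc ⟨⟨IsSimpleGroup.comm_iff_isSolvable.2 inferInstance⟩⟩
  have e := two_mul_card_alt (n := n) (by omega)
  rw [← hcard] at e
  have key : ∀ p r : ℕ, p.Prime → r.Prime → r ≠ p → n < p + r → n < p * r →
      ∀ g : G, orderOf g ≠ p * r := fun p r hp hr ne a b g hg =>
    not_mem_spec hp hr ne.symm a b (hspec ▸ ⟨g, hg⟩)
  have p7 : Nat.Prime 7 := by norm_num
  by_cases h7 : n < 7
  · refine not_sol_of_pair Nat.prime_five Nat.prime_three (by omega) ?_ ?_ ?_ ?_ (by omega)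
      (by omega) (by omega) (key _ _ Nat.prime_five Nat.prime_three (by omega) (by omega) (by omega))
    all_goals interval_cases n <;> simp only [Nat.factorial] at e <;> omega
  · refine not_sol_of_pair p7 Nat.prime_five (by omega) ?_ ?_ ?_ ?_ (by omega)
      (by omega) (by omega) (key _ _ p7 Nat.prime_five (by omega) (by omega) (by omega))
    all_goals interval_cases n <;> simp only [Nat.factorial] at e <;> omega

end Cfsg.Agent.S3419
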