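import Cfsg.Statements.S3699
import Cfsg.Agent.CIT.Spec

set_option autoImplicit false
open Cfsg

namespace Cfsg.Agent.S3699

/-- Let `q = 2^(2m+1) ≥ 8` and `S = Sz(q)` the Suzuki group. If a finite group `G` has the same prime graph as `S` (same prime divisors of the order; for distinct primes `r, s` an element of order `rs` in one iff in the other), then `G/O₂(G)` is isomorphic to `S`. The known proof uses the classification of finite simple groups. -/
theorem result {F : Type*} [Field F] [Fintype F] (m : ℕ) (hm : 1 ≤ m)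
    (hF : Fintype.card F = 2 ^ (2 * m + 1)) {G : Type*} [Group G] [Finite G]
    (h : ((∀ r : ℕ, r.Prime → (r ∣ Nat.card ↥(Cfsg.Lie.Sz F (2 ^ (m + 1))) ↔ r ∣ Nat.card G)) ∧
      (∀ r s : ℕ, r.Prime → s.Prime → r ≠ s → ((∃ x : ↥(Cfsg.Lie.Sz F (2 ^ (m + 1))), orderOf x = r * s) ↔ (∃ y : G, orderOf y = r * s))))) :
    Nonempty (G ⧸ Cfsg.pCore 2 G ≃* ↥(Cfsg.Lie.Sz F (2 ^ (m + 1)))) := by
  open CF.CIT CF.BG in
  have o1 : Odd (2 ^ (2 * m + 1) - 1) :=
    Nat.Even.sub_odd Nat.one_le_two_pow ((Nat.even_pow' (by omega)).2 even_two) odd_one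
  have ev : Even (2 ^ (2 * m + 1)) := (Nat.even_pow' (by omega)).2 even_two
  have o2 : Odd ((2 ^ (2 * m + 1)) ^ 2 + 1) := (ev.pow_of_ne_zero two_ne_zero).add_one
  have hc := card_sz hF
  have A : ∀ r : ℕ, r.Prime → r ≠ 2 → ∀ g : G, orderOf g ≠ 2 * r := fun r hr h2 g e => by
    obtain ⟨x, hx⟩ := (h.2 2 r Nat.prime_two hr h2.symm).2 ⟨g, e⟩
    rcases sz_order_cases hF x with d | d | d <;> rw [hx] at d
    · exact h2 ((Nat.prime_dvd_prime_iff_eq hr Nat.prime_two).1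
        (Nat.dvd_of_mul_dvd_mul_left two_pos d))
    · exact o1.not_two_dvd_nat (dvd_of_mul_right_dvd d)
    · exact o2.not_two_dvd_nat (dvd_of_mul_right_dvd d)
  have h8 := hF ▸ CF.BN.Suz.eight_le_card hm hF
  obtain ⟨r, hr, dr⟩ := Nat.exists_prime_and_dvd (n := 2 ^ (2 * m + 1) - 1) (by omega)
  obtain ⟨s, hs, ds⟩ := Nat.exists_prime_and_dvd (n := (2 ^ (2 * m + 1)) ^ 2 + 1) (by simp)
  have cop : ∀ {t : ℕ}, t.Prime → t ∣ 2 ^ (2 * m + 1) - 1 → ¬ t ∣ (2 ^ (2 * m + 1)) ^ 2 + 1 :=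
    fun ht d1 d2 => ht.one_lt.ne'
      ((CF.BN.Suz.coprime_sq_add_one ev d2).eq_one_of_dvd (d1.mul_left _))
  have r2 : 2 ≠ r := by rintro rfl; exact o1.not_two_dvd_nat dr
  have s2 : 2 ≠ s := by rintro rfl; exact o2.not_two_dvd_nat ds
  have rs : r ≠ s := by rintro rfl; exact cop hr dr ds
  have ns := not_sol_of_three (G := G) Nat.prime_two hr hs r2 s2 rs
    ((h.1 2 Nat.prime_two).1 (hc ▸ ((ev.two_dvd.pow two_ne_zero).mul_right _).mul_right _))
    ((h.1 r hr).1 (hc ▸ (dr.mul_left _).mul_right _)) ((h.1 s hs).1 (hc ▸ ds.mul_left _))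
    fun g => ⟨A r hr r2.symm g, A s hs s2.symm g, fun e => by
      obtain ⟨x, hx⟩ := (h.2 r s hr hs rs).2 ⟨g, e⟩
      rcases sz_order_cases hF x with d | d | d <;> rw [hx] at d
      · exact r2 ((Nat.prime_dvd_prime_iff_eq hr Nat.prime_two).1
          (hr.dvd_of_dvd_pow (n := 2) (dvd_of_mul_right_dvd d))).symm
      · exact cop hs (dvd_of_mul_left_dvd d) ds
      · exact cop hr dr (dvd_of_mul_right_dvd d)⟩
  have h3 : ¬ 3 ∣ Nat.card G := fun d => (CF.BN.Suz.lieD F m hF).not_three_dvd_card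
    ((h.1 3 Nat.prime_three).2 d)
  have eO : 𝐎 {2} (⊤ : Subgroup G) = pCore 2 G := by rw [O_top, CF.Solv.pCore_eq_piCore]
  have k : PiGrp {2} (pCore 2 G) := eO ▸ O_pi _ _
  rcases (isCIT_of_no_edge A).main' ns eO with (⟨K, _, _, n, h1, h2, ⟨e⟩⟩ |
    ⟨K, _, _, n, h1, h2, ⟨e⟩⟩) | ⟨-, l | ⟨K, _, _, h1, ⟨e⟩⟩ | l⟩
  · exact absurd ((Nat.card_congr e.toEquiv ▸ three_dvd_card_psl (by omega) h2).trans
      (Subgroup.card_quotient_dvd_card _)) h3
  · have B : ∀ r : ℕ, r.Prime → r ≠ 2 → (_ ↔ _) := fun r hr r2 =>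
      (h.1 r hr).trans (dvd_card_quot k hr r2).symm
    rw [hc, Nat.card_congr e.toEquiv, card_sz h2] at B
    obtain rfl : n = m := by
      have := Nat.dvd_antisymm (eq_of_dvd_sz (by omega) fun r a b => (B r a b).1)
        (eq_of_dvd_sz (by omega) fun r a b => (B r a b).2)
      omega
    exact (sz_congr (h2.trans hF.symm) _).map e.trans
  · exact absurd (by rw [l.card]; norm_num) h3
  · refine absurd ((show Nat.Coprime 3 2 by norm_num).dvd_of_dvd_mul_left ?_) h3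
    rw [Nat.card_congr e.toEquiv, card_psl_odd h1.odd]
    generalize Fintype.card K = q
    obtain ⟨a, rfl | rfl | rfl⟩ : ∃ a, q = 3 * a ∨ q = 3 * a + 1 ∨ q = 3 * a + 2 :=
      ⟨q / 3, by omega⟩
    · exact (dvd_mul_right _ _).mul_right _
    · exact ((dvd_mul_right 3 a).trans (dvd_sq_sub_one _).1).mul_left _
    · exact ((dvd_mul_right 3 (a + 1)).trans (dvd_sq_sub_one _).2).mul_left _
  · exact absurd (by rw [l.card]; norm_num) h3

end Cfsg.Agent.S3699
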