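import Cfsg.Statements.S3700
import Cfsg.Agent.CIT.Spec

set_option autoImplicit false
open Cfsg

namespace Cfsg.Agent.S3700

theorem nt {m k p R : ℕ} (hm : 4 ≤ m) (hk : 3 ≤ k) (pp : p.Prime) (hp : p = 2 ^ k + 1 ∨ p + 1 = 2 ^ k)
    (B : ∀ r : ℕ, r.Prime → r ≠ 2 → (r ∣ p * (p ^ 2 - 1) ↔ r ∣ 2 ^ (m * 2) - 1)) : False := by
  obtain ⟨R, Rp, R2, -, hR⟩ := CF.CIT.exists_ppd (n := m * 2) (by omega) (by omega)
  have h8 := Nat.pow_le_pow_right two_pos hk
  have pd := (B p pp (by omega)).1 (dvd_mul_right _ _)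
  have c2 : ∀ {r a : ℕ}, r.Prime → r ≠ 2 → ¬ r ∣ 2 ^ a := fun hr r2 d =>
    r2 ((Nat.prime_dvd_prime_iff_eq hr Nat.prime_two).1 (hr.dvd_of_dvd_pow d))
  have G : ∀ a, p ∣ 2 ^ a - 1 → a ≠ 0 → p < 2 ^ Nat.gcd a (m * 2) := fun a d a0 => by
    have := Nat.dvd_gcd d pd
    rw [Nat.pow_sub_one_gcd_pow_sub_one] at this
    have h1 : 1 < 2 ^ Nat.gcd a (m * 2) := Nat.one_lt_two_pow (by simp [a0])
    have := Nat.le_of_dvd (by omega) this
    omega
  obtain ⟨j, rfl⟩ : ∃ j, k = j + 1 := ⟨k - 1, by omega⟩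
  have hj : 1 ≤ 2 ^ j := Nat.one_le_two_pow
  have sq : ∀ a, 2 ^ (a * 2) - 1 = (2 ^ a) ^ 2 - 1 := fun a => by rw [pow_mul]
  rcases hp with hp | hp
  · have e : p ^ 2 - 1 = 2 ^ (j + 2) * (2 ^ j + 1) := by
      rw [hp]; apply Nat.sub_eq_of_eq_add; ring
    have C : ∀ r : ℕ, r.Prime → r ≠ 2 → r ∣ 2 ^ (m * 2) - 1 → r = p ∨ r ∣ 2 ^ j + 1 :=
      fun r hr r2 d => ((Nat.Prime.dvd_mul hr).1 ((B r hr r2).2 d)).imp
        (Nat.prime_dvd_prime_iff_eq hr pp).1 fun d =>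
          ((Nat.Prime.dvd_mul hr).1 (e ▸ d)).resolve_left (c2 hr r2)
    have d1 : p ∣ 2 ^ ((j + 1) * 2) - 1 := by
      rw [sq, hp]; exact (CF.CIT.dvd_sq_sub_one _).2
    have l : (j + 1) * 2 ∣ m * 2 := by
      have := G _ d1 (by omega)
      have l : j + 1 < Nat.gcd ((j + 1) * 2) (m * 2) :=
        (Nat.pow_lt_pow_iff_right one_lt_two).1 (by omega)
      obtain ⟨c, hc⟩ := Nat.gcd_dvd_left ((j + 1) * 2) (m * 2)
      have : c = 1 := by
        rcases c with _ | _ | c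
        · omega
        · rfl
        · nlinarith
      rw [hc, this, mul_one]; exact Nat.gcd_dvd_right _ _
    have l' := Nat.le_of_dvd (by omega) l
    rcases C R Rp R2 ((hR _).2 dvd_rfl) with rfl | d
    · obtain rfl : m = j + 1 := by have := Nat.le_of_dvd (by omega) ((hR _).1 d1); omega
      have j5 : j + 1 ≠ 6 := fun e => by rw [hp, e] at pp; norm_num at pp
      obtain ⟨r, rp, r2, lt, hr⟩ := CF.CIT.exists_ppd (n := j + 1) (by omega) j5
      have d := (hr _).2 dvd_rfl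
      rcases C r rp r2 ((hr _).2 (dvd_mul_right _ _)) with rfl | d'
      · have := Nat.le_of_dvd (by omega) d; omega
      · have : r ∣ 3 := by
          have := Nat.dvd_sub (d'.mul_left 2) d
          rwa [show 2 * (2 ^ j + 1) - (2 ^ (j + 1) - 1) = 3 by rw [pow_succ]; omega] at this
        have := Nat.le_of_dvd (by omega) this
        omega
    · have := Nat.le_of_dvd (by omega) ((hR (j * 2)).1
        (sq j ▸ d.trans (CF.CIT.dvd_sq_sub_one _).2))
      omega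
  · have e : p ^ 2 - 1 = 2 ^ (j + 2) * (2 ^ j - 1) := by
      obtain ⟨c, hc⟩ : ∃ c, 2 ^ j = c + 1 := ⟨2 ^ j - 1, by omega⟩
      obtain rfl : p = 2 * c + 1 := by rw [pow_succ] at hp; omega
      apply Nat.sub_eq_of_eq_add
      rw [pow_add, hc, Nat.add_sub_cancel]; ring
    have d1 : p ∣ 2 ^ (j + 1) - 1 := by rw [← hp]; simp
    have l : j + 1 ≤ m * 2 := by
      have := G _ d1 (by omega)
      have l : ¬ Nat.gcd (j + 1) (m * 2) < j + 1 := fun l => by
        have := Nat.pow_le_pow_right two_pos (Nat.lt_succ_iff.1 l)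
        rw [pow_succ] at hp; omega
      exact (not_lt.1 l).trans (Nat.gcd_le_right _ (by omega))
    rcases (Nat.Prime.dvd_mul Rp).1 ((B R Rp R2).2 ((hR _).2 dvd_rfl)) with d | d
    · have := Nat.le_of_dvd (by omega) ((hR _).1 (d.trans d1))
      have d3 : 3 ∣ p := by
        rw [show p = 2 ^ (m * 2) - 1 by rw [show m * 2 = j + 1 by omega]; omega, sq]
        exact CF.CIT.three_dvd_sq_sub_one m
      have := (Nat.prime_dvd_prime_iff_eq Nat.prime_three pp).1 d3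
      omega
    · have := Nat.le_of_dvd (by omega) ((hR j).1
        (((Nat.Prime.dvd_mul Rp).1 (e ▸ d)).resolve_left (c2 Rp R2)))
      omega

/-- Let `F` be a finite field with `2^m` elements, `m ≥ 4`. If a finite group `G` has the same prime graph as `PSL(2, F)` (same prime divisors of the order; for distinct primes `r, s` an element of order `rs` in one iff in the other), then `G/O₂(G)` is isomorphic to `PSL(2, F)`. The known proof uses the classification of finite simple groups. -/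
theorem result {F : Type*} [Field F] [Fintype F] (m : ℕ) (hm : 4 ≤ m)
    (hF : Fintype.card F = 2 ^ m) {G : Type*} [Group G] [Finite G]
    (h : ((∀ r : ℕ, r.Prime → (r ∣ Nat.card (Matrix.ProjectiveSpecialLinearGroup (Fin 2) F) ↔ r ∣ Nat.card G)) ∧
      (∀ r s : ℕ, r.Prime → s.Prime → r ≠ s → ((∃ x : (Matrix.ProjectiveSpecialLinearGroup (Fin 2) F), orderOf x = r * s) ↔ (∃ y : G, orderOf y = r * s))))) :
    Nonempty (G ⧸ Cfsg.pCore 2 G ≃* Matrix.ProjectiveSpecialLinearGroup (Fin 2) F) := by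
  open CF.CIT CF.BG in
  have ev : Even (2 ^ m) := (Nat.even_pow' (by omega)).2 even_two
  have o1 : Odd (2 ^ m - 1) := Nat.Even.sub_odd Nat.one_le_two_pow ev odd_one
  have o2 : Odd (2 ^ m + 1) := ev.add_one
  have hc := card_psl_even (by omega) hF
  have A : ∀ r : ℕ, r.Prime → r ≠ 2 → ∀ g : G, orderOf g ≠ 2 * r := fun r hr h2 g e => by
    obtain ⟨x, hx⟩ := (h.2 2 r Nat.prime_two hr h2.symm).2 ⟨g, e⟩
    rcases l2e_order_cases hF x with d | d | d <;> rw [hx] at d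
    · have := Nat.le_of_dvd two_pos d
      have := hr.two_le
      omega
    · exact o1.not_two_dvd_nat (dvd_of_mul_right_dvd d)
    · exact o2.not_two_dvd_nat (dvd_of_mul_right_dvd d)
  have h8 := Nat.pow_le_pow_right two_pos hm
  obtain ⟨r, hr, dr⟩ := Nat.exists_prime_and_dvd (n := 2 ^ m - 1) (by omega)
  obtain ⟨s, hs, ds⟩ := Nat.exists_prime_and_dvd (n := 2 ^ m + 1) (by simp)
  have r2 : 2 ≠ r := by rintro rfl; exact o1.not_two_dvd_nat dr
  have s2 : 2 ≠ s := by rintro rfl; exact o2.not_two_dvd_nat ds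
  have cop : ∀ {t : ℕ}, t.Prime → t ∣ 2 ^ m - 1 → ¬ t ∣ 2 ^ m + 1 := fun {t} ht d1 d2 => by
    have := Nat.dvd_sub d2 d1
    rw [show 2 ^ m + 1 - (2 ^ m - 1) = 2 by omega] at this
    exact o1.not_two_dvd_nat ((Nat.prime_dvd_prime_iff_eq ht Nat.prime_two).1 this ▸ d1)
  have rs : r ≠ s := by rintro rfl; exact cop hr dr ds
  have ns := not_sol_of_three (G := G) Nat.prime_two hr hs r2 s2 rs
    ((h.1 2 Nat.prime_two).1 (hc ▸ ev.two_dvd.mul_right _))
    ((h.1 r hr).1 (hc ▸ (dr.trans (dvd_sq_sub_one _).1).mul_left _))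
    ((h.1 s hs).1 (hc ▸ (ds.trans (dvd_sq_sub_one _).2).mul_left _))
    fun g => ⟨A r hr r2.symm g, A s hs s2.symm g, fun e => by
      obtain ⟨x, hx⟩ := (h.2 r s hr hs rs).2 ⟨g, e⟩
      rcases l2e_order_cases hF x with d | d | d <;> rw [hx] at d
      · exact r2 ((Nat.prime_dvd_prime_iff_eq hr Nat.prime_two).1 (dvd_of_mul_right_dvd d)).symm
      · exact cop hs (dvd_of_mul_left_dvd d) ds
      · exact cop hr dr (dvd_of_mul_right_dvd d)⟩
  have B : ∀ r : ℕ, r.Prime → r ≠ 2 → (r ∣ Nat.card G ↔ r ∣ 2 ^ (m * 2) - 1) := fun r hr r2 =>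
    (h.1 r hr).symm.trans (hc ▸ dvd_card_l2e hr r2)
  obtain ⟨R, Rp, R2, lt, hR⟩ := exists_ppd (n := m * 2) (by omega) (by omega)
  have nR : ¬ Nat.card G ∣ 20160 := fun d => by
    have : R ∈ Nat.primeFactors 20160 := Nat.mem_primeFactors.2
      ⟨Rp, ((B R Rp R2).2 ((hR _).2 dvd_rfl)).trans d, by norm_num⟩
    simp [Nat.primeFactors] at this
    omega
  have eO : 𝐎 {2} (⊤ : Subgroup G) = pCore 2 G := by rw [O_top, CF.Solv.pCore_eq_piCore]
  have k : PiGrp {2} (pCore 2 G) := eO ▸ O_pi _ _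
  rcases (isCIT_of_no_edge A).main' ns eO with (⟨K, _, _, n, h1, h2, ⟨e⟩⟩ | l) |
    ⟨-, l | ⟨K, _, _, h1, ⟨e⟩⟩ | l⟩
  · have C : ∀ r : ℕ, r.Prime → r ≠ 2 → (r ∣ 2 ^ (n * 2) - 1 ↔ r ∣ 2 ^ (m * 2) - 1) :=
      fun r hr r2 => by
        rw [← B r hr r2, ← dvd_card_quot k hr r2, Nat.card_congr e.toEquiv,
          card_psl_even (by omega) h2, dvd_card_l2e hr r2]
    have l := Nat.le_of_dvd (by omega) ((hR _).1 ((C R Rp R2).2 ((hR _).2 dvd_rfl)))
    obtain ⟨R', Rp', R2', -, hR'⟩ := exists_ppd (n := n * 2) (by omega) (by omega)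
    have l' := Nat.le_of_dvd (by omega) ((hR' _).1 ((C _ Rp' R2').1 ((hR' _).2 dvd_rfl)))
    obtain rfl : n = m := by omega
    exact (psl_congr (h2.trans hF.symm)).map e.trans
  · obtain ⟨K, _, _, n, h1, h2, ⟨e⟩⟩ := l
    refine absurd ?_ (CF.BN.Suz.lieD K n h2).not_three_dvd_card
    rw [← Nat.card_congr e.toEquiv, dvd_card_quot k Nat.prime_three (by norm_num),
      B 3 Nat.prime_three (by norm_num), pow_mul]
    exact three_dvd_sq_sub_one m
  · exact absurd (by rw [l.card]) nR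
  · have hc := card_psl_odd h1.odd
    rw [← Nat.card_congr e.toEquiv] at hc
    rcases h1 with h1 | ⟨pp, j, hj, h1⟩
    · exact absurd (by rw [card_of_psl e h1 (n := 360)]; norm_num) nR
    · refine (nt (R := 0) hm hj pp h1 fun r hr r2 => ?_).elim
      rw [← B r hr r2, ← hc, Nat.Prime.dvd_mul hr, Nat.prime_dvd_prime_iff_eq hr Nat.prime_two]
      simp [r2]
  · exact absurd (by rw [l.card]; norm_num) nR

end Cfsg.Agent.S3700
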