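import Cfsg.Statements.S3704
import Cfsg.Agent.Perm.Module
import Cfsg.Agent.Char.More
import Cfsg.Agent.Perm.Basic

set_option autoImplicit false
open Cfsg

namespace Cfsg.Agent.S3704

/-- Let G be a finite group acting faithfully and 2-transitively on a finite set Ω of size n, and let H be a subgroup of index n in G which is not transitive on Ω and fixes no point of Ω. Then H has exactly two orbits on Ω. -/
theorem result {G Ω : Type*} [Group G] [Finite G] [MulAction G Ω] [FaithfulSMul G Ω] [Finite Ω] (h2 : MulAction.IsMultiplyPretransitive G Ω 2) (H : Subgroup G) (hidx : H.index = Nat.card Ω) (hnt : ¬ MulAction.IsPretransitive H Ω) (hfix : ∀ a : Ω, ∃ h : H, h • a ≠ a) : Nat.card (MulAction.orbitRel.Quotient H Ω) = 2 := by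
  have := Fintype.ofFinite G
  have : Nontrivial Ω := not_subsingleton_iff_nontrivial.1 fun _ => hnt ⟨fun a b => ⟨1, Subsingleton.elim _ _⟩⟩
  have : MulAction.IsPretransitive G Ω := MulAction.is_one_pretransitive_iff.1
    (MulAction.isMultiplyPretransitive_of_le (n := 2) one_le_two Finite.one_lt_card)
  have h1 := (CF.Char.irr_fixedBy_sub_one_iff Ω).2 h2
  have h3 := CF.Char.char_fixedBy_sub_one (G := G) (G ⧸ H)
  have e : ∀ f : G → ℂ, (fun g => f g - 1) = f - fun _ => 1 := fun _ => rfl
  have h4 : Cfsg.classInner (fun g : G => (Nat.card (MulAction.fixedBy (G ⧸ H) g) : ℂ) - 1)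
      (fun g : G => (Nat.card (MulAction.fixedBy Ω g) : ℂ) - 1) =
        Nat.card (MulAction.orbitRel.Quotient H Ω) - 1 := by
    rw [e, e, CF.Char.inner_sub_left, CF.Char.inner_sub_right, CF.Char.inner_sub_right,
      CF.Char.inner_fixedBy_fixedBy, CF.Char.inner_fixedBy_one_of_pretransitive,
      CF.Char.inner_irr_self CF.Char.irr_one, ← CF.Char.inner_conj_symm,
      CF.Char.inner_fixedBy_one_of_pretransitive, CF.Perm.card_orbits_prod_eq ((1 : G) : G ⧸ H),
      MulAction.stabilizer_quotient]
    simp
  have h5 := CF.Char.eq_of_inner_ne_zero_of_one_eq h3 h1 (by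
    rw [h4, sub_ne_zero]
    exact_mod_cast fun e => hnt ((MulAction.pretransitive_iff_subsingleton_quotient H Ω).2
      (Nat.card_eq_one_iff_unique.1 e).1)) (by simpa using show Nat.card (G ⧸ H) = _ from hidx)
  rw [h5, CF.Char.inner_irr_self h1, eq_sub_iff_add_eq] at h4
  exact_mod_cast h4.symm

end Cfsg.Agent.S3704
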