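import Cfsg.Statements.S3732
import Cfsg.Agent.Perm.PlaneOW

set_option autoImplicit false
open Cfsg

namespace Cfsg.Agent.S3732

open CF.Perm in

/-- The Ostrom–Wagner Theorem. Let Π be a finite projective plane (points P, lines L) whose collineation group is 2-transitive on points: for any two ordered pairs of distinct points there is a permutation of the points, together with a compatible permutation of the lines preserving incidence, carrying the first pair to the second. Then Π is Desarguesian: there is a finite field F and a bijection from P onto the points of the projective plane over F (the 1-dimensional subspaces of F³) under which the lines of Π correspond exactly to the 2-dimensional subspaces of F³. -/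
theorem result
    {P L : Type*} [Membership P L] [Fintype P] [Fintype L] [Configuration.ProjectivePlane P L]
    (h2t : ∀ p₁ p₂ q₁ q₂ : P, p₁ ≠ p₂ → q₁ ≠ q₂ →
      ∃ (σ : Equiv.Perm P) (τ : Equiv.Perm L), (∀ (p : P) (l : L), σ p ∈ τ l ↔ p ∈ l) ∧ σ p₁ = q₁ ∧ σ p₂ = q₂) :
    ∃ (F : Type) (_ : Field F) (_ : Fintype F) (φ : P ≃ Projectivization F (Fin 3 → F)),
      (∀ l : L, ∃ W : Submodule F (Fin 3 → F), Module.finrank F W = 2 ∧
          ∀ p : P, p ∈ l ↔ (φ p).submodule ≤ W) ∧
      (∀ W : Submodule F (Fin 3 → F), Module.finrank F W = 2 →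
          ∃ l : L, ∀ p : P, p ∈ l ↔ (φ p).submodule ≤ W) := by
  have h := (pp_of_plane (P := P) (L := L)).col
  have h2 : ∀ a b c d : P, a ≠ b → c ≠ d → ∃ g : Col fun (p : P) (l : L) => p ∈ l, g • a = c ∧ g • b = d :=
    fun a b c d e e' => let ⟨σ, τ, h1, h2⟩ := h2t a b c d e e'; ⟨⟨(σ, τ), h1⟩, h2⟩
  have := h.finG
  obtain ⟨F, _, _, n, e, -, h3, -, -, -, h4⟩ := (h.on h2).main
  have h5 : ∀ {x y z : P} {l : L}, x ∈ l → y ∈ l → x ≠ y →
      (z ∈ l ↔ (e z).submodule ≤ (e x).submodule ⊔ (e y).submodule) := fun h5 h6 h7 =>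
    (h.mem_onL h2 h5 h6 h7).symm.trans (h4 _ _ _ h7)
  obtain rfl : n = 3 := by
    by_contra h6
    obtain ⟨n, rfl⟩ := Nat.exists_eq_add_of_le' (by omega : 4 ≤ n)
    let w : Fin (n + 4) → P := fun i => e.symm (.mk F (Pi.single i 1) (by simp))
    have hw : ∀ i, (e (w i)).submodule = Submodule.span F {Pi.single i 1} := fun i => by simp [w]
    have hw' : ∀ i j, i ≠ j → w i ≠ w j := fun i j h7 h8 => by
      obtain ⟨c, hc⟩ := Submodule.mem_span_singleton.1
        (((hw i).symm.trans (h8 ▸ hw j)).le (Submodule.mem_span_singleton_self _))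
      simpa [h7] using congrFun hc i
    obtain ⟨l, h7, h8⟩ := h.join (w 0) (w 1)
    obtain ⟨m, h9, h10⟩ := h.join (w 2) (w 3)
    obtain ⟨z, h11, h12⟩ := h.meet l m
    have n01 : (0 : Fin (n + 4)) ≠ 1 := by simp [Fin.ext_iff]
    have n23 : (2 : Fin (n + 4)) ≠ 3 := by simp [Fin.ext_iff, Fin.val_ofNat, Nat.mod_eq_of_lt]
    have h13 := (h5 h7 h8 (hw' _ _ n01)).1 h11
    have h14 := (h5 h9 h10 (hw' _ _ n23)).1 h12
    rw [hw, hw, ← Submodule.span_insert, Projectivization.submodule_eq, Submodule.span_singleton_le_iff_mem,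
      Submodule.mem_span_pair] at h13 h14
    obtain ⟨a, b, h13⟩ := h13
    obtain ⟨c, d, h14⟩ := h14
    have h15 := congrFun (h13.trans h14.symm) 0
    have h16 := congrFun (h13.trans h14.symm) 1
    simp [Pi.single_apply, Fin.ext_iff, Fin.val_ofNat, Nat.mod_eq_of_lt] at h15 h16
    exact (e z).rep_nonzero (by rw [← h13, h15, h16]; simp)
  have h6 : ∀ x y : P, x ≠ y → Module.finrank F ((e x).submodule ⊔ (e y).submodule :) = 2 := fun x y h6 => by
    have h7 := Submodule.finrank_sup_add_finrank_inf_eq (e x).submodule (e y).submodule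
    have h8 : (e x).submodule ⊓ (e y).submodule < (e x).submodule := inf_lt_left.2 fun h8 => h6 (e.injective
      (Projectivization.submodule_injective (Submodule.eq_of_le_of_finrank_eq h8 (by
        rw [Projectivization.finrank_submodule, Projectivization.finrank_submodule]))))
    have h9 := Submodule.finrank_lt_finrank_of_lt h8
    rw [Projectivization.finrank_submodule] at h7 h9
    rw [Projectivization.finrank_submodule] at h7
    omega
  refine ⟨F, _, inferInstance, e, fun l => ?_, fun W hW => ?_⟩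
  · obtain ⟨x⟩ := h.neP
    obtain ⟨x, hx, -⟩ := h.exists_ne2 l x x
    obtain ⟨y, hy, h7, -⟩ := h.exists_ne2 l x x
    exact ⟨_, h6 _ _ h7, fun p => h5 hy hx h7⟩
  · obtain ⟨u, hu, hu0⟩ := Submodule.exists_mem_ne_zero_of_ne_bot (p := W) (by rintro rfl; simp at hW)
    obtain ⟨v, hv, hv'⟩ := SetLike.exists_of_lt (((Submodule.span_singleton_le_iff_mem u W).2 hu).lt_of_ne
      fun e => by rw [← e, finrank_span_singleton hu0] at hW; omega)
    have hv0 : v ≠ 0 := fun e => hv' (e ▸ Submodule.zero_mem _)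
    have h7 : e.symm (.mk F u hu0) ≠ e.symm (.mk F v hv0) := fun h7 => hv' (by
      rw [← Projectivization.submodule_mk u hu0, e.symm.injective h7]; exact Submodule.mem_span_singleton_self v)
    obtain ⟨l, h8, h9⟩ := h.join (e.symm (.mk F u hu0)) (e.symm (.mk F v hv0))
    refine ⟨l, fun p => ?_⟩
    rw [h5 h8 h9 h7, Submodule.eq_of_le_of_finrank_eq (S₂ := W) _ ((h6 _ _ h7).trans hW.symm)]
    simp [hu, hv]

end Cfsg.Agent.S3732
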