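import Mathlib
import Cfsg.Statements.S3733
import Cfsg.Agent.Fgs1.Basic

set_option autoImplicit false
open Cfsg

namespace Cfsg.Agent.S3733

open CF.Fgs1
open scoped IsMulCommutative

/-- Let A and V be subgroups of a finite group with V abelian and nontrivial and A normalizing V. Suppose a nonempty finite family of proper subgroups of A partitions A: every non-identity element of A lies in exactly one member. If the number of members minus one is coprime to the order of V, then some member B of the family has a non-identity fixed point on V, that is V ∩ C(B) ≠ 1. -/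
theorem result {G : Type*} [Group G] [Finite G] (A V : Subgroup G) (hVab : IsMulCommutative V) (hV : V ≠ ⊥) (hAV : A ≤ Subgroup.normalizer (V : Set G)) (𝒜 : Finset (Subgroup G)) (hne : 𝒜.Nonempty) (hprop : ∀ B ∈ 𝒜, B < A) (hpart : ∀ a ∈ A, a ≠ 1 → ∃! B, B ∈ 𝒜 ∧ a ∈ B) (hk : (𝒜.card - 1).Coprime (Nat.card V)) : ∃ B ∈ 𝒜, V ⊓ Subgroup.centralizer (B : Set G) ≠ ⊥ := by
  classical
  by_contra hcon
  push Not at hcon
  haveI := Fintype.ofFinite G
  let c : G → V → V := fun a v =>
    if h : a ∈ Subgroup.normalizer (V : Set G) then V.normalizerMonoidHom ⟨a, h⟩ v else 1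
  have hc1 : ∀ v, c 1 v = v := by
    intro v
    simp only [c, dif_pos (Subgroup.one_mem _)]
    exact DFunLike.congr_fun (map_one V.normalizerMonoidHom) v
  let N : Subgroup G → V → V := fun B v => ∏ b ∈ Finset.univ.filter (· ∈ B), c b v
  have hN : ∀ B : Subgroup G, B ≤ A → ∀ v, (N B v : G) ∈ Subgroup.centralizer (B : Set G) := by
    intro B hB v b hb
    have h1 : V.normalizerMonoidHom ⟨b, hAV (hB hb)⟩ (N B v) = N B v := by
      simp only [N, map_prod]
      refine Finset.prod_bij (fun x _ => b * x) ?_ ?_ ?_ ?_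
      · intro x hx
        simp only [Finset.mem_filter, Finset.mem_univ, true_and] at hx ⊢
        exact B.mul_mem hb hx
      · intro x _ y _ h
        exact mul_left_cancel h
      · intro y hy
        simp only [Finset.mem_filter, Finset.mem_univ, true_and] at hy ⊢
        exact ⟨b⁻¹ * y, B.mul_mem (B.inv_mem hb) hy, by group⟩
      · intro x hx
        simp only [Finset.mem_filter, Finset.mem_univ, true_and] at hx
        simp only [c, dif_pos (hAV (hB hx)), dif_pos (hAV (hB (B.mul_mem hb hx)))]
        rw [← MulAut.mul_apply, ← map_mul]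
        rfl
    have h2 : b * (N B v : G) * b⁻¹ = N B v := congrArg Subtype.val h1
    rw [mul_inv_eq_iff_eq_mul] at h2
    exact h2
  have hN1 : ∀ B ∈ 𝒜, ∀ B', B ≤ B' → B' ≤ A → ∀ v, N B' v = 1 := by
    intro B hB B' h1 h2 v
    have h3 : (N B' v : G) ∈ V ⊓ Subgroup.centralizer (B : Set G) :=
      ⟨(N B' v).2, Subgroup.centralizer_le h1 (hN B' h2 v)⟩
    rw [hcon B hB] at h3
    exact Subtype.ext h3
  obtain ⟨B₀, hB₀⟩ := hne
  have hsplit : ∀ (B : Subgroup G) v,
      N B v = v * ∏ b ∈ (Finset.univ.filter (· ∈ B)).erase 1, c b v := by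
    intro B v
    simp only [N]
    rw [← Finset.mul_prod_erase _ _ (a := (1 : G)) (by simp), hc1]
  have key : ∀ v : V, v ^ (𝒜.card - 1) = 1 := by
    intro v
    have h1 : ∏ B ∈ 𝒜, N B v = 1 :=
      Finset.prod_eq_one fun B hB => hN1 B hB B le_rfl (hprop B hB).le v
    have h2 := hN1 B₀ hB₀ A (hprop B₀ hB₀).le le_rfl v
    simp only [hsplit, Finset.prod_mul_distrib, Finset.prod_const] at h1
    rw [hsplit] at h2
    have h3 : ∏ B ∈ 𝒜, ∏ b ∈ (Finset.univ.filter (· ∈ B)).erase 1, c b v =
        ∏ b ∈ (Finset.univ.filter (· ∈ A)).erase 1, c b v := by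
      rw [← Finset.prod_biUnion]
      · congr 1
        ext a
        simp only [Finset.mem_biUnion, Finset.mem_erase, Finset.mem_filter, Finset.mem_univ,
          true_and]
        constructor
        · rintro ⟨B, hB, h1, h2⟩
          exact ⟨h1, (hprop B hB).le h2⟩
        · rintro ⟨h1, h2⟩
          obtain ⟨B, hB, -⟩ := hpart a h2 h1
          exact ⟨B, hB.1, h1, hB.2⟩
      · intro B hB B' hB' hne
        rw [Function.onFun, Finset.disjoint_left]
        intro a ha ha'
        simp only [Finset.mem_erase, Finset.mem_filter, Finset.mem_univ, true_and] at ha ha'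
        exact hne ((hpart a ((hprop B hB).le ha.2) ha.1).unique ⟨hB, ha.2⟩ ⟨hB', ha'.2⟩)
    have h4 : 𝒜.card = (𝒜.card - 1) + 1 := by
      have := Finset.card_pos.2 ⟨B₀, hB₀⟩
      omega
    rw [h3, h4, pow_succ, mul_assoc, h2, mul_one] at h1
    exact h1
  apply hV
  rw [eq_bot_iff]
  intro v hv
  have h1 := orderOf_dvd_of_pow_eq_one (key ⟨v, hv⟩)
  have h2 := orderOf_dvd_natCard (⟨v, hv⟩ : V)
  have h3 := Nat.eq_one_of_dvd_coprimes hk h1 h2
  rw [orderOf_eq_one_iff] at h3
  exact congrArg Subtype.val h3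

end Cfsg.Agent.S3733
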