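import Cfsg.Statements.S3735
import Cfsg.Agent.Coprime.Misc

set_option autoImplicit false
open Cfsg
open scoped Pointwise

namespace Cfsg.Agent.S3735

/-- Clifford's Theorem for actions on finite abelian groups, first part. Let H and V be subgroups of a finite group with V abelian and H normalizing V, and let A be a normal subgroup of H. If every H-invariant subgroup of V has an H-invariant complement in V, then every A-invariant subgroup of V has an A-invariant complement in V. -/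
theorem result {G : Type*} [Group G] [Finite G] (H A V : Subgroup G) (hVab : IsMulCommutative V) (hHV : H ≤ Subgroup.normalizer (V : Set G)) (hAH : A ≤ H) (hAn : H ≤ Subgroup.normalizer (A : Set G)) (hss : ∀ U : Subgroup G, U ≤ V → H ≤ Subgroup.normalizer (U : Set G) → ∃ W : Subgroup G, W ≤ V ∧ H ≤ Subgroup.normalizer (W : Set G) ∧ U ⊓ W = ⊥ ∧ U ⊔ W = V) (U : Subgroup G) (hUV : U ≤ V) (hAU : A ≤ Subgroup.normalizer (U : Set G)) : ∃ W : Subgroup G, W ≤ V ∧ A ≤ Subgroup.normalizer (W : Set G) ∧ U ⊓ W = ⊥ ∧ U ⊔ W = V := by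
  let P : Subgroup G → Prop := fun M => M ≤ V ∧ M ≠ ⊥ ∧ A ≤ Subgroup.normalizer (M : Set G)
  have hex : ∀ W : Subgroup G, P W → ∃ M ≤ W, Minimal P M := fun W hW =>
    exists_minimal_le_of_wellFoundedLT P W hW
  let S : Subgroup G := ⨆ M : {M // Minimal P M}, M.1
  have hSV : S ≤ V := iSup_le fun M => M.2.prop.1
  have hconj : ∀ h ∈ H, ∀ M, P M → P (MulAut.conj h • M) := by
    rintro h hh M ⟨h1, h2, h3⟩
    refine ⟨?_, fun h4 => h2 (by simpa using congrArg (MulAut.conj h⁻¹ • ·) h4), ?_⟩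
    · rw [← CF.Solv.conj_smul_eq_iff.mpr (hHV hh)]
      exact Subgroup.pointwise_smul_le_pointwise_smul_iff.mpr h1
    · rw [CF.Solv.normalizer_conj_smul, ← CF.Solv.conj_smul_eq_iff.mpr (hAn hh)]
      exact Subgroup.pointwise_smul_le_pointwise_smul_iff.mpr h3
  have hHS : H ≤ Subgroup.normalizer (S : Set G) := by
    intro h hh
    refine CF.Solv.mem_normalizer_of_conj_smul_le ?_
    rw [CF.Solv.conj_smul_eq_map, Subgroup.map_iSup]
    refine iSup_le fun M => le_iSup_of_le ⟨MulAut.conj h • M.1, hconj h hh _ M.2.prop, ?_⟩ le_rfl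
    intro N hN hle
    have h1 := M.2.le_of_le (hconj h⁻¹ (H.inv_mem hh) N hN) (by
      have := (Subgroup.pointwise_smul_le_pointwise_smul_iff (a := MulAut.conj h⁻¹)).mpr hle
      simpa using this)
    have := (Subgroup.pointwise_smul_le_pointwise_smul_iff (a := MulAut.conj h)).mpr h1
    simpa using this
  have hVS : V ≤ S := by
    obtain ⟨W, h1, h2, h3, h4⟩ := hss S hSV hHS
    by_cases hW : W = ⊥
    · rw [← h4, hW, sup_bot_eq]
    · obtain ⟨M, hM, hM'⟩ := hex W ⟨h1, hW, hAH.trans h2⟩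
      exact absurd (eq_bot_iff.mpr (h3 ▸ le_inf
        (le_iSup (fun M : {M // Minimal P M} => M.1) ⟨M, hM'⟩) hM)) hM'.prop.2.1
  obtain ⟨W, -, hW⟩ := exists_maximal_ge_of_wellFoundedGT
    (fun W : Subgroup G => W ≤ V ∧ A ≤ Subgroup.normalizer (W : Set G) ∧ U ⊓ W = ⊥) ⊥
    ⟨bot_le, Subgroup.le_normalizer_of_normal, inf_bot_eq _⟩
  obtain ⟨h1, h2, h3⟩ := hW.prop
  refine ⟨W, h1, h2, h3, le_antisymm (sup_le hUV h1) (hVS.trans (iSup_le fun M => ?_))⟩
  obtain ⟨M, hM⟩ := M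
  obtain ⟨h4, h5, h6⟩ := hM.prop
  by_contra h7
  have h8 : M ⊓ (U ⊔ W) = ⊥ := by
    by_contra h
    exact h7 ((hM.le_of_le ⟨inf_le_left.trans h4, h, CF.Coprime.le_normalizer_inf h6
      (CF.Coprime.le_normalizer_sup hAU h2)⟩ inf_le_left).trans inf_le_right)
  have hn : ∀ X ≤ V, ∀ Y ≤ V, X ≤ Subgroup.normalizer (Y : Set G) := fun X hX Y hY =>
    (hX.trans ((Subgroup.le_centralizer V).trans (Subgroup.centralizer_le hY))).trans
      (Subgroup.centralizer_le_normalizer _)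
  have h9 : U ⊓ (W ⊔ M) = ⊥ := by
    rw [eq_bot_iff]
    rintro x ⟨hx1, hx2⟩
    obtain ⟨w, hw, m, hm, rfl⟩ := (CF.Solv.mem_sup_of_le_normalizer (hn W h1 M h4)).mp hx2
    have : m ∈ M ⊓ (U ⊔ W) := ⟨hm, by
      have := mul_mem (inv_mem ((le_sup_right : W ≤ U ⊔ W) hw)) ((le_sup_left : U ≤ U ⊔ W) hx1)
      simpa using this⟩
    rw [h8, Subgroup.mem_bot] at this
    subst this
    rw [← h3]
    exact ⟨hx1, by simpa using hw⟩
  have := hW.le_of_ge ⟨sup_le h1 h4, CF.Coprime.le_normalizer_sup h2 h6, h9⟩ le_sup_left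
  exact h7 ((le_sup_right.trans this).trans le_sup_right)

end Cfsg.Agent.S3735
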