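import Cfsg.Statements.S3738
import Cfsg.Agent.Loc.Rk2
-- import your own Cfsg.Agent.* helpers here

set_option autoImplicit false
open Cfsg

namespace Cfsg.Agent.S3738

open Cfsg CF.BG CF.Sig Subgroup
open scoped commutatorElement


/-- Let d be a non-identity 3-element of a finite group and P a 2-subgroup normalized by d on which ⟨d⟩ acts faithfully (no non-identity power of d centralizes P) and without non-identity fixed points (C_P(d) = 1). If every abelian subgroup of P has 2-rank at most 2, then d has order 3. -/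
theorem result {X : Type*} [Group X] [Finite X] (d : X) (n : ℕ) (hn : 1 ≤ n) (hd : orderOf d = 3 ^ n) (P : Subgroup X) (hP : IsPGroup 2 P) (hdP : d ∈ Subgroup.normalizer (P : Set X)) (hfaith : Subgroup.zpowers d ⊓ Subgroup.centralizer (P : Set X) = ⊥) (hfpf : P ⊓ Subgroup.centralizer {d} = ⊥) (hrank : ∀ V : Subgroup X, V ≤ P → IsMulCommutative V → Cfsg.PRankLE 2 2 V) : orderOf d = 3 := by
  refine CF.LocB.orderOf_eq_three hn hd (piGrp_of_isPGroup Nat.prime_two hP) hdP hfaith hfpf ?_
  obtain ⟨A, hA⟩ := exists_elem_pRank 2 P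
  exact hA.pRank_eq ▸ (pRankLE_iff Nat.prime_two).1 (hrank A hA.le hA.abel.comm)

end Cfsg.Agent.S3738
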