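import Cfsg.Statements.S3739
import Cfsg.Agent.Loc.Rk2
-- import your own Cfsg.Agent.* helpers here

set_option autoImplicit false
open Cfsg

namespace Cfsg.Agent.S3739

open Cfsg CF.BG CF.Sig Subgroup
open scoped commutatorElement


/-- Let G be a finite group with C_G(O₂(G)) ≤ O₂(G) containing an element of order 6, and let d be a non-identity 3-element of G normalizing a nontrivial elementary abelian 2-subgroup W with C_W(d) = 1. Then G has an elementary abelian subgroup of order 8. -/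
theorem result {G : Type*} [Group G] [Finite G] (hchar : Subgroup.centralizer (Cfsg.pCore 2 G : Set G) ≤ Cfsg.pCore 2 G) (hsix : ∃ g : G, orderOf g = 6) (d : G) (hd1 : d ≠ 1) (hd : IsPGroup 3 ↥(Subgroup.zpowers d)) (W : Subgroup G) (hW : Cfsg.IsElementaryAbelian 2 W) (hW1 : W ≠ ⊥) (hdW : d ∈ Subgroup.normalizer (W : Set G)) (hfpf : W ⊓ Subgroup.centralizer {d} = ⊥) : ∃ E : Subgroup G, Cfsg.IsElementaryAbelian 2 E ∧ Nat.card E = 8 := by
  obtain ⟨g, hg⟩ := hsix
  rw [pCore_eq Nat.prime_two] at hchar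
  obtain ⟨E, hE⟩ := exists_elem (CF.LocB.rank_three hchar hg
    (piGrp_zpowers.1 (piGrp_of_isPGroup Nat.prime_three hd)) (.of_isEA Nat.prime_two hW) hW1 hdW hfpf)
  exact ⟨E, hE.ab.isEA, hE.card⟩

end Cfsg.Agent.S3739
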