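import Cfsg.Statements.S3740
import Cfsg.Agent.Transfer.SL23
import Cfsg.Agent.Classical.SL2b

set_option autoImplicit false
open Cfsg

namespace Cfsg.Agent.S3740

open CF.Classical MulAction Subgroup in
open scoped commutatorElement in
theorem aux {H X : Type*} [Group H] [MulAction H X] [IsKlein H X] [Finite H] {p : ℕ} (hp : p.Prime)
    (hp2 : p ≠ 2) {x : X} (hu : ∀ g ∈ unip H x, g ^ p = 1) {R : Subgroup H} [R.Normal]
    (hR : (Nat.card R).Coprime p) {b : H} (hb : b ∈ unip H x) (hs : R ⊔ zpowers b = ⊤)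
    (hc : ∃ r ∈ R, r * b ≠ b * r) : p = 3 ∧ Nat.card R = 4 := by
  have : Fact p.Prime := ⟨hp⟩
  obtain ⟨r, hr, hrb⟩ := hc
  have hb1 : b ≠ 1 := by rintro rfl; simp at hrb
  have hb' : IsUnip b x := (mem_unip.1 hb).resolve_left hb1
  have h0 : ∀ g ∈ R, g ∈ unip H x → g = 1 := fun g h1 h2 => orderOf_eq_one_iff.1
    (Nat.eq_one_of_dvd_coprimes hR (R.orderOf_dvd_natCard h1) (orderOf_dvd_of_pow_eq_one (hu g h2)))
  have h1 : ∀ g ∈ R, g • x = x → g = 1 := fun g h1 h2 => h0 g h1 (mem_unip_of_commute hb'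
    (commutatorElement_eq_one_iff_mul_comm.1 (h0 _ (by
      rw [commutatorElement_def, mul_assoc, mul_assoc, ← mul_assoc b]
      exact mul_mem h1 (Normal.conj_mem ‹_› _ (inv_mem h1) b))
      (mul_mem (by simpa [h2] using conj_mem_unip hb g) (inv_mem hb)))))
  have hz : zpowers b ≤ unip H x := zpowers_le.2 hb
  have h2 : stabilizer H x ≤ zpowers b := fun g hg => by
    obtain ⟨s, hs, t, ht, rfl⟩ := mem_sup_of_normal_left.1 (hs ▸ mem_top g)
    rw [h1 s hs ((mul_mem_cancel_right (unip_le_stabilizer x (hz ht))).1 hg), one_mul]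
    exact ht
  have h3 : stabilizer H x = unip H x := le_antisymm (h2.trans hz) (unip_le_stabilizer x)
  have h4 : Nat.card (unip H x) = p := by
    rw [le_antisymm ((unip_le_stabilizer x).trans h2) hz, Nat.card_zpowers,
      orderOf_eq_prime (hu b hb) hb1]
  have hm : (orbit H x).ncard ≠ 1 := fun h => hrb (by
    rw [h1 r hr (fixed_of_ncard_orbit_eq_one h r)]; simp)
  obtain ⟨y, -, -, -, hy⟩ := exists_second_orbit (unip_ne_bot_iff.2 ⟨b, hb'⟩) hm
  have e1 := ncard_orbit_mul_card_stabilizer (H := H) x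
  have e2 := ncard_orbit_mul_card_stabilizer (H := H) y
  have e5 := card_unip_dvd_orbit (H := H) x
  have e6 := ncard_orbit_pos (H := H) x
  rw [h3, h4] at e1
  rw [h4] at hy e5
  have e7 : Nat.card H = Nat.card R * p := by
    have : IsComplement' R (zpowers b) := isComplement'_of_disjoint_and_mul_eq_univ
      (disjoint_def.2 fun h h' => h0 _ h (hz h')) (by rw [← normal_mul, hs]; rfl)
    rw [← this.card_mul, Nat.card_zpowers, orderOf_eq_prime (hu b hb) hb1]
  have e8 := Nat.eq_of_mul_eq_mul_right hp.pos (e1.trans e7)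
  rcases dickson_arith (k := 1) hp.two_le (one_dvd _) e5 (by omega) (by rw [e2, mul_one, e1]) hy with
    h | h | h
  · exact absurd h hp2
  · omega
  · omega


/-- Let F be a finite field of odd characteristic p and let a be a p-element of SL₂(F) normalizing a subgroup R of order prime to p with [R, a] ≠ 1. Then p = 3, R is a quaternion group of order 8, and R⟨a⟩ is isomorphic to SL₂(3). -/
theorem result (F : Type) [Field F] [Fintype F] {p : ℕ} [Fact p.Prime] [CharP F p] (hp : p ≠ 2) (a : Matrix.SpecialLinearGroup (Fin 2) F) (ha : IsPGroup p ↥(Subgroup.zpowers a)) (R : Subgroup (Matrix.SpecialLinearGroup (Fin 2) F)) (hR : (Nat.card R).Coprime p) (haR : a ∈ Subgroup.normalizer (R : Set (Matrix.SpecialLinearGroup (Fin 2) F))) (hnt : ⁅R, Subgroup.zpowers a⁆ ≠ ⊥) : p = 3 ∧ Nonempty (↥R ≃* QuaternionGroup 2) ∧ Nonempty (↥(R ⊔ Subgroup.zpowers a) ≃* Matrix.SpecialLinearGroup (Fin 2) (ZMod 3)) := by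
  open CF.Classical CF.Transfer CF.Invol Subgroup in
  have L := isL2_PSL F (AlgebraicClosure F)
  have := L.finite
  have h2 := two_ne_zero_of_char_ne_two F p hp
  have hodd : Odd p := (Fact.out : p.Prime).odd_of_ne_two hp
  obtain ⟨k, hk⟩ : ∃ k, a ^ p ^ k = 1 := (ha ⟨a, mem_zpowers a⟩).imp fun k h => congrArg Subtype.val h
  have hc : a ∉ centralizer (R : Set _) := fun h => hnt (by
    rw [Subgroup.commutator_comm, commutator_eq_bot_iff_le_centralizer]; exact zpowers_le.2 h)
  obtain ⟨r, hr, hra⟩ : ∃ r ∈ R, slToPSL F r * slToPSL F a ≠ slToPSL F a * slToPSL F r := by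
    by_contra! h
    refine hc fun r hr => ?_
    have := h r hr
    rw [← mul_inv_eq_iff_eq_mul, ← map_mul, ← map_inv, ← map_mul, slToPSL_eq_iff] at this
    refine mul_inv_eq_iff_eq_mul.1 (this.resolve_right fun e => neg_one_ne_one_SL2 h2 ?_)
    have := congrArg (· ^ p ^ k) e
    simp only [conj_pow, hk, mul_one, mul_inv_cancel, (hodd.pow (n := k)).neg_pow] at this
    exact this.symm
  obtain ⟨x, hx⟩ := L.exists_mem_unip p (g := slToPSL F a) (n := k) (by rw [← map_pow, hk, map_one])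
  have hn : zpowers (slToPSL F a) ≤ normalizer (R.map (slToPSL F) : Set _) :=
    zpowers_le.2 (le_normalizer_map _ (mem_map_of_mem _ haR))
  set S := R.map (slToPSL F) ⊔ zpowers (slToPSL F a)
  have := normal_subgroupOf_of_le_normalizer (H := S) (sup_le le_normalizer hn)
  have e := Nat.card_congr (subgroupOfEquivOfLe (le_sup_left : R.map (slToPSL F) ≤ S)).toEquiv
  obtain ⟨rfl, h4⟩ := aux (H := S) (x := ratPt (AlgebraicClosure F) x) Fact.out hp
    (fun g hg => Subtype.ext (L.pow_eq_one_of_mem_unip p (by rwa [unip_subgroup] at hg)))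
    (R := (R.map (slToPSL F)).subgroupOf S) (e ▸ hR.coprime_dvd_left (card_map_dvd _ _))
    (b := ⟨slToPSL F a, mem_sup_right (mem_zpowers _)⟩) (by rw [unip_subgroup]; exact hx)
    (by
      apply map_injective S.subtype_injective
      rw [Subgroup.map_sup, subgroupOf_map_subtype, MonoidHom.map_zpowers, inf_eq_left.2 le_sup_left,
        ← MonoidHom.range_eq_map, range_subtype]
      rfl)
    ⟨⟨slToPSL F r, mem_sup_left (mem_map_of_mem _ hr)⟩, mem_map_of_mem _ hr,
      fun h => hra (congrArg Subtype.val h)⟩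
  rw [e] at h4
  have h5 := card_eq_card_inf_ker_mul (slToPSL F) R
  have h6 : Nat.card (center (Matrix.SpecialLinearGroup (Fin 2) F)) = 2 := by
    rw [card_center_SL, Fintype.card_fin, gcd_two_of_odd (odd_card_of_two_ne_zero h2)]
  have hm : -1 ∈ R := by
    obtain ⟨g, hg⟩ := exists_prime_orderOf_dvd_card' (G := R) 2 (by rw [h5, h4]; omega)
    have h7 : (g : Matrix.SpecialLinearGroup (Fin 2) F) * g = 1 := by
      rw [← sq, ← coe_pow, orderOf_dvd_iff_pow_eq_one.1 hg.dvd, coe_one]
    rcases (SL2_mul_self_eq_one_iff h2).1 h7 with h | h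
    · rw [show g = 1 from Subtype.ext h] at hg; simp at hg
    · exact h ▸ g.2
  have h8 : Nat.card R = 2 ^ 3 := by
    rw [h5, h4, ker_slToPSL, inf_eq_right.2, h6]; rfl
    intro g hg
    rcases mem_center_SL2_iff.1 hg with rfl | rfl
    exacts [one_mem _, hm]
  have ho : orderOf a = 3 := by
    have h9 := L.pow_eq_one_of_mem_unip 3 hx
    rw [← map_pow, slToPSL_eq_one_iff] at h9
    refine orderOf_eq_prime (h9.resolve_right fun e => neg_one_ne_one_SL2 h2 ?_) ?_
    · rw [← (hodd.pow (n := k)).neg_one_pow, ← e, ← pow_mul, mul_comm, pow_mul, hk, one_pow]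
    · rintro rfl; exact hc (one_mem _)
  rcases SL2_isCyclic_or_quaternion h2 (IsPGroup.of_card h8) with h | ⟨m, -, ⟨f⟩⟩
  · exact absurd (mem_centralizer_of_isCyclic h (IsPGroup.of_card h8) haR (ho ▸ by decide)) hc
  have h9 := Nat.card_congr f.toEquiv
  rw [h8, Nat.card_eq_fintype_card, QuaternionGroup.card] at h9
  have h10 : 2 ^ m = 2 := by omega
  rw [h10] at f
  obtain ⟨i, j, hQ⟩ := exists_isQ8 f
  exact ⟨rfl, ⟨f⟩, nonempty_equiv_sl23 hQ haR ho hc⟩

end Cfsg.Agent.S3740
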