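import Mathlib
import Cfsg.Statements.S3741
import Cfsg.Agent.Fgs1.PGroup

set_option autoImplicit false
open Cfsg

namespace Cfsg.Agent.S3741

open CF.Fgs1

/-- Let A and B be subgroups of a finite p-group with [A, B] ≤ A ∩ B and [A, B] of order at most p. Then |A : C_A(B)| = |B : C_B(A)|. -/
theorem result {G : Type*} [Group G] [Finite G] {p : ℕ} [Fact p.Prime] (hG : IsPGroup p G) (A B : Subgroup G) (hAB : ⁅A, B⁆ ≤ A ⊓ B) (hcard : Nat.card ↥⁅A, B⁆ ≤ p) : (A ⊓ Subgroup.centralizer (B : Set G)).relIndex A = (B ⊓ Subgroup.centralizer (A : Set G)).relIndex B := by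
  rw [Subgroup.inf_relIndex_left, Subgroup.inf_relIndex_left]
  have hp : p.Prime := Fact.out
  by_cases h : ⁅A, B⁆ = ⊥
  · have h1 := Subgroup.commutator_eq_bot_iff_le_centralizer.1 h
    rw [Subgroup.relIndex_eq_one.2 h1, Subgroup.relIndex_eq_one.2 (Subgroup.le_centralizer_iff.1 h1)]
  · have hZ : Nat.card ↥⁅A, B⁆ = p :=
      le_antisymm hcard (Nat.le_of_dvd Nat.card_pos (dvd_card_of_ne_bot (hG.to_subgroup _) h))
    exact relIndex_centralizer_eq hZ
      (le_centralizer_of_card_prime (hG.to_subgroup A) (Subgroup.normalizer_commutator_ge_left A B) hZ)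
      (le_centralizer_of_card_prime (hG.to_subgroup B) (Subgroup.normalizer_commutator_ge_right A B) hZ)
      le_rfl

end Cfsg.Agent.S3741
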