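import Mathlib
import Cfsg.Statements.S3746
import Cfsg.Agent.Sig.PComp

set_option autoImplicit false
open Cfsg

namespace Cfsg.Agent.S3746


/-- Let Z ≤ Z(G) be a central subgroup of a finite group G and E a subgroup of G containing Z whose image E/Z is a component of G/Z (subnormal and quasisimple). Then the derived subgroup [E, E] is a component of G. -/
theorem result {G : Type*} [Group G] [Finite G] (Z : Subgroup G) (hZ : Z ≤ Subgroup.center G) [Z.Normal] (E : Subgroup G) (hZE : Z ≤ E) (hE : Cfsg.IsComponent (E.map (QuotientGroup.mk' Z))) : Cfsg.IsComponent ⁅E, E⁆ := by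
  have hE' : E.IsSubnormal := by
    have := hE.1.comap (QuotientGroup.mk' Z)
    rwa [CF.Solv.comap_map_mk', sup_eq_left.mpr hZE] at this
  have hmap : (⁅E, E⁆ : Subgroup G).map (QuotientGroup.mk' Z) = E.map (QuotientGroup.mk' Z) := by
    rw [Subgroup.map_commutator, CF.Sig.comp_perfect hE]
  have hsup : E ≤ ⁅E, E⁆ ⊔ Z := (CF.Solv.map_mk'_le_map_mk'_iff Z _ _).mp hmap.ge
  have hle : ⁅E, E⁆ ≤ E := Subgroup.commutator_le_self E
  refine ⟨CF.Sig.subnormal_of_le_normalizer hle hE' ?_, ?_⟩
  · exact le_trans (le_inf Subgroup.le_normalizer Subgroup.le_normalizer)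
      (CF.Solv.normalizer_inf_le_normalizer_commutator E E)
  · refine CF.Sig.qs_of_map_of_ker_central (QuotientGroup.mk' Z) ?_ (by rw [hmap]; exact hE.2) ?_
    · apply le_antisymm (Subgroup.commutator_le_self _)
      have h1 : E ≤ ⁅E, E⁆ ⊔ Subgroup.center G := hsup.trans (sup_le_sup_left hZ _)
      have := Subgroup.commutator_mono h1 h1
      rwa [CF.Sig.commutator_sup_center_eq] at this
    · rw [QuotientGroup.ker_mk']
      exact inf_le_right.trans (hZ.trans (Subgroup.center_le_centralizer _))

end Cfsg.Agent.S3746
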