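import Mathlib
import Cfsg.Statements.S3747
import Cfsg.Agent.Sig.FStar

set_option autoImplicit false
open Cfsg

namespace Cfsg.Agent.S3747

open Subgroup CF.Sig in
theorem part1 {G : Type*} [Group G] [Finite G] (K : Subgroup G) (hK : Cfsg.IsComponent K)
    (hZ : K ⊓ centralizer (K : Set G) = ⊥) : (normalClosure (K : Set G) ≠ ⊥ ∧
    ∀ N : Subgroup G, N.Normal → N ≤ normalClosure (K : Set G) → N = ⊥ ∨ N = normalClosure (K : Set G)) := by
  refine ⟨fun h => comp_ne_bot hK (le_bot_iff.mp (h ▸ le_normalClosure)), fun N hN hle => ?_⟩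
  rcases comp_le_or_commutator_eq_bot hK hN.isSubnormal with h | h
  · right
    exact le_antisymm hle (normalClosure_le_normal h)
  left
  let S : Set (Subgroup G) := {L | ∃ g : G, L = K.map (MulAut.conj g).toMonoidHom}
  have hS : ∀ L ∈ S, Cfsg.IsComponent L := by
    rintro _ ⟨g, rfl⟩; exact comp_map_conj hK g
  have h1 : normalClosure (K : Set G) ≤ sSup S := by
    rw [normalClosure, closure_le]
    intro x hx
    obtain ⟨a, ha, hc⟩ := Group.mem_conjugatesOfSet_iff.mp hx
    obtain ⟨g, rfl⟩ := isConj_iff.mp hc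
    exact (le_sSup (show K.map (MulAut.conj g).toMonoidHom ∈ S from ⟨g, rfl⟩) :
      _ ≤ sSup S) ⟨a, ha, rfl⟩
  have h2 : N ≤ centralizer ((sSup S : Subgroup G) : Set G) := by
    rw [le_centralizer_iff, sSup_le_iff]
    rintro _ ⟨g, rfl⟩ _ ⟨k, hk, rfl⟩ n hn
    have := commutator_eq_bot_iff_le_centralizer.mp h hk (g⁻¹ * n * g⁻¹⁻¹) (hN.conj_mem n hn g⁻¹)
    change n * (g * k * g⁻¹) = g * k * g⁻¹ * n
    calc n * (g * k * g⁻¹) = g * ((g⁻¹ * n * g⁻¹⁻¹) * k) * g⁻¹ := by group
      _ = _ := by rw [this]; group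
  have h3 := le_inf (hle.trans h1) h2
  rw [center_sSup_comp hS] at h3
  rw [eq_bot_iff]
  refine h3.trans (iSup₂_le ?_)
  rintro _ ⟨g, rfl⟩ _ ⟨⟨k, hk, rfl⟩, h4⟩
  have : k ∈ K ⊓ centralizer (K : Set G) := ⟨hk, fun a ha => by
    have := h4 _ ⟨a, ha, rfl⟩
    rw [← map_mul, ← map_mul] at this
    exact (MulAut.conj g).injective this⟩
  rw [hZ, mem_bot] at this
  rw [this, map_one]
  exact one_mem _

/-- Let G be a finite group. (a) If K is a component of G with trivial centre, then the normal closure of K in G is a minimal normal subgroup of G. (b) If the Fitting subgroup of G is trivial, then the layer E(G) is generated by the minimal normal subgroups of G. -/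
theorem result {G : Type*} [Group G] [Finite G] : (∀ K : Subgroup G, Cfsg.IsComponent K → Subgroup.center ↥K = ⊥ → (Subgroup.normalClosure (K : Set G) ≠ ⊥ ∧ ∀ N : Subgroup G, N.Normal → N ≤ Subgroup.normalClosure (K : Set G) → N = ⊥ ∨ N = Subgroup.normalClosure (K : Set G))) ∧ (Cfsg.fittingSubgroup G = ⊥ → sSup {N : Subgroup G | N ≠ ⊥ ∧ N.Normal ∧ ∀ N' : Subgroup G, N'.Normal → N' ≤ N → N' = ⊥ ∨ N' = N} = Cfsg.layer G) := by
  refine ⟨fun K hK hZ => part1 K hK (by rw [← CF.Sig.map_center_subtype, hZ, Subgroup.map_bot]),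
    fun hF => le_antisymm (sSup_le ?_) (CF.Sig.layer_le fun K hK => ?_)⟩
  · rintro N ⟨h0, hN, hmin⟩
    have h1 := CF.Sig.inf_fstar_ne_bot h0
    have h2 := (hmin _ inferInstance inf_le_left).resolve_left h1
    have h3 : N ≤ Cfsg.generalizedFittingSubgroup G := inf_eq_left.mp h2
    rwa [Cfsg.generalizedFittingSubgroup, hF, sup_bot_eq] at h3
  · have := part1 K hK (le_bot_iff.mp (hF ▸ CF.Sig.center_comp_le_fitting hK))
    exact Subgroup.le_normalClosure.trans (le_sSup ⟨this.1, inferInstance, this.2⟩)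

end Cfsg.Agent.S3747
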