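import Cfsg.Statements.S3749
import Cfsg.Agent.Coprime.Misc

set_option autoImplicit false
open Cfsg

namespace Cfsg.Agent.S3749

/-- Call a proper subgroup M of G primitive when M = N_G(N) for every non-trivial normal subgroup N of M. Let M be a primitive subgroup of the finite group G, p a prime with O_p(M) ≠ 1, and N a normal subgroup of G with M ∩ N = 1. Then p does not divide the order of N; for every prime q there is exactly one Sylow q-subgroup of N normalized by M; and if the order of N has at least two prime divisors then M is not a maximal subgroup of G. -/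
theorem result {G : Type*} [Group G] [Finite G] (M : Subgroup G) (hM : M ≠ ⊤) (hprim : ∀ N : Subgroup G, N ≤ M → M ≤ Subgroup.normalizer (N : Set G) → N ≠ ⊥ → Subgroup.normalizer (N : Set G) = M) {p : ℕ} [Fact p.Prime] (hOp : Cfsg.pCore p ↥M ≠ ⊥) (N : Subgroup G) [N.Normal] (hMN : M ⊓ N = ⊥) : ¬ p ∣ Nat.card N ∧ (∀ q : ℕ, [Fact q.Prime] → ∃! Q : Sylow q ↥N, M ≤ Subgroup.normalizer ((Q : Subgroup ↥N).map N.subtype : Set G)) ∧ ((∃ q r : ℕ, q.Prime ∧ r.Prime ∧ q ≠ r ∧ q ∣ Nat.card N ∧ r ∣ Nat.card N) → ¬ IsCoatom M) := by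
  have hp : p.Prime := Fact.out
  let P := (Cfsg.pCore p M).map M.subtype
  have hP : IsPGroup p P := (CF.Solv.pCore_isPGroup).map _
  have hPM : P ≤ M := Subgroup.map_subtype_le _
  have hMP : M ≤ Subgroup.normalizer (P : Set G) :=
    (CF.Solv.normal_map_subtype_iff _).mp inferInstance
  have hNP := hprim P hPM hMP (by
    rwa [Ne, Subgroup.map_eq_bot_iff_of_injective _ M.subtype_injective])
  have hC : N ⊓ Subgroup.centralizer (P : Set G) = ⊥ := by
    rw [eq_bot_iff, ← hMN, inf_comm M, ← hNP]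
    exact inf_le_inf_left _ (Subgroup.centralizer_le_normalizer _)
  have h1 : ¬ p ∣ Nat.card N := fun h => by
    obtain ⟨z, hz, hz1, hzc⟩ := CF.Fgs1.exists_fixed_of_dvd_card hP
      Subgroup.le_normalizer_of_normal h
    exact hz1 (Subgroup.mem_bot.mp (hC ▸ ⟨hz, hzc⟩))
  have hcop : (Nat.card P).Coprime (Nat.card N) :=
    CF.Solv.coprime_card_of_isPGroup hP (hp.coprime_iff_not_dvd.mpr h1).symm
  have hs : Group.IsSolvable P := CF.Coprime.isSolvable_of_isPGroup hP
  have huniq : ∀ (q : ℕ) [Fact q.Prime] (Q R : Subgroup G), CF.Coprime.IsSylowOf q Q N →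
      CF.Coprime.IsSylowOf q R N → P ≤ Subgroup.normalizer (Q : Set G) →
      P ≤ Subgroup.normalizer (R : Set G) → Q = R := by
    intro q _ Q R hQ hR h2 h3
    obtain ⟨c, hc, h4⟩ := CF.Coprime.invariant_isSylowOf_conj P N
      Subgroup.le_normalizer_of_normal hcop (Or.inl hs) q hQ hR h2 h3
    rw [hC, Subgroup.mem_bot] at hc
    rw [← h4, hc]
    simp
  have hex : ∀ (q : ℕ) [Fact q.Prime], ∃ Q, CF.Coprime.IsSylowOf q Q N ∧
      M ≤ Subgroup.normalizer (Q : Set G) := by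
    intro q _
    obtain ⟨Q, hQ, h2⟩ := CF.Coprime.exists_invariant_isSylowOf P N
      Subgroup.le_normalizer_of_normal hcop (Or.inl hs) q
    refine ⟨Q, hQ, fun m hm => CF.Solv.conj_smul_eq_iff.mp (huniq q _ _
      (hQ.conj_smul (Subgroup.le_normalizer_of_normal (Subgroup.mem_top m))) hQ ?_ h2)⟩
    rw [CF.Solv.normalizer_conj_smul, ← CF.Solv.conj_smul_eq_iff.mpr (hMP hm)]
    exact Subgroup.pointwise_smul_le_pointwise_smul_iff.mpr h2
  refine ⟨h1, fun q _ => ?_, ?_⟩
  · obtain ⟨Q, hQ, h2⟩ := hex q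
    obtain ⟨S, rfl⟩ := hQ.exists_sylow
    refine ⟨S, h2, fun T hT => Sylow.ext (Subgroup.map_injective N.subtype_injective ?_)⟩
    exact huniq q _ _ (CF.Coprime.isSylowOf_map_subtype T) hQ (hPM.trans hT) (hPM.trans h2)
  · rintro ⟨q, r, hq, hr, hqr, hqN, hrN⟩ hco
    have := Fact.mk hq
    obtain ⟨Q, hQ, h2⟩ := hex q
    have h3 : M < M ⊔ Q := left_lt_sup.mpr fun h => hQ.ne_bot hqN
      (eq_bot_iff.mpr (hMN ▸ le_inf h hQ.le))
    have h4 := CF.Solv.sup_inf_assoc_of_le_normalizer' hQ.le h2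
    rw [hco.2 _ h3, top_inf_eq, hMN, bot_sup_eq] at h4
    obtain ⟨k, hk⟩ := IsPGroup.iff_card.mp hQ.isPGroup
    rw [h4, hk] at hrN
    exact hqr ((Nat.prime_dvd_prime_iff_eq hr hq).mp (hr.dvd_of_dvd_pow hrN)).symm

end Cfsg.Agent.S3749
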