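import Cfsg.Statements.S3750
import Cfsg.Agent.Sig.Amb
-- import your own Cfsg.Agent.* helpers here

set_option autoImplicit false
open Cfsg

namespace Cfsg.Agent.S3750

open Cfsg CF.BG CF.Sig Subgroup
open scoped commutatorElement


/-- Call a proper subgroup M of G primitive when M = N_G(N) for every non-trivial normal subgroup N of M. Let M be a primitive subgroup of the finite group G and N a normal subgroup of G with M ∩ F*(N) ≠ 1. Then F(G) = 1 and F*(N) = F*(G) = E(G); in particular every minimal normal subgroup of G is contained in N. -/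
theorem result {G : Type*} [Group G] [Finite G] (M : Subgroup G) (hM : M ≠ ⊤) (hprim : ∀ N : Subgroup G, N ≤ M → M ≤ Subgroup.normalizer (N : Set G) → N ≠ ⊥ → Subgroup.normalizer (N : Set G) = M) (N : Subgroup G) [N.Normal] (hMF : M ⊓ (Cfsg.generalizedFittingSubgroup ↥N).map N.subtype ≠ ⊥) : Cfsg.fittingSubgroup G = ⊥ ∧ (Cfsg.generalizedFittingSubgroup ↥N).map N.subtype = Cfsg.generalizedFittingSubgroup G ∧ Cfsg.generalizedFittingSubgroup G = Cfsg.layer G ∧ ∀ K : Subgroup G, K.Normal → K ≠ ⊥ → (∀ K' : Subgroup G, K'.Normal → K' ≤ K → K' = ⊥ ∨ K' = K) → K ≤ N := by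
  change M ⊓ Fst N ≠ ⊥ at hMF
  change _ ∧ Fst N = _ ∧ _
  have nN : N ⊴ ⊤ := normalIn_top.2 inferInstance
  have nF : Fst N ⊴ ⊤ := nN.char (Fst_le _) (norm_Fst _)
  have c : 𝐂 (Fst N) = ⊥ := by
    by_contra h
    have := hprim _ ((cent_anti inf_le_right).trans ((cent_le_norm _).trans (hprim _ inf_le_left
      (norm_inf (le_norm_self _) (le_top.trans nF.norm)) hMF).le))
      (le_top.trans (norm_cent nF.norm)) h
    exact hM (top_le_iff.1 (this ▸ norm_cent nF.norm))
  have f : 𝐅 N = ⊥ := by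
    by_contra h
    refine (F_nil N).center_ne_bot h (eq_bot_mono c ?_)
    rw [Fst_eq, cent_sup]
    exact le_inf (inf_le_left.trans (cent_symm (Lay_cent_F N))) inf_le_right
  have e : Fst N = Lay N := by rw [Fst_eq, f, sup_bot_eq]
  have l := Lay_le_of_subN nN.subN
  have f' : 𝐅 (⊤ : Subgroup G) = ⊥ :=
    eq_bot_mono c (e ▸ (cent_symm (Lay_cent_F _)).trans (cent_anti l))
  have e' : Lay (⊤ : Subgroup G) = Lay N := le_antisymm (Lay_le_iff.2 fun K hK =>
    (hK.le_or_cent_subN nN.subN).elim (fun a => (hK.of_le a le_top).le_Lay) fun a =>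
      absurd (eq_bot_mono c (a.trans (cent_anti (Fst_le _)))) hK.ne_bot) l
  have e'' : Fst (⊤ : Subgroup G) = Lay ⊤ := by rw [Fst_eq, f', sup_bot_eq]
  refine ⟨F_top.symm.trans f', by rw [e, ← e', ← e'', Fst_top], by rw [← Fst_top, e'', Lay_top],
    fun K k1 k2 k3 => ?_⟩
  rcases k3 (K ⊓ N) inferInstance inf_le_left with h | h
  · exact absurd (eq_bot_mono c (((normalIn_top.2 k1).cent_of_inf_eq_bot nN h).trans
      (cent_anti (Fst_le _)))) k2
  · exact inf_eq_left.1 h

end Cfsg.Agent.S3750
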