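import Cfsg.Statements.S3751
import Cfsg.Agent.Loc.Prim
-- import your own Cfsg.Agent.* helpers here

set_option autoImplicit false
open Cfsg

namespace Cfsg.Agent.S3751

open Cfsg CF.Loc Subgroup
open scoped commutatorElement


/-- Two distinct subgroups M₁, M₂ of G form a primitive pair when, for {i, j} = {1, 2}, every non-trivial normal subgroup A of M_i contained in M₁ ∩ M₂ satisfies N_{M_j}(A) = M₁ ∩ M₂; the pair has characteristic p when moreover C_{M_i}(O_p(M_i)) ≤ O_p(M_i) for both i and O_p(M₁)O_p(M₂) ≤ M₁ ∩ M₂. Let G be a finite group, p a prime dividing its order, with O_p(G) = 1 and every p-local subgroup of characteristic p. Then either G has a primitive pair of characteristic p, or every maximal p-local subgroup M of G is strongly p-embedded in G: M is a proper subgroup, p divides its order, and for every g ∉ M the order of M ∩ gMg⁻¹ is prime to p. -/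
theorem result {G : Type*} [Group G] [Finite G] {p : ℕ} [Fact p.Prime] (hloc : Cfsg.IsOfLocalCharacteristic p G) (hOp : Cfsg.pCore p G = ⊥) : (∃ M₁ M₂ : Subgroup G, M₁ ≠ M₂ ∧ (∀ A : Subgroup G, A ≠ ⊥ → A ≤ M₁ ⊓ M₂ → (M₁ ≤ Subgroup.normalizer (A : Set G) → M₂ ⊓ Subgroup.normalizer (A : Set G) = M₁ ⊓ M₂) ∧ (M₂ ≤ Subgroup.normalizer (A : Set G) → M₁ ⊓ Subgroup.normalizer (A : Set G) = M₁ ⊓ M₂)) ∧ Subgroup.centralizer (Cfsg.pCore p ↥M₁ : Set ↥M₁) ≤ Cfsg.pCore p ↥M₁ ∧ Subgroup.centralizer (Cfsg.pCore p ↥M₂ : Set ↥M₂) ≤ Cfsg.pCore p ↥M₂ ∧ (Cfsg.pCore p ↥M₁).map M₁.subtype ⊔ (Cfsg.pCore p ↥M₂).map M₂.subtype ≤ M₁ ⊓ M₂) ∨ (∀ M : Subgroup G, (∃ T : Subgroup G, IsPGroup p T ∧ T ≠ ⊥ ∧ M = Subgroup.normalizer (T : Set G)) → (∀ L : Subgroup G, (∃ T : Subgroup G, IsPGroup p T ∧ T ≠ ⊥ ∧ L = Subgroup.normalizer (T : Set G)) → M ≤ L → L = M) → M ≠ ⊤ ∧ p ∣ Nat.card M ∧ ∀ g : G, g ∉ M → ¬ p ∣ Nat.card ↥(M ⊓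 M.map (MulAut.conj g).toMonoidHom)) := by
  have c : ∀ M : Subgroup G, IsPLocal p M → IsCharP p M := by
    rintro _ ⟨Q, a, b, rfl⟩
    exact isCharP_iff.2 (hloc.2 Q a b)
  by_contra hh
  rw [not_or] at hh
  refine hh.2 fun M a b => ?_
  have hM : IsMaximalPLocal p M := ⟨a, b⟩
  have o := IsPLocal.pCoreOf_ne_bot a
  refine ⟨fun e => o (by rw [e, pCoreOf_top, hOp]), (dvd_card_of_isPGroup (isPGroup_pCoreOf p M)
    o).trans (card_dvd_of_le (pCoreOf_le _ _)), fun g hg d => hh.1 ?_⟩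
  obtain ⟨M₁, M₂, T, h1, h2, ne, s1, s2⟩ := exists_maxP_pair c hM (maxP_cj hM g) (fun e => hg
    (maxP_normalizer_le hM (c M a) (fun e => o (le_bot_iff.1 (e ▸ pCoreOf_le p M))) le_rfl
      Subgroup.le_normalizer (cj_eq_self_iff.1 e.symm))) d
  exact ⟨M₁, M₂, ne, (pp_of ne (fun A => maxP_normalizer_le h1 (c _ h1.1))
    fun A => maxP_normalizer_le h2 (c _ h2.1)).2, isCharP_iff.1 (c _ h1.1), isCharP_iff.1 (c _ h2.1),
    (sup_le s1.pCoreOf_le s2.pCoreOf_le).trans (le_inf s1.le s2.le)⟩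

end Cfsg.Agent.S3751
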