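import Cfsg.Statements.S3752
import Cfsg.Agent.Sig.Bal
import Cfsg.Agent.Loc.Prim
-- import your own Cfsg.Agent.* helpers here

set_option autoImplicit false
open Cfsg

namespace Cfsg.Agent.S3752

open Cfsg CF.BG CF.Sig Subgroup
open scoped commutatorElement


variable {G : Type*} [Group G] [Finite G] {M M₁ M₂ B : Subgroup G} {p q : ℕ}

theorem lay_eq (a : Fst M ≤ B) (b : B ≤ M) : Lay B = Lay M := by
  refine le_antisymm (Lay_le_iff.2 fun K hK => ?_) (Lay_le_of_le b ((Lay_le_Fst _).trans a))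
  by_contra h
  refine hK.not_sol ((F_nil M).sol.mono (le_F_of_cent (hK.le.trans b) (hK.cent_of_sol
    ((F_le_Fst _).trans a) ((hK.le.trans b).trans (F_normal _).norm) (F_nil _).sol) fun L hL => ?_))
  exact hK.cent_of_ne (hL.of_le (hL.le_Lay.trans ((Lay_le_Fst _).trans a)) b)
    fun e => h (e ▸ hL.le_Lay)

theorem cent1 (h₁ : 𝐅 M₁ ≤ M₂) (h₂ : 𝐅 M₂ ≤ M₁) (p : ℕ) : 𝐎 {p} M₂ ≤ 𝐂 (𝐎 {p}ᶜ (𝐅 M₁)) :=
  (O_pi _ _).cent_of_norm (O_pi _ _) (((O_le_F _ _).trans h₂).trans ((F_normal _).O _).norm)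
    (((O_le _ _).trans h₁).trans (O_normal _ _).norm)

theorem key (pp : CF.Loc.PP M₁ M₂) (h₁ : 𝐅 M₁ ≤ M₂) (h₂ : 𝐅 M₂ ≤ M₁) (c : M₁ ⊓ 𝐂 (𝐅 M₁) ≤ 𝐅 M₁)
    (hpq : q ≠ p) (h : 𝐎 {p} M₂ ≠ ⊥) : 𝐎 {q} M₂ ≤ 𝐎 {q} M₁ := by
  have l : ∀ r, 𝐎 {r} M₂ ≤ M₁ := fun r => (O_le_F _ _).trans h₂
  have n : ∀ r, M₁ ≤ 𝐍 (M₁ ⊓ 𝐂 (𝐎 {r}ᶜ (𝐅 M₁))) := fun r =>
    (normalIn_inf_cent ((F_normal _).O _).norm).norm
  have o : 𝐎 {p} M₁ ≤ 𝐎 {q}ᶜ (𝐅 M₁) := (F_nil _).le_O (O_le_F _ _) ((O_pi _ _).of_single_ne hpq.symm)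
  have nZ := (normalIn_inf_cent (F_normal M₁).norm).norm
  have k : ∀ A, A ≤ M₁ ⊓ 𝐂 (𝐎 {q}ᶜ (𝐅 M₁)) → PiGrp {q} A → A ≤ 𝐂 (𝐎 {p} M₂) := fun A a b => by
    have c1 : ⁅𝐎 {p} M₂, A⁆ ≤ M₁ ⊓ 𝐂 (𝐅 M₁) := by
      refine le_inf ((commutator_mono (l p) (a.trans inf_le_left)).trans (der_le _)) ?_
      rw [← ((F_nil M₁).dprod {p}).sup, O_F, cent_sup]
      exact le_inf (((commutator_mono (l p) a).trans (comm_le_right (n q))).trans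
        (inf_le_right.trans (cent_anti o))) (((commutator_mono (le_inf (l p) (cent1 h₁ h₂ p))
          (a.trans inf_le_left)).trans (comm_le_left (n p))).trans inf_le_right)
    have nil : Nil (𝐎 {p} M₂ ⊔ (M₁ ⊓ 𝐂 (𝐅 M₁))) := (O_pi _ _).nil.sup (nil_of_le_F c)
      ((l p).trans nZ) ((c.trans h₁).trans (O_normal _ _).norm)
    have nA : A ≤ 𝐍 (𝐎 {p} M₂ ⊔ (M₁ ⊓ 𝐂 (𝐅 M₁))) := norm_of_comm_le (comm_sup_le
      (c1.trans le_sup_right) ((comm_le_left ((a.trans inf_le_left).trans nZ)).trans le_sup_right)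
      (norm_of_le le_sup_left) (norm_of_le le_sup_right))
    refine cent_of_stable (N := 𝐎 {p} M₁) (b.coprime ((O_pi _ _).of_single_ne hpq.symm))
      (le_O_of_le_F (c1.trans c) ((O_pi {p} _).le ((commutator_mono (nil.le_O le_sup_left
        (O_pi _ _)) le_rfl).trans (comm_le_left (le_norm_O _ nA)))))
      (a.trans (inf_le_right.trans (cent_anti o)))
  have k2 : orbJ M₁ (𝐎 {q} M₂) ≤ M₂ ⊓ M₁ := orbJ_le_iff.2 fun g hg => by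
    have := cj_le_of_norm (n q hg) (le_inf (l q) (cent1 h₁ h₂ q))
    exact le_inf (le_trans (le_inf (this.trans inf_le_left) (norm_of_cent
      (k _ this ((O_pi _ _).cj g)))) (pp.symm.le h (O_le _ _) (l p) (O_normal _ _).norm))
      (this.trans inf_le_left)
  exact subN_le_O (((O_normal _ _).of_le (le_orbJ _ _) (k2.trans inf_le_left)).subN.trans
    (NormalIn.subN ⟨k2.trans inf_le_right, norm_orbJ _ _⟩)) (O_pi _ _)

theorem fin (hp : p.Prime) (c : M ⊓ 𝐂 (𝐅 M) ≤ 𝐅 M) (h : ∀ q, q ≠ p → 𝐎 {q} M = ⊥) :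
    centralizer (pCore p M : Set M) ≤ pCore p M := by
  have e : 𝐅 M = 𝐎 {p} M := le_antisymm (F_le_of_forall fun q _ _ => by
    by_cases e : q = p
    exacts [e ▸ le_rfl, (h q e).le.trans bot_le]) (O_le_F _ _)
  rw [e, ← map_pCore hp] at c
  exact CF.Loc.isCharP_iff.1 c

/-- Bender's Theorem on primitive pairs. Two distinct subgroups M₁, M₂ of G form a primitive pair when, for {i, j} = {1, 2}, every non-trivial normal subgroup A of M_i contained in M₁ ∩ M₂ satisfies N_{M_j}(A) = M₁ ∩ M₂; the pair has characteristic p when moreover C_{M_i}(O_p(M_i)) ≤ O_p(M_i) for both i and O_p(M₁)O_p(M₂) ≤ M₁ ∩ M₂. If (M₁, M₂) is a primitive pair of the finite group G with F*(M₁) ≤ M₂ and F*(M₂) ≤ M₁, then for some prime p the pair has characteristic p. -/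
theorem result {G : Type*} [Group G] [Finite G] (M₁ M₂ : Subgroup G) (hne : M₁ ≠ M₂) (hP : ∀ A : Subgroup G, A ≠ ⊥ → A ≤ M₁ ⊓ M₂ → (M₁ ≤ Subgroup.normalizer (A : Set G) → M₂ ⊓ Subgroup.normalizer (A : Set G) = M₁ ⊓ M₂) ∧ (M₂ ≤ Subgroup.normalizer (A : Set G) → M₁ ⊓ Subgroup.normalizer (A : Set G) = M₁ ⊓ M₂)) (h₁ : (Cfsg.generalizedFittingSubgroup ↥M₁).map M₁.subtype ≤ M₂) (h₂ : (Cfsg.generalizedFittingSubgroup ↥M₂).map M₂.subtype ≤ M₁) : ∃ p : ℕ, p.Prime ∧ Subgroup.centralizer (Cfsg.pCore p ↥M₁ : Set ↥M₁) ≤ Cfsg.pCore p ↥M₁ ∧ Subgroup.centralizer (Cfsg.pCore p ↥M₂ : Set ↥M₂) ≤ Cfsg.pCore p ↥M₂ ∧ (Cfsg.pCore p ↥M₁).map M₁.subtype ⊔ (Cfsg.pCore p ↥M₂).map M₂.subtype ≤ M₁ ⊓ M₂ := by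
  have pp : CF.Loc.PP M₁ M₂ := ⟨hne, hP⟩
  change Fst M₁ ≤ M₂ at h₁
  change Fst M₂ ≤ M₁ at h₂
  have e := (lay_eq (le_inf (Fst_le _) h₁) inf_le_left).symm.trans
    (lay_eq (le_inf h₂ (Fst_le _)) inf_le_right)
  have l1 := pp.eq_bot (Lay_le _) (e ▸ Lay_le _) (Lay_normal _).norm (e ▸ (Lay_normal _).norm)
  have c1 := cent_F_le_of_Lay l1
  have c2 := cent_F_le_of_Lay (e ▸ l1)
  replace h₁ := (F_le_Fst _).trans h₁
  replace h₂ := (F_le_Fst _).trans h₂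
  have z : ∀ M : Subgroup G, M ⊓ 𝐂 (𝐅 M) ≤ 𝐅 M → 𝐅 M = ⊥ → M = ⊥ := fun M a b => by
    rw [b] at a
    exact eq_bot_mono rfl ((le_inf le_rfl (cent_symm bot_le)).trans a)
  obtain ⟨p, hp, o1⟩ : ∃ p : ℕ, p.Prime ∧ 𝐎 {p} M₁ ≠ ⊥ := by
    by_contra hh
    push Not at hh
    have := z _ c1 (eq_bot_mono rfl (F_le_of_forall fun p a _ => (hh p a).le))
    exact hne (this.trans (z _ c2 (eq_bot_mono this h₂)).symm)
  have o2 : 𝐎 {p} M₂ ≠ ⊥ := fun hh => o1 (eq_bot_mono hh (le_O_of_le_F (le_trans (le_inf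
    ((O_le_F _ _).trans h₁) (by
      rw [← ((F_nil M₂).dprod {p}).sup, O_F, hh, bot_sup_eq]
      exact cent1 h₂ h₁ p)) c2) (O_pi _ _)))
  have k : ∀ q, q ≠ p → 𝐎 {q} M₁ = 𝐎 {q} M₂ := fun q hq =>
    le_antisymm (key pp.symm h₂ h₁ c2 hq o1) (key pp h₁ h₂ c1 hq o2)
  have k1 : ∀ q, q ≠ p → 𝐎 {q} M₁ = ⊥ := fun q hq => pp.eq_bot (O_le _ _) (k q hq ▸ O_le _ _)
    (O_normal _ _).norm (k q hq ▸ (O_normal _ _).norm)
  refine ⟨p, hp, fin hp c1 k1, fin hp c2 fun q hq => k q hq ▸ k1 q hq, ?_⟩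
  rw [map_pCore hp, map_pCore hp]
  exact sup_le (le_inf (O_le _ _) ((O_le_F _ _).trans h₁)) (le_inf ((O_le_F _ _).trans h₂) (O_le _ _))

end Cfsg.Agent.S3752
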