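import Cfsg.Statements.S3753
import Cfsg.Agent.Loc.Prim
-- import your own Cfsg.Agent.* helpers here

set_option autoImplicit false
open Cfsg

namespace Cfsg.Agent.S3753

open Cfsg CF.Loc Subgroup
open scoped commutatorElement


/-- Two distinct subgroups M₁, M₂ of G form a primitive pair when, for {i, j} = {1, 2}, every non-trivial normal subgroup A of M_i contained in M₁ ∩ M₂ satisfies N_{M_j}(A) = M₁ ∩ M₂; the pair has characteristic p when moreover C_{M_i}(O_p(M_i)) ≤ O_p(M_i) for both i and O_p(M₁)O_p(M₂) ≤ M₁ ∩ M₂. If the finite group G has a primitive pair (M₁, M₂) of characteristic p for some prime p, then M₁ or M₂ has non-abelian Sylow 2-subgroups. In particular no group of odd order has a primitive pair of characteristic p. -/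
theorem result {G : Type*} [Group G] [Finite G] {p : ℕ} [Fact p.Prime] (M₁ M₂ : Subgroup G) (hne : M₁ ≠ M₂) (hP : ∀ A : Subgroup G, A ≠ ⊥ → A ≤ M₁ ⊓ M₂ → (M₁ ≤ Subgroup.normalizer (A : Set G) → M₂ ⊓ Subgroup.normalizer (A : Set G) = M₁ ⊓ M₂) ∧ (M₂ ≤ Subgroup.normalizer (A : Set G) → M₁ ⊓ Subgroup.normalizer (A : Set G) = M₁ ⊓ M₂)) (hc₁ : Subgroup.centralizer (Cfsg.pCore p ↥M₁ : Set ↥M₁) ≤ Cfsg.pCore p ↥M₁) (hc₂ : Subgroup.centralizer (Cfsg.pCore p ↥M₂ : Set ↥M₂) ≤ Cfsg.pCore p ↥M₂) (hO : (Cfsg.pCore p ↥M₁).map M₁.subtype ⊔ (Cfsg.pCore p ↥M₂).map M₂.subtype ≤ M₁ ⊓ M₂) : (∃ S : Sylow 2 ↥M₁, ¬ IsMulCommutative (S : Subgroup ↥M₁)) ∨ (∃ S : Sylow 2 ↥M₂, ¬ IsMulCommutative (S : Subgroup ↥M₂)) := by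
  by_contra hh
  push Not at hh
  have pp : PP M₁ M₂ := ⟨hne, hP⟩
  have c1 := isCharP_iff.2 hc₁
  have c2 := isCharP_iff.2 hc₂
  have o1 : pCoreOf p M₁ ≤ M₂ := le_sup_left.trans (hO.trans inf_le_right)
  have o2 : pCoreOf p M₂ ≤ M₁ := le_sup_right.trans (hO.trans inf_le_left)
  by_cases hp : p = 2
  · subst hp
    have key : ∀ M Q : Subgroup G, IsCharP 2 M → (∀ S : Sylow 2 M, IsMulCommutative S) →
        IsPGroup 2 Q → Q ≤ M → Q ≤ pCoreOf 2 M := fun M Q c s a b => by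
      obtain ⟨T, hT, l⟩ := exists_isSyl_ge a b
      obtain ⟨S, rfl⟩ := hT.exists_sylow
      refine c.le_pCoreOf b (l.trans (le_trans ?_ (centralizer_anti hT.pCoreOf_le)))
      have := s S
      exact le_centralizer_iff_isMulCommutative.2 inferInstance
    have e := le_antisymm (key _ _ c2 hh.2 (isPGroup_pCoreOf _ _) o1)
      (key _ _ c1 hh.1 (isPGroup_pCoreOf _ _) o2)
    have z := pp.eq_bot (pCoreOf_le _ _) o1 (le_normalizer_pCoreOf _ _)
      (e ▸ le_normalizer_pCoreOf _ _)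
    by_cases h1 : M₁ = ⊥
    · exact c2.pCoreOf_ne_bot (h1 ▸ hne.symm) (e ▸ z)
    · exact c1.pCoreOf_ne_bot h1 z
  · exact PC.false ⟨pp, ⟨c1, o1, .of_sylow_two hp default (hh.1 _)⟩,
      ⟨c2, o2, .of_sylow_two hp default (hh.2 _)⟩⟩

end Cfsg.Agent.S3753
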