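import Cfsg.Statements.S3754
import Cfsg.Agent.Sig.Fun
import Cfsg.Agent.Loc.Two
import Cfsg.Agent.Solv.PiSep
-- import your own Cfsg.Agent.* helpers here

set_option autoImplicit false
open Cfsg

namespace Cfsg.Agent.S3754

open Cfsg CF.BG CF.Sig Subgroup
open scoped commutatorElement


theorem bar {H : Type*} [Group H] [Finite H] {p : ℕ} {A F : Subgroup H} (a : Abelem p A)
    (n : A ≤ 𝐍 F) (f : PiGrp {p}ᶜ F) (c : ¬ F ≤ 𝐂 A) : ∃ K B : Subgroup H, ∃ x ∈ K, K ≤ F ∧ B ≤ A ∧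
      B.relIndex A = p ∧ A ⊓ 𝐂 K = B ∧ A ≤ 𝐍 K ∧ A ⊔ cj x A = K ⊔ A := by
  obtain ⟨m, hm⟩ := Nat.exists_eq_succ_of_ne_zero (n := logn p (♯A)) fun e => c (by
    rw [a.pi.logn_eq_zero.1 e]; exact cent_symm bot_le)
  have e := a.elem le_rfl
  rw [hm] at e
  obtain ⟨B, b, c'⟩ := Elem.exists_hyp e n f c
  obtain ⟨K, l, ⟨k1, k2⟩, mn⟩ := exists_minimal (P := fun K => A ≤ 𝐍 K ∧ ¬ K ≤ 𝐂 A)
    ⟨norm_inf_cent n (a.abel.le_norm b.le), c'⟩
  obtain ⟨x, hx, hx'⟩ := SetLike.not_le_iff_exists.1 k2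
  have i : B.relIndex A = p := by simpa using Elem.relIndex (n := 1) e b
  have kf := f.le (l.trans inf_le_left)
  refine ⟨K, B, x, hx, l.trans inf_le_left, b.le, i, CF.Loc.eq_of_relIndex_prime_of_not_le
    (i ▸ e.prime) (le_inf b.le (cent_symm (l.trans inf_le_right))) inf_le_left
    fun h => k2 (cent_symm (h.trans inf_le_right)), k1, ?_⟩
  have l1 : A ⊔ cj x A ≤ K ⊔ A := sup_le le_sup_right (cj_le_of_mem (mem_sup_left hx) le_sup_right)
  have d := inf_sup_right (C := A ⊔ cj x A) (A := K) le_sup_left (.inr k1)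
  rw [inf_eq_left.2 l1] at d
  refine le_antisymm l1 (sup_le (le_trans (mn (_ ⊓ K) ⟨norm_inf (norm_of_le le_sup_left) k1,
    fun h => hx' ?_⟩ inf_le_right).ge inf_le_left) le_sup_left)
  have pi : PiGrp {p} (A ⊔ cj x A) := a.pi.sup (a.pi.cj x) (.inr (le_sup_right.trans
    (d.le.trans (sup_le (norm_of_cent h) (le_norm_self _)))))
  rw [pi.inf_eq_bot kf, bot_sup_eq] at d
  exact inf_norm_le_cent k1 (a.pi.inf_eq_bot kf) ⟨hx, mem_norm_of_cj_le (le_sup_right.trans d.le)⟩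

/-- Let M be a finite p-soluble group and A a p-subgroup of M with Φ(A) ≤ O_p(M) but A ≰ O_p(M). Then there is x ∈ O_{p,p'}(M) such that L = ⟨A, xAx⁻¹⟩ satisfies: x ∈ O^p(L) and O^p(L) ≤ O_{p,p'}(M); [O^p(L), A] = O^p(L); A ∩ O_p(L) has index p in A; and [A ∩ O_p(L), L] ≤ O_p(M). Here O^p(L) is the subgroup generated by the p'-elements of L and O_{p,p'}(M) the preimage of O_{p'}(M/O_p(M)). -/
theorem result {M : Type*} [Group M] [Finite M] {p : ℕ} [Fact p.Prime] (hM : Cfsg.IsPSolvable p M) (A : Subgroup M) (hA : IsPGroup p A) (hΦ : (frattini ↥A).map A.subtype ≤ Cfsg.pCore p M) (hnot : ¬ A ≤ Cfsg.pCore p M) : ∃ x ∈ (Cfsg.pPrimeCore p (M ⧸ Cfsg.pCore p M)).comap (QuotientGroup.mk' (Cfsg.pCore p M)), x ∈ (Cfsg.pResidual p ↥(A ⊔ A.map (MulAut.conj x).toMonoidHom)).map (A ⊔ A.map (MulAut.conj x).toMonoidHom).subtype ∧ (Cfsg.pResidual p ↥(A ⊔ A.map (MulAut.conj x).toMonoidHom)).map (A ⊔ A.map (MulAut.conj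 x).toMonoidHom).subtype ≤ (Cfsg.pPrimeCore p (M ⧸ Cfsg.pCore p M)).comap (QuotientGroup.mk' (Cfsg.pCore p M)) ∧ ⁅(Cfsg.pResidual p ↥(A ⊔ A.map (MulAut.conj x).toMonoidHom)).map (A ⊔ A.map (MulAut.conj x).toMonoidHom).subtype, A⁆ = (Cfsg.pResidual p ↥(A ⊔ A.map (MulAut.conj x).toMonoidHom)).map (A ⊔ A.map (MulAut.conj x).toMonoidHom).subtype ∧ (A ⊓ (Cfsg.pCore p ↥(A ⊔ A.map (MulAut.conj x).toMonoidHom)).map (A ⊔ A.map (MulAut.conj x).toMonoidHom).subtype).relIndex A = p ∧ ⁅A ⊓ (Cfsg.pCore p ↥(A ⊔ A.map (MulAut.conj x).toMonoidHom)).map (A ⊔ A.map (MulAut.conj x).toMonoidHom).subtype, A ⊔ A.map (MulAut.conj x).toMonoidHom⁆ ≤ Cfsg.pCore p M := by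
  have hp : p.Prime := Fact.out
  have pi := piGrp_of_isPGroup hp hA
  set f := QuotientGroup.mk' (pCore p M)
  have kf : f.ker = pCore p M := QuotientGroup.ker_mk' _
  have ph := pi.Phi_le_iff.1 hΦ
  have a : Abelem p (A.map f) := Abelem.mk' hp (der_eq_bot.1 (by
    rw [← map_commutator, Subgroup.map_eq_bot_iff, kf]; exact ph.1)) (by
      rintro _ ⟨y, hy, rfl⟩
      rw [← map_pow, ← MonoidHom.mem_ker, kf]; exact ph.2 y hy)
  have fp := pPrimeCore_pi (G := M ⧸ pCore p M) hp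
  obtain ⟨K, B, y, hy, k1, b1, b2, b3, k2, e⟩ := bar a le_normalizer_of_normal fp fun h => hnot (by
    rw [← kf, ← Subgroup.map_eq_bot_iff]
    exact eq_bot_mono (a.pi.inf_eq_bot fp) (le_inf le_rfl ((cent_symm h).trans
      (CF.Solv.centralizer_pPrimeCore_le_of_isPSolvable (CF.Solv.isPSolvable_quotient hM _)
        (CF.Loc.pCore_quotient_pCore _ _)))))
  have m1 : ∀ x, f x = y → (A ⊔ cj x A).map f = K ⊔ A.map f := fun x hx => by
    rw [Subgroup.map_sup, map_cj, hx, e]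
  have m2 : ∀ x, f x = y → (pResidualOf p (A ⊔ cj x A)).map f = K := fun x hx => by
    rw [CF.Loc.map_pResidualOf, m1 x hx, CF.Loc.pResidualOf_sup_eq a.pi.isPGroup k2,
      CF.Loc.pResidualOf_eq_self_of_coprime ((piNat_compl_single_iff_coprime hp).1 (fp.le k1))]
  obtain ⟨x, hx⟩ := QuotientGroup.mk'_surjective _ y
  obtain ⟨_, -, ⟨x, hx, rfl⟩, mn⟩ := exists_minimal (P := fun L => ∃ x, f x = y ∧ L = A ⊔ cj x A)
    ⟨x, hx, rfl⟩
  obtain ⟨z, hz, hz'⟩ := (m2 x hx).ge hy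
  rw [← mn _ ⟨z, hz', rfl⟩ (sup_le le_sup_left (cj_le_of_mem (CF.Loc.pResidualOf_le _ _ hz)
    le_sup_left))] at hz
  have c : K ⊔ A.map f ≤ 𝐂 B := sup_le (cent_symm (b3.ge.trans inf_le_right)) (a.abel.cent le_rfl b1)
  have i : A ⊓ pCoreOf p (A ⊔ cj z A) = A ⊓ B.comap f := by
    refine le_antisymm (le_inf inf_le_left (map_le_iff_le_comap.1 (b3 ▸ le_inf
      (map_mono inf_le_left) ((map_mono inf_le_right).trans ((CF.Loc.map_pCoreOf_le _ _).trans ?_)))))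
      (le_inf inf_le_left (le_trans (inf_le_inf_right _ le_sup_left) (CF.Loc.le_pCoreOf
        (((a.le b1).pi.isPGroup.comap_of_ker_isPGroup f (kf.symm ▸ CF.Loc.isPGroup_pCore p M)).to_le
          inf_le_right) inf_le_left (norm_inf (le_norm_self _) ((map_le_iff_le_comap.1
            ((m1 z hz').le.trans (norm_of_cent c))).trans (le_normalizer_comap _))))))
    rw [m1 z hz', pCoreOf, map_pCore hp]
    exact O_cent_normal (normalIn_sup_left k2) (fp.le k1)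
  refine ⟨z, k1 (hz' ▸ hy), hz, map_le_iff_le_comap.1 ((m2 z hz').le.trans k1), ?_, ?_, ?_⟩
  · refine le_antisymm (comm_le_left (le_sup_left.trans (CF.Loc.le_normalizer_pResidualOf _ _)))
      ((CF.Loc.pResidualOf_mono (sup_le le_sup_right ?_)).trans
        (CF.Loc.pResidualOf_sup_le hA (norm_comm_right _ _)))
    exact (CF.Loc.cj_le_ncl hz).trans (CF.Loc.ncl_eq_commutator_sup _ _).le
  · exact i ▸ by rw [inf_relIndex_left, relIndex_comap, b2]
  · refine i ▸ le_trans ?_ kf.le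
    rw [← Subgroup.map_eq_bot_iff, map_commutator, comm_eq_bot']
    exact (m1 z hz').le.trans (c.trans (cent_anti (map_le_iff_le_comap.2 inf_le_right)))

end Cfsg.Agent.S3754
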