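import Cfsg.Statements.S3755
import Cfsg.Agent.Loc.Free1
-- import your own Cfsg.Agent.* helpers here

set_option autoImplicit false
open Cfsg

namespace Cfsg.Agent.S3755

open Cfsg CF.Loc Subgroup
open scoped commutatorElement


/-- Let M and V be subgroups of a finite group with V an elementary abelian 2-group, M normalizing V and acting faithfully on it (M ∩ C(V) = 1), and C_M(O_{2'}(M)) ≤ O_{2'}(M). If some elementary abelian 2-subgroup A of M satisfies |V : C_V(A)| < |A|², then M has a section isomorphic to the symmetric group of degree 3. -/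
theorem result {X : Type*} [Group X] [Finite X] (M V : Subgroup X) (hV : Cfsg.IsElementaryAbelian 2 V) (hMV : M ≤ Subgroup.normalizer (V : Set X)) (hfaith : M ⊓ Subgroup.centralizer (V : Set X) = ⊥) (hcon : Subgroup.centralizer (Cfsg.pPrimeCore 2 ↥M : Set ↥M) ≤ Cfsg.pPrimeCore 2 ↥M) (A : Subgroup X) (hAM : A ≤ M) (hA : Cfsg.IsElementaryAbelian 2 A) (hsmall : (V ⊓ Subgroup.centralizer (A : Set X)).relIndex V < Nat.card A ^ 2) : Cfsg.Involves (Equiv.Perm (Fin 3)) ↥M := by
  by_contra h
  have := sq_card_le hV hMV hfaith (pPrimeCoreOf_le 2 M) (le_normalizer_pPrimeCoreOf 2 M)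
    (Nat.coprime_two_right.1 (coprime_pPrimeCoreOf 2 M)) (by
      rw [pPrimeCoreOf, ← centralizer_map_subtype]; exact map_mono hcon)
    (fun hh => h (involves_S3_iff.2 (inv_top_iff.2 hh))) A hA hAM
  rw [← card_mul_relIndex (inf_le_left : V ⊓ centralizer (A : Set X) ≤ V), mul_comm] at this
  exact absurd (Nat.le_of_mul_le_mul_left this Nat.card_pos) (not_le.2 hsmall)

end Cfsg.Agent.S3755
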