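import Cfsg.Statements.S3758
import Cfsg.Agent.Loc.ZC3
-- import your own Cfsg.Agent.* helpers here

set_option autoImplicit false
open Cfsg

namespace Cfsg.Agent.S3758

open Cfsg CF.BG CF.Sig Subgroup
open scoped commutatorElement


/-- Let G be a finite group of even order in which every 2-local subgroup is solvable and C_G(Ω₁(Z(S))) ≤ N_G(S) for every Sylow 2-subgroup S, and suppose O_{2'}(G) = 1 = O₂(G). Fix a Sylow 2-subgroup S, put Z = Ω₁(Z(S)), H = O²(G) (generated by the elements of odd order) and R = S ∩ H. Then one of the following holds: H has a strongly embedded subgroup; R is dihedral (of order at least 4) or semidihedral; Z ∩ R has order 2 and is weakly closed in R with respect to H; or Z has order 4 and is exactly the subgroup generated by the involutions of R. -/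
theorem result {G : Type*} [Group G] [Finite G] (heven : Even (Nat.card G)) (hN : ∀ L : Subgroup G, Cfsg.IsTwoLocal L → Group.IsSolvable L) (hZ : ∀ S : Sylow 2 G, Subgroup.centralizer (Cfsg.omegaOne 2 ((S : Subgroup G) ⊓ Subgroup.centralizer ((S : Subgroup G) : Set G)) : Set G) ≤ Subgroup.normalizer ((S : Subgroup G) : Set G)) (hO' : Cfsg.pPrimeCore 2 G = ⊥) (hO : Cfsg.pCore 2 G = ⊥) (S : Sylow 2 G) : (∃ M : Subgroup ↥(Cfsg.pResidual 2 G), Cfsg.IsStronglyEmbedded M) ∨ ((∃ n : ℕ, 2 ≤ n ∧ Nonempty (↥((S : Subgroup G) ⊓ Cfsg.pResidual 2 G) ≃* DihedralGroup n)) ∨ Cfsg.IsQuasiDihedral ↥((S : Subgroup G) ⊓ Cfsg.pResidual 2 G)) ∨ (Nat.card ↥(Cfsg.omegaOne 2 ((S : Subgroup G) ⊓ Subgroup.centralizer ((S : Subgroup G) : Set G)) ⊓ Cfsg.pResidual 2 G) = 2 ∧ ∀ h ∈ Cfsg.pResidual 2 G, ∀ z ∈ Cfsg.omegaOne 2 ((S : Subgroup G) ⊓ Subgroup.centralizer ((S : Subgroup G) : Set G)) ⊓ Cfsg.pResidual 2 G, h * z * h⁻¹ ∈ (S : Subgroup G) → h *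 z * h⁻¹ ∈ Cfsg.omegaOne 2 ((S : Subgroup G) ⊓ Subgroup.centralizer ((S : Subgroup G) : Set G))) ∨ (Nat.card ↥(Cfsg.omegaOne 2 ((S : Subgroup G) ⊓ Subgroup.centralizer ((S : Subgroup G) : Set G))) = 4 ∧ Cfsg.omegaOne 2 ((S : Subgroup G) ⊓ Cfsg.pResidual 2 G) = Cfsg.omegaOne 2 ((S : Subgroup G) ⊓ Subgroup.centralizer ((S : Subgroup G) : Set G))) := by
  haveI := Fact.mk Nat.prime_two
  have z : ∀ S : Subgroup G, Syl 2 S ⊤ → 𝐂 (𝛀 2 (𝐙 S)) ≤ 𝐍 S := fun S hS => by
    obtain ⟨Q, rfl⟩ := hS.exists_sylow_top; exact hZ Q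
  have h0 : 𝐎 {2}ᶜ (⊤ : Subgroup G) = ⊥ := (pPrimeCore_eq Nat.prime_two).symm.trans hO'
  have h2 : 𝐎 {2} (⊤ : Subgroup G) = ⊥ := (pCore_eq Nat.prime_two).symm.trans hO
  have hS := syl_sylow_top S
  have st := CF.Transfer.sup_pResidual_eq_top (p := 2) (H := (S : Subgroup G)) S.not_dvd_index
  have nH : pResidual 2 G ⊴ ⊤ := normalIn_top.2 inferInstance
  have k : CF.LocB.ZC G := ⟨fun t ht => by
    rw [← norm_zpowers_two ht]
    exact hN _ ⟨_, (pi_zpowers Nat.prime_two ht).isPGroup, by rintro h; simp_all, rfl⟩, z⟩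
  rcases k.main heven h0 h2 hS with h | h | h | h
  · exact .inl h
  · exact .inr (.inr (.inl h))
  · exact .inr (.inr (.inr h))
  refine (CF.LocB.zn_main hN z h2 hS ⟨le_top, st.ge.trans (sup_le (norm_sup (le_top.trans nH.norm)
    ((center_normal _).Om 2).norm) (norm_of_le le_sup_left))⟩ le_sup_left le_sup_right
    (fun e => ?_) h).imp_right .inl
  have a := hS.inf_normal nH
  rw [e] at a
  rw [eq_bot_mono h0 (le_O nH a.pi'_of_eq_bot), sup_bot_eq] at st
  exact hS.syl_ne_bot Nat.prime_two (by rw [card_top']; exact heven.two_dvd)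
    (eq_bot_mono h2 (le_O ⟨le_top, st.ge.trans (le_norm_self _)⟩ hS.pi))

end Cfsg.Agent.S3758
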