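import Cfsg.Statements.S3759
import Cfsg.Agent.Loc.ZC2
-- import your own Cfsg.Agent.* helpers here

set_option autoImplicit false
open Cfsg

namespace Cfsg.Agent.S3759

open Cfsg CF.BG CF.Sig Subgroup
open scoped commutatorElement


/-- Let G be a finite group of even order in which the centralizer of every involution is solvable and C_G(Ω₁(Z(S))) ≤ N_G(S) for every Sylow 2-subgroup S, with O_{2'}(G) = 1 = O₂(G). Fix a Sylow 2-subgroup S and put Z = Ω₁(Z(S)), H = O²(G), R = S ∩ H. Then H has a strongly embedded subgroup; or Z ∩ R has order 2 and is weakly closed in R with respect to H; or Z has order 4 and equals the subgroup generated by the involutions of R; or the subgroup HZ has local characteristic 2: it has even order and every 2-local subgroup L of HZ satisfies C_L(O₂(L)) ≤ O₂(L). -/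
theorem result {G : Type*} [Group G] [Finite G] (heven : Even (Nat.card G)) (hC : ∀ t : G, orderOf t = 2 → Group.IsSolvable ↥(Subgroup.centralizer ({t} : Set G))) (hZ : ∀ S : Sylow 2 G, Subgroup.centralizer (Cfsg.omegaOne 2 ((S : Subgroup G) ⊓ Subgroup.centralizer ((S : Subgroup G) : Set G)) : Set G) ≤ Subgroup.normalizer ((S : Subgroup G) : Set G)) (hO' : Cfsg.pPrimeCore 2 G = ⊥) (hO : Cfsg.pCore 2 G = ⊥) (S : Sylow 2 G) : (∃ M : Subgroup ↥(Cfsg.pResidual 2 G), Cfsg.IsStronglyEmbedded M) ∨ (Nat.card ↥(Cfsg.omegaOne 2 ((S : Subgroup G) ⊓ Subgroup.centralizer ((S : Subgroup G) : Set G)) ⊓ Cfsg.pResidual 2 G) = 2 ∧ ∀ h ∈ Cfsg.pResidual 2 G, ∀ z ∈ Cfsg.omegaOne 2 ((S : Subgroup G) ⊓ Subgroup.centralizer ((S : Subgroup G) : Set G)) ⊓ Cfsg.pResidual 2 G, h * z * h⁻¹ ∈ (S : Subgroup G) → h * z * h⁻¹ ∈ Cfsg.omegaOne 2 ((S : Subgroup G) ⊓ Subgroup.centralizer ((S : Subgroup G) : Set G))) ∨ (Nat.card ↥(Cfsg.omegaOne 2 ((S : Subgroup G) ⊓ Subgroup.centralizer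 ((S : Subgroup G) : Set G))) = 4 ∧ Cfsg.omegaOne 2 ((S : Subgroup G) ⊓ Cfsg.pResidual 2 G) = Cfsg.omegaOne 2 ((S : Subgroup G) ⊓ Subgroup.centralizer ((S : Subgroup G) : Set G))) ∨ Cfsg.IsCharacteristicTwoType ↥(Cfsg.pResidual 2 G ⊔ Cfsg.omegaOne 2 ((S : Subgroup G) ⊓ Subgroup.centralizer ((S : Subgroup G) : Set G))) := by
  haveI := Fact.mk Nat.prime_two
  exact CF.LocB.ZC.main ⟨hC, fun S hS => by obtain ⟨Q, rfl⟩ := hS.exists_sylow_top; exact hZ Q⟩ heven
    ((pPrimeCore_eq Nat.prime_two).symm.trans hO') ((pCore_eq Nat.prime_two).symm.trans hO)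
    (syl_sylow_top S)

end Cfsg.Agent.S3759
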