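import Mathlib
import Cfsg.Statements.S3760
import Cfsg.Agent.Fgs1.Basic

set_option autoImplicit false
open Cfsg

namespace Cfsg.Agent.S3760

open CF.Fgs1

/-- Let the group G act transitively on a set X, let x ∈ X with stabilizer H = G_x, and let K ≤ H. Then N_G(K) acts transitively on the set of fixed points of K if and only if every G-conjugate of K contained in H is already an H-conjugate of K. -/
theorem result {G : Type*} [Group G] {X : Type*} [MulAction G X] (htrans : ∀ a b : X, ∃ g : G, g • a = b) (x : X) (K : Subgroup G) (hK : K ≤ MulAction.stabilizer G x) : (∀ a b : X, (∀ k ∈ K, k • a = a) → (∀ k ∈ K, k • b = b) → ∃ g ∈ Subgroup.normalizer (K : Set G), g • a = b) ↔ ∀ g : G, K.map (MulAut.conj g).toMonoidHom ≤ MulAction.stabilizer G x → ∃ h ∈ MulAction.stabilizer G x, K.map (MulAut.conj g).toMonoidHom = K.map (MulAut.conj h).toMonoidHom := by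
  constructor
  · intro h g hg
    have hx : ∀ k ∈ K, k • x = x := fun k hk => hK hk
    have hg' : ∀ k ∈ K, k • (g⁻¹ • x) = g⁻¹ • x := by
      intro k hk
      have h1 : (g * k * g⁻¹) • x = x := hg (conj_mem_map_conj hk)
      rw [eq_inv_smul_iff, smul_smul, smul_smul, h1]
    obtain ⟨n, hn, hnx⟩ := h x (g⁻¹ • x) hx hg'
    refine ⟨g * n, ?_, ?_⟩
    · rw [MulAction.mem_stabilizer_iff, mul_smul, hnx, smul_inv_smul]
    · rw [map_conj_eq_map_conj_iff]
      simpa using hn
  · intro h
    have key : ∀ a : X, (∀ k ∈ K, k • a = a) → ∃ n ∈ Subgroup.normalizer (K : Set G), n • a = x := by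
      intro a ha
      obtain ⟨g, hg⟩ := htrans a x
      obtain ⟨s, hs, hs2⟩ := h g (by
        rintro _ ⟨k, hk, rfl⟩
        rw [MulAction.mem_stabilizer_iff]
        simp only [MulEquiv.toMonoidHom_eq_coe, MonoidHom.coe_coe, MulAut.conj_apply]
        rw [← hg, smul_smul, inv_mul_cancel_right, mul_smul, ha k hk])
      refine ⟨s⁻¹ * g, map_conj_eq_map_conj_iff.1 hs2, ?_⟩
      rw [mul_smul, hg, inv_smul_eq_iff]
      exact hs.symm
    intro a b ha hb
    obtain ⟨n, hn, hna⟩ := key a ha
    obtain ⟨m, hm, hmb⟩ := key b hb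
    refine ⟨m⁻¹ * n, Subgroup.mul_mem _ (Subgroup.inv_mem _ hm) hn, ?_⟩
    rw [mul_smul, hna, inv_smul_eq_iff, hmb]

end Cfsg.Agent.S3760
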