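import Cfsg.Statements.S3763
import Cfsg.Agent.LX.QM2

set_option autoImplicit false
open Cfsg

namespace Cfsg.Agent.S3763

open CF.LX

/-- Let E be an extraspecial 2-group of order 2^(2n+1). Then the largest elementary abelian subgroups of E have order 2^n or 2^(n+1); and two extraspecial 2-groups of the same order whose largest elementary abelian subgroups have the same order are isomorphic. -/
theorem result {E : Type*} [Group E] [Finite E] (hE : Cfsg.IsExtraspecial 2 E) (n : ℕ) (hn : Nat.card E = 2 ^ (2 * n + 1)) : ((Cfsg.PRankLE 2 n E ∧ ¬ Cfsg.PRankLE 2 (n - 1) E) ∨ (Cfsg.PRankLE 2 (n + 1) E ∧ ¬ Cfsg.PRankLE 2 n E)) ∧ ∀ (E' : Type*) [Group E'] [Finite E'], Cfsg.IsExtraspecial 2 E' → Nat.card E' = Nat.card E → (∀ k : ℕ, Cfsg.PRankLE 2 k E ↔ Cfsg.PRankLE 2 k E') → Nonempty (E ≃* E') := by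
  obtain ⟨-, a, b, c⟩ := rank_facts hE hn
  refine ⟨by tauto, fun E' _ _ h' c' k => equiv_of_plusT_iff hE h' hn (c'.trans hn) ?_⟩
  rw [c, (rank_facts h' (c'.trans hn)).2.2.2, k]

end Cfsg.Agent.S3763
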