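import Cfsg.Statements.S3764
import Cfsg.Agent.BG2.FrobAmb

set_option autoImplicit false
open Cfsg

namespace Cfsg.Agent.S3764

open CF.BG CF.BG2 Subgroup
open scoped commutatorElement Pointwise

/-- Let p, q, r be distinct primes and let X, Q, V be subgroups of a finite group with X of order r, Q an extraspecial q-group normalized by X with C_Q(X) = Z(Q), and V an elementary abelian p-group normalized by X and Q on which XQ acts faithfully ((X ⊔ Q) ∩ C(V) = 1). If C_V(X) = 1, then q = 2, r = 2^n + 1 for some n, and Q has order 2^(2n+1). -/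
theorem result {G : Type*} [Group G] [Finite G] {p q r : ℕ} (hp : p.Prime) (hq : q.Prime) (hr : r.Prime) (hpq : p ≠ q) (hpr : p ≠ r) (hqr : q ≠ r) (X Q V : Subgroup G) (hX : Nat.card X = r) (hQ : Cfsg.IsExtraspecial q ↥Q) (hXQ : X ≤ Subgroup.normalizer (Q : Set G)) (hCQ : Q ⊓ Subgroup.centralizer (X : Set G) = (Subgroup.center ↥Q).map Q.subtype) (hV : Cfsg.IsElementaryAbelian p V) (hXV : X ≤ Subgroup.normalizer (V : Set G)) (hQV : Q ≤ Subgroup.normalizer (V : Set G)) (hfaith : (X ⊔ Q) ⊓ Subgroup.centralizer (V : Set G) = ⊥) (hCV : V ⊓ Subgroup.centralizer (X : Set G) = ⊥) : q = 2 ∧ ∃ n : ℕ, r = 2 ^ n + 1 ∧ Nat.card Q = 2 ^ (2 * n + 1) := by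
  obtain ⟨k, c, d, na, e, z, z'⟩ := extra_facts hq hQ
  rw [z] at hCQ
  have hX' := hX ▸ hr
  have reg : ∀ x ∈ X, x ≠ 1 → Q ⊓ 𝐂₁ x = 𝐙 Q := fun x hx h1 =>
    (primeAct_of_prime hX' Q x hx h1).trans hCQ
  have kX : PiGrp {r} X := by rw [PiGrp, hX]; exact piNat_self hr
  obtain ⟨rfl, j, h1, h2⟩ := eq_two_of_sq k na hr (hX ▸ card_eq_of_extra hXQ (cyc_of_prime hX')
    ((kX.to_compl_single hqr).coprime' k) d (cent_center_of_reg reg)
    (fun x hx h1 => (reg x hx h1).le.trans inf_le_right)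
    (fun D _ hD x hx e => mem_cent_of_prime (c ▸ hq) hD hx e) (.of_isEA hp hV) hQV hXV
    (k.to_compl_single hpq) (kX.to_compl_single hpr) (fun h => na (der_eq_bot.1
      (eq_bot_mono hfaith (le_inf ((der_le Q).trans le_sup_right) h)))) hCV)
  exact ⟨rfl, j, h1, by rw [← e, h2, pow_succ']⟩

end Cfsg.Agent.S3764
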