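import Cfsg.Statements.S3766
import Cfsg.Agent.SolvStr.SysNorm

set_option autoImplicit false
open Cfsg

namespace Cfsg.Agent.S3766

open Subgroup CF.Solv CF.SolvStr in
theorem nil_of_act {G : Type*} [Group G] [Finite G] (F K : Subgroup G) [K.Normal]
    (hKF : ⁅K, K⁆ ≤ F) (h : ∀ U : Subgroup G, U.Normal → U ≤ F → U ≠ ⊥ → ⁅U, K⁆ < U) :
    Group.IsNilpotent K := by
  rw [isNilpotent_iff_lowerCentralSeries]
  have hn : ∀ n, (K.lowerCentralSeries n).Normal := by
    intro n
    induction n with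
    | zero => exact inferInstanceAs K.Normal
    | succ n ih => rw [Subgroup.lowerCentralSeries_succ]; infer_instance
  have hF : ∀ n, K.lowerCentralSeries (n + 1) ≤ F := fun n =>
    (K.lowerCentralSeries_antitone (by omega : 1 ≤ n + 1)).trans hKF
  by_contra hne
  push Not at hne
  have hlt : ∀ n, K.lowerCentralSeries (n + 1 + 1) < K.lowerCentralSeries (n + 1) := fun n =>
    h _ (hn _) (hF n) (hne _)
  have : StrictAnti fun n => K.lowerCentralSeries (n + 1) := strictAnti_nat_of_succ_lt hlt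
  exact (not_strictAnti_of_wellFoundedLT _) this

open Subgroup CF.Solv CF.SolvStr in
theorem exists_chief {G : Type*} [Group G] [Finite G] (U : Subgroup G) (hU0 : U ≠ ⊥) :
    ∃ V : Subgroup G, V.Normal ∧ V < U ∧
      ∀ W : Subgroup G, W.Normal → V ≤ W → W ≤ U → W = V ∨ W = U := by
  obtain ⟨V, hV, hmax⟩ := (wellFounded_gt (α := Subgroup G)).has_min
    {V | V.Normal ∧ V < U} ⟨⊥, inferInstance, bot_lt_iff_ne_bot.2 hU0⟩
  refine ⟨V, hV.1, hV.2, fun W hW h1 h2 => ?_⟩
  by_contra hc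
  push Not at hc
  exact hmax W ⟨hW, lt_of_le_of_ne h2 hc.2⟩ (lt_of_le_of_ne h1 (Ne.symm hc.1))

open Subgroup CF.Solv CF.SolvStr in
theorem comm_le {G : Type*} [Group G] {U V : Subgroup G} [U.Normal] [V.Normal] {g : G}
    (h : ∀ u ∈ U, u * g * u⁻¹ * g⁻¹ ∈ V) : ⁅U, normalClosure ({g} : Set G)⁆ ≤ V := by
  have hs := QuotientGroup.mk'_surjective V
  have : (U.map (QuotientGroup.mk' V)).Normal := Normal.map inferInstance _ hs
  have h1 : normalClosure ({g} : Set G) ≤
      (centralizer ((U.map (QuotientGroup.mk' V) : Subgroup (G ⧸ V)) : Set (G ⧸ V))).comap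
        (QuotientGroup.mk' V) := by
    refine normalClosure_le_normal ?_
    intro x hx
    rw [Set.mem_singleton_iff.1 hx]
    rintro _ ⟨u, hu, rfl⟩
    have := (QuotientGroup.eq_one_iff _).2 (h u hu)
    simp only [QuotientGroup.mk_mul, QuotientGroup.mk_inv] at this
    simp only [QuotientGroup.mk'_apply]
    calc (u : G ⧸ V) * g = ((u : G ⧸ V) * g * (u : G ⧸ V)⁻¹ * (g : G ⧸ V)⁻¹) * (g * u) := by group
      _ = _ := by rw [this, one_mul]
  rw [← map_mk'_eq_bot_iff V, map_commutator, commutator_comm,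
    commutator_eq_bot_iff_le_centralizer]
  exact map_le_iff_le_comap.2 h1


/-- Let G be a finite solvable group and N a normal subgroup of G. Call a pair V < U of normal subgroups of G a chief factor of G when no normal subgroup of G lies strictly between them; an element g centralizes the chief factor U/V when u g u⁻¹ g⁻¹ ∈ V for all u ∈ U. Then an element of G lies in the Fitting subgroup F(N) if and only if it lies in N and centralizes every chief factor of G; and also if and only if it lies in N and centralizes every chief factor U/V of G with U ≤ F(N). -/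
theorem result {G : Type*} [Group G] [Finite G] (hG : Group.IsSolvable G) (N : Subgroup G) [N.Normal] (g : G) : (g ∈ (Cfsg.fittingSubgroup ↥N).map N.subtype ↔ g ∈ N ∧ ∀ U V : Subgroup G, (U.Normal ∧ V.Normal ∧ V < U ∧ ∀ W : Subgroup G, W.Normal → V ≤ W → W ≤ U → W = V ∨ W = U) → ∀ u ∈ U, u * g * u⁻¹ * g⁻¹ ∈ V) ∧ (g ∈ (Cfsg.fittingSubgroup ↥N).map N.subtype ↔ g ∈ N ∧ ∀ U V : Subgroup G, (U.Normal ∧ V.Normal ∧ V < U ∧ ∀ W : Subgroup G, W.Normal → V ≤ W → W ≤ U → W = V ∨ W = U) → U ≤ (Cfsg.fittingSubgroup ↥N).map N.subtype → ∀ u ∈ U, u * g * u⁻¹ * g⁻¹ ∈ V) := by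
  open Subgroup CF.Solv CF.SolvStr in
  rw [map_fitting_of_normal]
  have h1 : g ∈ fittingSubgroup G ⊓ N → g ∈ N ∧ ∀ U V : Subgroup G, (U.Normal ∧ V.Normal ∧ V < U ∧
      ∀ W : Subgroup G, W.Normal → V ≤ W → W ≤ U → W = V ∨ W = U) →
      ∀ u ∈ U, u * g * u⁻¹ * g⁻¹ ∈ V := by
    rintro ⟨hgF, hgN⟩
    refine ⟨hgN, fun U V ⟨hU, hV, hlt, hch⟩ u hu => ?_⟩
    have hmin := CF.SolvStr.isMinNormal_map_of_chief hlt hch
    have := hmin.fitting_le_centralizer
      (CF.Solv.fitting_map_le (QuotientGroup.mk'_surjective V) ⟨g, hgF, rfl⟩) _ ⟨u, hu, rfl⟩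
    rw [← QuotientGroup.eq_one_iff]
    simp only [QuotientGroup.mk'_apply] at this
    simp only [QuotientGroup.mk_mul, QuotientGroup.mk_inv]
    rw [this]; group
  have h2 : (g ∈ N ∧ ∀ U V : Subgroup G, (U.Normal ∧ V.Normal ∧ V < U ∧
      ∀ W : Subgroup G, W.Normal → V ≤ W → W ≤ U → W = V ∨ W = U) → U ≤ fittingSubgroup G ⊓ N →
      ∀ u ∈ U, u * g * u⁻¹ * g⁻¹ ∈ V) → g ∈ fittingSubgroup G ⊓ N := by
    rintro ⟨hgN, h⟩
    set K := Subgroup.normalClosure ({g} : Set G) with hK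
    have hKN : K ≤ N := Subgroup.normalClosure_le_normal (by simpa using hgN)
    have hact : ∀ U : Subgroup G, U.Normal → U ≤ fittingSubgroup G ⊓ N → U ≠ ⊥ → ⁅U, K⁆ < U := by
      intro U hU hUF hU0
      obtain ⟨V, hV, hlt, hch⟩ := exists_chief U hU0
      exact lt_of_le_of_lt (comm_le (h U V ⟨hU, hV, hlt, hch⟩ hUF)) hlt
    obtain ⟨D, hD0, hDs⟩ : ∃ D : ℕ → Subgroup G, D 0 = K ∧ ∀ n, D (n + 1) = ⁅D n, D n⁆ :=
      ⟨fun n => Nat.rec K (fun _ X => ⁅X, X⁆) n, rfl, fun n => rfl⟩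
    have hDn : ∀ n, (D n).Normal ∧ D n ≤ K ∧ D n ≤ derivedSeries G n := by
      intro n
      induction n with
      | zero => rw [hD0]; exact ⟨inferInstanceAs K.Normal, le_rfl, le_top⟩
      | succ n ih =>
        obtain ⟨i1, i2, i3⟩ := ih
        rw [hDs, derivedSeries_succ]
        exact ⟨inferInstance, (Subgroup.commutator_le_left _ _).trans i2,
          Subgroup.commutator_mono i3 i3⟩
    have hstep : ∀ n, D (n + 1) ≤ fittingSubgroup G ⊓ N → D n ≤ fittingSubgroup G ⊓ N := by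
      intro n hn
      have := (hDn n).1
      have : Group.IsNilpotent (D n) := nil_of_act _ _ (hDs n ▸ hn) fun U hU hUF hU0 =>
        lt_of_le_of_lt (Subgroup.commutator_mono le_rfl (hDn n).2.1) (hact U hU hUF hU0)
      exact le_inf (CF.Solv.le_fitting _) ((hDn n).2.1.trans hKN)
    have hall : ∀ n, D n ≤ fittingSubgroup G ⊓ N → D 0 ≤ fittingSubgroup G ⊓ N := by
      intro n
      induction n with
      | zero => exact id
      | succ n ih => exact fun h => ih (hstep n h)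
    obtain ⟨n, hn⟩ := hG.solvable
    exact hall n ((hDn n).2.2.trans (hn ▸ bot_le)) (hD0 ▸ Subgroup.subset_normalClosure rfl)
  refine ⟨⟨h1, fun h => h2 ⟨h.1, fun U V hUV _ => h.2 U V hUV⟩⟩,
    ⟨fun h => ⟨(h1 h).1, fun U V hUV _ => (h1 h).2 U V hUV⟩, h2⟩⟩

end Cfsg.Agent.S3766
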