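import Cfsg.Statements.S3769
import Cfsg.Agent.BG2.FrobAmb

set_option autoImplicit false
open Cfsg

namespace Cfsg.Agent.S3769

open CF.BG CF.BG2 Subgroup
open scoped commutatorElement Pointwise

/-- Let G and V be subgroups of a finite group with G solvable of odd order normalizing V, V an elementary abelian ℓ-group for a prime ℓ not dividing the order of G, and suppose G has a normal Hall subgroup K with a complement R of prime order. If C_V(R) = 1, then [R, K] centralizes V. -/
theorem result {X : Type*} [Group X] [Finite X] (G : Subgroup X) (hsolv : Group.IsSolvable G) (hodd : Odd (Nat.card G)) (V : Subgroup X) {ℓ : ℕ} (hℓ : ℓ.Prime) (hV : Cfsg.IsElementaryAbelian ℓ V) (hℓG : ¬ ℓ ∣ Nat.card G) (hGV : G ≤ Subgroup.normalizer (V : Set X)) (K R : Subgroup X) (hKG : K ≤ G) (hKn : G ≤ Subgroup.normalizer (K : Set X)) (hHall : (Nat.card K).Coprime (K.relIndex G)) (hRG : R ≤ G) (hR : (Nat.card R).Prime) (hKR : K ⊓ R = ⊥) (hKRG : K ⊔ R = G) (hCV : V ⊓ Subgroup.centralizer (R : Set X) = ⊥)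 : ⁅R, K⁆ ≤ Subgroup.centralizer (V : Set X) := by
  have n := hRG.trans hKn
  rw [Subgroup.commutator_comm]
  refine comm_le_cent_of_odd hR n ?_ (hodd.of_dvd_nat (card_dvd_of_le hKG)) (.of_isEA hℓ hV)
    (hKG.trans hGV) (hRG.trans hGV) (PiGrp.le ((piNat_compl_single hℓ).2 hℓG) hKG) hCV
  rw [← hKRG, (SDProd.mk' n hKR).relIndex_left] at hHall
  exact hHall.symm

end Cfsg.Agent.S3769
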