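import Cfsg.Statements.S3770
import Cfsg.Agent.BG2.FrobAmb

set_option autoImplicit false
open Cfsg

namespace Cfsg.Agent.S3770

open CF.BG CF.BG2 Subgroup
open scoped commutatorElement Pointwise

/-- Let G and V be subgroups of a finite group with G a Frobenius group with complement R of prime order and kernel K, G normalizing V, and V an elementary abelian ℓ-group for a prime ℓ not dividing the order of G. If C_V(R) has order ℓ, then the derived subgroup of K centralizes V. -/
theorem result {X : Type*} [Group X] [Finite X] (G : Subgroup X) (V : Subgroup X) {ℓ : ℕ} (hℓ : ℓ.Prime) (hV : Cfsg.IsElementaryAbelian ℓ V) (hℓG : ¬ ℓ ∣ Nat.card G) (hGV : G ≤ Subgroup.normalizer (V : Set X)) (R : Subgroup ↥G) (hR : Cfsg.IsFrobeniusComplement R) (hRp : (Nat.card R).Prime) (hCV : Nat.card ↥(V ⊓ Subgroup.centralizer ((R.map G.subtype : Subgroup X) : Set X)) = ℓ) : ⁅Subgroup.closure (Subtype.val '' Cfsg.frobeniusKernel R), Subgroup.closure (Subtype.val '' Cfsg.frobeniusKernel R)⁆ ≤ Subgroup.centralizer (V : Set X)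 := by
  obtain ⟨K, e, c, f⟩ := frob_amb hR
  rw [← e, closure_eq]
  exact der_le_cent_abelem f.reg f.norm f.nil'.sol (.of_isEA hℓ hV) (f.sd.left_le.trans hGV)
    (f.sd.right_le.trans hGV) (PiGrp.le ((piNat_compl_single hℓ).2 hℓG) f.sd.left_le)
    (cyc_of_prime (hCV ▸ hℓ))

end Cfsg.Agent.S3770
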