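import Mathlib
import Cfsg.Statements.S3771
import Cfsg.Agent.Fgs1.Extra

set_option autoImplicit false
open Cfsg

namespace Cfsg.Agent.S3771

open CF.Fgs1

/-- Let p be a prime and R a finite p-group of p-rank at most 2 (no elementary abelian subgroup of order p³) in which every element has order dividing p. Then R has order at most p³. -/
theorem result {R : Type*} [Group R] [Finite R] {p : ℕ} [Fact p.Prime] (hR : IsPGroup p R) (hrank : Cfsg.PRankLE p 2 R) (hexp : ∀ x : R, x ^ p = 1) : Nat.card R ≤ p ^ 3 := by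
  have hp : p.Prime := Fact.out
  by_contra hlt
  obtain ⟨n, hn⟩ := IsPGroup.iff_card.1 hR
  have h4 : 4 ≤ n := by
    by_contra h
    exact hlt (hn ▸ Nat.pow_le_pow_right hp.pos (by omega))
  obtain ⟨K, hK⟩ := Sylow.exists_subgroup_card_pow_prime (G := R) p (n := 4) (hn ▸ pow_dvd_pow p h4)
  obtain ⟨A, hA, hAi⟩ := exists_abelian_of_card_pow_four hK
  have h1 := hrank (A.map K.subtype) inferInstance (fun a _ => hexp a)
  rw [Subgroup.card_map_of_injective K.subtype_injective] at h1
  have h2 := A.card_mul_index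
  rw [hK, hAi, pow_succ p 3] at h2
  rw [Nat.eq_of_mul_eq_mul_right hp.pos h2] at h1
  exact absurd ((Nat.pow_le_pow_iff_right hp.one_lt).1 h1) (by norm_num)

end Cfsg.Agent.S3771
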