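import Cfsg.Statements.S3772
import Cfsg.Agent.LX.QM2

set_option autoImplicit false
open Cfsg

namespace Cfsg.Agent.S3772

open CF.LX CF.Loc CF.Even Subgroup

/-- Let G be a finite 2-group whose Frattini subgroup Φ(G) has order 2, with |G : Φ(G)| = 2^d, and let j be the number of elements x of G with x² = 1. Then j = 2^d, or j = 2^d + 2^(d−r) or j = 2^d − 2^(d−r) for some positive integer r with 2r ≤ d. Moreover if d = 2r and j is 2^d + 2^r or 2^d − 2^r, then G is extraspecial. -/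
theorem result {G : Type*} [Group G] [Finite G] (hG : IsPGroup 2 G) (hΦ : Nat.card (frattini G) = 2) (d : ℕ) (hd : (frattini G).index = 2 ^ d) : (Nat.card {x : G // x ^ 2 = 1} = 2 ^ d ∨ ∃ r : ℕ, 1 ≤ r ∧ 2 * r ≤ d ∧ (Nat.card {x : G // x ^ 2 = 1} = 2 ^ d + 2 ^ (d - r) ∨ Nat.card {x : G // x ^ 2 = 1} + 2 ^ (d - r) = 2 ^ d)) ∧ (∀ r : ℕ, d = 2 * r → (Nat.card {x : G // x ^ 2 = 1} = 2 ^ d + 2 ^ r ∨ Nat.card {x : G // x ^ 2 = 1} + 2 ^ r = 2 ^ d) → Cfsg.IsExtraspecial 2 G) := by
  obtain ⟨z, hz, h1⟩ := (frattini G).bot_or_exists_ne_one.resolve_left fun e => by simp [e] at hΦ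
  have ord : orderOf z = 2 := (Nat.dvd_prime Nat.prime_two).1 (hΦ ▸ orderOf_dvd_natCard _ hz)
    |>.resolve_left (by simpa using h1)
  have eZ : frattini G = zpowers z := (eq_of_le_of_card_ge (zpowers_le.2 hz) (by
    rw [hΦ, Nat.card_zpowers, ord])).symm
  obtain ⟨p, q, h⟩ := exists_qm' ord (r := d) (fun x => conj_eq_iff.1 (((mem_zpowers_invol ord).1
    (eZ ▸ Normal.conj_mem inferInstance z hz x)).resolve_left (by simpa using h1)))
    (fun x => by rw [← pow_two, ← eZ]; exact CF.Solv.pow_mem_frattini hG x)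
    (by rw [← (frattini G).card_mul_index, hΦ, hd, pow_succ'])
  rw [h.card_sq]
  rcases card_zero_cases q (d := d) (by simp) with a | a | ⟨r, a, b, c, e⟩
  · refine ⟨.inl a, fun r _ k => ?_⟩
    have : 0 < 2 ^ r := by positivity
    omega
  · refine (h1 (mem_bot.1 (CF.Solv.frattini_le_of_commutator_le_of_pow_mem (p := 2) ?_ ?_ hz))).elim
    · rw [_root_.commutator_def, commutator_le]
      exact fun x _ y _ => mem_bot.2 (commutatorElement_eq_one_iff_mul_comm.2
        (h.comm_iff.2 (by simp [QuadraticMap.polar, a])))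
    · exact fun x => mem_bot.2 (by rw [pow_two, h.sq, a])
  · refine ⟨.inr ⟨r, a, b, c⟩, fun s hs k => ?_⟩
    have : 0 < 2 ^ s := by positivity
    have : 0 < 2 ^ (d - r) := by positivity
    have : d - r = s := Nat.pow_right_injective le_rfl (show 2 ^ (d - r) = 2 ^ s by omega)
    haveI : Nonempty (Fin d) := ⟨⟨0, by omega⟩⟩
    exact CF.Solv.isExtraspecial_top_iff.1 (h.ex (e (by omega))).isExtraspecial

end Cfsg.Agent.S3772
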