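import Mathlib
import Cfsg.Agent.Suz.Higman3
import Cfsg.Statements.S3774

set_option autoImplicit false
open Cfsg

namespace Cfsg.Agent.S3774

open Subgroup

theorem inv_pw {G : Type*} [Group G] [Finite G] (hG : IsPGroup 2 G) {x : G} (hx : x ≠ 1) :
    x ^ (orderOf x / 2) ≠ 1 ∧ (x ^ (orderOf x / 2)) ^ 2 = 1 := by
  obtain ⟨k, hk⟩ := (IsPGroup.iff_orderOf.1 hG) x
  obtain rfl | ⟨k, rfl⟩ := k.eq_zero_or_eq_succ_pred.imp id fun h => (⟨_, h⟩ : ∃ j, k = j + 1)
  · exact absurd (orderOf_eq_one_iff.1 hk) hx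
  have e : orderOf x / 2 = 2 ^ k := by rw [hk, pow_succ]; simp
  rw [e]
  refine ⟨pow_ne_one_of_lt_orderOf (by positivity) (by rw [hk]; exact Nat.pow_lt_pow_right (by norm_num) (by omega)), ?_⟩
  rw [← pow_mul, ← pow_succ, ← hk, pow_orderOf_eq_one]

/-- Let G be a nontrivial finite 2-group whose automorphism group permutes the involutions of G transitively. Then every involution of G is central, so that the involutions together with 1 form the subgroup Ω₁(Z(G)), and if this subgroup has order q then |G| is a power of q. -/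
theorem result {G : Type*} [Group G] [Finite G] [Nontrivial G] (hG : IsPGroup 2 G) (htrans : ∀ x y : G, x ≠ 1 → x ^ 2 = 1 → y ≠ 1 → y ^ 2 = 1 → ∃ a : MulAut G, a x = y) : (∀ x : G, x ^ 2 = 1 → x ∈ Subgroup.center G) ∧ ∃ m : ℕ, Nat.card G = Nat.card {z : G // z ^ 2 = 1} ^ m := by
  classical
  have := hG.center_nontrivial
  obtain ⟨z, hz⟩ := exists_ne (1 : center G)
  have hz' : (z : G) ≠ 1 := fun h => hz (Subtype.ext h)
  obtain ⟨t1, t2⟩ := inv_pw hG hz'
  have tc : (z : G) ^ (orderOf (z : G) / 2) ∈ center G := pow_mem z.2 _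
  set t := (z : G) ^ (orderOf (z : G) / 2)
  have hc : ∀ x : G, x ^ 2 = 1 → x ∈ center G := by
    intro x hx
    by_cases h : x = 1
    · exact h ▸ one_mem _
    obtain ⟨a, rfl⟩ := htrans t x t1 t2 h hx
    rw [mem_center_iff] at tc ⊢
    intro g
    obtain ⟨g, rfl⟩ := a.surjective g
    rw [← map_mul, ← map_mul, tc]
  refine ⟨hc, ?_⟩
  let V : Subgroup G :=
    { carrier := {x | x ^ 2 = 1}
      one_mem' := one_pow _
      mul_mem' := fun {a b} ha hb => by
        change (a * b) ^ 2 = 1
        rw [Commute.mul_pow (mem_center_iff.1 (hc b hb) a), ha, hb, mul_one]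
      inv_mem' := fun {a} ha => by change a⁻¹ ^ 2 = 1; rw [inv_pow, ha, inv_one] }
  obtain ⟨n, hn⟩ := IsPGroup.iff_card.1 (hG.to_subgroup V)
  obtain ⟨m, hm⟩ := IsPGroup.iff_card.1 hG
  change ∃ m, _ = Nat.card V ^ m
  have := Fintype.ofFinite G
  let f : G → G := fun x => x ^ (orderOf x / 2)
  let S := Finset.univ.filter fun x : G => x ≠ 1
  let T := Finset.univ.filter fun x : G => x ≠ 1 ∧ x ^ 2 = 1
  have h1 : S.card = ∑ y ∈ T, (S.filter fun x => f x = y).card :=
    Finset.card_eq_sum_card_fiberwise fun x hx => by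
      simp only [S, T, Finset.coe_filter, Finset.mem_univ, true_and, Set.mem_setOf_eq] at hx ⊢
      exact inv_pw hG hx
  have h2 : ∀ y ∈ T, (S.filter fun x => f x = y).card = (S.filter fun x => f x = t).card := by
    intro y hy
    simp only [T, Finset.mem_filter, Finset.mem_univ, true_and] at hy
    obtain ⟨a, rfl⟩ := htrans t y t1 t2 hy.1 hy.2
    symm
    refine Finset.card_bijective a a.bijective fun x => ?_
    simp only [S, f, Finset.mem_filter, Finset.mem_univ, true_and, MulEquiv.orderOf_eq, ← map_pow,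
      a.injective.eq_iff, ne_eq, map_eq_one_iff _ a.injective]
  rw [Finset.sum_congr rfl h2, Finset.sum_const, smul_eq_mul] at h1
  have hS : S.card = 2 ^ m - 1 := by
    rw [← hm, Nat.card_eq_fintype_card]; unfold S; rw [Finset.filter_ne', Finset.card_erase_of_mem (Finset.mem_univ _), Finset.card_univ]
  have hT : T.card = 2 ^ n - 1 := by
    have : T = (Finset.univ.filter fun x : G => x ∈ V).erase 1 := by
      ext x; simp [T, V]
    rw [this, Finset.card_erase_of_mem (by simp), ← hn, Nat.card_eq_fintype_card, Fintype.card_subtype]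
  obtain ⟨k, rfl⟩ := CF.Suz.dvd_of_two_pow_sub_one_dvd (n := n) (m := m) ⟨_, by rw [← hS, ← hT, h1]⟩
  exact ⟨k, by rw [hm, hn, pow_mul]⟩

end Cfsg.Agent.S3774
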