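import Cfsg.Statements.S3775
import Cfsg.Agent.Coprime.Misc

set_option autoImplicit false
open Cfsg

namespace Cfsg.Agent.S3775

open Subgroup in
theorem exists_compl {A : Type*} [CommGroup A] [Finite A] {p e : ℕ} [hp : Fact p.Prime]
    (hA : ∀ a : A, a ^ p ^ (e + 1) = 1) (H : Subgroup A)
    (hH : ∀ h ∈ H, h ^ p ^ e = 1 → ∃ k ∈ H, k ^ p = h) : ∃ C : Subgroup A, IsCompl H C := by
  obtain ⟨C, -, hC⟩ := (Set.toFinite {C : Subgroup A | H ⊓ C = ⊥}).exists_le_maximal (a := ⊥)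
    (by simp)
  refine ⟨C, disjoint_iff.mpr hC.prop, codisjoint_iff.mpr (eq_top_iff.mpr ?_)⟩
  have key : ∀ a : A, a ^ p ∈ H ⊔ C → a ∈ H ⊔ C := by
    intro a ha
    obtain ⟨h, hh, c, hc, hhc⟩ := mem_sup.mp ha
    have h1 : h ^ p ^ e = 1 := by
      have h2 : h ^ p ^ e * c ^ p ^ e = 1 := by
        rw [← mul_pow, hhc, ← pow_mul, ← pow_succ', hA]
      have h3 : h ^ p ^ e ∈ H ⊓ C :=
        ⟨H.pow_mem hh _, by rw [eq_inv_of_mul_eq_one_left h2]; exact C.inv_mem (C.pow_mem hc _)⟩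
      rwa [hC.prop, mem_bot] at h3
    obtain ⟨k, hk, rfl⟩ := hH h hh h1
    have h4 : (a * k⁻¹) ^ p = c := by
      rw [mul_pow, ← hhc, inv_pow, mul_comm, inv_mul_cancel_left]
    suffices h5 : a * k⁻¹ ∈ H ⊔ C by
      simpa using (H ⊔ C).mul_mem h5 (mem_sup_left hk)
    generalize a * k⁻¹ = b at h4
    by_contra hb
    have h6 : H ⊓ (C ⊔ zpowers b) = ⊥ := by
      rw [eq_bot_iff]
      rintro x ⟨hx, hx'⟩
      obtain ⟨d, hd, _, ⟨n, rfl⟩, rfl⟩ := mem_sup.mp hx'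
      by_cases hn : (p : ℤ) ∣ n
      · obtain ⟨m, rfl⟩ := hn
        refine hC.prop.le ⟨hx, C.mul_mem hd ?_⟩
        show b ^ ((p : ℤ) * m) ∈ C
        rw [zpow_mul, zpow_natCast, h4]
        exact C.zpow_mem hc m
      · exfalso
        have h7 : b ^ n ∈ H ⊔ C := by
          simpa using (H ⊔ C).mul_mem (mem_sup_right (C.inv_mem hd)) (mem_sup_left hx)
        obtain ⟨u, v, huv⟩ := ((Nat.prime_iff_prime_int.mp hp.out).coprime_iff_not_dvd).mpr hn
        apply hb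
        rw [← zpow_one b, ← huv, zpow_add, mul_comm u, mul_comm v, zpow_mul, zpow_mul,
          zpow_natCast, h4]
        exact (H ⊔ C).mul_mem ((H ⊔ C).zpow_mem (mem_sup_right hc) _) ((H ⊔ C).zpow_mem h7 _)
    exact hb (mem_sup_right (hC.le_of_ge h6 le_sup_left (mem_sup_right (mem_zpowers b))))
  have key2 : ∀ n : ℕ, ∀ a : A, a ^ p ^ n ∈ H ⊔ C → a ∈ H ⊔ C := by
    intro n
    induction n with
    | zero => simp
    | succ n ih => intro a ha; exact key a (ih _ (by rwa [← pow_mul, ← pow_succ']))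
  intro a _
  exact key2 (e + 1) a (by rw [hA]; exact one_mem _)


/-- Let A be a finite abelian p-group and X a group of automorphisms of A of order prime to p. Call a subgroup of A invariant when every element of X maps it onto itself. Then the following are equivalent: (i) A is not the direct product of two nontrivial invariant subgroups; (ii) every invariant subgroup of A is one of the subgroups Ω_i(A) = {a : a^(p^i) = 1}; (iii) the subgroup Ω₁(A) of elements of order dividing p has no invariant subgroups other than 1 and itself. -/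
theorem result {A : Type*} [CommGroup A] [Finite A] {p : ℕ} [Fact p.Prime] (hA : IsPGroup p A) (X : Subgroup (MulAut A)) (hX : (Nat.card X).Coprime p) : ((¬ ∃ B C : Subgroup A, B ≠ ⊥ ∧ C ≠ ⊥ ∧ (∀ x ∈ X, B.map x.toMonoidHom = B) ∧ (∀ x ∈ X, C.map x.toMonoidHom = C) ∧ B ⊓ C = ⊥ ∧ B ⊔ C = ⊤) ↔ (∀ B : Subgroup A, (∀ x ∈ X, B.map x.toMonoidHom = B) → ∃ i : ℕ, ∀ a : A, a ∈ B ↔ a ^ p ^ i = 1)) ∧ ((∀ B : Subgroup A, (∀ x ∈ X, B.map x.toMonoidHom = B) → ∃ i : ℕ, ∀ a : A, a ∈ B ↔ a ^ p ^ i = 1) ↔ (∀ B : Subgroup A, (∀ x ∈ X, B.map x.toMonoidHom = B) → (∀ b ∈ B, b ^ p = 1) → B = ⊥ ∨ ∀ a : A, a ∈ B ↔ a ^ p = 1)) := by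
  have hp : p.Prime := Fact.out
  let φ : X →* MulAut A := X.subtype
  have hinv : ∀ B : Subgroup A, (∀ x ∈ X, B.map x.toMonoidHom = B) ↔
      ∀ x : X, ∀ b ∈ B, φ x b ∈ B := by
    intro B
    rw [← CF.Coprime.inv_top_iff, CF.Coprime.inv_iff_map_eq]
    exact ⟨fun h x _ => h x x.2, fun h x hx => h ⟨x, hx⟩ trivial⟩
  simp only [hinv]
  have h23 : (∀ B : Subgroup A, (∀ x : X, ∀ b ∈ B, φ x b ∈ B) →
      ∃ i : ℕ, ∀ a : A, a ∈ B ↔ a ^ p ^ i = 1) ↔ (∀ B : Subgroup A, (∀ x : X, ∀ b ∈ B, φ x b ∈ B) →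
        (∀ b ∈ B, b ^ p = 1) → B = ⊥ ∨ ∀ a : A, a ∈ B ↔ a ^ p = 1) := by
    refine ⟨fun h B hB hBp => ?_, fun h B hB => ?_⟩
    · obtain ⟨i, hi⟩ := h B hB
      rcases i with _ | i
      · left
        ext a
        simpa using hi a
      · exact Or.inr fun a => ⟨hBp a, fun ha => (hi a).mpr (by rw [pow_succ', pow_mul, ha, one_pow])⟩
    · classical
      obtain ⟨n, hn⟩ := IsPGroup.iff_card.mp hA
      have hex : ∃ j : ℕ, ∀ b ∈ B, b ^ p ^ j = 1 := ⟨n, fun b _ => hn ▸ pow_card_eq_one'⟩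
      refine ⟨Nat.find hex, fun a => ⟨Nat.find_spec hex a, ?_⟩⟩
      rcases hj : Nat.find hex with _ | j
      · intro ha
        rw [pow_zero, pow_one] at ha
        exact ha ▸ B.one_mem
      have h1 := Nat.find_spec hex
      have h2 := Nat.find_min hex (m := j) (by omega)
      rw [hj] at h1
      have h3 := (h (B.map (powMonoidHom (p ^ j))) (by
        rintro x _ ⟨b, hb, rfl⟩
        exact ⟨_, hB x b hb, by simp⟩) (by
        rintro _ ⟨b, hb, rfl⟩
        rw [powMonoidHom_apply, ← pow_mul, ← pow_succ, h1 b hb])).resolve_left (fun h0 => h2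
          fun b hb => by simpa using h0.le ⟨b, hb, rfl⟩)
      have h4 : ∀ k ≤ j + 1, ∀ a : A, a ^ p ^ k = 1 → a ∈ B := by
        intro k
        induction k with
        | zero =>
          intro _ a ha
          rw [pow_zero, pow_one] at ha
          exact ha ▸ B.one_mem
        | succ k ih =>
          intro hk a ha
          obtain ⟨b, hb, hba⟩ := (h3 (a ^ p ^ k)).mpr (by rwa [← pow_mul, ← pow_succ])
          have h5 := ih (by omega) (a * (b ^ p ^ (j - k))⁻¹) (by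
            rw [mul_pow, inv_pow, ← pow_mul, ← pow_add, Nat.sub_add_cancel (by omega), ← hba,
              powMonoidHom_apply, mul_inv_cancel])
          simpa using B.mul_mem h5 (B.pow_mem hb (p ^ (j - k)))
      exact h4 _ le_rfl a
  refine ⟨⟨fun h => h23.mpr fun B hB hBp => ?_, ?_⟩, h23⟩
  swap
  · rintro h ⟨B, C, hB, hC, hXB, hXC, hBC, -⟩
    obtain ⟨i, hi⟩ := h B hXB
    obtain ⟨j, hj⟩ := h C hXC
    rcases le_total i j with hij | hij
    · refine hB (hBC ▸ (inf_eq_left.mpr fun a ha => (hj a).mpr ?_).symm)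
      obtain ⟨k, rfl⟩ := Nat.exists_eq_add_of_le hij
      rw [pow_add, pow_mul, (hi a).mp ha, one_pow]
    · refine hC (hBC ▸ (inf_eq_right.mpr fun a ha => (hi a).mpr ?_).symm)
      obtain ⟨k, rfl⟩ := Nat.exists_eq_add_of_le hij
      rw [pow_add, pow_mul, (hj a).mp ha, one_pow]
  classical
  refine or_iff_not_imp_left.mpr fun hB1 a => ⟨hBp a, fun ha => ?_⟩
  obtain ⟨⟨b, hb⟩, hb1⟩ := Subgroup.ne_bot_iff_exists_ne_one.mp hB1
  have hb1 : b ≠ 1 := by simpa using hb1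
  obtain ⟨n, hn⟩ := IsPGroup.iff_card.mp hA
  have hex : ∃ j : ℕ, ∀ b : A, b ^ p ^ j = 1 := ⟨n, fun b => hn ▸ pow_card_eq_one'⟩
  obtain ⟨e, he⟩ : ∃ e, Nat.find hex = e + 1 := Nat.exists_eq_succ_of_ne_zero fun h0 => by
    have := Nat.find_spec hex b
    rw [h0] at this
    exact hb1 (by simpa using this)
  have h1 := Nat.find_spec hex
  have h2 := Nat.find_min hex (m := e) (by omega)
  rw [he] at h1
  push Not at h2
  obtain ⟨H, -, hH⟩ := (Set.toFinite {H : Subgroup A | (∀ x : X, ∀ b ∈ H, φ x b ∈ H) ∧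
    ∃ a ∈ H, a ^ p ^ e ≠ 1}).exists_le_minimal (a := ⊤)
      ⟨fun _ _ _ => trivial, h2.imp fun a ha => ⟨trivial, ha⟩⟩
  have hroot : ∀ h ∈ H, h ^ p ^ e = 1 → ∃ k ∈ H, k ^ p = h := by
    have i1 : CF.Coprime.Inv φ ⊤ H := (CF.Coprime.inv_top_iff φ).mpr hH.prop.1
    have i2 : CF.Coprime.Inv φ ⊤ (H.map (powMonoidHom p)) := (CF.Coprime.inv_top_iff φ).mpr (by
      rintro x _ ⟨b, hb, rfl⟩
      exact ⟨_, hH.prop.1 x b hb, by simp⟩)
    have i3 : CF.Coprime.Inv φ ⊤ (H ⊓ (powMonoidHom (p ^ e)).ker) :=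
      (CF.Coprime.inv_top_iff φ).mpr (by
        rintro x b ⟨hb, hb'⟩
        refine ⟨hH.prop.1 x b hb, ?_⟩
        have hb' : b ^ p ^ e = 1 := hb'
        show (φ x b) ^ p ^ e = 1
        rw [← map_pow, hb', map_one])
    obtain ⟨W, -, h3, h4, h5, h6⟩ := CF.Coprime.exists_invariant_complement_mod (p := p)
      (CF.Coprime.sdR φ ⊤) _ _ _ i1.le_normalizer i2.le_normalizer i3.le_normalizer
      ((CF.Coprime.sdL_le_iff φ).mpr (by
        rintro _ ⟨b, hb, rfl⟩
        refine ⟨H.pow_mem hb p, ?_⟩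
        show (b ^ p) ^ p ^ e = 1
        rw [← pow_mul, ← pow_succ', h1]))
      ((CF.Coprime.sdL_le_iff φ).mpr inf_le_left) (by
        rw [CF.Coprime.commutator_sdL_sdL, CF.Coprime.sdL_le_iff, Subgroup.commutator_le]
        intro x _ y _
        rw [commutatorElement_eq_one_iff_mul_comm.mpr (mul_comm x y)]
        exact one_mem _) (by
        rintro _ ⟨v, hv, rfl⟩
        exact ⟨v ^ p, ⟨v, hv, rfl⟩, map_pow _ _ _⟩) (by
        rw [CF.Coprime.card_sdR, Subgroup.card_top]; exact hX)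
    obtain ⟨W, hW, rfl⟩ := CF.Coprime.exists_sdL_eq φ h3
    rw [← CF.Coprime.sdL_inf] at h5
    rw [← CF.Coprime.sdL_sup] at h6
    have h5 := CF.Coprime.sdL_injective φ h5
    have h6 := CF.Coprime.sdL_injective φ h6
    rw [CF.Coprime.sdR_le_normalizer_iff, CF.Coprime.inv_top_iff] at h4
    have h7 : H ≤ W := hH.le_of_le ⟨h4, by
      obtain ⟨a, ha, ha'⟩ := hH.prop.2
      rw [← h6] at ha
      obtain ⟨u, hu, w, hw, rfl⟩ := Subgroup.mem_sup.mp ha
      refine ⟨w, hw, fun h0 => ha' ?_⟩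
      have hu' : u ^ p ^ e = 1 := hu.2
      rw [mul_pow, hu', h0, one_mul]⟩ hW
    intro h hh hh'
    exact h5.le ⟨⟨hh, hh'⟩, h7 hh⟩
  have hHtop : H = ⊤ := by
    obtain ⟨C, hC⟩ := exists_compl h1 H hroot
    obtain ⟨C, hC, hXC⟩ := CF.Coprime.exists_invariant_isCompl φ H C
      (CF.Coprime.coprime_card_of_isPGroup (hA.to_subgroup H) hX) hH.prop.1 hC
    by_contra h0
    refine h ⟨H, C, ?_, ?_, hH.prop.1, hXC, hC.inf_eq_bot, hC.sup_eq_top⟩
    · rintro rfl
      obtain ⟨a, ha, ha'⟩ := hH.prop.2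
      rw [Subgroup.mem_bot] at ha
      simp [ha] at ha'
    · rintro rfl
      exact h0 (by simpa using hC.sup_eq_top)
  subst hHtop
  have hroot2 : ∀ k ≤ e, ∀ a : A, a ^ p ^ (e + 1 - k) = 1 → ∃ b : A, b ^ p ^ k = a := by
    intro k
    induction k with
    | zero => exact fun _ a _ => ⟨a, by simp⟩
    | succ k ih =>
      intro hk a ha
      obtain ⟨c, -, rfl⟩ := hroot a trivial (by
        have : e = (e + 1 - (k + 1)) + k := by omega
        rw [this, pow_add, pow_mul, ha, one_pow])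
      obtain ⟨d, rfl⟩ := ih (by omega) c (by
        rw [← pow_mul, ← pow_succ'] at ha
        rwa [show e + 1 - k = e + 1 - (k + 1) + 1 by omega])
      exact ⟨d, by rw [← pow_mul, ← pow_succ]⟩
  have h3 : (⊤ : Subgroup A) ≤ B.comap (powMonoidHom (p ^ e)) := hH.le_of_le ⟨fun x a ha => by
    have ha : a ^ p ^ e ∈ B := ha
    show (φ x a) ^ p ^ e ∈ B
    rw [← map_pow]
    exact hB x _ ha, by
    obtain ⟨c, rfl⟩ := hroot2 e le_rfl b (by simpa using hBp b hb)
    exact ⟨c, hb, hb1⟩⟩ le_top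
  obtain ⟨c, rfl⟩ := hroot2 e le_rfl a (by simpa using ha)
  exact h3 (Subgroup.mem_top c)

end Cfsg.Agent.S3775
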