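import Cfsg.Statements.S3776
import Cfsg.Agent.Shaw.E

set_option autoImplicit false
open Cfsg

namespace Cfsg.Agent.S3776
open Subgroup
open scoped commutatorElement Pointwise

/-- Let G be a finite non-abelian 2-group with more than one involution admitting a solvable group of automorphisms that permutes its involutions transitively. Then the derived subgroup, the Frattini subgroup and the centre of G coincide and consist exactly of the elements x with x² = 1. -/
theorem result {G : Type*} [Group G] [Finite G] (hG : IsPGroup 2 G) (hna : ¬ IsMulCommutative G) (htwo : ∃ x y : G, x ≠ y ∧ x ≠ 1 ∧ x ^ 2 = 1 ∧ y ≠ 1 ∧ y ^ 2 = 1) (hY : ∃ Y : Subgroup (MulAut G), Group.IsSolvable Y ∧ ∀ x y : G, x ≠ 1 → x ^ 2 = 1 → y ≠ 1 → y ^ 2 = 1 → ∃ a ∈ Y, a x = y) : commutator G = frattini G ∧ frattini G = Subgroup.center G ∧ ∀ x : G, x ∈ Subgroup.center G ↔ x ^ 2 = 1 := by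
  obtain ⟨Y, _, hY⟩ := hY
  obtain ⟨F, _, _, _, ξ, ω, lam, h⟩ := CF.Shaw.exists_HB hG htwo Y hY
  have hna' : ∃ x y : G, x * y ≠ y * x := by
    by_contra hc
    push Not at hc
    exact hna ⟨⟨hc⟩⟩
  obtain ⟨h4, hZ⟩ := h.main hna'
  have h1 : frattini G ≤ h.V := by
    rw [CF.Solv.frattini_eq_closure_sq hG, Subgroup.closure_le]
    rintro _ ⟨x, rfl⟩
    simpa [pow_two, h.mem_V] using h4 x
  have h2 := CF.Solv.commutator_le_frattini_of_isPGroup hG
  obtain ⟨x, y, hxy⟩ := hna'
  have h3 : h.V ≤ commutator G := h.V_le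
    (fun a ha => Subgroup.characteristic_iff_le_comap.1 inferInstance ξ ha)
    (Subgroup.commutator_mem_commutator (Subgroup.mem_top x) (Subgroup.mem_top y))
    (by rwa [Ne, commutatorElement_eq_one_iff_mul_comm])
  refine ⟨le_antisymm h2 (h1.trans h3), hZ ▸ le_antisymm h1 (h3.trans h2), fun x => ?_⟩
  rw [hZ, pow_two]; rfl

end Cfsg.Agent.S3776
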