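import Cfsg.Statements.S3778
import Cfsg.Agent.Pgp.D

set_option autoImplicit false
open Cfsg

namespace Cfsg.Agent.S3778


/-- If G is a finite p-group in which every conjugacy class has at most p^b elements (every element has centralizer of index at most p^b), then G is abelian when b = 0, and when b ≥ 1 its nilpotency class c satisfies (c − 1)(p − 1) < bp, that is c < bp/(p − 1) + 1, and hence c ≤ 2b. -/
theorem result {G : Type*} [Group G] [Finite G] {p : ℕ} [Fact p.Prime] (hG : IsPGroup p G) (b : ℕ) (hb : ∀ x : G, (Subgroup.centralizer ({x} : Set G)).index ≤ p ^ b) : ∃ c : ℕ, (⊤ : Subgroup G).lowerCentralSeries c = ⊥ ∧ (b ≠ 0 → (c - 1) * (p - 1) < b * p ∧ c ≤ 2 * b) ∧ (b = 0 → c ≤ 1) := by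
  classical
  have hp : p.Prime := Fact.out
  have k := CF.BG.piGrp_of_isPGroup hp (hG.to_subgroup ⊤)
  have := hG.isNilpotent
  have ex : ∃ c, (⊤ : Subgroup G).lowerCentralSeries c = ⊥ :=
    Subgroup.nilpotent_iff_lowerCentralSeries.1 this
  refine ⟨Nat.find ex, Nat.find_spec ex, ?_⟩
  have h2 := hp.two_le
  rcases h : Nat.find ex with _ | m
  · exact ⟨fun hb => ⟨by simp; omega, by omega⟩, fun _ => by omega⟩
  have h1 := CF.Pgp.breadth_class hp k hb (h ▸ Nat.find_spec ex) fun i hi => Nat.find_min ex (by omega)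
  have h3 : 0 < Nat.card G := Nat.card_pos
  obtain ⟨r, rfl⟩ := Nat.exists_eq_add_of_le' h2
  simp only [Nat.add_sub_cancel, show r + 2 - 1 = r + 1 from rfl] at h1 ⊢
  refine ⟨fun hb => ?_, fun hb => ?_⟩
  · have h4 : m * (r + 1) < b * (r + 2) := by
      by_contra h4
      have := Nat.mul_le_mul_right (Nat.card G) (not_lt.1 h4)
      have : 0 < (r + 2) * b := by positivity
      nlinarith
    exact ⟨h4, by nlinarith⟩
  · subst hb
    rcases m with _ | m
    · rfl
    · have : 0 < (m + 1) * ((r + 1) * Nat.card G) := by positivity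
      omega

end Cfsg.Agent.S3778
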