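import Mathlib
import Cfsg.Statements.S3779
import Cfsg.Agent.Fgs1.LieHKK
import Cfsg.Agent.Coprime.Action

set_option autoImplicit false
open Cfsg

namespace Cfsg.Agent.S3779

open CF.Fgs1.Lie CF.Coprime Subgroup in

/-- Let G be a finite group with an automorphism of prime order p fixing only the identity. Then G is nilpotent; if p = 2 then G is abelian, if p = 3 then G has class at most 2, and in general the class of G is at most ξ = 1 + (p−1) + (p−1)² + ⋯ + (p−1)^(n−1) with n = 2^(p−1) − 1 (the Higman–Kreknin–Kostrikin bound). -/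
theorem result {G : Type*} [Group G] [Finite G] {p : ℕ} (hp : p.Prime) (α : MulAut G) (hα : orderOf α = p) (hfpf : ∀ g : G, α g = g → g = 1) : (p = 2 → (⊤ : Subgroup G).lowerCentralSeries 1 = ⊥) ∧ (p = 3 → (⊤ : Subgroup G).lowerCentralSeries 2 = ⊥) ∧ (⊤ : Subgroup G).lowerCentralSeries (Finset.sum (Finset.range (2 ^ (p - 1) - 1)) (fun i => (p - 1) ^ i)) = ⊥ := by
  have : Fact p.Prime := ⟨hp⟩
  set φ := (zpowers α).subtype with hφ
  set a : G ⋊[φ] zpowers α := SemidirectProduct.inr ⟨α, mem_zpowers α⟩ with ha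
  have ha1 : a ^ p = 1 := by
    rw [ha, ← map_pow, ← map_one SemidirectProduct.inr]
    congr 1
    exact Subtype.ext (hα ▸ pow_orderOf_eq_one α)
  have hn : a ∈ normalizer (sdL φ ⊤ : Set (G ⋊[φ] zpowers α)) :=
    le_normalizer_of_normal (mem_top a)
  have hf : sdL φ ⊤ ⊓ centralizer {a} = ⊥ := by
    rw [ha, sdL_inf_centralizer_singleton, sdL_eq_bot_iff, eq_bot_iff]
    exact fun g hg => hfpf g ((mem_fixSub_zpowers φ).mp hg.2)
  have back : ∀ k, (sdL φ ⊤).lowerCentralSeries k = ⊥ →
      (⊤ : Subgroup G).lowerCentralSeries k = ⊥ := fun k h => by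
    rwa [← map_lowerCentralSeries, map_eq_bot_iff_of_injective _
      SemidirectProduct.inl_injective] at h
  have main := back _ (hkk_group ha1 hn hf)
  refine ⟨?_, ?_, main⟩
  · rintro rfl
    exact main
  · rintro rfl
    exact back 2 (hkk_group_three ha1 hn hf)

end Cfsg.Agent.S3779
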