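import Mathlib
import Cfsg.Agent.Solv.FrattiniP
import Cfsg.Statements.S3780

set_option autoImplicit false
open Cfsg

namespace Cfsg.Agent.S3780

open Subgroup CF.Solv

theorem card_ker_pow {A : Type*} [AddCommGroup A] [Finite A] (β : Module.End ℤ A) (k : ℕ) :
    Nat.card (LinearMap.ker (β ^ k)) ≤ Nat.card (LinearMap.ker β) ^ k := by
  induction k with
  | zero =>
    rw [pow_zero, pow_zero, Module.End.one_eq_id, LinearMap.ker_id]
    simp
  | succ k ih =>
    let f : LinearMap.ker (β ^ (k + 1)) →+ LinearMap.ker (β ^ k) :=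
      ((β.comp (Submodule.subtype _)).codRestrict _ fun x => by
        obtain ⟨x, this⟩ := x
        rw [LinearMap.mem_ker, pow_succ] at this
        exact this).toAddMonoidHom
    have h1 := AddSubgroup.card_mul_index f.ker
    rw [AddSubgroup.index_ker] at h1
    have h2 : Nat.card f.range ≤ Nat.card (LinearMap.ker (β ^ k)) :=
      AddSubgroup.card_le_card_addGroup _
    have h3 : Nat.card f.ker ≤ Nat.card (LinearMap.ker β) := by
      refine Nat.card_le_card_of_injective (fun x => ⟨x.1.1, congrArg Subtype.val x.2⟩) ?_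
      intro a b e
      have e2 : a.1.1 = b.1.1 := congrArg (fun z : LinearMap.ker β => z.1) e
      exact Subtype.ext (Subtype.ext e2)
    rw [← h1, pow_succ' (Nat.card _)]
    exact Nat.mul_le_mul h3 (h2.trans ih)

/-- Let V be a finite abelian p-group and α an automorphism of V of order p whose fixed-point subgroup has order p^n. Then V can be generated by pn elements: some subset of V with at most pn elements generates V. -/
theorem result {V : Type*} [CommGroup V] [Finite V] {p : ℕ} [Fact p.Prime] (hV : IsPGroup p V) (α : MulAut V) (hα : orderOf α = p) (n : ℕ) (hfix : Nat.card {v : V // α v = v} = p ^ n) : ∃ S : Finset V, S.card ≤ p * n ∧ Subgroup.closure (S : Set V) = ⊤ := by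
  have hpp : p.Prime := Fact.out
  let a : Module.End ℤ (Additive V) := (MonoidHom.toAdditive α.toMonoidHom).toIntLinearMap
  have ha : ∀ k : ℕ, ∀ v : V, (a ^ k) (Additive.ofMul v) = Additive.ofMul ((α ^ k) v) := by
    intro k
    induction k with
    | zero => intro v; rfl
    | succ k ih => intro v; rw [pow_succ, pow_succ]; exact ih (α v)
  have hap : a ^ p = 1 := by
    ext v
    have := ha p v
    rw [← hα, pow_orderOf_eq_one, hα] at this
    exact this
  have h1 : Nat.card (LinearMap.ker (a + -1)) = p ^ n := by
    rw [← hfix]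
    refine Nat.card_congr (Equiv.subtypeEquiv Additive.toMul fun v => ?_)
    rw [LinearMap.mem_ker]
    change a v + -v = 0 ↔ _
    rw [add_neg_eq_zero]; rfl
  have h2 := card_ker_pow (a + -1) p
  rw [h1, ← pow_mul, mul_comm] at h2
  have h3 : Nat.card (powMonoidHom p : V →* V).ker ≤ Nat.card (LinearMap.ker ((a + -1) ^ p)) := by
    refine Nat.card_le_card_of_injective (fun x => ⟨Additive.ofMul x.1, ?_⟩) ?_
    · have hx : p • Additive.ofMul x.1 = 0 := x.2
      obtain ⟨r, hr⟩ := (Commute.neg_one_right a).exists_add_pow_prime_eq hpp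
      rw [LinearMap.mem_ker, hr, hap]
      have e1 : ((p : Module.End ℤ (Additive V)) * a * -1 * r) (Additive.ofMul x.1) = 0 := by
        rw [mul_assoc, mul_assoc, Module.End.mul_apply, Module.End.natCast_apply,
          ← map_nsmul, hx, map_zero]
      rw [LinearMap.add_apply, LinearMap.add_apply, e1, add_zero]
      rcases hpp.eq_two_or_odd' with rfl | h
      · rw [neg_one_sq, ← hx, two_nsmul]; rfl
      · rw [h.neg_one_pow]; exact add_neg_cancel _
    · intro x y e
      exact Subtype.ext (congrArg (fun z : LinearMap.ker ((a + -1) ^ p) => z.1) e)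
  obtain ⟨r, hr⟩ := hV.index (frattini V)
  obtain ⟨T, hT, hT'⟩ := exists_card_eq_closure_eq_top hV hr
  refine ⟨T, ?_, hT'⟩
  rw [hT]
  refine (Nat.pow_le_pow_iff_right hpp.one_lt).1 ?_
  rw [← hr]
  refine le_trans ?_ (h3.trans h2)
  have h4 : (powMonoidHom p : V →* V).range ≤ frattini V := by
    rintro _ ⟨x, rfl⟩; exact pow_mem_frattini hV x
  refine (Nat.le_of_dvd (Nat.pos_of_ne_zero index_ne_zero_of_finite) (index_dvd_of_le h4)).trans ?_
  rw [index_range]

end Cfsg.Agent.S3780
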