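import Mathlib
import Cfsg.Statements.S3782
import Cfsg.Agent.Fgs1.LieAlp
import Cfsg.Agent.Coprime.Action

set_option autoImplicit false
open Cfsg

namespace Cfsg.Agent.S3782

open CF.Fgs1.Lie CF.Coprime Subgroup in

/-- Alperin's Theorem: for each prime p and each n ≥ 0 there is an integer l such that every finite solvable group admitting an automorphism of order p with exactly p^n fixed points has derived length at most l. -/
theorem result (p : ℕ) (hp : p.Prime) (n : ℕ) : ∃ l : ℕ, ∀ (G : Type) [Group G] [Finite G], Group.IsSolvable G → ∀ α : MulAut G, orderOf α = p → Nat.card {g : G // α g = g} = p ^ n → derivedSeries G l = ⊥ := by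
  have : Fact p.Prime := ⟨hp⟩
  refine ⟨hig p + (alp p (p ^ (n + 1)) + ((p ^ (n + 1)) ^ p).factorial),
    fun G _ _ hG α hα hfix => ?_⟩
  set φ := (zpowers α).subtype with hφ
  set a : G ⋊[φ] zpowers α := SemidirectProduct.inr ⟨α, mem_zpowers α⟩ with ha
  have ha1 : a ^ p = 1 := by
    rw [ha, ← map_pow, ← map_one SemidirectProduct.inr]
    congr 1
    exact Subtype.ext (hα ▸ pow_orderOf_eq_one α)
  have hs : Group.IsSolvable (G ⋊[φ] zpowers α) := by
    have h1 : Group.IsSolvable (sdL φ ⊤) := (isSolvable_sdL_iff φ).mpr inferInstance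
    have h2 : Group.IsSolvable (sdR φ ⊤) := (isSolvable_sdR_iff φ).mpr inferInstance
    have h3 := CF.Solv.isSolvable_sup (sdR φ ⊤) (sdL φ ⊤)
    rw [sup_comm, sdL_top_sup_sdR_top] at h3
    exact isSolvable_top_iff.mp h3
  have h1 : Nat.card (sdL φ ⊤ ⊓ centralizer {a} : Subgroup _) = p ^ n := by
    rw [ha, sdL_inf_centralizer_singleton, top_inf_eq, card_sdL, ← hfix]
    exact Nat.card_congr (Equiv.subtypeEquivRight fun g => mem_fixSub_zpowers φ)
  have h2 : (sdL φ ⊤).index = p := by
    have h3 := (sdL φ ⊤).card_mul_index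
    rw [card_sdL, card_top, SemidirectProduct.card, Nat.card_zpowers, hα] at h3
    exact Nat.eq_of_mul_eq_mul_left Nat.card_pos h3
  have h3 : Nat.card (centralizer {a}) ∣ p ^ (n + 1) := by
    rw [← CF.Solv.card_inf_mul_relIndex (sdL φ ⊤), h1, pow_succ]
    exact Nat.mul_dvd_mul_left _ (h2 ▸ relIndex_dvd_index_of_normal _ _)
  have h4 := alperin ha1 (by
    obtain ⟨k, -, hk⟩ := (Nat.dvd_prime_pow hp).mp h3
    exact IsPGroup.of_card hk) (Nat.le_of_dvd (pow_pos hp.pos _) h3)
  have h5 := (der_mono _ (le_top (a := sdL φ ⊤))).trans h4.le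
  rwa [le_bot_iff, ← map_der, map_eq_bot_iff_of_injective _ SemidirectProduct.inl_injective,
    der_top] at h5

end Cfsg.Agent.S3782
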