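import Mathlib
import Cfsg.Agent.BG.B10
import Cfsg.Statements.S3785

set_option autoImplicit false
open Cfsg

namespace Cfsg.Agent.S3785

open Subgroup CF.BG

/-- Let G be a finite solvable group whose Fitting subgroup F(G) has odd order. If an element g of G commutes with every element of prime order of F(G), then g ∈ F(G). -/
theorem result {G : Type*} [Group G] [Finite G] (hG : Group.IsSolvable G) (hodd : Odd (Nat.card (Cfsg.fittingSubgroup G))) (g : G) (hg : ∀ x ∈ Cfsg.fittingSubgroup G, (orderOf x).Prime → g * x = x * g) : g ∈ Cfsg.fittingSubgroup G := by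
  rw [← F_top] at hodd hg ⊢
  set F : Subgroup G := 𝐅 ⊤ with hF
  have nF : F ⊴ ⊤ := F_normal _
  let S : Subgroup G := closure {x | x ∈ F ∧ (orderOf x).Prime}
  have nS : S ⊴ ⊤ := ⟨le_top, le_norm_iff.2 fun h _ x hx => by
    have : cj h S ≤ S := by
      rw [cj_def, MonoidHom.map_closure]
      refine closure_mono ?_
      rintro _ ⟨y, hy, rfl⟩
      exact ⟨nF.conj_mem (mem_top h) hy.1, by
        change (orderOf (h * y * h⁻¹)).Prime
        rw [orderOf_conj']; exact hy.2⟩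
    exact this (conj_mem_cj.2 hx)⟩
  have hgC : g ∈ 𝐂 S := by
    rw [← zpowers_le, cent_comm, cent_zpowers]
    exact (closure_le _).2 fun x hx => mem_cent1.2 (hg x hx.1 hx.2).symm
  set C := 𝐂 S with hC
  have nC : C ⊴ ⊤ := ⟨le_top, norm_cent nS.norm⟩
  suffices C ≤ F from this hgC
  by_contra hne
  have sC : Sol C := inferInstance
  obtain ⟨q, hq, hO⟩ := (sC.qt F).exists_O_ne_bot
    (fun e => hne ((qt_eq_bot (le_top.trans nF.norm)).1 e))
  set K := C ⊓ qp F (𝐎 {q} (qt F C)) with hK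
  have nK : K ⊴ ⊤ := nC.inf (((nC.qt F).O _).qp_of_qt nF)
  have e1 : qt F K = 𝐎 {q} (qt F C) := by rw [hK, qt_inf_qp, inf_eq_right.2 (O_le _ _)]
  apply hO
  rw [← e1, qt_eq_bot (le_top.trans nF.norm)]
  refine le_F nK ?_
  have hi : PiNat {q} (F.relIndex K) := by
    rw [← piGrp_qt_iff (le_top.trans nF.norm), e1]; exact O_pi _ _
  have nD : F ⊓ K ⊴ K := normalIn_inf_right (le_top.trans nF.norm)
  have nil : Nil (F ⊓ K) := (F_nil _).mono inf_le_left
  have hall : Hall {q}ᶜ (𝐎 {q}ᶜ (F ⊓ K)) K :=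
    (nil.hall_O _).trans_idx inf_le_right (by
      rw [compl_compl, inf_relIndex_right]; exact hi)
  obtain ⟨Q, hQ⟩ := exists_syl q K
  have c : Q ≤ 𝐂 (𝐎 {q}ᶜ (F ⊓ K)) := by
    refine cent_symm ((nil.mono (O_le _ _)).le_of_forall fun p hp hd => cent_symm ?_)
    have hpq : p ∈ ({q}ᶜ : Set ℕ) := O_pi _ _ p hp hd
    have l : 𝐎 {p} (𝐎 {q}ᶜ (F ⊓ K)) ≤ F := (O_le _ _).trans ((O_le _ _).trans inf_le_left)
    refine (O_pi _ _).cent_of_Om (hodd.of_dvd_nat (card_dvd l))
      (hQ.le.trans ((nD.O _).O _).norm) (hQ.pi.coprime ((O_pi _ _).of_single hpq)) ?_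
    refine cent_mono (hQ.le.trans inf_le_left) le_rfl (Om_le_iff.2 fun x hx e => ?_)
    by_cases h1 : x = 1
    · rw [h1]; exact one_mem _
    · exact subset_closure ⟨l hx, by rw [orderOf_eq_of_pow hp e h1]; exact hp⟩
  rw [← hQ.sup_eq hall]
  exact hQ.pi.nil.sup_cent (nil.mono (O_le _ _)) c

end Cfsg.Agent.S3785
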