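import Mathlib
import Cfsg.Agent.Fgs2.HHExp
import Cfsg.Agent.S3784
import Cfsg.Statements.S3786

set_option autoImplicit false
open Cfsg

namespace Cfsg.Agent.S3786

open CF.Fgs2

/-- The Hall–Higman bound on p-length. Let p be an odd prime and G a finite p-soluble group whose Sylow p-subgroups have exponent dividing p^e. (a) If p is not of the form 2^k + 1, or if the Sylow 2-subgroups of G are abelian, then G has p-length at most e. (b) In every case G has p-length at most 2e. -/
theorem result {G : Type*} [Group G] [Finite G] {p : ℕ} [Fact p.Prime] (hp : p ≠ 2) (hG : Cfsg.IsPSolvable p G) (e : ℕ) (hexp : ∀ (P : Sylow p G), ∀ x ∈ (P : Subgroup G), x ^ p ^ e = 1) : (((¬ ∃ k : ℕ, p = 2 ^ k + 1) ∨ ∀ S : Sylow 2 G, IsMulCommutative (S : Subgroup G)) → Cfsg.PLengthLE p e G) ∧ Cfsg.PLengthLE p (2 * e) G := by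
  refine ⟨fun h => pLen_of_exp hG (expLE_of_sylow hexp) fun q m a hq h1 h2 h3 _ h5 Q hQ => ?_,
    pLen_of_exp_two hp e hG (expLE_of_sylow hexp)⟩
  rcases Cfsg.Agent.S3784.result p q a m Fact.out hq h3 h2 h5.symm with h6 | h6 | h6
  · exact absurd h6.1 hp
  · obtain ⟨rfl, -, -, h7⟩ := h6
    exact abelian_of_sylow (h.resolve_left fun c => c ⟨m, h7⟩) hQ
  · have h7 : p = 3 := (Nat.prime_dvd_prime_iff_eq Fact.out Nat.prime_three).1
      (Nat.Prime.dvd_of_dvd_pow (n := 2) Fact.out ((dvd_pow_self p (by omega)).trans (dvd_of_eq h6.1)))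
    have h8 : q = 2 := (Nat.prime_dvd_prime_iff_eq hq Nat.prime_two).1
      (hq.dvd_of_dvd_pow (n := 3) ((dvd_pow_self q (by omega)).trans (dvd_of_eq h6.2)))
    subst h8
    exact abelian_of_sylow (h.resolve_left fun c => c ⟨1, h7⟩) hQ

end Cfsg.Agent.S3786
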