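import Mathlib
import Cfsg.Agent.Fgs2.HHDual
import Cfsg.Agent.Fgs2.Yoshida
import Cfsg.Agent.PLocal.Dickson
import Cfsg.Statements.S3787

set_option autoImplicit false
open Cfsg

namespace Cfsg.Agent.S3787

open CF.Fgs2 CF.BG Subgroup Polynomial
open scoped commutatorElement

/-- the wreath product condition -/
def Wr (p : ℕ) (W : Type) [Group W] : Prop :=
  ∃ (B : Subgroup W) (t : W), B.Normal ∧ IsMulCommutative B ∧ (∀ b ∈ B, b ^ p = 1) ∧
    Nat.card B = p ^ p ∧ orderOf t = p ∧ t ∉ B ∧ Nat.card W = p ^ (p + 1) ∧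
    Nat.card ↥(B ⊓ Subgroup.centralizer ({t} : Set W)) = p

theorem cj_pow {X : Type*} [Group X] (a b : X) (n : ℕ) : (a⁻¹ * b * a) ^ n = a⁻¹ * b ^ n * a := by
  simpa using conj_pow (a := a⁻¹) (b := b) (i := n)

section
variable {X : Type*} [Group X] [Finite X] {p : ℕ} [hp : Fact p.Prime] {C : Subgroup X} [C.Normal]
  {θ : X → ℂˣ} {z : X} (hθ : ∀ a ∈ C, ∀ b ∈ C, θ (a * b) = θ a * θ b)
include hθ

theorem theta_conj {a c : X} (ha : a ∈ C) (hc : c ∈ C) : θ (a * c * a⁻¹) = θ c := by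
  rw [hθ _ (mul_mem ha hc) _ (inv_mem ha), hθ _ ha _ hc, theta_inv hθ ha, mul_comm (θ a),
    mul_inv_cancel_right]

theorem theta_pow {c : X} (hc : c ∈ C) (n : ℕ) : θ (c ^ n) = θ c ^ n :=
  map_pow (thetaHom hθ) ⟨c, hc⟩ n

theorem norm_form {c : X} (hc : c ∈ C) (n : ℕ) : ∃ y ∈ C, (z * c) ^ n = z ^ n * y ∧
    θ y = ∏ i ∈ Finset.range n, θ ((z ^ i)⁻¹ * c * z ^ i) := by
  induction n with
  | zero => exact ⟨1, one_mem _, by simp, by simpa using theta_one hθ⟩
  | succ n ih =>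
    obtain ⟨y, hy, e, h⟩ := ih
    have hc' := Normal.conj_mem' inferInstance _ hc (z ^ n)
    exact ⟨(z ^ n)⁻¹ * c * z ^ n * y, mul_mem hc' hy, by rw [pow_succ', e, pow_succ']; group,
      by rw [hθ _ hc' _ hy, h, Finset.prod_range_succ, mul_comm]⟩

theorem wr_of_ker (hC : IsPGroup p C) (hi : C.index = p) (hz : z ∉ C) (hθp : ∀ a, θ a ^ p = 1)
    {g : X} (hg : g ∈ C) (h : ∏ i ∈ Finset.range p, θ ((z ^ i)⁻¹ * g * z ^ i) ≠ 1)
    {W : Type} [Group W] {f : X →* W} (hf : Function.Surjective f)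
    (hk : ∀ c, f c = 1 ↔ c ∈ C ∧ ∀ i : ℕ, θ ((z ^ i)⁻¹ * c * z ^ i) = 1) : Wr p W := by
  haveI := Finite.of_surjective f hf
  haveI : NeZero p := ⟨hp.out.ne_zero⟩
  have hcj : ∀ {c : X}, c ∈ C → ∀ i : ℕ, (z ^ i)⁻¹ * c * z ^ i ∈ C := fun hc i =>
    Normal.conj_mem' inferInstance _ hc _
  have hzp : z ^ p ∈ C := hi ▸ C.pow_index_mem z
  have hkC : f.ker ≤ C := fun c hc => ((hk c).1 hc).1
  have hab : ∀ a ∈ C, ∀ b ∈ C, f a * f b = f b * f a := fun a ha b hb => by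
    rw [← commutatorElement_eq_one_iff_mul_comm, ← map_commutatorElement, hk]
    refine ⟨commutator_le_right C C (commutator_mem_commutator ha hb), fun i => ?_⟩
    rw [show (z ^ i)⁻¹ * ⁅a, b⁆ * z ^ i = ((z ^ i)⁻¹ * a * z ^ i) * ((z ^ i)⁻¹ * b * z ^ i) *
      ((z ^ i)⁻¹ * a * z ^ i)⁻¹ * ((z ^ i)⁻¹ * b * z ^ i)⁻¹ by rw [commutatorElement_def]; group,
      hθ _ (Normal.conj_mem inferInstance _ (hcj hb i) _) _ (inv_mem (hcj hb i)),
      theta_conj hθ (hcj ha i) (hcj hb i), theta_inv hθ (hcj hb i), mul_inv_cancel]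
  have hth : ∀ a ∈ C, ∀ b ∈ C, f a = f b → θ a = θ b := fun a ha b hb e => by
    have := ((hk (a * b⁻¹)).1 (by rw [map_mul, map_inv, e, mul_inv_cancel])).2 0
    rwa [pow_zero, inv_one, one_mul, mul_one, hθ _ ha _ (inv_mem hb), theta_inv hθ hb,
      mul_inv_eq_one] at this
  have hfix : ∀ c ∈ C, θ c = 1 → f c * f z = f z * f c → f c = 1 := fun c hc e1 e2 =>
    (hk c).2 ⟨hc, fun i => by
      rw [← e1]
      refine hth _ (hcj hc i) _ hc ?_
      rw [map_mul, map_mul, map_inv, map_pow, mul_assoc, (Commute.pow_right e2 i).eq,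
        inv_mul_cancel_left]⟩
  have hcomm : ∀ c ∈ C, ∀ d ∈ C, f d * f (z * c) = f (z * c) * f d ↔ f d * f z = f z * f d := by
    intro c hc d hd
    rw [map_mul, mul_assoc, hab c hc d hd, ← mul_assoc, ← mul_assoc, mul_left_inj]
  have hpw : ∀ c ∈ C, (z * c) ^ p ∈ C ∧ f ((z * c) ^ p) * f z = f z * f ((z * c) ^ p) ∧
      θ ((z * c) ^ p) = θ (z ^ p) * ∏ i ∈ Finset.range p, θ ((z ^ i)⁻¹ * c * z ^ i) := by
    intro c hc
    obtain ⟨y, hy, e, e'⟩ := norm_form (z := z) hθ hc p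
    have h1 : (z * c) ^ p ∈ C := e ▸ mul_mem hzp hy
    refine ⟨h1, (hcomm c hc _ h1).1 ?_, by rw [e, hθ _ hzp _ hy, e']⟩
    rw [← map_mul, ← map_mul, ← pow_succ, ← pow_succ']
  obtain ⟨j, hj⟩ : ∃ j : ℕ, θ (z ^ p) * (∏ i ∈ Finset.range p, θ ((z ^ i)⁻¹ * g * z ^ i)) ^ j = 1 := by
    have h1 : IsPrimitiveRoot (∏ i ∈ Finset.range p, θ ((z ^ i)⁻¹ * g * z ^ i)) p := by
      have := IsPrimitiveRoot.orderOf (∏ i ∈ Finset.range p, θ ((z ^ i)⁻¹ * g * z ^ i))
      rwa [orderOf_eq_prime (by rw [← Finset.prod_pow]; exact Finset.prod_eq_one fun _ _ => hθp _) h]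
        at this
    obtain ⟨j, -, hj⟩ := h1.eq_pow_of_mem_rootsOfUnity (ξ := (θ (z ^ p))⁻¹)
      (inv_mem ((mem_rootsOfUnity _ _).2 (hθp _)))
    exact ⟨j, by rw [hj, mul_inv_cancel]⟩
  have hgj := C.pow_mem hg j
  have htB : f (z * g ^ j) ∉ C.map f := by
    rw [← mem_comap, comap_map_eq_self hkC]
    exact fun e => hz ((mul_mem_cancel_right hgj).1 e)
  have hB : Nat.card (C.map f) = p ^ p := by
    rw [← relIndex_ker]
    refine le_antisymm ?_ (Nat.le_of_dvd (Nat.pos_of_ne_zero index_ne_zero_of_finite)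
      (pow_dvd_relIndex_of_theta hθ (le_normalizer_of_normal (mem_top z)) hC hθp hzp hg h
        fun c hc _ => ((hk c).1 hc).2))
    rw [relIndex_ker]
    have hs : ∀ b : C.map f, ∃ c ∈ C, f c = b := fun b => b.2
    choose s hs1 hs2 using hs
    let F : C.map f → (Fin p → rootsOfUnity p ℂ) := fun b i =>
      ⟨θ ((z ^ (i : ℕ))⁻¹ * s b * z ^ (i : ℕ)), (mem_rootsOfUnity _ _).2 (hθp _)⟩
    refine (Nat.card_le_card_of_injective F fun a b e => ?_).trans
      (by rw [Nat.card_fun, Complex.card_rootsOfUnity, Nat.card_eq_fintype_card, Fintype.card_fin])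
    refine Subtype.ext ?_
    rw [← hs2, ← hs2, ← mul_inv_eq_one, ← map_inv, ← map_mul, hk]
    have hm := mul_mem (hs1 a) (inv_mem (hs1 b))
    refine ⟨hm, fun i => ?_⟩
    have e1 := congrArg Subtype.val (congrFun e ⟨i % p, Nat.mod_lt _ hp.out.pos⟩)
    have h1 := inv_mem (C.pow_mem hzp (i / p))
    rw [show (z ^ i)⁻¹ * (s a * (s b)⁻¹) * z ^ i = ((z ^ p) ^ (i / p))⁻¹ *
      (((z ^ (i % p))⁻¹ * s a * z ^ (i % p)) * ((z ^ (i % p))⁻¹ * s b * z ^ (i % p))⁻¹) *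
      ((z ^ p) ^ (i / p))⁻¹⁻¹ by
        conv_lhs => rw [← Nat.mod_add_div i p, pow_add, pow_mul]
        group,
      theta_conj hθ h1 (mul_mem (hcj (hs1 a) _) (inv_mem (hcj (hs1 b) _))),
      hθ _ (hcj (hs1 a) _) _ (inv_mem (hcj (hs1 b) _)), theta_inv hθ (hcj (hs1 b) _),
      mul_inv_eq_one]
    exact e1
  refine ⟨C.map f, f (z * g ^ j), Normal.map inferInstance f hf, (abel_of_forall ?_).comm, ?_, hB,
    orderOf_eq_prime ?_ (fun e => htB (e ▸ one_mem _)), htB, ?_, ?_⟩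
  · rintro _ ⟨a, ha, rfl⟩ _ ⟨b, hb, rfl⟩
    exact hab a ha b hb
  · rintro _ ⟨a, ha, rfl⟩
    rw [← map_pow, hk]
    refine ⟨C.pow_mem ha p, fun i => ?_⟩
    rw [← hθp ((z ^ i)⁻¹ * a * z ^ i), ← theta_pow hθ (hcj ha i), cj_pow]
  · obtain ⟨h1, h2, h3⟩ := hpw _ hgj
    rw [← map_pow]
    refine hfix _ h1 ?_ h2
    rw [h3, ← hj, ← Finset.prod_pow]
    congr 1
    refine Finset.prod_congr rfl fun i _ => ?_
    rw [← theta_pow hθ (hcj hg i), cj_pow]
  · rw [← (C.map f).card_mul_index, hB, index_map_eq _ hf hkC, hi, pow_succ]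
  · let D := (C.map f ⊓ centralizer {f (z * g ^ j)}).comap f
    have hD : D ≤ C := (comap_mono inf_le_left).trans (comap_map_eq_self hkC).le
    have hD' : ∀ d ∈ C, d ∈ D ↔ f d * f z = f z * f d := fun d hd => by
      rw [← hcomm _ hgj d hd, ← mem_centralizer_singleton_iff]
      exact ⟨fun a => a.2, fun a => ⟨⟨d, hd, rfl⟩, a⟩⟩
    let φ := (thetaHom hθ).comp (inclusion hD)
    have hφ : φ.ker = f.ker.subgroupOf D := by
      ext d
      exact ⟨fun a => hfix _ (hD d.2) a ((hD' _ (hD d.2)).1 d.2), fun a => by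
        have : θ d = 1 := by simpa using ((hk _).1 a).2 0
        exact this⟩
    rw [← map_comap_eq_self_of_surjective hf (_ ⊓ _), ← relIndex_ker, relIndex, ← hφ, index_ker]
    haveI : Finite φ.range := Finite.of_surjective _ φ.rangeRestrict_surjective
    haveI : IsCyclic φ.range := isCyclic_subgroup_units _
    have h1 : Nat.card φ.range ∣ p := by
      rw [← IsCyclic.exponent_eq_card]
      refine Monoid.exponent_dvd_of_forall_pow_eq_one ?_
      rintro ⟨_, x, rfl⟩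
      exact Subtype.ext (hθp _)
    refine ((Nat.dvd_prime hp.out).1 h1).resolve_left fun h2 => h ?_
    rw [card_eq_one] at h2
    have h3 : ∀ c ∈ C, θ ((z * c) ^ p) = 1 := fun c hc => by
      have : φ ⟨_, (hD' _ (hpw c hc).1).2 (hpw c hc).2.1⟩ ∈ φ.range := ⟨_, rfl⟩
      rw [h2] at this
      exact this
    have h4 := h3 1 (one_mem _)
    have h5 := h3 g hg
    rw [mul_one] at h4
    rwa [(hpw g hg).2.2, h4, one_mul] at h5

theorem exists_wr (hC : IsPGroup p C) (hi : C.index = p) (hz : z ∉ C) (hθp : ∀ a, θ a ^ p = 1)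
    {g : X} (hg : g ∈ C) (h : ∏ i ∈ Finset.range p, θ ((z ^ i)⁻¹ * g * z ^ i) ≠ 1) :
    ∃ (W : Type) (_ : Group W) (_ : Finite W) (f : X →* W), Function.Surjective f ∧ Wr p W := by
  let L := ((thetaHom hθ).ker.map C.subtype).normalCore
  obtain ⟨W, _, _, ⟨e⟩⟩ := Finite.exists_type_univ_nonempty_mulEquiv.{_, 0} (X ⧸ L)
  have hf : Function.Surjective ((e : X ⧸ L →* W).comp (QuotientGroup.mk' L)) :=
    e.surjective.comp (QuotientGroup.mk'_surjective L)
  refine ⟨W, inferInstance, inferInstance, _, hf, wr_of_ker hθ hC hi hz hθp hg h hf fun c => ?_⟩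
  have hm : ∀ a, a ∈ (thetaHom hθ).ker.map C.subtype ↔ a ∈ C ∧ θ a = 1 := fun a =>
    ⟨by rintro ⟨b, hb, rfl⟩; exact ⟨b.2, hb⟩, fun b => ⟨⟨a, b.1⟩, b.2, rfl⟩⟩
  rw [MonoidHom.comp_apply, MonoidHom.coe_coe, EmbeddingLike.map_eq_one_iff,
    QuotientGroup.mk'_apply, QuotientGroup.eq_one_iff]
  refine ⟨fun a => ⟨((hm c).1 (normalCore_le _ a)).1, fun i => ?_⟩, fun a b => (hm _).2
    ⟨Normal.conj_mem inferInstance _ a.1 b, ?_⟩⟩
  · simpa using ((hm _).1 (a (z ^ i)⁻¹)).2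
  · have ht : zpowers z ⊔ C = ⊤ := by
      have h1 : (zpowers z ⊔ C).index ∣ p := hi ▸ index_dvd_of_le le_sup_right
      rw [← index_eq_one]
      refine ((Nat.dvd_prime hp.out).1 h1).resolve_right fun e => hz ?_
      have h2 := relIndex_mul_index (le_sup_right : C ≤ zpowers z ⊔ C)
      rw [e, hi, mul_eq_right₀ hp.out.ne_zero, relIndex_eq_one] at h2
      exact h2 (mem_sup_left (mem_zpowers z))
    obtain ⟨y, hy, d, hd, e⟩ := mem_sup_of_normal_right.1 (ht ▸ mem_top b⁻¹)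
    obtain ⟨i, rfl⟩ := mem_powers_iff_mem_zpowers.2 hy
    rw [← inv_inv b, ← e, ← a.2 i, ← theta_conj hθ (inv_mem hd)
      (Normal.conj_mem' inferInstance _ a.1 (z ^ i))]
    congr 1
    group

end

/-- no `p`-subgroup maps onto a wreath product -/
def NoWr (p : ℕ) (G : Type*) [Group G] : Prop :=
  ∀ S : Subgroup G, IsPGroup p S → ∀ (W : Type) [Group W] [Finite W], Wr p W →
    ∀ f : S →* W, ¬ Function.Surjective f

theorem aux {G : Type*} [Group G] [Finite G] {p : ℕ} [hp : Fact p.Prime] (hp2 : p ≠ 2)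
    (hnf : ¬ ∃ k : ℕ, p = 2 ^ k + 1) (hG : IsPSolvable p G) (h0 : pPrimeCore p G = ⊥)
    (h : NoWr p G) : (Nat.card (G ⧸ pCore p G)).Coprime p := by
  refine ((Nat.Prime.coprime_iff_not_dvd hp.out).2 fun hd => ?_).symm
  obtain ⟨y, hy⟩ := exists_prime_orderOf_dvd_card' p hd
  obtain ⟨g, rfl⟩ := QuotientGroup.mk_surjective y
  have hy1 : (g : G ⧸ pCore p G) ≠ 1 := fun e => hp.out.one_lt.ne (by rw [← hy, e, orderOf_one])
  have ho : (g : G ⧸ pCore p G) ^ p ^ (0 + 1) = 1 := by simpa [hy] using pow_orderOf_eq_one (g : G ⧸ pCore p G)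
  obtain ⟨U, σ, d⟩ := exists_dual (CF.Solv.centralizer_pCore_le_of_isPSolvable hG h0)
  rcases hh_lin (CF.Solv.isPSolvable_quotient hG _) CF.Solv.pCore_quotient_pCore d.inj ho
    (by simpa using hy1) with h1 | ⟨q, m, s, Q, hQ, -, hm, hs, h1, -⟩
  · obtain ⟨w, v, hv, hw⟩ : ∃ (w : U), ∃ v ∈ pCore p G,
        ∑ i ∈ Finset.range p, w.1 ((g ^ i)⁻¹ * v * g ^ i) ≠ 0 := by
      by_contra hc
      push Not at hc
      have := (h1 _ (CF.Fgs1.geom_ne_zero hp.out.pos) (LinearMap.ext fun w => d.ext _ fun v hv => by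
        rw [← hc w v hv, map_sum, LinearMap.sum_apply, Submodule.coe_sum, Finset.sum_apply]
        refine Finset.sum_congr rfl fun i _ => ?_
        rw [map_pow, aeval_X, ← map_pow, ← QuotientGroup.mk_pow, d.act])).trans
        (CF.Fgs1.natDegree_geom _)
      have := hp.out.pos
      simp only [zero_add, pow_one] at *
      omega
    haveI : NeZero p := ⟨hp.out.ne_zero⟩
    obtain ⟨l, hl⟩ := Module.Projective.exists_dual_ne_zero (ZMod p) hw
    let χ := (ZMod.stdAddChar (N := p)).toMonoidHom.toHomUnits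
    have hχ : Function.Injective χ := fun a b e =>
      ZMod.injective_stdAddChar (congrArg Units.val e)
    let X := pCore p G ⊔ zpowers g
    obtain ⟨n, hn⟩ := exists_pow_of_mk ho
    have hX : IsPGroup p X := CF.Solv.pCore_isPGroup.to_sup_of_normal_left (isPGroup_zpowers hn)
    obtain ⟨W, _, _, f, hf, hW⟩ := exists_wr (C := (pCore p G).subgroupOf X)
      (θ := fun a => χ (Multiplicative.ofAdd (l (w.1 a)))) (z := ⟨g, mem_sup_right (mem_zpowers g)⟩)
      (fun a ha b hb => by rw [Subgroup.coe_mul, d.add w a ha b hb, map_add, ofAdd_add, map_mul])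
      (hX.to_subgroup _) (by
        rw [← relIndex, relIndex_sup_left, ← QuotientGroup.ker_mk' (pCore p G), relIndex_ker,
          MonoidHom.map_zpowers, Nat.card_zpowers]
        exact hy)
      (fun e => hy1 ((QuotientGroup.eq_one_iff g).2 e))
      (fun a => by rw [← map_pow, ← ofAdd_nsmul]; simp)
      (g := ⟨v, mem_sup_left hv⟩) hv (by
        rw [← map_prod, ← ofAdd_sum, ← map_sum, Ne, ← map_one χ, hχ.eq_iff]
        exact hl)
    exact h X hX W hW f hf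
  · obtain rfl : s = 0 := by omega
    simp only [zero_add, Nat.sub_zero, pow_one] at h1
    have h2 : 2 ∣ q ^ m := by
      have := hp.out.odd_of_ne_two hp2
      rw [← h1, Nat.odd_add_one, Nat.not_odd_iff_even] at this
      exact even_iff_two_dvd.1 this
    rw [← (Nat.prime_dvd_prime_iff_eq Nat.prime_two hQ.prime).1
      (Nat.prime_two.dvd_of_dvd_pow h2)] at h1
    exact hnf ⟨m, h1.symm⟩

/-- Let G be a finite p-soluble group, p an odd prime not of the form 2^k + 1, and suppose the wreath product C_p ≀ C_p (of order p^(p+1)) is not involved in a Sylow p-subgroup of G: no section of a Sylow p-subgroup is isomorphic to it. Then G has p-length at most 1. -/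
theorem result {G : Type*} [Group G] [Finite G] {p : ℕ} [Fact p.Prime] (hp2 : p ≠ 2) (hnf : (¬ ∃ k : ℕ, p = 2 ^ k + 1)) (hG : Cfsg.IsPSolvable p G) (P : Sylow p G) (hwr : ∀ (W : Type) [Group W] [Finite W], (∃ (B : Subgroup W) (t : W), B.Normal ∧ IsMulCommutative B ∧ (∀ b ∈ B, b ^ p = 1) ∧ Nat.card B = p ^ p ∧ orderOf t = p ∧ t ∉ B ∧ Nat.card W = p ^ (p + 1) ∧ Nat.card ↥(B ⊓ Subgroup.centralizer ({t} : Set W)) = p) → ¬ Cfsg.Involves W ↥(P : Subgroup G)) : Cfsg.PLengthLE p 1 G := by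
  refine pLen_of_quotient_coprime (pLen_of_quotient_pGroup (pLen_zero_iff.2 (aux hp2 hnf
    (CF.Solv.isPSolvable_quotient hG _) CF.Solv.pPrimeCore_quotient_pPrimeCore
    fun S hS W _ _ hW f hf => ?_)) CF.Solv.pCore_isPGroup) CF.Solv.pPrimeCore_coprime
  obtain ⟨T, hT, rfl⟩ := exists_pGroup_map_eq (QuotientGroup.mk'_surjective _) hS
  obtain ⟨P', hP'⟩ := hT.exists_le_sylow
  refine hwr W hW (CF.PLocal.involves_of_ker_le
    (((P'.equiv P : P' ≃* P) : P' →* P).comp (inclusion hP'))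
    (f.comp (MonoidHom.subgroupMap _ T)) (hf.comp (MonoidHom.subgroupMap_surjective _ T)) ?_)
  rw [(MonoidHom.ker_eq_bot_iff _).2 ((P'.equiv P).injective.comp (inclusion_injective hP'))]
  exact bot_le

end Cfsg.Agent.S3787
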