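import Cfsg.Statements.S3788
import Cfsg.Agent.Pgp.E

set_option autoImplicit false
open Cfsg

namespace Cfsg.Agent.S3788


/-- Let G be a finite p-soluble group, P a Sylow p-subgroup of G and A a cyclic normal subgroup of P. If p is odd, or if no section of G is isomorphic to the symmetric group of degree 4, then A ≤ O_{p',p}(G). -/
theorem result {G : Type*} [Group G] [Finite G] {p : ℕ} [Fact p.Prime] (hG : Cfsg.IsPSolvable p G) (P : Sylow p G) (A : Subgroup G) (hAP : A ≤ (P : Subgroup G)) (hAn : (P : Subgroup G) ≤ Subgroup.normalizer (A : Set G)) (hA : IsCyclic A) (h : p ≠ 2 ∨ ¬ Cfsg.Involves (Equiv.Perm (Fin 4)) G) : A ≤ Cfsg.pPrimePCore p G := by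
  have hp : p.Prime := Fact.out
  rw [CF.BG.pPrimePCore_eq hp]
  exact CF.Pgp.cyc_le_O2 hp (CF.Pgp.sep_top hp hG) (CF.BG.syl_sylow_top P) ⟨hAP, hAn⟩ hA h

end Cfsg.Agent.S3788
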