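import Mathlib
import Cfsg.Agent.Fgs2.PLen
import Cfsg.Statements.S3790

set_option autoImplicit false
open Cfsg

namespace Cfsg.Agent.S3790

open CF.Fgs2 Subgroup

theorem aux.{u} {p : ℕ} [Fact p.Prime] {ι : Type} [DecidableEq ι] (q l : ι → ℕ)
    (hq : ∀ i, (q i).Prime ∧ q i ≠ p) (s : Finset ι) :
    ∀ (G : Type u) [Group G] [Finite G], (∀ r : ℕ, r.Prime → r ∣ Nat.card G → r ≠ p → ∃ i ∈ s, q i = r) →
      (∀ i ∈ s, PLengthLE (q i) (l i) G) → PLengthLE p (∏ i ∈ s, (1 + l i)) G := by
  induction s using Finset.induction_on with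
  | empty =>
    intro G _ _ h _
    have : IsPGroup p G := CF.Solv.isPGroup_iff_piNum_singleton.2 fun r hr hd => by
      by_contra e
      simpa using h r hr hd e
    rw [Finset.prod_empty, pLen_iff]
    exact (pl_top 0).of_stepP (stepP_of_isPGroup (this.to_subgroup ⊤))
  | insert a s ha ih =>
    intro G _ _ h hl
    haveI := Fact.mk (hq a).1
    have sec : ∀ (N : Subgroup G) [N.Normal] (B : Subgroup (G ⧸ N)), (Nat.card B).Coprime (q a) →
        PLengthLE p (∏ i ∈ s, (1 + l i)) B := by
      intro N _ B hB
      refine ih B (fun r hr hd e => ?_) (fun i hi => ?_)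
      · obtain ⟨i, hi, rfl⟩ := h r hr
          (hd.trans ((card_subgroup_dvd_card B).trans (card_quotient_dvd_card N))) e
        rcases Finset.mem_insert.1 hi with rfl | hi
        · exact absurd hd ((Nat.Prime.coprime_iff_not_dvd hr).1 hB.symm)
        · exact ⟨i, hi, rfl⟩
      · haveI := Fact.mk (hq i).1
        exact pLen_subgroup (pLen_quotient (hl i (Finset.mem_insert_of_mem hi)) N) B
    have key : ∀ (m : ℕ) (N : Subgroup G) [N.Normal], PL (q a) m N →
        PL p ((1 + m) * ∏ i ∈ s, (1 + l i)) N := by
      intro m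
      induction m with
      | zero =>
        intro N _ hN
        have := sec N ⊤ (by rw [card_top]; exact pLen_zero_iff.1 (pLen_quotient_iff.2 hN))
        rw [add_zero, one_mul, ← pLen_quotient_iff]
        exact pLen_of_surjective this (f := (⊤ : Subgroup _).subtype) fun x => ⟨⟨x, trivial⟩, rfl⟩
      | succ m ihm =>
        rintro N _ ⟨B, C, hB, hC, h1, h2, h3⟩
        have h4 : StepQ p B C := fun x hx => (h2 x hx).elim fun n e =>
          ⟨_, Nat.Coprime.pow_left n ((Nat.coprime_primes (hq a).1 Fact.out).2 (hq a).2), e⟩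
        have h5 := ((ihm C h3).of_stepQ h4).map (QuotientGroup.mk'_surjective N)
        haveI := hB.map _ (QuotientGroup.mk'_surjective N)
        have h6 := PL.add (sec N (B.map (QuotientGroup.mk' N)) (stepQ_bot_iff.1 (by
          simpa using h1.map (QuotientGroup.mk' N)))) h5
        rw [← pLen_quotient_iff, pLen_iff]
        exact h6.le (le_of_eq (by ring))
    rw [Finset.prod_insert ha, pLen_iff]
    exact key _ ⊥ (pLen_iff.1 (hl a (Finset.mem_insert_self a s)))

/-- Let G be a finite solvable group and p a prime. Suppose p₁, …, p_r are distinct primes, all different from p, that include every prime dividing the order of G other than p, and that G has p_i-length at most l_i for each i. Then G has p-length at most the product of the numbers 1 + l_i. -/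
theorem result {G : Type*} [Group G] [Finite G] (hG : Group.IsSolvable G) (p : ℕ) [Fact p.Prime] (r : ℕ) (q : Fin r → ℕ) (hq : ∀ i, (q i).Prime ∧ q i ≠ p) (hinj : Function.Injective q) (hcover : ∀ s : ℕ, s.Prime → s ∣ Nat.card G → s ≠ p → ∃ i, q i = s) (l : Fin r → ℕ) (hl : ∀ i, Cfsg.PLengthLE (q i) (l i) G) : Cfsg.PLengthLE p (Finset.univ.prod fun i => 1 + l i) G := by
  exact aux q l hq Finset.univ G (fun s hs hd e => by simpa using hcover s hs hd e) fun i _ => hl i

end Cfsg.Agent.S3790
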