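import Mathlib
import Cfsg.Agent.Fgs2.Der
import Cfsg.Agent.Solv.Fitting
import Cfsg.Statements.S3791

set_option autoImplicit false
open Cfsg

namespace Cfsg.Agent.S3791

open CF.Fgs2 Subgroup

theorem aux.{u} {ι : Type} [Fintype ι] [DecidableEq ι] (q d : ι → ℕ) (hq : ∀ i, (q i).Prime)
    (G : Type u) [Group G] [Finite G] : Group.IsSolvable G → ∀ l : ι → ℕ,
      (∀ r : ℕ, r.Prime → r ∣ Nat.card G → ∃ i, q i = r) → (∀ i, DerLE (q i) (d i) G) →
      (∀ i, PLengthLE (q i) (l i) G) → der (⊤ : Subgroup G) (∑ i, d i * l i) = ⊥ := by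
  refine CF.Solv.group_induction (P := fun G _ _ => Group.IsSolvable G → ∀ l : ι → ℕ,
      (∀ r : ℕ, r.Prime → r ∣ Nat.card G → ∃ i, q i = r) → (∀ i, DerLE (q i) (d i) G) →
      (∀ i, PLengthLE (q i) (l i) G) → der (⊤ : Subgroup G) (∑ i, d i * l i) = ⊥)
    (fun G _ _ ih => ?_) G
  intro hG l hc hd hl
  rcases subsingleton_or_nontrivial G with h | h
  · exact Subsingleton.elim _ _
  have quo : ∀ (N : Subgroup G) [N.Normal], N ≠ ⊥ → ∀ l : ι → ℕ,
      (∀ i, PLengthLE (q i) (l i) (G ⧸ N)) → der (⊤ : Subgroup G) (∑ i, d i * l i) ≤ N := by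
    intro N _ hN l hl
    have := der_top_le_ker (QuotientGroup.mk'_surjective N) (ih (G ⧸ N)
      (CF.Solv.card_quotient_lt hN) inferInstance l
      (fun r hr e => hc r hr (e.trans (card_quotient_dvd_card N)))
      (fun i => haveI := Fact.mk (hq i); (hd i).of_surjective (QuotientGroup.mk'_surjective N)) hl)
    rwa [QuotientGroup.ker_mk'] at this
  obtain ⟨p, hp, hO⟩ := CF.Solv.exists_pCore_ne_bot (G := G)
  haveI := Fact.mk hp
  have hpd : p ∣ Nat.card G := by
    obtain ⟨n, hn⟩ := IsPGroup.iff_card.1 (CF.Solv.pCore_isPGroup (p := p) (G := G))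
    refine Dvd.dvd.trans ?_ (card_subgroup_dvd_card (pCore p G))
    rcases n with _ | n
    · exact absurd (card_eq_one.1 (by simpa using hn)) hO
    · rw [hn]; exact dvd_pow_self p n.succ_ne_zero
  obtain ⟨i, rfl⟩ := hc p hp hpd
  have hl' : ∀ (N : Subgroup G) [N.Normal] (j : ι), PLengthLE (q j) (l j) (G ⧸ N) := fun N _ j =>
    haveI := Fact.mk (hq j); pLen_quotient (hl j) N
  by_cases h0 : pPrimeCore (q i) G = ⊥
  · obtain ⟨m, hm⟩ : ∃ m, l i = m + 1 := by
      rcases e : l i with _ | m
      · exact absurd hpd ((Nat.Prime.coprime_iff_not_dvd hp).1 (pLen_zero_iff.1 (e ▸ hl i)).symm)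
      · exact ⟨m, rfl⟩
    have h1 := quo _ hO (Function.update l i m) fun j => by
      by_cases e : j = i
      · subst e
        rw [Function.update_self, pLen_quotient_iff, ← CF.Solv.pPrimePCore_eq_pCore h0]
        exact (pLen_iff.1 (hm ▸ hl j)).pred
      · rw [Function.update_of_ne e]; exact hl' _ j
    have e : ∑ j, d j * l j = ∑ j, d j * Function.update l i m j + d i := by
      rw [← Finset.add_sum_erase _ _ (Finset.mem_univ i),
        ← Finset.add_sum_erase _ _ (Finset.mem_univ i), Function.update_self, hm,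
        Finset.sum_congr (g := fun j => d j * Function.update l i m j) rfl fun j hj => by
          rw [Function.update_of_ne (Finset.ne_of_mem_erase hj)]]
      ring
    rw [e, der_add]
    exact le_bot_iff.1 ((der_mono h1 _).trans (hd i _ CF.Solv.pCore_isPGroup).le)
  · exact le_bot_iff.1 ((le_inf (quo _ hO l (hl' _)) (quo _ h0 l (hl' _))).trans
      CF.Solv.pCore_inf_pPrimeCore.le)

/-- The Hall–Higman bound on derived length: let G be a finite solvable group, let p₁, …, p_r be distinct primes that include every prime dividing the order of G, and suppose that for each i the Sylow p_i-subgroups of G have derived length at most d_i and G has p_i-length at most l_i. Then G has derived length at most Σ d_i l_i. -/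
theorem result {G : Type*} [Group G] [Finite G] (hG : Group.IsSolvable G) (r : ℕ) (q : Fin r → ℕ) (hq : ∀ i, (q i).Prime) (hinj : Function.Injective q) (hcover : ∀ s : ℕ, s.Prime → s ∣ Nat.card G → ∃ i, q i = s) (d l : Fin r → ℕ) (hd : ∀ i, ∀ P : Subgroup G, (haveI := Fact.mk (hq i); ∃ S : Sylow (q i) G, (S : Subgroup G) = P) → derivedSeries ↥P (d i) = ⊥) (hl : ∀ i, Cfsg.PLengthLE (q i) (l i) G) : derivedSeries G (Finset.univ.sum fun i => d i * l i) = ⊥ := by
  rw [← der_top]
  exact aux q d hq G hG l hcover (fun i => derLE_of_sylow fun P => hd i P ⟨P, rfl⟩) hl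

end Cfsg.Agent.S3791
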