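import Mathlib
import Cfsg.Agent.BG.B7
import Cfsg.Agent.Solv.PiSep
import Cfsg.Statements.S3792

set_option autoImplicit false
open Cfsg

namespace Cfsg.Agent.S3792

open Subgroup CF.BG CF.Solv

universe u

section
variable {G : Type*} [Group G] {G' : Type*} [Group G']

/-- subgroup generated by the `π`-elements of `H` -/
def E (π : Set ℕ) (H : Subgroup G) : Subgroup G := closure {x | x ∈ H ∧ PiElt π x}

theorem E_le (π : Set ℕ) (H : Subgroup G) : E π H ≤ H := (closure_le _).2 fun _ hx => hx.1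

theorem mem_E {π : Set ℕ} {H : Subgroup G} {x : G} (hx : x ∈ H) (k : PiElt π x) : x ∈ E π H :=
  subset_closure ⟨hx, k⟩

theorem E_mono (π : Set ℕ) {H K : Subgroup G} (h : H ≤ K) : E π H ≤ E π K :=
  closure_mono fun _ hx => ⟨h hx.1, hx.2⟩

theorem map_E [Finite G] (π : Set ℕ) (H : Subgroup G) (f : G →* G') :
    (E π H).map f = E π (H.map f) := by
  apply le_antisymm
  · rw [map_le_iff_le_comap]
    refine (closure_le _).2 fun x hx => ?_
    exact mem_E (mem_map_of_mem f hx.1) (hx.2.map f)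
  · refine (closure_le _).2 ?_
    rintro _ ⟨⟨x, hx, rfl⟩, k⟩
    obtain ⟨y, z, hy, hz, ky, kz, e⟩ := exists_piPart π x
    have hyH : y ∈ H := (zpowers_le.2 hx) hy
    have h1 : f z = 1 := by
      refine PiElt.eq_one ?_ (kz.map f)
      refine k.of_mem_zpowers ?_
      rw [← MonoidHom.map_zpowers]; exact mem_map_of_mem f hz
    refine ⟨y, mem_E hyH ky, ?_⟩
    rw [← e, map_mul, h1, mul_one]

theorem E_eq_bot [Finite G] {π : Set ℕ} {H : Subgroup G} : E π H = ⊥ ↔ PiGrp πᶜ H := by
  constructor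
  · intro h
    refine piGrp_of_forall_elt fun x hx => constt_eq_one.1 ?_
    exact eq_one_of_mem_bot h (mem_E (constt_mem_of_mem π hx) (constt_pi π x))
  · intro h
    refine eq_bot_iff.2 ((closure_le _).2 fun x hx => ?_)
    exact mem_bot.2 (hx.2.eq_one (h.elt hx.1))

theorem E_eq_bot' {π : Set ℕ} {H : Subgroup G} (h : PiGrp πᶜ (E π H)) : E π H = ⊥ := by
  refine eq_bot_iff.2 ((closure_le _).2 fun x hx => ?_)
  exact mem_bot.2 (hx.2.eq_one (h.elt (mem_E hx.1 hx.2)))

/-- the lower series -/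
def L (τ : ℕ → Set ℕ) (H : Subgroup G) (n : ℕ) : Subgroup G :=
  Nat.rec H (fun k X => E (τ k) X) n

variable {τ : ℕ → Set ℕ}

theorem L_zero (H : Subgroup G) : L τ H 0 = H := rfl
theorem L_succ (H : Subgroup G) (n : ℕ) : L τ H (n + 1) = E (τ n) (L τ H n) := rfl

theorem L_succ_le (H : Subgroup G) (n : ℕ) : L τ H (n + 1) ≤ L τ H n := E_le _ _

theorem L_anti (H : Subgroup G) {m n : ℕ} (h : m ≤ n) : L τ H n ≤ L τ H m := by
  induction h with
  | refl => exact le_rfl
  | step _ ih => exact (L_succ_le _ _).trans ih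

theorem L_le (H : Subgroup G) (n : ℕ) : L τ H n ≤ H := L_anti H (Nat.zero_le n)

theorem L_mono {H K : Subgroup G} (h : H ≤ K) (n : ℕ) : L τ H n ≤ L τ K n := by
  induction n with
  | zero => exact h
  | succ n ih => exact E_mono _ ih

theorem map_L [Finite G] (H : Subgroup G) (f : G →* G') (n : ℕ) :
    (L τ H n).map f = L τ (H.map f) n := by
  induction n with
  | zero => rfl
  | succ n ih => rw [L_succ, L_succ, map_E, ih]

theorem norm_L [Finite G] (H : Subgroup G) (n : ℕ) : 𝐍 H ≤ 𝐍 (L τ H n) :=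
  norm_le_of_cj (F := fun H => L τ H n) (fun g H => by rw [cj_def, cj_def, map_L]) H

theorem L_normal [Finite G] (n : ℕ) : (L τ (⊤ : Subgroup G) n).Normal :=
  normalIn_top.1 ⟨le_top, (le_norm_self _).trans (norm_L _ _)⟩

end

/-- alternating sequence -/
structure Alt (p : ℕ) (τ : ℕ → Set ℕ) : Prop where
  succ : ∀ n, τ (n + 1) = (τ n)ᶜ
  cases : ∀ n, τ n = {p} ∨ τ n = {p}ᶜ

variable {p : ℕ} {τ : ℕ → Set ℕ}

theorem Alt.pi (a : Alt p τ) {m : ℕ} (h : PiNat {p} m ∨ PiNat {p}ᶜ m) (n : ℕ) :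
    PiNat (τ n) m ∨ PiNat (τ n)ᶜ m := by
  rcases a.cases n with e | e
  · rw [e]; exact h
  · rw [e, compl_compl]; exact h.symm

theorem exists_L_bot (a : Alt p τ) (G : Type u) [Group G] [Finite G] :
    IsPiSep {p} G → ∃ n, L τ (⊤ : Subgroup G) n = ⊥ := by
  refine group_induction (P := fun G _ _ => IsPiSep {p} G → ∃ n, L τ (⊤ : Subgroup G) n = ⊥)
    ?_ G
  intro G _ _ ih hG
  rcases subsingleton_or_nontrivial G with h | h
  · exact ⟨0, Subsingleton.elim _ _⟩
  obtain ⟨M, hM⟩ := exists_isMinNormal (G := G)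
  haveI := hM.1
  obtain ⟨n, hn⟩ := ih (G ⧸ M) (card_quotient_lt hM.2.1) (hG.quotient M)
  rw [← Subgroup.map_top_of_surjective _ (QuotientGroup.mk'_surjective M), ← map_L,
    map_mk'_eq_bot_iff] at hn
  rcases a.pi (hG.piNum_of_isMinNormal hM) n with k | k
  · refine ⟨n + 2, E_eq_bot.2 ?_⟩
    rw [a.succ, compl_compl]
    exact PiGrp.le k ((L_succ_le _ _).trans hn)
  · exact ⟨n + 1, E_eq_bot.2 (PiGrp.le k hn)⟩

theorem inf_cent_le {G : Type*} [Group G] [Finite G] {π : Set ℕ} {V A : Subgroup G}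
    [V.Normal] [A.Normal] (h : Hall π V A) (h1 : V ≠ ⊥)
    (hm : ∀ N : Subgroup G, N.Normal → N ≠ ⊥ → V ≤ N) : A ⊓ 𝐂 V ≤ V := by
  have nV : V ⊴ ⊤ := normalIn_top.2 inferInstance
  have nA : A ⊴ ⊤ := normalIn_top.2 inferInstance
  have nC : A ⊓ 𝐂 V ⊴ ⊤ := ⟨le_top, norm_inf_cent nA.norm nV.norm⟩
  have h2 : Hall π (V ⊓ (A ⊓ 𝐂 V)) (A ⊓ 𝐂 V) := h.inf_normal (nC.of_le inf_le_left le_top)
  obtain ⟨D, s, hD⟩ := h2.exists_compl (le_top.trans (nV.inf nC).norm)
  have c : V ⊓ (A ⊓ 𝐂 V) ≤ 𝐍 D :=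
    norm_of_cent (cent_symm (cent_mono (s.right_le.trans inf_le_right) le_rfl inf_le_left))
  have nD : A ⊓ 𝐂 V ≤ 𝐍 D := by rw [← s.sup]; exact sup_le c (le_norm_self _)
  have nD' : D.Normal := normalIn_top.1 ⟨le_top, nC.norm.trans (hD.norm_le_norm nD)⟩
  have : D = ⊥ := by
    by_contra hne
    exact h1 (h.pi.eq_bot (hD.pi.le (hm D nD' hne)))
  rw [← s.sup, this, sup_bot_eq]
  exact inf_le_left

theorem claim [Fact p.Prime] (a : Alt p τ) (i : ℕ) : ∀ (G : Type u) [Group G] [Finite G],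
    IsPiSep {p} G → L τ (⊤ : Subgroup G) i ≠ ⊥ →
      ∃ x y : G, L τ (closure ({x, y} : Set G)) i ≠ ⊥ := by
  induction i with
  | zero =>
    intro G _ _ _ h
    obtain ⟨x, -, hx⟩ := exists_mem_ne_one h
    exact ⟨x, x, ne_bot_of_mem (subset_closure (by simp)) hx⟩
  | succ i IH =>
  refine group_induction (P := fun G _ _ => IsPiSep {p} G → L τ (⊤ : Subgroup G) (i + 1) ≠ ⊥ →
      ∃ x y : G, L τ (closure ({x, y} : Set G)) (i + 1) ≠ ⊥) ?_
  intro G _ _ ih hG h1
  by_contra hno
  push Not at hno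
  have hsub : ∀ K : Subgroup G, K ≠ ⊤ → L τ K (i + 1) = ⊥ := by
    intro K hK
    by_contra hne
    have : L τ (⊤ : Subgroup K) (i + 1) ≠ ⊥ := by
      intro e
      apply hne
      rw [← map_top_subtype K, ← map_L, e, Subgroup.map_bot]
    obtain ⟨x, y, hxy⟩ := ih K (card_lt_of_ne_top hK) (hG.subgroup K) this
    apply hxy
    have e := hno x y
    have e2 : closure ({(x : G), (y : G)} : Set G) = (closure ({x, y} : Set K)).map K.subtype := by
      rw [MonoidHom.map_closure]; simp [Set.image_insert_eq]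
    rw [e2, ← map_L, Subgroup.map_eq_bot_iff_of_injective _ K.subtype_injective] at e
    exact e
  have hclo : ∀ (N : Subgroup G) [N.Normal] (x y : G),
      closure ({(x : G ⧸ N), (y : G ⧸ N)} : Set (G ⧸ N)) =
        (closure ({x, y} : Set G)).map (QuotientGroup.mk' N) := by
    intro N _ x y
    rw [MonoidHom.map_closure]; simp [Set.image_insert_eq]
  have hquo : ∀ N : Subgroup G, N.Normal → N ≠ ⊥ → L τ ⊤ (i + 1) ≤ N := by
    intro N _ hN
    by_contra hne
    have : L τ (⊤ : Subgroup (G ⧸ N)) (i + 1) ≠ ⊥ := by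
      intro e
      apply hne
      rwa [← Subgroup.map_top_of_surjective _ (QuotientGroup.mk'_surjective N), ← map_L,
        map_mk'_eq_bot_iff] at e
    obtain ⟨x, y, hxy⟩ := ih (G ⧸ N) (card_quotient_lt hN) (hG.quotient N) this
    obtain ⟨x, rfl⟩ := QuotientGroup.mk_surjective x
    obtain ⟨y, rfl⟩ := QuotientGroup.mk_surjective y
    apply hxy
    rw [hclo, ← map_L, hno, Subgroup.map_bot]
  set V : Subgroup G := L τ ⊤ (i + 1) with hV
  set A : Subgroup G := L τ ⊤ i with hA
  haveI : V.Normal := L_normal _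
  haveI : A.Normal := L_normal _
  have nV : V ⊴ ⊤ := normalIn_top.2 inferInstance
  have nA : A ⊴ ⊤ := normalIn_top.2 inferInstance
  have hVA : V ≤ A := L_succ_le _ _
  have hmin : IsMinNormal V := ⟨inferInstance, h1, fun M hM hMV => by
    by_cases e : M = ⊥
    · exact Or.inl e
    · exact Or.inr (le_antisymm hMV (hquo M hM e))⟩
  have pV : PiGrp (τ i) V := by
    rcases a.pi (hG.piNum_of_isMinNormal hmin) i with k | k
    · exact k
    · exact absurd (E_eq_bot' k) h1
  have hall : Hall (τ i) V A := by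
    refine ⟨hVA, pV, ?_⟩
    rw [← card_map_mk']
    refine E_eq_bot.1 ?_
    rw [← map_E, map_mk'_eq_bot_iff]
    exact le_rfl
  have hAV : ¬ A ≤ V := by
    intro hle
    rcases i with _ | j
    · have : ¬ PiGrp (τ 0)ᶜ A := fun k => h1 (E_eq_bot.2 k)
      obtain ⟨x, hx, hx1⟩ := exists_mem_ne_one h1
      refine hx1 (eq_one_of_mem_bot (hno x x) (mem_E ?_ (pV.elt hx)))
      exact subset_closure (by simp)
    · have k : PiGrp (τ j)ᶜ A := by rw [← a.succ]; exact pV.le hle
      exact h1 (eq_bot_mono (E_eq_bot' k) hVA)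
  obtain ⟨T, s, hT⟩ := hall.exists_compl (le_top.trans nV.norm)
  have hC : A ⊓ 𝐂 V ≤ V := inf_cent_le hall h1 hquo
  have hTC : ∀ k, ¬ cj k T ≤ 𝐂 V := by
    intro k hk
    apply hAV
    rw [← s.sup]
    refine sup_le le_rfl (le_trans (le_inf s.right_le ?_) hC)
    rw [cj_le_iff, cj_cent, cj_of_norm (nV.norm (mem_top _))] at hk
    exact hk
  have hmap : ∀ K : Subgroup G, V ⊔ K = ⊤ → A ≤ V ⊔ L τ K i := by
    intro K hK
    rw [sup_comm, ← map_mk'_le_map_mk'_iff, map_L, map_L, ← hK, Subgroup.map_sup,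
      (map_mk'_eq_bot_iff V V).2 le_rfl, bot_sup_eq]
  have hsol : Sol T ∨ Sol V := by
    rcases a.cases i with e | e
    · exact Or.inr (PiGrp.sol (p := p) (e ▸ pV))
    · refine Or.inl (PiGrp.sol (p := p) ?_)
      have := hT.pi
      rwa [e, compl_compl] at this
  have hcj : ∀ K : Subgroup G, V ⊔ K = ⊤ → L τ K (i + 1) = ⊥ → ∃ k ∈ V, cj k T = L τ K i := by
    intro K hK e
    obtain ⟨k, hk, hle⟩ := exists_cj_le_of_le_sup (le_top.trans nV.norm)
      (s.right_le.trans (hmap K hK)) (hT.pi.coprime' pV) hsol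
    exact ⟨k, hk, (hT.cj_of_mem (hVA hk)).eq_of_le hle (L_mono le_top i) (E_eq_bot.1 e)⟩
  by_cases hab : Abel V
  · obtain ⟨x, y, hxy⟩ := IH (G ⧸ V) (hG.quotient V) (by
      intro e
      apply hAV
      rwa [← Subgroup.map_top_of_surjective _ (QuotientGroup.mk'_surjective V), ← map_L,
        map_mk'_eq_bot_iff] at e)
    obtain ⟨x, rfl⟩ := QuotientGroup.mk_surjective x
    obtain ⟨y, rfl⟩ := QuotientGroup.mk_surjective y
    have hK : V ⊔ closure ({x, y} : Set G) = ⊤ := by
      by_contra hK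
      apply hxy
      have k : PiGrp (τ i)ᶜ (L τ (V ⊔ closure ({x, y} : Set G)) i) := E_eq_bot.1 (hsub _ hK)
      have c := k.cent_of_norm pV.compl_compl (le_top.trans nV.norm)
        (le_sup_left.trans ((le_norm_self _).trans (norm_L _ _)))
      rw [hclo, ← map_L, map_mk'_eq_bot_iff]
      exact (L_mono le_sup_right i).trans (le_trans (le_inf (L_mono le_top i) c) hC)
    have key : ∀ vw : V × V, ∃ k : V, x * vw.1 ∈ 𝐍 (cj (k : G) T) ∧
        y * vw.2 ∈ 𝐍 (cj (k : G) T) ∧ V ⊓ 𝐍 (cj (k : G) T) = ⊥ := by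
      rintro ⟨v, w⟩
      have hM : V ⊔ closure ({x * v, y * w} : Set G) = ⊤ := by
        rw [eq_top_iff, ← hK]
        refine sup_le le_sup_left ((closure_le _).2 ?_)
        rintro z (rfl | rfl)
        · have : z = z * v * (v : G)⁻¹ := by group
          rw [this]
          exact mul_mem (mem_sup_right (subset_closure (by simp))) (mem_sup_left (inv_mem v.2))
        · have : z = z * w * (w : G)⁻¹ := by group
          rw [this]
          exact mul_mem (mem_sup_right (subset_closure (by simp))) (mem_sup_left (inv_mem w.2))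
      obtain ⟨k, hk, e⟩ := hcj _ hM (hno _ _)
      have n : closure ({x * v, y * w} : Set G) ≤ 𝐍 (cj k T) := by
        rw [e]; exact (le_norm_self _).trans (norm_L _ _)
      refine ⟨⟨k, hk⟩, n (subset_closure (by simp)), n (subset_closure (by simp)), ?_⟩
      change V ⊓ 𝐍 (cj k T) = ⊥
      have c : V ⊓ 𝐍 (cj k T) ≤ 𝐂 (cj k T) := by
        rw [← comm_eq_bot, eq_bot_iff, ← (s.cj_of_mem (hVA hk)).inf]
        exact le_inf ((commutator_mono inf_le_left le_rfl).trans
          (comm_le_left (le_top.trans nV.norm))) (comm_le_right inf_le_right)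
      by_contra hne
      have nD : (V ⊓ 𝐂 (cj k T)).Normal := by
        refine normalIn_top.1 ⟨le_top, ?_⟩
        rw [← hM]
        exact sup_le (hab.le_norm inf_le_left) (norm_inf_cent (le_top.trans nV.norm) n)
      have := hquo _ nD (ne_bot_mono hne (le_inf inf_le_left c))
      exact hTC k (cent_symm (this.trans inf_le_right))
    choose F hF using key
    have inj : Function.Injective F := by
      rintro ⟨v, w⟩ ⟨v', w'⟩ e
      obtain ⟨h1, h2, h3⟩ := hF (v, w)
      obtain ⟨h1', h2', -⟩ := hF (v', w')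
      rw [← e] at h1' h2'
      have a1 : (v : G)⁻¹ * v' = 1 := by
        refine eq_one_of_mem_bot h3 (mem_inf.2 ⟨mul_mem (inv_mem v.2) v'.2, ?_⟩)
        have := mul_mem (inv_mem h1) h1'
        simpa [mul_assoc] using this
      have a2 : (w : G)⁻¹ * w' = 1 := by
        refine eq_one_of_mem_bot h3 (mem_inf.2 ⟨mul_mem (inv_mem w.2) w'.2, ?_⟩)
        have := mul_mem (inv_mem h2) h2'
        simpa [mul_assoc] using this
      exact Prod.ext (Subtype.ext (inv_mul_eq_one.1 a1)) (Subtype.ext (inv_mul_eq_one.1 a2))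
    have hc := Nat.card_le_card_of_injective F inj
    rw [Nat.card_prod] at hc
    have := one_lt_card.2 h1
    nlinarith
  · apply hTC 1
    rw [cj_one]
    refine cent_symm (le_of_forall_syl fun r hr hd => ?_)
    obtain ⟨R, hR⟩ := exists_syl r V
    have hN : 𝐍 R ≠ ⊤ := by
      intro e
      have hn : R.Normal := normalIn_top.1 ⟨le_top, e.ge⟩
      have hle := hquo R hn (hR.syl_ne_bot hr hd)
      haveI : Group.IsSolvable V := (hR.pi.le hle).sol
      exact hab (Abel.of_comm hmin.isMulCommutative)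
    have hK : V ⊔ 𝐍 R = ⊤ := by
      have := hR.syl_frattini_sup nV
      rwa [top_inf_eq] at this
    obtain ⟨k, hk, e⟩ := hcj _ hK (hsub _ hN)
    have c : cj k T ≤ 𝐂 R := by
      refine (hT.pi.cj k).cent_of_norm (pV.le hR.le).compl_compl ?_ ?_
      · rw [e]; exact L_le _ _
      · rw [e]; exact (le_norm_self R).trans ((le_norm_self _).trans (norm_L _ _))
    refine ⟨cj k⁻¹ R, hR.cj_of_mem (inv_mem hk), ?_⟩
    rw [cj_le_iff, cj_cent] at c
    exact cent_symm c

theorem alt (p : ℕ) : Alt p (fun n => if Even n then {p} else {p}ᶜ) := by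
  constructor
  · intro n
    by_cases h : Even n
    · simp [h, Nat.even_add_one]
    · simp [h, Nat.even_add_one]
  · intro n
    by_cases h : Even n
    · simp [h]
    · simp [h]

/-- Powell's Theorem: let G be a finite non-abelian simple group and p an odd prime dividing its order such that every proper subgroup of G is p-soluble. Then G can be generated by three elements. -/
theorem result {G : Type*} [Group G] [Finite G] [IsSimpleGroup G] (hna : ¬ IsMulCommutative G) {p : ℕ} [Fact p.Prime] (hp : p ≠ 2) (hdvd : p ∣ Nat.card G) (hprop : ∀ H : Subgroup G, H ≠ ⊤ → Cfsg.IsPSolvable p ↥H) : ∃ x y z : G, Subgroup.closure ({x, y, z} : Set G) = ⊤ := by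
  classical
  have hpp : p.Prime := Fact.out
  obtain ⟨τ, a⟩ : ∃ τ, Alt p τ := ⟨_, alt p⟩
  have hsep : ∀ H : Subgroup G, H ≠ ⊤ → IsPiSep {p} H := fun H hH =>
    isPSolvable_iff_isPiSep.1 (hprop H hH)
  have hbot : ∀ H : Subgroup G, ∃ n, H ≠ ⊤ → L τ H n = ⊥ := by
    intro H
    by_cases hH : H = ⊤
    · exact ⟨0, fun h => absurd hH h⟩
    obtain ⟨n, hn⟩ := exists_L_bot a H (hsep H hH)
    exact ⟨n, fun _ => by rw [← map_top_subtype H, ← map_L, hn, Subgroup.map_bot]⟩
  choose f hf using hbot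
  obtain ⟨b, hb⟩ := (Set.finite_range f).bddAbove
  have hex : ∃ n, ∀ H : Subgroup G, H ≠ ⊤ → L τ H n = ⊥ :=
    ⟨b, fun H hH => eq_bot_mono (hf H hH) (L_anti H (hb ⟨H, rfl⟩))⟩
  have hnp : ¬ PiGrp {p} (⊤ : Subgroup G) := by
    intro k
    haveI : Group.IsSolvable (⊤ : Subgroup G) := k.sol
    haveI : Group.IsSolvable G := solvable_of_surjective (f := (⊤ : Subgroup G).subtype)
      (fun x => ⟨⟨x, mem_top _⟩, rfl⟩)
    exact hna ⟨⟨IsSimpleGroup.comm_iff_isSolvable.2 inferInstance⟩⟩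
  have h0 : Nat.find hex ≠ 0 := by
    intro e
    have := Nat.find_spec hex
    rw [e] at this
    obtain ⟨P, hP⟩ := exists_syl p (⊤ : Subgroup G)
    refine hP.syl_ne_bot hpp (by rwa [card_top']) (this P ?_)
    rintro rfl
    exact hnp hP.pi
  obtain ⟨i, hi⟩ := Nat.exists_eq_succ_of_ne_zero h0
  have hs := Nat.find_spec hex
  rw [hi] at hs
  have hm := Nat.find_min hex (m := i) (by omega)
  push Not at hm
  obtain ⟨H, hH, hL⟩ := hm
  obtain ⟨x, y, hxy⟩ := claim a i H (hsep H hH) (by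
    intro e
    apply hL
    rw [← map_top_subtype H, ← map_L, e, Subgroup.map_bot])
  have e2 : closure ({(x : G), (y : G)} : Set G) = (closure ({x, y} : Set H)).map H.subtype := by
    rw [MonoidHom.map_closure]; simp [Set.image_insert_eq]
  have hxy' : L τ (closure ({(x : G), (y : G)} : Set G)) i ≠ ⊥ := by
    intro e
    apply hxy
    rwa [e2, ← map_L, Subgroup.map_eq_bot_iff_of_injective _ H.subtype_injective] at e
  obtain ⟨c, hc, hc1⟩ := exists_mem_ne_one hxy'
  by_contra hno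
  push Not at hno
  let S : Subgroup G :=
    { carrier := {g | ∀ k, PiElt (τ i)ᶜ k → PiElt (τ i)ᶜ (g * k)}
      one_mem' := fun k hk => by rwa [one_mul]
      mul_mem' := fun {g g'} hg hg' k hk => by rw [mul_assoc]; exact hg _ (hg' _ hk)
      inv_mem' := fun {g} hg k hk => by
        have : ∀ n : ℕ, PiElt (τ i)ᶜ (g ^ n * k) := by
          intro n
          induction n with
          | zero => rwa [pow_zero, one_mul]
          | succ n ih => rw [pow_succ', mul_assoc]; exact hg _ ih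
        have e : g⁻¹ = g ^ (orderOf g - 1) := by
          rw [inv_eq_iff_mul_eq_one, ← pow_succ', Nat.sub_add_cancel (orderOf_pos g),
            pow_orderOf_eq_one]
        rw [e]; exact this _ }
  have nS : S.Normal := ⟨fun g hg h k hk => by
    have := (hg _ (hk.conj h⁻¹)).conj h
    convert this using 1
    group⟩
  have hcS : c ∈ S := by
    intro k hk
    set K := closure ({(x : G), (y : G), k} : Set G) with hK
    have hle : closure ({(x : G), (y : G)} : Set G) ≤ K := closure_mono (by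
      rintro z (rfl | rfl) <;> simp)
    have pN : PiGrp (τ i)ᶜ (L τ K i) := E_eq_bot.1 (hs K (hno _ _ _))
    have hkK : k ∈ K := subset_closure (by simp)
    have := pN.sup hk.zpowers (Or.inr ((zpowers_le.2 hkK).trans
      ((le_norm_self _).trans (norm_L _ _))))
    exact this.elt (mul_mem (mem_sup_left (L_mono hle i hc)) (mem_sup_right (mem_zpowers k)))
  have hS : S = ⊤ := (nS.eq_bot_or_eq_top).resolve_left (ne_bot_of_mem hcS hc1)
  have pG : PiGrp (τ i)ᶜ (⊤ : Subgroup G) := piGrp_of_forall_elt fun g _ => by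
    have : g ∈ S := hS ▸ mem_top g
    simpa using this 1 (piElt_one _)
  rcases a.cases i with e | e
  · rw [e] at pG
    exact pG.not_dvd' hpp rfl (by rwa [card_top'])
  · rw [e, compl_compl] at pG
    exact hnp pG

end Cfsg.Agent.S3792
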