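import Mathlib
import Cfsg.Statements.S3794
import Cfsg.Agent.Fgs1.HHFpf

set_option autoImplicit false
open Cfsg

namespace Cfsg.Agent.S3794


/-- Let G be a finite solvable group with an automorphism σ satisfying σ⁴ = 1 and fixing only the identity. Then the derived subgroup G' is nilpotent. -/
theorem result {G : Type*} [Group G] [Finite G] (hG : Group.IsSolvable G) (σ : MulAut G) (hσ : σ ^ 4 = 1) (hfpf : ∀ g : G, σ g = g → g = 1) : Group.IsNilpotent (commutator G) := by
  obtain ⟨Γ, _, _, f, x, hf, hn, ho, h⟩ := CF.Fgs1.exists_ambient σ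
  have := CF.Fgs1.nil_der_of_fpf_four hn ?_ ?_ (CF.Fgs1.sol_range hG f)
  · rw [MonoidHom.range_eq_map, ← Subgroup.map_commutator] at this
    exact (CF.BG.nil_map_iff hf).mp this
  · rw [← orderOf_dvd_iff_pow_eq_one, ho, orderOf_dvd_iff_pow_eq_one, hσ]
  · rw [CF.Fgs1.range_inf_cent hf h (C := ⊥) (fun g => ⟨fun e => by rw [Subgroup.mem_bot.mp e, map_one],
      fun e => Subgroup.mem_bot.mpr (hfpf g e)⟩), Subgroup.map_bot]

end Cfsg.Agent.S3794
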