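import Mathlib
import Cfsg.Statements.S3795
import Cfsg.Agent.Fgs1.HHTurull

set_option autoImplicit false
open Cfsg

namespace Cfsg.Agent.S3795


/-- Gross's Theorem: let G be a finite solvable group with an automorphism σ of order 2^n, n > 1, fixing only the identity. Then G has Fitting height at most 2n − 2: G has Fitting height at most m when there is a chain of normal subgroups 1 = F₀ ≤ F₁ ≤ ⋯ ≤ F_m = G with each F_{i+1}/F_i nilpotent. -/
theorem result {G : Type*} [Group G] [Finite G] (hG : Group.IsSolvable G) (σ : MulAut G) (n : ℕ) (hn : 1 < n) (hσ : orderOf σ = 2 ^ n) (hfpf : ∀ g : G, σ g = g → g = 1) : ∃ F : Fin ((2 * n - 2) + 1) → Subgroup G, F 0 = ⊥ ∧ F (Fin.last (2 * n - 2)) = ⊤ ∧ Monotone F ∧ (∀ i, (F i).Normal) ∧ ∀ i : Fin (2 * n - 2), ∃ k : ℕ, (F i.succ).lowerCentralSeries k ≤ F i.castSucc := by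
  obtain ⟨Γ, _, _, f, x, hf, hx, ho, h⟩ := CF.Fgs1.exists_ambient σ
  obtain ⟨l, rfl⟩ : ∃ l, n = l + 2 := ⟨n - 2, by omega⟩
  refine CF.Fgs1.FitT.of_range hf ((CF.Fgs1.fitT_of_fpf_two l hx ?_ ?_
    (CF.Fgs1.sol_range hG f)).mono (by omega))
  · rw [← hσ, ← ho, pow_orderOf_eq_one]
  · rw [CF.Fgs1.range_inf_cent hf h (C := ⊥) (fun g => ⟨fun e => by rw [Subgroup.mem_bot.mp e, map_one],
      fun e => Subgroup.mem_bot.mpr (hfpf g e)⟩), Subgroup.map_bot]

end Cfsg.Agent.S3795
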