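import Mathlib
import Cfsg.Statements.S3796
import Cfsg.Agent.Fgs1.HHPq

set_option autoImplicit false
open Cfsg

namespace Cfsg.Agent.S3796

open CF.BG CF.Coprime CF.Fgs1 in

/-- Ward's Theorem: let G be a finite solvable group and A an elementary abelian group of automorphisms of G of order p² (p a prime) with no non-identity common fixed point. Then G has Fitting height at most 2: G has Fitting height at most m when there is a chain of normal subgroups 1 = F₀ ≤ F₁ ≤ ⋯ ≤ F_m = G with each F_{i+1}/F_i nilpotent. -/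
theorem result {G : Type*} [Group G] [Finite G] (hG : Group.IsSolvable G) {p : ℕ} (hp : p.Prime) (A : Subgroup (MulAut G)) (hA : Cfsg.IsElementaryAbelian p A) (hcard : Nat.card A = p ^ 2) (hfpf : ∀ g : G, (∀ a ∈ A, a g = g) → g = 1) : ∃ F : Fin (2 + 1) → Subgroup G, F 0 = ⊥ ∧ F (Fin.last 2) = ⊤ ∧ Monotone F ∧ (∀ i, (F i).Normal) ∧ ∀ i : Fin 2, ∃ k : ℕ, (F i.succ).lowerCentralSeries k ≤ F i.castSucc := by
  obtain ⟨n, f, e1, e2, h⟩ := exists_ambient' A.subtype (fun g hg => hfpf g fun a ha => hg ⟨a, ha⟩)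
  have ab : Abelem p (sdR A.subtype ⊤) := by
    refine (abelem_map_iff SemidirectProduct.inr_injective).mpr
      ((abelem_map_iff A.subtype_injective).mp ?_)
    rw [map_top_subtype]; exact Abelem.of_isEA hp hA
  refine h 2 (fitT_of_FS (FS_two_of_pq n (pq_of_card hp hp (by rw [e2, hcard, pow_two]) fun _ => ab)
    (PiNat.coprime ab.pi (pi'_of_fpf hp ab.pi n f)) ((isSolvable_sdL_iff _).mpr inferInstance) f))

end Cfsg.Agent.S3796
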