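import Mathlib
import Cfsg.Statements.S3797
import Cfsg.Agent.Fgs1.InvolConj

set_option autoImplicit false
open Cfsg

namespace Cfsg.Agent.S3797

open Subgroup CF.BG CF.Fgs1

/-- Let G be a finite solvable group of even order whose Sylow 2-subgroups contain more than one involution, and suppose all involutions of G are conjugate. Then G has 2-length at most 1, and a Sylow 2-subgroup S of G is either homocyclic (a direct product of cyclic groups of one common order) or a non-abelian 2-group with more than one involution admitting a solvable group of automorphisms transitive on its involutions. -/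
theorem result {G : Type*} [Group G] [Finite G] (hG : Group.IsSolvable G) (heven : Even (Nat.card G)) (S : Sylow 2 G) (htwo : ∃ x y : G, x ∈ (S : Subgroup G) ∧ y ∈ (S : Subgroup G) ∧ x ≠ y ∧ x ≠ 1 ∧ x ^ 2 = 1 ∧ y ≠ 1 ∧ y ^ 2 = 1) (hconj : ∀ x y : G, x ≠ 1 → x ^ 2 = 1 → y ≠ 1 → y ^ 2 = 1 → IsConj x y) : Cfsg.PLengthLE 2 1 G ∧ ((∃ m r : ℕ, Nonempty (↥(S : Subgroup G) ≃* (Fin r → Multiplicative (ZMod (2 ^ m))))) ∨ (¬ IsMulCommutative (S : Subgroup G) ∧ ∃ Y : Subgroup (MulAut ↥(S : Subgroup G)), Group.IsSolvable Y ∧ ∀ x y : ↥(S : Subgroup G), x ≠ 1 → x ^ 2 = 1 → y ≠ 1 → y ^ 2 = 1 → ∃ a ∈ Y, a x = y)) := by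
  have hp : Nat.Prime 2 := Nat.prime_two
  have hS : Syl 2 (S : Subgroup G) ⊤ := syl_sylow_top S
  have hO : Cfsg.pPrimeCore 2 G = 𝐎 {2}ᶜ ⊤ := pPrimeCore_eq hp
  have hOS : Cfsg.pPrimeCore 2 G ⊓ S = ⊥ := by
    rw [hO]; exact (O_pi _ _).inf_eq_bot' hS.pi
  have hlen : Cfsg.PLengthLE 2 1 G := by
    apply pLengthLE_one_of_quotient
    set N := Cfsg.pPrimeCore 2 G with hN
    have hNc : (Nat.card N).Coprime 2 := CF.Solv.pPrimeCore_coprime
    refine invol_conj_core inferInstance CF.Solv.pPrimeCore_quotient_pPrimeCore ?_ ?_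
    · obtain ⟨x, y, hx, hy, hxy, hx1, hx2, hy1, hy2⟩ := htwo
      refine ⟨x, y, fun h => hxy ?_, fun h => hx1 ?_, by rw [← QuotientGroup.mk_pow, hx2]; rfl,
        fun h => hy1 ?_, by rw [← QuotientGroup.mk_pow, hy2]; rfl⟩
      · exact inv_mul_eq_one.mp (eq_one_of_mem_bot hOS
          (mem_inf.mpr ⟨QuotientGroup.eq.mp h, mul_mem (inv_mem hx) hy⟩))
      · exact eq_one_of_mem_bot hOS ⟨(QuotientGroup.eq_one_iff _).mp h, hx⟩
      · exact eq_one_of_mem_bot hOS ⟨(QuotientGroup.eq_one_iff _).mp h, hy⟩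
    · intro x y hx1 hx2 hy1 hy2
      obtain ⟨x', hx', rfl⟩ := exists_lift_pow_eq_one N hNc x hx2
      obtain ⟨y', hy', rfl⟩ := exists_lift_pow_eq_one N hNc y hy2
      exact (QuotientGroup.mk' N).map_isConj (hconj x' y' (by rintro rfl; exact hx1 rfl) hx'
        (by rintro rfl; exact hy1 rfl) hy')
  refine ⟨hlen, ?_⟩
  have hfr := ((pLengthLE_top_iff hp).mp hlen).frattini hS
  rw [top_inf_eq, ← hO] at hfr
  have htr : ∀ x y : ↥(S : Subgroup G), x ≠ 1 → x ^ 2 = 1 → y ≠ 1 → y ^ 2 = 1 →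
      ∃ a ∈ (S : Subgroup G).normalizerMonoidHom.range, a x = y := by
    intro x y hx1 hx2 hy1 hy2
    obtain ⟨g, hg⟩ := isConj_iff.mp (hconj x y (fun h => hx1 (Subtype.ext h))
      (congrArg Subtype.val hx2) (fun h => hy1 (Subtype.ext h)) (congrArg Subtype.val hy2))
    have hg' : g ∈ Cfsg.pPrimeCore 2 G ⊔ 𝐍 (S : Subgroup G) := by rw [hfr]; trivial
    obtain ⟨o, ho, n, hn, rfl⟩ := (mem_sup_norm' (le_normalizer_of_normal)).mp hg'
    refine ⟨_, ⟨⟨n, hn⟩, rfl⟩, Subtype.ext ?_⟩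
    show n * x * n⁻¹ = y
    have h1 : n * x * n⁻¹ ∈ (S : Subgroup G) := conj_mem_of_norm hn x.2
    have h2 : (y : G) * (n * x * n⁻¹)⁻¹ = 1 := by
      refine eq_one_of_mem_bot hOS (mem_inf.mpr ⟨?_, mul_mem y.2 (inv_mem h1)⟩)
      have e : (y : G) * (n * x * n⁻¹)⁻¹ = o * ((n * x * n⁻¹) * o⁻¹ * (n * x * n⁻¹)⁻¹) := by
        rw [← hg]; group
      rw [e]
      exact mul_mem ho ((Cfsg.pPrimeCore_normal 2 G).conj_mem _ (inv_mem ho) _)
    exact (mul_inv_eq_one.mp h2).symm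
  by_cases hab : IsMulCommutative (S : Subgroup G)
  · left
    letI : CommGroup ↥(S : Subgroup G) := { mul_comm := hab.1.1 }
    refine homocyclic_of_transitive hp S.isPGroup' fun x y hx hy => ?_
    obtain ⟨a, -, ha⟩ := htr x y (by rintro rfl; simp at hx) (orderOf_dvd_iff_pow_eq_one.mp hx.dvd)
      (by rintro rfl; simp at hy) (orderOf_dvd_iff_pow_eq_one.mp hy.dvd)
    exact ⟨a, ha ▸ mem_zpowers y⟩
  · right
    exact ⟨hab, _, Group.isSolvable_of_surjective (MonoidHom.rangeRestrict_surjective _), htr⟩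

end Cfsg.Agent.S3797
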