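import Mathlib
import Cfsg.Statements.S3798
import Cfsg.Agent.Fgs1.PAuto

set_option autoImplicit false
open Cfsg

namespace Cfsg.Agent.S3798

open Subgroup CF.BG CF.Fgs1

/-- The Gaschütz–Yen Theorem: let G be a finite p-soluble group, p an odd prime dividing its order, such that the automorphism group of G permutes the subgroups of G of order p transitively. Then G has p-length at most 1. -/
theorem result {G : Type*} [Group G] [Finite G] {p : ℕ} [Fact p.Prime] (hp : p ≠ 2) (hdvd : p ∣ Nat.card G) (hG : Cfsg.IsPSolvable p G) (htrans : ∀ U V : Subgroup G, Nat.card U = p → Nat.card V = p → ∃ a : MulAut G, U.map a.toMonoidHom = V) : Cfsg.PLengthLE p 1 G := by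
  have hpp : p.Prime := Fact.out
  apply pLengthLE_one_of_quotient
  set N := Cfsg.pPrimeCore p G with hN
  have hNc : (Nat.card N).Coprime p := CF.Solv.pPrimeCore_coprime
  have hchar : ∀ K : Subgroup (G ⧸ N), K.Characteristic → p ∣ Nat.card K →
      ∀ x : G ⧸ N, x ^ p = 1 → x ∈ K := by
    intro K hK hd x hx
    by_cases hx1 : x = 1
    · rw [hx1]; exact one_mem _
    obtain ⟨y, hy, hyo⟩ := exists_mem_orderOf_eq hpp hd
    obtain ⟨y', hy', rfl⟩ := exists_lift_pow_eq_one N hNc y (orderOf_dvd_iff_pow_eq_one.mp hyo.dvd)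
    obtain ⟨x', hx', rfl⟩ := exists_lift_pow_eq_one N hNc x hx
    have h1 : orderOf x' = p := orderOf_eq_of_pow hpp hx' (by rintro rfl; exact hx1 rfl)
    have h2 : orderOf y' = p := orderOf_eq_of_pow hpp hy' (by
      rintro rfl; rw [QuotientGroup.mk_one, orderOf_one] at hyo; exact hpp.one_lt.ne hyo)
    obtain ⟨a, ha⟩ := htrans (zpowers y') (zpowers x') (by rw [Nat.card_zpowers, h2])
      (by rw [Nat.card_zpowers, h1])
    have hc := comap_mk'_characteristic N K
    have h3 : zpowers y' ≤ K.comap (QuotientGroup.mk' N) := zpowers_le.mpr hy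
    have h4 := map_mono (f := a.toMonoidHom) h3
    rw [ha, characteristic_iff_map_eq.mp hc a] at h4
    exact h4 (mem_zpowers x')
  have hs := CF.Solv.isPSolvable_quotient hG N
  have h0 : Cfsg.pPrimeCore p (G ⧸ N) = ⊥ := CF.Solv.pPrimeCore_quotient_pPrimeCore
  rcases split_aux hs h0 hchar with h | ⟨h1, h2⟩
  · exact h
  exfalso
  set P := Cfsg.pCore p (G ⧸ N) with hP
  set T := pPPrime p (G ⧸ N) with hT
  have hPp : PiGrp {p} P := piGrp_of_isPGroup hpp CF.Solv.pCore_isPGroup
  have hC : 𝐂 P ≤ P := CF.Solv.centralizer_pCore_le_of_isPSolvable hs h0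
  have hPT : P ≤ T := pCore_le_pPPrime p
  have hidx : PiNat {p}ᶜ (P.relIndex T) := by
    rw [hP, hT, relIndex_pPPrime]
    exact (piNat_compl_single_iff_coprime hpp).mpr CF.Solv.pPrimeCore_coprime
  obtain ⟨R, hR⟩ := exists_compl (K := P) (M := T)
    ⟨hPT, by rw [normalizer_eq_top]; exact le_top⟩ (hPp.coprime hidx)
  have hRp : PiGrp {p}ᶜ R := by
    show PiNat _ _
    rw [← hR.relIndex_left]; exact hidx
  have h3 : R ≤ 𝐂 P := CF.Coprime.le_centralizer_of_omega_odd hp R P hPp.isPGroup hR.norm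
    ((piNat_compl_single_iff_coprime hpp).mp hRp)
    (fun x _ hx => cent_anti hR.right_le (h2 x hx))
  apply h1
  rw [← hR.sup]
  exact sup_eq_left.mpr (h3.trans hC)

end Cfsg.Agent.S3798
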