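import Mathlib
import Cfsg.Statements.S3799
import Cfsg.Agent.Solv.Symplectic
import Cfsg.Agent.Even.Extra

set_option autoImplicit false
open Cfsg

namespace Cfsg.Agent.S3799

@[ext] structure Hs (n p : ℕ) where
  a : Fin n → ZMod p
  b : Fin n → ZMod p
  c : ZMod p

instance instMulHs (n p : ℕ) : Mul (Hs n p) :=
  ⟨fun x y => ⟨x.a + y.a, x.b + y.b, x.c + y.c + x.a ⬝ᵥ y.b⟩⟩
instance instOneHs (n p : ℕ) : One (Hs n p) := ⟨⟨0, 0, 0⟩⟩
instance instInvHs (n p : ℕ) : Inv (Hs n p) := ⟨fun x => ⟨-x.a, -x.b, -x.c + x.a ⬝ᵥ x.b⟩⟩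

@[simp] theorem mul_a {n p : ℕ} (x y : Hs n p) : (x * y).a = x.a + y.a := rfl
@[simp] theorem mul_b {n p : ℕ} (x y : Hs n p) : (x * y).b = x.b + y.b := rfl
@[simp] theorem mul_c {n p : ℕ} (x y : Hs n p) : (x * y).c = x.c + y.c + x.a ⬝ᵥ y.b := rfl
@[simp] theorem one_a {n p : ℕ} : (1 : Hs n p).a = 0 := rfl
@[simp] theorem one_b {n p : ℕ} : (1 : Hs n p).b = 0 := rfl
@[simp] theorem one_c {n p : ℕ} : (1 : Hs n p).c = 0 := rfl
@[simp] theorem inv_a {n p : ℕ} (x : Hs n p) : x⁻¹.a = -x.a := rfl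
@[simp] theorem inv_b {n p : ℕ} (x : Hs n p) : x⁻¹.b = -x.b := rfl
@[simp] theorem inv_c {n p : ℕ} (x : Hs n p) : x⁻¹.c = -x.c + x.a ⬝ᵥ x.b := rfl

instance instGroupHs (n p : ℕ) : Group (Hs n p) :=
  Group.ofLeftAxioms
    (fun x y z => by ext <;> simp [add_assoc]; ring)
    (fun x => by ext <;> simp)
    (fun x => by ext <;> simp)

def equivHs (n p : ℕ) : Hs n p ≃ (Fin n → ZMod p) × (Fin n → ZMod p) × ZMod p :=
  ⟨fun x => (x.a, x.b, x.c), fun x => ⟨x.1, x.2.1, x.2.2⟩, fun _ => rfl, fun _ => rfl⟩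

theorem pow_eq {n p : ℕ} (x : Hs n p) (k : ℕ) :
    x ^ k = ⟨k • x.a, k • x.b, k * x.c + (k.choose 2 : ℕ) * x.a ⬝ᵥ x.b⟩ := by
  induction k with
  | zero => ext <;> simp
  | succ k ih =>
    rw [pow_succ, ih]
    ext
    · simp [add_mul]
    · simp [add_mul]
    · simp only [mul_c, Nat.choose_succ_succ' k 1, Nat.choose_one_right]
      rw [smul_dotProduct, nsmul_eq_mul]
      push_cast; ring

def act (n p : ℕ) : Hs n p →* Module.End (ZMod p) ((Fin n → ZMod p) × ZMod p × ZMod p) where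
  toFun x :=
    { toFun := fun v => (v.1 + v.2.2 • x.b, v.2.1 + x.a ⬝ᵥ v.1 + x.c * v.2.2, v.2.2)
      map_add' := fun v w => by ext <;> simp <;> ring
      map_smul' := fun r v => by ext <;> simp <;> ring }
  map_one' := by
    refine LinearMap.ext fun v => ?_
    ext <;> simp
  map_mul' x y := by
    refine LinearMap.ext fun v => ?_
    ext <;> simp <;> ring

theorem act_injective (n p : ℕ) : Function.Injective (act n p) := by
  rw [injective_iff_map_eq_one]
  intro x hx
  have h1 := LinearMap.congr_fun hx (0, 0, 1)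
  simp [act] at h1
  ext i
  · have h2 := LinearMap.congr_fun hx (Pi.single i 1, 0, 0)
    simpa [act] using h2
  · simp [h1.1]
  · exact h1.2

/-- For every odd prime p and every n ≥ 1 there is an extraspecial p-group of order p^(1+2n) and exponent p; concretely, the general linear group of degree n + 2 over the field with p elements contains such a subgroup. -/
theorem result (p : ℕ) [Fact p.Prime] (hp : p ≠ 2) (n : ℕ) (hn : 1 ≤ n) : ∃ E : Subgroup (Matrix.GeneralLinearGroup (Fin (n + 2)) (ZMod p)), Cfsg.IsExtraspecial p ↥E ∧ Nat.card E = p ^ (1 + 2 * n) ∧ ∀ x ∈ E, x ^ p = 1 := by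
  have hpp : p.Prime := Fact.out
  haveI : Finite (Hs n p) := Finite.of_equiv _ (equivHs n p).symm
  have hcard : Nat.card (Hs n p) = p ^ (1 + 2 * n) := by
    rw [Nat.card_congr (equivHs n p)]
    simp [Nat.card_prod]; ring
  have hexp : ∀ x : Hs n p, x ^ p = 1 := by
    intro x
    rw [pow_eq]
    have : ((p.choose 2 : ℕ) : ZMod p) = 0 := (ZMod.natCast_eq_zero_iff _ _).mpr
      (hpp.dvd_choose_self two_ne_zero (lt_of_le_of_ne hpp.two_le hp.symm))
    ext <;> simp [this]
  let ι : Multiplicative (ZMod p) →* Hs n p :=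
    { toFun := fun c => ⟨0, 0, c.toAdd⟩
      map_one' := rfl
      map_mul' := fun x y => by ext <;> simp }
  have hι : Function.Injective ι := fun x y h => congrArg Hs.c h
  have hmem : ∀ x : Hs n p, x ∈ ι.range ↔ x.a = 0 ∧ x.b = 0 := by
    intro x
    constructor
    · rintro ⟨c, rfl⟩; exact ⟨rfl, rfl⟩
    · rintro ⟨h1, h2⟩; exact ⟨Multiplicative.ofAdd x.c, Hs.ext h1.symm h2.symm rfl⟩
  have hE : IsExtraspecial p (Hs n p) := by
    rw [← CF.Solv.isExtraspecial_top_iff]
    refine CF.Solv.isExtraspecial_of_le (Z := ι.range)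
      (CF.Solv.isPGroup_of_forall_pow_eq_one fun x _ => hexp x) ?_ ?_ ?_
      (fun x _ => by rw [hexp]; exact one_mem _) ?_
    · rw [← Nat.card_congr (MonoidHom.ofInjective hι).toEquiv]; simp
    · rw [top_inf_eq]
      ext x
      rw [hmem]
      constructor
      · intro h
        constructor
        · ext i
          have := congrArg Hs.c (h ⟨0, Pi.single i 1, 0⟩ trivial)
          simpa using this.symm
        · ext i
          have := congrArg Hs.c (h ⟨Pi.single i 1, 0, 0⟩ trivial)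
          simpa using this
      · rintro ⟨h1, h2⟩ y -
        ext <;> simp [h1, h2, add_comm]
    · rw [Subgroup.commutator_le]
      intro x _ y _
      rw [hmem, commutatorElement_def]
      simp
    · intro h
      have : (⟨Pi.single ⟨0, hn⟩ 1, 0, 0⟩ : Hs n p) ∈ ι.range := h ▸ Subgroup.mem_top _
      have := congrFun ((hmem _).mp this).1 ⟨0, hn⟩
      simp at this
  let B := Module.finBasisOfFinrankEq (ZMod p) ((Fin n → ZMod p) × ZMod p × ZMod p) (n := n + 2)
    (by simp)
  let f : Hs n p →* Matrix.GeneralLinearGroup (Fin (n + 2)) (ZMod p) :=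
    ((LinearMap.toMatrixAlgEquiv B).toMonoidHom.comp (act n p)).toHomUnits
  have hf : Function.Injective f := by
    intro x y h
    exact act_injective n p ((LinearMap.toMatrixAlgEquiv B).injective (congrArg Units.val h))
  refine ⟨f.range, CF.Even.isExtraspecial_of_equiv hE (MonoidHom.ofInjective hf), ?_, ?_⟩
  · rw [← Nat.card_congr (MonoidHom.ofInjective hf).toEquiv, hcard]
  · rintro _ ⟨x, rfl⟩
    rw [← map_pow, hexp, map_one]

end Cfsg.Agent.S3799
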