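import Cfsg.Statements.S3953
import Cfsg.Agent.Schur.Tr

set_option autoImplicit false
open Cfsg

namespace Cfsg.Agent.S3953

/-- Let `P` be a Sylow `p`-subgroup of the finite group `G`, let `A` be the Schur multiplier of `G` and `B` that of `P`. Then the `p`-primary component of `A` is isomorphic to a direct factor of `B`: there are subgroups `C` and `D` of `B` meeting trivially and generating `B`, with `C` isomorphic to the `p`-primary component of `A`. -/
theorem result {G : Type*} [Group G] [Finite G] (p : ℕ) [Fact p.Prime] (P : Sylow p G) {A B : Type*} [CommGroup A] [CommGroup B] (hA : Cfsg.HasSchurMultiplier G A) (hB : Cfsg.HasSchurMultiplier P B) : ∃ C D : Subgroup B, C ⊓ D = ⊥ ∧ C ⊔ D = ⊤ ∧ Nonempty (CommGroup.primaryComponent A p ≃* C) := by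
  have hp : p.Prime := Fact.out
  obtain ⟨j, T, h⟩ := CF.Schur.exists_res_tr (P : Subgroup G) hA hB
  obtain ⟨k, hk⟩ := P.isPGroup'.exists_card_eq
  have hB' : ∀ b : B, b ^ p ^ k = 1 := fun b => hk ▸ CF.Schur.HasSchur.pow_card_eq_one hB b
  have hcop : ∀ a ∈ CommGroup.primaryComponent A p,
      ((P : Subgroup G).index).Coprime (orderOf a) := fun a ha => by
    obtain ⟨n, hn⟩ := CommGroup.mem_primaryComponent_iff_orderOf.1 ha
    rw [hn]
    exact (((Nat.Prime.coprime_iff_not_dvd hp).2 P.not_dvd_index).symm).pow_right n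
  let T' := T.comp (CommGroup.primaryComponent A p).subtype
  have hinj : ∀ a : CommGroup.primaryComponent A p, j (T' a) = 1 → a = 1 := fun a ha => by
    have h1 : (a : A) ^ (P : Subgroup G).index = 1 := (h a).symm.trans ha
    have h2 := (hcop a a.2).symm.eq_one_of_dvd (orderOf_dvd_of_pow_eq_one h1)
    exact Subtype.ext (orderOf_eq_one_iff.1 h2)
  refine ⟨T'.range, j.ker, ?_, ?_, ⟨MonoidHom.ofInjective ?_⟩⟩
  · rw [eq_bot_iff]
    rintro _ ⟨⟨a, rfl⟩, ha⟩
    rw [hinj a ha, map_one]; exact one_mem _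
  · rw [eq_top_iff]
    intro b _
    have h1 : j b ∈ CommGroup.primaryComponent A p :=
      CommGroup.mem_primaryComponent.2 ⟨k, by rw [← map_pow, hB', map_one]⟩
    obtain ⟨m, hm⟩ := exists_pow_eq_self_of_coprime (hcop _ h1)
    have h2 : b = T' (⟨j b, h1⟩ ^ m) * ((T' (⟨j b, h1⟩ ^ m))⁻¹ * b) := by simp
    rw [h2]
    refine mul_mem (Subgroup.mem_sup_left ⟨_, rfl⟩) (Subgroup.mem_sup_right ?_)
    rw [MonoidHom.mem_ker, map_mul, map_inv]
    have h3 : j (T' (⟨j b, h1⟩ ^ m)) = j b := by
      show j (T (j b ^ m)) = j b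
      rw [h, ← pow_mul, mul_comm, pow_mul, hm]
    rw [h3, inv_mul_cancel]
  · rw [injective_iff_map_eq_one]
    intro a ha
    exact hinj a (by rw [ha, map_one])

end Cfsg.Agent.S3953
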