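import Cfsg.Statements.S3954
import Cfsg.Agent.Schur.Proj

set_option autoImplicit false
open Cfsg

namespace Cfsg.Agent.S3954

/-- Let `U` be a subgroup of index `m` in the finite group `G`, let `A` be the Schur multiplier of `G` and `B` that of `U`. Then the subgroup of `m`-th powers of `A` is isomorphic to a subgroup of `B`. -/
theorem result {G : Type*} [Group G] [Finite G] (U : Subgroup G) {A B : Type*} [CommGroup A] [CommGroup B] (hA : Cfsg.HasSchurMultiplier G A) (hB : Cfsg.HasSchurMultiplier U B) : ∃ C : Subgroup B, Nonempty ((powMonoidHom U.index : A →* A).range ≃* C) := by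
  have := (CF.Schur.finite_of_hasSchurMultiplier hB).2
  have hε := CF.Schur.isCov_taut G
  set ε := CF.Schur.cov (CF.Schur.taut G)
  obtain ⟨e⟩ := hε.hasSchurMultiplier_iff.1 hA
  obtain ⟨π, hπ⟩ := CF.Schur.HasSchur.exists_surjective hB (hε.toCExt.res U)
  obtain ⟨i, hi⟩ := CF.Schur.exists_injective_of_surjective π hπ
  let f : (powMonoidHom U.index : A →* A).range →* _ :=
    (CF.Schur.mul ε).subtype.comp (e.symm.toMonoidHom.comp (Subgroup.subtype _))
  have hf : Function.Injective f :=
    Subtype.val_injective.comp (e.symm.injective.comp Subtype.val_injective)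
  have h1 : ∀ a, f a ∈ U.comap ε := fun a => by
    rw [Subgroup.mem_comap, show ε (f a) = 1 from (e.symm a).2.1]
    exact one_mem _
  have h2 : ∀ a, f.codRestrict _ h1 a ∈ CF.Schur.mul (CF.Schur.res ε U) := by
    rintro ⟨_, a, rfl⟩
    refine CF.Schur.mem_mul_res.2 ⟨(e.symm _).2.1, ?_⟩
    show (e.symm (a ^ U.index)).1 ∈ _
    rw [map_pow]
    exact hε.toCExt.pow_index_mem U (e.symm a).2
  let g := i.comp ((f.codRestrict _ h1).codRestrict _ h2)
  have hg : Function.Injective g := fun a b hab => by
    have h3 : f.codRestrict _ h1 a = f.codRestrict _ h1 b := congrArg Subtype.val (hi hab)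
    have h4 : f a = f b := congrArg (fun x : U.comap ε => x.1) h3
    exact hf h4
  exact ⟨g.range, ⟨MonoidHom.ofInjective hg⟩⟩

end Cfsg.Agent.S3954
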