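import Cfsg.Statements.S3956
import Cfsg.Agent.Schur.Proj

set_option autoImplicit false
universe u v
open Cfsg

namespace Cfsg.Agent.S3956

/-- Let `σ : Γ →* Q` be a finite stem extension of the finite group `Q` such that every homomorphism from `Q` to the quotient of `GL n ℂ` by its centre, for every `n`, lifts along `σ` to a homomorphism `Γ →* GL n ℂ`. Then `σ` is a Schur covering group of `Q`: for every finite stem extension `τ : Δ →* Q` with `Δ` in the same universe as `Q`, the kernel of `τ` is a homomorphic image of the kernel of `σ`. -/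
theorem result {Q : Type u} [Group Q] [Finite Q] {Γ : Type v} [Group Γ] [Finite Γ] (σ : Γ →* Q) (hσ : Cfsg.IsStemExtension σ) (hlift : ∀ (n : ℕ) (γ : Q →* (GL (Fin n) ℂ ⧸ Subgroup.center (GL (Fin n) ℂ))), ∃ ρ : Γ →* GL (Fin n) ℂ, (QuotientGroup.mk' (Subgroup.center (GL (Fin n) ℂ))).comp ρ = γ.comp σ) (Δ : Type u) [Group Δ] [Finite Δ] (τ : Δ →* Q) (hτ : Cfsg.IsStemExtension τ) : ∃ π : σ.ker →* τ.ker, Function.Surjective π := by
  open CF.Schur in
  have hε := isCov_taut Q
  obtain ⟨ψ, e⟩ := hε.exists_lift' (CF.Schur.stem_cext hσ)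
  obtain ⟨e'⟩ := hε.nonempty_equiv_of_injOn (CF.Schur.stem_cext hσ) e
    fun x hx h1 => CF.Schur.injOn_of_proj_lift hε hlift e hx h1
  obtain ⟨π, hπ⟩ := hε.exists_surjective (CF.Schur.stem_cext hτ)
  let e1 := (MulEquiv.subgroupCongr (CF.Schur.stem_mul hσ).symm).trans e'.symm
  let e2 := MulEquiv.subgroupCongr (CF.Schur.stem_mul hτ)
  exact ⟨e2.toMonoidHom.comp (π.comp e1.toMonoidHom), e2.surjective.comp (hπ.comp e1.surjective)⟩

end Cfsg.Agent.S3956
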