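import Cfsg.Statements.S3960
import Cfsg.Agent.Schur.Crit

set_option autoImplicit false
universe u
open Cfsg

namespace Cfsg.Agent.S3960

/-- A finite perfect group `Q` has a universal central extension: a finite perfect group `G` in the universe of `Q` and a surjective homomorphism `π : G →* Q` with central kernel such that for every group `X` in that universe and every surjective homomorphism `ξ : X →* Q` with central kernel there is exactly one homomorphism `η : G →* X` with `ξ ∘ η = π`. -/
theorem result {Q : Type u} [Group Q] [Finite Q] (hQ : Group.IsPerfect Q) : ∃ (G : Type u) (_ : Group G) (_ : Finite G) (π : G →* Q), Group.IsPerfect G ∧ Function.Surjective π ∧ π.ker ≤ Subgroup.center G ∧ ∀ (X : Type u) [Group X] (ξ : X →* Q), Function.Surjective ξ → ξ.ker ≤ Subgroup.center X → ∃! η : G →* X, ξ.comp η = π := by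
  have hε := CF.Schur.isCov_taut Q
  obtain ⟨h1, h2⟩ := hε.toCExt.stem_commutator hQ.1
  refine ⟨_, inferInstance, hε.toCExt.finite_commutator, _, ⟨h2⟩, h1.1, h1.2.1, ?_⟩
  intro X _ ξ hξ hk
  obtain ⟨φ, e⟩ := hε.exists_lift' (ξ := ξ) ⟨hξ, hk⟩
  refine ⟨φ.comp (commutator _).subtype, ?_, fun η hη => ?_⟩
  · show ξ.comp (φ.comp _) = _
    rw [← MonoidHom.comp_assoc, e]
  · refine CF.Schur.eq_of_perfect hk ?_ h2
    rw [hη, ← MonoidHom.comp_assoc, e]

end Cfsg.Agent.S3960
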