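import Cfsg.Statements.S3967
import Cfsg.Agent.Schur.Meta

set_option autoImplicit false
open Cfsg

namespace Cfsg.Agent.S3967

open CF.Schur Subgroup Function
open scoped commutatorElement

theorem finite_of_meta {G : Type*} [Group G] {a b : G} {r : ℤ} {m n : ℕ} {t : ℤ}
    (hG : Subgroup.closure {a, b} = ⊤) (hr : b * a * b⁻¹ = a ^ r) (hm : m ≠ 0) (ha : a ^ m = 1)
    (hn : n ≠ 0) (hb : b ^ n = a ^ t) : Finite G := by
  have : Finite (zpowers a) :=
    (isOfFinOrder_iff_pow_eq_one.2 ⟨m, Nat.pos_of_ne_zero hm, ha⟩).finite_zpowers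
  have hN : (zpowers a).Normal := by
    rw [← normalizer_eq_top_iff, eq_top_iff, ← hG, closure_le]
    intro x hx
    rcases hx with hx | hx <;> rw [hx] <;> refine mem_normalizer_fintype ?_ <;> rintro _ ⟨k, rfl⟩
    · exact ⟨k, by show _ = _ * a ^ k * _; group⟩
    · refine ⟨r * k, ?_⟩
      show _ = _ * a ^ k * _
      rw [← conj_zpow, hr, ← zpow_mul]
  have h1 : zpowers (b : G ⧸ zpowers a) = ⊤ := by
    rw [eq_top_iff, ← MonoidHom.range_eq_top.2 (QuotientGroup.mk'_surjective (zpowers a)),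
      MonoidHom.range_eq_map, ← hG, MonoidHom.map_closure, closure_le]
    rintro _ ⟨x, hx | hx, rfl⟩ <;> rw [hx]
    · rw [QuotientGroup.mk'_apply, (QuotientGroup.eq_one_iff a).2 (mem_zpowers a)]
      exact one_mem _
    · exact mem_zpowers _
  have h2 : Finite (zpowers (b : G ⧸ zpowers a)) :=
    (isOfFinOrder_iff_pow_eq_one.2 ⟨n, Nat.pos_of_ne_zero hn, by
      rw [← QuotientGroup.mk_pow, QuotientGroup.eq_one_iff, hb]; exact ⟨t, rfl⟩⟩).finite_zpowers
  rw [h1] at h2
  have : Finite (G ⧸ zpowers a) := Finite.of_equiv _ topEquiv.toEquiv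
  exact Finite.of_subgroup_quotient (zpowers a)

/-- The linear map `(i, j) ↦ (i, i + ρ j)`. -/
def bet {e : ℕ} (ρ : (ZMod e)ˣ) : Equiv.Perm (ℤ × ZMod e) where
  toFun v := (v.1, v.1 + ρ * v.2)
  invFun v := (v.1, (ρ⁻¹ : (ZMod e)ˣ) * (v.2 - v.1))
  left_inv v := by simp
  right_inv v := by simp

/-- Translations. -/
def tr {e : ℕ} : Multiplicative ((ℤ × ZMod e) × ℤ) →* Equiv.Perm (ℤ × ZMod e) × Multiplicative ℤ :=
  MonoidHom.mk' (fun w => (Equiv.addLeft w.toAdd.1, Multiplicative.ofAdd w.toAdd.2)) fun _ _ =>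
    Prod.ext (Equiv.ext fun _ => by simp) rfl

theorem tr_injective {e : ℕ} : Injective (tr (e := e)) := by
  rw [injective_iff_map_eq_one]
  intro w hw
  have h1 := congrArg (fun p => p.1 0) hw
  have h2 := congrArg Prod.snd hw
  exact Multiplicative.toAdd.injective (Prod.ext (by simpa [tr] using h1) h2)

theorem bet_conj {e : ℕ} (ρ : (ZMod e)ˣ) (z : Multiplicative ℤ) (v : ℤ × ZMod e) (k : ℤ) :
    (bet ρ, z) * tr (Multiplicative.ofAdd (v, k)) =
      tr (Multiplicative.ofAdd (bet ρ v, k)) * (bet ρ, z) := by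
  refine Prod.ext (Equiv.ext fun x => Prod.ext rfl ?_) (mul_comm _ _)
  show ((v.1 + x.1 : ℤ) : ZMod e) + ρ * (v.2 + x.2) = (v.1 + ρ * v.2) + (x.1 + ρ * x.2)
  push_cast; ring

theorem bet_pow {e : ℕ} (ρ : (ZMod e)ˣ) (k : ℕ) (v : ℤ × ZMod e) :
    (bet ρ ^ k) v = (v.1, (∑ i ∈ Finset.range k, (ρ : ZMod e) ^ i) * v.1 + ρ ^ k * v.2) := by
  induction k with
  | zero => simp
  | succ k ih =>
    rw [pow_succ', Equiv.Perm.mul_apply, ih]
    refine Prod.ext rfl ?_
    show (v.1 : ZMod e) + ρ * _ = _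
    rw [Finset.sum_range_succ', add_mul, mul_add, ← mul_assoc, Finset.mul_sum]
    simp only [pow_succ']
    ring

theorem main (m n r : ℕ) (t d m' g : ℕ) (hn : 0 < n) (hm : m = d * m') (hm0 : m ≠ 0)
    (hrn : r ^ n ≡ 1 [MOD m]) (hd : (m : ℤ) ∣ (r - 1) * m')
    (hd' : ∀ k : ℤ, (m : ℤ) ∣ k * (r - 1) → (m' : ℤ) ∣ k)
    (hg : m' * g = Nat.gcd t (Nat.gcd m (∑ i ∈ Finset.range n, r ^ i))) :
    Cfsg.HasCyclicSchurMultiplier (PresentedGroup ({FreeGroup.of true ^ m,
      (FreeGroup.of false) ^ n * (FreeGroup.of true ^ t)⁻¹,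
      FreeGroup.of false * FreeGroup.of true * (FreeGroup.of false)⁻¹ * (FreeGroup.of true ^ r)⁻¹} :
        Set (FreeGroup Bool))) g := by
  set rels : Set (FreeGroup Bool) := {FreeGroup.of true ^ m,
      (FreeGroup.of false) ^ n * (FreeGroup.of true ^ t)⁻¹,
      FreeGroup.of false * FreeGroup.of true * (FreeGroup.of false)⁻¹ * (FreeGroup.of true ^ r)⁻¹}
    with hrels
  let π := PresentedGroup.mk rels
  have hπ : Surjective π := PresentedGroup.mk_surjective rels
  have hker : π.ker = normalClosure rels := QuotientGroup.ker_mk' _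
  have hε := isCov_cov hπ
  have hrel : ∀ x ∈ rels, π x = 1 := fun x hx => PresentedGroup.one_of_mem hx
  have h1 : π (FreeGroup.of true) ^ m = 1 := by
    rw [← map_pow]; exact hrel _ (by simp [hrels])
  have h2 : π (FreeGroup.of false) ^ n = π (FreeGroup.of true) ^ (t : ℤ) := by
    have := hrel (FreeGroup.of false ^ n * (FreeGroup.of true ^ t)⁻¹) (by simp [hrels])
    rwa [map_mul, map_inv, map_pow, map_pow, mul_inv_eq_one, ← zpow_natCast _ t] at this
  have h3 : π (FreeGroup.of false) * π (FreeGroup.of true) * (π (FreeGroup.of false))⁻¹ =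
      π (FreeGroup.of true) ^ (r : ℤ) := by
    have := hrel (FreeGroup.of false * FreeGroup.of true * (FreeGroup.of false)⁻¹ *
      (FreeGroup.of true ^ r)⁻¹) (by simp [hrels])
    rwa [map_mul, map_mul, map_mul, map_inv, map_inv, map_pow, mul_inv_eq_one,
      ← zpow_natCast _ r] at this
  have hG : Subgroup.closure {π (FreeGroup.of true), π (FreeGroup.of false)} = ⊤ := by
    rw [eq_top_iff, ← PresentedGroup.closure_range_of rels, closure_le]
    rintro _ ⟨x, rfl⟩
    cases x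
    · exact subset_closure (Or.inr rfl)
    · exact subset_closure (Or.inl rfl)
  have : Finite (PresentedGroup rels) := finite_of_meta hG h3 hm0 h1 hn.ne' h2
  set e := m' * g with he
  have hem : e ∣ m := hg ▸ (Nat.gcd_dvd_right _ _).trans (Nat.gcd_dvd_left _ _)
  have het : e ∣ t := hg ▸ Nat.gcd_dvd_left _ _
  have hes : e ∣ ∑ i ∈ Finset.range n, r ^ i :=
    hg ▸ (Nat.gcd_dvd_right _ _).trans (Nat.gcd_dvd_right _ _)
  have he0 : e ≠ 0 := fun h => hm0 (Nat.eq_zero_of_zero_dvd (h ▸ hem))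
  have hm'0 : m' ≠ 0 := left_ne_zero_of_mul he0
  have hg0 : g ≠ 0 := right_ne_zero_of_mul he0
  have hre : (r : ZMod e) ^ n = 1 := by
    have := (ZMod.natCast_eq_natCast_iff _ _ _).2 (hrn.of_dvd hem)
    simpa using this
  let ρ : (ZMod e)ˣ := Units.ofPowEqOne (r : ZMod e) n hre hn.ne'
  have hρ : (ρ : ZMod e) = r := rfl
  have hbet : bet ρ ^ n = 1 := Equiv.ext fun v => by
    rw [bet_pow, hρ, hre]
    have : ∑ i ∈ Finset.range n, (r : ZMod e) ^ i = 0 := by
      have := (ZMod.natCast_eq_zero_iff _ _).2 hes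
      simpa using this
    rw [this]; simp
  let Φ : FreeGroup Bool →* Equiv.Perm (ℤ × ZMod e) × Multiplicative ℤ :=
    FreeGroup.lift fun x => bif x then tr (Multiplicative.ofAdd ((1, 0), 0))
      else (bet ρ, Multiplicative.ofAdd 1)
  have hA : Φ (FreeGroup.of true) = tr (Multiplicative.ofAdd ((1, 0), 0)) := by simp [Φ]
  have hB : Φ (FreeGroup.of false) = (bet ρ, Multiplicative.ofAdd 1) := by simp [Φ]
  let L : AddSubgroup ((ℤ × ZMod e) × ℤ) :=
    { carrier := {w | ∃ j k : ℤ, w.2 = j * n ∧ w.1.2 = k ∧ (m : ℤ) ∣ w.1.1 + j * t + k * (r - 1)}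
      add_mem' := by
        rintro w w' ⟨j, k, a1, a2, a3⟩ ⟨j', k', b1, b2, b3⟩
        refine ⟨j + j', k + k', by simp [a1, b1, add_mul], by simp [a2, b2], ?_⟩
        have : (w + w').1.1 + (j + j') * t + (k + k') * (r - 1) =
            (w.1.1 + j * t + k * (r - 1)) + (w'.1.1 + j' * t + k' * (r - 1)) := by
          simp only [Prod.fst_add]; ring
        rw [this]; exact dvd_add a3 b3
      zero_mem' := ⟨0, 0, by simp⟩
      neg_mem' := by
        rintro w ⟨j, k, a1, a2, a3⟩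
        refine ⟨-j, -k, by simp [a1], by simp [a2], ?_⟩
        have : (-w).1.1 + (-j) * t + (-k) * (r - 1) = -(w.1.1 + j * t + k * (r - 1)) := by
          simp only [Prod.fst_neg]; ring
        rw [this]; exact dvd_neg.2 a3 }
  have hcen : ∀ w ∈ L, ∀ x, Φ x * tr (Multiplicative.ofAdd w) = tr (Multiplicative.ofAdd w) * Φ x := by
    rintro ⟨v, z⟩ ⟨j, k, -, a2, a3⟩ x
    have hv : bet ρ v = v := by
      refine Prod.ext rfl ?_
      show (v.1 : ZMod e) + r * v.2 = v.2
      have h4 := (ZMod.intCast_zmod_eq_zero_iff_dvd _ e).2 ((Int.natCast_dvd_natCast.2 hem).trans a3)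
      have h5 := (ZMod.natCast_eq_zero_iff _ _).2 het
      push_cast at h4
      rw [show v.2 = k from a2]
      linear_combination h4 - j * h5
    have : Φ.range ≤ centralizer {tr (Multiplicative.ofAdd (v, z))} := by
      rw [MonoidHom.range_eq_map, ← FreeGroup.closure_range_of, MonoidHom.map_closure, closure_le]
      rintro _ ⟨_, ⟨y, rfl⟩, rfl⟩
      rw [SetLike.mem_coe, mem_centralizer_singleton_iff]
      cases y
      · rw [hB, bet_conj, hv]
      · rw [hA, ← map_mul, mul_comm, map_mul]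
    exact mem_centralizer_singleton_iff.1 (this ⟨x, rfl⟩)
  have hc : Φ ⁅FreeGroup.of false, FreeGroup.of true⁆ = tr (Multiplicative.ofAdd ((0, 1), 0)) := by
    rw [map_commutatorElement, commutatorElement_def, hA, hB, bet_conj, mul_inv_cancel_right,
      ← map_inv, ← map_mul]
    congr 1
    simp [bet, ← ofAdd_neg, ← ofAdd_add]
  have hR : π.ker ≤ (L.toSubgroup.map tr).comap Φ := by
    have : ((L.toSubgroup.map tr).comap Φ).Normal := ⟨by
      rintro x ⟨w, hw, hx⟩ y
      refine ⟨w, hw, ?_⟩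
      rw [map_mul, map_mul, ← hx, show Φ y * tr w = tr w * Φ y from hcen w.toAdd hw y, map_inv,
        mul_inv_cancel_right]⟩
    rw [hker]
    apply normalClosure_le_normal
    rintro x (hx | hx | hx) <;> rw [hx]
    · refine ⟨Multiplicative.ofAdd ((m, 0), 0), ⟨0, 0, by simp⟩, ?_⟩
      rw [map_pow, hA, ← map_pow]
      congr 1
      simp [← ofAdd_nsmul]
    · refine ⟨Multiplicative.ofAdd ((-t, 0), n), ⟨1, 0, by simp⟩, ?_⟩
      have : ((bet ρ, Multiplicative.ofAdd 1) : Equiv.Perm (ℤ × ZMod e) × Multiplicative ℤ) ^ n =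
          tr (Multiplicative.ofAdd ((0, 0), n)) := by
        refine Prod.ext (hbet.trans (Equiv.ext fun x => by simp [tr])) ?_
        simp [tr, ← ofAdd_nsmul]
      rw [map_mul, map_inv, map_pow, map_pow, hA, hB, this, ← map_pow, ← map_inv, ← map_mul]
      congr 1
      simp [← ofAdd_nsmul, ← ofAdd_neg, ← ofAdd_add]
    · refine ⟨Multiplicative.ofAdd ((1 - r, 1), 0), ⟨0, 1, by simp⟩, ?_⟩
      rw [map_mul, map_mul, map_mul, map_inv, map_inv, map_pow, hA, hB, bet_conj,
        mul_inv_cancel_right, ← map_pow, ← map_inv, ← map_mul]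
      congr 1
      simp [bet, ← ofAdd_nsmul, ← ofAdd_neg, ← ofAdd_add, sub_eq_add_neg]
  have hk : ⁅π.ker, (⊤ : Subgroup (FreeGroup Bool))⁆ ≤ Φ.ker := by
    rw [Subgroup.commutator_le]
    intro x hx y _
    obtain ⟨w, hw, hx⟩ := hR hx
    rw [MonoidHom.mem_ker, map_commutatorElement, commutatorElement_eq_one_iff_mul_comm, ← hx]
    exact (hcen w.toAdd hw y).symm
  let Ψ : Cov π →* _ := QuotientGroup.lift _ Φ hk
  let a : Cov π := (FreeGroup.of true : FreeGroup Bool)
  let b : Cov π := (FreeGroup.of false : FreeGroup Bool)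
  have hC : ∀ k : ℤ, ⁅b, a⁆ ^ k =
      ((⁅FreeGroup.of false, FreeGroup.of true⁆ ^ k : FreeGroup Bool) : Cov π) := fun k => rfl
  have hC' : ∀ k : ℤ, Φ (⁅FreeGroup.of false, FreeGroup.of true⁆ ^ k) =
      tr (Multiplicative.ofAdd ((0, k), 0)) := fun k => by
    rw [map_zpow, hc, ← map_zpow]
    congr 1
    simp [← ofAdd_zsmul]
  have hmul := fun x => hε.toCExt.meta_mem_mul (a := a) (b := b) h3 hG hm0 h1 (x := x)
  have hu : mul (cov π) = zpowers (⁅b, a⁆ ^ (m' : ℤ)) := by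
    apply le_antisymm
    · intro x hx
      obtain ⟨k, -, rfl⟩ := (hmul x).1 hx
      obtain ⟨w, ⟨j, k', a1, a2, a3⟩, hw⟩ := hR (x := ⁅FreeGroup.of false, FreeGroup.of true⁆ ^ k) hx.1
      rw [hC'] at hw
      have h5 := tr_injective hw
      subst h5
      simp only [toAdd_ofAdd] at a1 a2 a3
      have hj : j = 0 := by
        have : (n : ℤ) ≠ 0 := by exact_mod_cast hn.ne'
        exact (mul_eq_zero.1 a1.symm).resolve_right this
      rw [hj, zero_mul, zero_add, zero_add] at a3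
      have h6 := (ZMod.intCast_eq_intCast_iff_dvd_sub _ _ _).1 a2
      have h7 : (m' : ℤ) ∣ k := by
        have h8 : (m' : ℤ) ∣ k' - k := Dvd.dvd.trans ⟨g, by rw [he]; push_cast; ring⟩ h6
        simpa using dvd_sub (hd' k' a3) h8
      obtain ⟨c, rfl⟩ := h7
      exact ⟨c, (zpow_mul _ _ _).symm⟩
    · rw [zpowers_le]
      refine (hmul _).2 ⟨m', ?_, rfl⟩
      obtain ⟨c, hc⟩ := hd
      rw [hc, zpow_mul, zpow_natCast]
      exact (congrArg (· ^ c) h1).trans (one_zpow c)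
  have hord : orderOf (⁅b, a⁆ ^ (m' : ℤ)) = g := by
    apply Nat.dvd_antisymm
    · apply orderOf_dvd_of_pow_eq_one
      rw [zpow_natCast, ← pow_mul, ← he, hg, ← orderOf_dvd_iff_pow_eq_one]
      refine Nat.dvd_gcd ?_ (Nat.dvd_gcd ?_ ?_) <;> apply orderOf_dvd_of_pow_eq_one
      · have := hε.toCExt.meta_zpow_eq_one (a := a) (b := b) h3 (j := t) (i := n)
          (by rw [zpow_natCast _ n]; exact h2.symm)
        simpa using this
      · have := hε.toCExt.meta_zpow_eq_one (a := a) (b := b) h3 (j := m) (i := 0)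
          (by rw [zpow_natCast _ m, zpow_zero]; exact h1)
        simpa using this
      · have := hε.toCExt.meta_sum_eq_one (a := a) (b := b) h3 h2
        rw [← zpow_natCast]
        push_cast
        exact this
    · have h5 := congrArg Ψ (pow_orderOf_eq_one (⁅b, a⁆ ^ (m' : ℤ)))
      rw [← zpow_natCast, ← zpow_mul, hC, map_one] at h5
      have h6 : tr (Multiplicative.ofAdd _) = 1 := (hC' _).symm.trans h5
      have h7 := congrArg (fun w => w.toAdd.1.2) (tr_injective (h6.trans (map_one _).symm))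
      have h8 := (ZMod.intCast_zmod_eq_zero_iff_dvd _ e).1 h7
      rw [he] at h8
      exact Nat.dvd_of_mul_dvd_mul_left (Nat.pos_of_ne_zero hm'0) (by exact_mod_cast h8)
  have : NeZero g := ⟨hg0⟩
  refine hε.hasSchurMultiplier_iff.2 ⟨?_⟩
  rw [hu]
  exact mulEquivOfCyclicCardEq (by rw [Nat.card_zpowers, hord]; simp)

/-- Let `m, n ≥ 1`, `r ≥ 1` with `r ^ n ≡ 1 (mod m)`, and `l` a natural number; put `d = gcd(m, r - 1)`, `t = m l / d` and `h = d · gcd(m, 1 + r + ⋯ + r^(n-1)) / m`. The group presented by generators `a, b` and relations `a ^ m = 1`, `b ^ n = a ^ t`, `b a b⁻¹ = a ^ r` (a metacyclic group of order `m n`) has Schur multiplier cyclic of order `gcd(l, h)`. -/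
theorem result (m n r l : ℕ) (hm : 0 < m) (hn : 0 < n) (hr : 0 < r) (hrn : r ^ n ≡ 1 [MOD m]) : Cfsg.HasCyclicSchurMultiplier (PresentedGroup ({FreeGroup.of true ^ m, (FreeGroup.of false) ^ n * (FreeGroup.of true ^ (m * l / Nat.gcd m (r - 1)))⁻¹, FreeGroup.of false * FreeGroup.of true * (FreeGroup.of false)⁻¹ * (FreeGroup.of true ^ r)⁻¹} : Set (FreeGroup Bool))) (Nat.gcd l (Nat.gcd m (r - 1) * Nat.gcd m (∑ i ∈ Finset.range n, r ^ i) / m)) := by
  obtain ⟨r, rfl⟩ : ∃ r', r = r' + 1 := ⟨r - 1, by omega⟩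
  rw [Nat.add_sub_cancel]
  have hd0 : 0 < Nat.gcd m r := Nat.gcd_pos_of_pos_left _ hm
  obtain ⟨m', r', hcop, hm', hr'⟩ := Nat.exists_coprime m r
  set d := Nat.gcd m r
  set s := ∑ i ∈ Finset.range n, (r + 1) ^ i with hs
  have hd' : ∀ k : ℤ, (m : ℤ) ∣ k * (((r + 1 : ℕ) : ℤ) - 1) → (m' : ℤ) ∣ k := fun k hk => by
    rw [hm', hr'] at hk
    push_cast at hk
    rw [add_sub_cancel_right, ← mul_assoc] at hk
    exact (Nat.isCoprime_iff_coprime.2 hcop).dvd_of_dvd_mul_right
      (Int.dvd_of_mul_dvd_mul_right (by exact_mod_cast hd0.ne') hk)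
  obtain ⟨s', hs'⟩ : m' ∣ s := by
    have h1 := (Nat.modEq_iff_dvd.1 hrn.symm)
    have h2 := geom_sum_mul (((r + 1 : ℕ) : ℤ)) n
    refine Int.natCast_dvd_natCast.1 (hd' _ ?_)
    rw [hs]
    push_cast at h1 h2 ⊢
    rwa [h2]
  have hm'0 : 0 < m' := Nat.pos_of_ne_zero (by rintro rfl; omega)
  have e1 : m * l / d = m' * l := by
    rw [hm', mul_right_comm, Nat.mul_div_cancel _ hd0]
  have e2 : Nat.gcd m s = m' * Nat.gcd d s' := by
    rw [hs', ← Nat.gcd_mul_left, ← hm']
  have e3 : d * Nat.gcd m s / m = Nat.gcd d s' := by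
    rw [e2, ← mul_assoc, mul_comm d, ← hm', Nat.mul_div_cancel_left _ hm]
  rw [e1, e3]
  refine main m n (r + 1) _ d m' _ hn (by rw [hm', mul_comm]) hm.ne' hrn ?_ hd' ?_
  · refine ⟨r', ?_⟩
    rw [hm', hr']; push_cast; ring
  · rw [← hs, e2, Nat.gcd_mul_left]

end Cfsg.Agent.S3967
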