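import Cfsg.Statements.S3968
import Cfsg.Agent.Pgp.A
import Cfsg.Agent.Char.Klein
import Cfsg.Agent.Char.TIP

set_option autoImplicit false
open Cfsg

namespace Cfsg.Agent.S3968


/-- Let `p` be a prime and `G` a finite group with a faithful irreducible complex character of degree `p` (so `G` is an irreducible linear group in `p` variables). If `p ^ 2` divides the order of `G`, then the centre of `G` is nontrivial. -/
theorem result {G : Type*} [Group G] [Finite G] (p : ℕ) (hp : p.Prime) (χ : Cfsg.IrrCharacter G) (hdeg : χ.1 1 = p) (hfaith : ∀ g : G, χ.1 g = χ.1 1 → g = 1) (hdiv : p ^ 2 ∣ Nat.card G) : Subgroup.center G ≠ ⊥ := by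
  intro hZ
  have := Fact.mk hp
  have hc := CF.Char.irr_isCharacter χ.2
  have hk : CF.Char.charKer χ.1 = ⊥ :=
    eq_bot_iff.2 fun g hg => hfaith g ((CF.Char.mem_charKer_iff hc).1 hg)
  have hz := (CF.Char.charCenter_eq_center_of_faithful χ.2 hk).trans hZ
  open CF.BG in
  obtain ⟨P, s⟩ := exists_syl p (⊤ : Subgroup G)
  open CF.BG in
  have h1 := (pow_dvd_iff_le_logn hp (card_ne_zero' P)).1
    (s.dvd_card (hdiv.trans CF.BG.card_top'.symm.dvd) (piNat_pow_self hp 2))
  open CF.BG in
  have h2 := CF.Char.card_dvd_sub_of_const (P := 𝐙 P) (CF.Char.gen_of_char hc) (d := p) (a := 0) hdeg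
    fun u hu u1 => ((CF.Char.irr_eq_zero_or_mem_charCenter χ.2 hdeg u ((Nat.Prime.coprime_iff_not_dvd hp).2
      fun d => s.not_dvd hp (d.trans (Subgroup.relIndex_top_right (H := P) ▸ Subgroup.index_dvd_of_le
        (cent_zpowers u ▸ cent_symm (Subgroup.zpowers_le.2 hu.2)))))).resolve_right
          fun h => u1 (hz.le h)).trans Int.cast_zero.symm
  rw [sub_zero, Int.natCast_dvd_natCast] at h2
  open CF.BG in
  have h3 : ¬ Abel P := fun a => by
    have := logn_le_of_dvd (p := p) h2 hp.ne_zero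
    rw [logn_self hp, show 𝐙 P = P from inf_eq_left.2 a] at this
    omega
  have := Fintype.ofFinite P
  have hr := CF.Char.char_restrict hc P
  open CF.BG in
  by_cases i : IsIrrCharacter P fun x => χ.1 x
  · exact s.pi.center_ne_bot (fun e => h3 (e ▸ abel_bot)) (eq_bot_iff.2 fun x hx =>
      hz.le (CF.Char.mem_charCenter_of_res_irr hc i hx.2))
  have h4 := CF.Char.commutator_le_charKer_of_constituents (CF.Char.char_isClassFunction hr) fun ψ hψ ne => by
    obtain ⟨m, -, hm⟩ := CF.Char.irr_one_eq_nat hψ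
    have h5 := CF.Char.irr_one_le_of_inner_ne_zero hr hψ ne hm hdeg
    obtain ⟨k, rfl⟩ := (s.pi.dvd (CF.Char.irr_one_dvd_card hψ hm)).exists_pow
      (ne_zero_of_dvd_ne_zero (CF.BG.card_ne_zero' P) (CF.Char.irr_one_dvd_card hψ hm))
    rcases k with _ | k
    · simpa using hm
    · have h6 := le_antisymm h5 (Nat.le_self_pow k.succ_ne_zero p)
      exact (i (CF.Char.eq_of_inner_ne_zero_of_one_eq hr hψ ne (hdeg.trans (by rw [hm, h6])) ▸ hψ)).elim
  rw [CF.Char.charKer_restrict hc, hk, Subgroup.bot_subgroupOf, le_bot_iff] at h4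
  exact h3 (CF.BG.Abel.of_comm ⟨⟨CF.Char.comm_of_commutator_eq_bot h4⟩⟩)

end Cfsg.Agent.S3968
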