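import Cfsg.Statements.S3969
import Cfsg.Agent.Fgs3.Rank

set_option autoImplicit false
open Cfsg

namespace Cfsg.Agent.S3969

open CF.BG Subgroup CF.Fgs3


/-- Let `P` be an abelian Sylow `p`-subgroup of the finite group `G`, generated by `d` elements (`d` its minimal number of generators). If the order of `G` is coprime to `(p - 1)(p ^ 2 - 1) ⋯ (p ^ d - 1)`, then `G` has a normal `p`-complement. (The classical statement needs only the largest number of cyclic factors of `P` of equal order in place of `d`; the form here follows from it.) -/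
theorem result {G : Type*} [Group G] [Finite G] (p : ℕ) [Fact p.Prime] (P : Sylow p G) (hab : IsMulCommutative (P : Subgroup G)) (hcop : Nat.Coprime (Nat.card G) (∏ i ∈ Finset.Icc 1 (Group.rank (P : Subgroup G)), (p ^ i - 1))) : Cfsg.HasNormalPComplement p G := by
  have hp : p.Prime := Fact.out
  have hP := syl_sylow_top P
  apply CF.Transfer.burnside_hasNPC P
  rw [← relIndex_eq_one]
  by_contra h1
  obtain ⟨q, hq, hd⟩ := Nat.exists_prime_and_dvd h1
  have hqp : q ≠ p := by
    rintro rfl
    have h2 := (hP.of_le (le_norm_self _) le_top).idx_of_le (Abel.of_comm hab)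
    exact h2.not_dvd' hq rfl hd
  obtain ⟨i, hi1, hi2, hi⟩ := exists_dvd_of_dvd_relIndex_cent hp hP.pi
    (relIndex_Phi_dvd_rank hp hP.pi) le_rfl hq hqp hd
  refine not_dvd_of_coprime hcop hq
    (hd.trans ((relIndex_dvd_card _ _).trans (card_subgroup_dvd_card _))) ?_
  exact hi.trans (Finset.dvd_prod_of_mem (fun i => p ^ i - 1) (Finset.mem_Icc.2 ⟨hi1, hi2⟩))

end Cfsg.Agent.S3969
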