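import Cfsg.Statements.S3970
import Cfsg.Agent.Fgs3.Rank

set_option autoImplicit false
open Cfsg

namespace Cfsg.Agent.S3970

open CF.BG Subgroup CF.Fgs3


/-- Let `G` be a finite group such that for every prime `p` dividing its order, other than the largest such prime, the Sylow `p`-subgroups are abelian and generated by at most two elements, and suppose `12` does not divide the order of `G`. Then `G` is solvable. In particular a group of cube-free order not divisible by `12` is solvable. -/
theorem result {G : Type*} [Group G] [Finite G] (h : ∀ p : ℕ, p.Prime → p ∣ Nat.card G → (∃ q : ℕ, q.Prime ∧ q ∣ Nat.card G ∧ p < q) → ∀ P : Sylow p G, IsMulCommutative (P : Subgroup G) ∧ Group.rank (P : Subgroup G) ≤ 2) (h12 : ¬ 12 ∣ Nat.card G) : Group.IsSolvable G := by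
  have key : ∀ H : Subgroup G, (∃ π, Hall π H ⊤) → Sol H := by
    intro H
    induction H using card_induction with
    | h H ih =>
    rintro ⟨π, hH⟩
    by_cases h1 : H = ⊥
    · rw [h1]; exact nil_bot.sol
    have h1' : ♯H ≠ 1 := fun h => h1 (card_eq_one'.1 h)
    set p := (♯H).minFac with hpdef
    have hp : p.Prime := Nat.minFac_prime h1'
    have hpH : p ∣ ♯H := Nat.minFac_dvd _
    haveI : Fact p.Prime := ⟨hp⟩
    by_cases h2 : PiGrp {p} H
    · exact h2.sol
    have hlt : ∀ r, r.Prime → r ∣ ♯H → r ≠ p → p < r := fun r hr hd hne =>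
      lt_of_le_of_ne (Nat.minFac_le_of_dvd hr.two_le hd) (Ne.symm hne)
    have hdG : ♯H ∣ Nat.card G := card_subgroup_dvd_card H
    obtain ⟨q, hq, hqH, hqp⟩ : ∃ q, q.Prime ∧ q ∣ ♯H ∧ q ≠ p := by
      by_contra hc
      push Not at hc
      exact h2 fun r hr hd => hc r hr hd
    obtain ⟨P, hP⟩ := exists_syl p H
    obtain ⟨P, rfl⟩ := (hP.syl_trans hH (hH.pi p hp hpH)).exists_sylow_top
    obtain ⟨ha, hr⟩ := h p hp (hpH.trans hdG) ⟨q, hq, hqH.trans hdG, hlt q hq hqH hqp⟩ P
    have hN : NPC p H := by
      apply hP.burnside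
      rw [← relIndex_eq_one]
      by_contra h3
      obtain ⟨r, hr', hd⟩ := Nat.exists_prime_and_dvd h3
      have hrp : r ≠ p := by
        rintro rfl
        have h2 := (hP.of_le (le_inf hP.le (le_norm_self _)) inf_le_left).idx_of_le
          (Abel.of_comm ha)
        exact h2.not_dvd' hr' rfl hd
      have hrH : r ∣ ♯H := hd.trans ((relIndex_dvd_card _ _).trans (card_dvd inf_le_left))
      have hpr := hlt r hr' hrH hrp
      have h4 : ¬ r ∣ p ^ 1 - 1 := fun h => by
        rw [pow_one] at h
        have := Nat.le_of_dvd (by have := hp.two_le; omega) h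
        omega
      obtain ⟨i, hi1, hi2, hi⟩ := exists_dvd_of_dvd_relIndex_cent hp hP.pi
        ((relIndex_Phi_dvd_rank hp hP.pi).trans (pow_dvd_pow p hr)) inf_le_right hr' hrp hd
      interval_cases i
      · exact h4 hi
      have e : p ^ 2 - 1 = (p + 1) * (p ^ 1 - 1) := by
        rw [pow_one, ← Nat.sq_sub_sq, one_pow]
      rw [e] at hi
      have h5 := Nat.le_of_dvd (by omega) (((Nat.Prime.dvd_mul hr').1 hi).resolve_right h4)
      have h6 : r = p + 1 := by omega
      have h7 : p = 2 := by
        by_contra h7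
        have := hr'.even_iff.1 (h6 ▸ (hp.odd_of_ne_two h7).add_one)
        have := hp.two_le
        omega
      have h8 : ¬ p ^ 2 ∣ ♯(P : Subgroup G) := by
        intro h8
        apply h12
        have a : 4 ∣ Nat.card G := by
          have := h8.trans (card_subgroup_dvd_card _)
          rwa [h7] at this
        have b : 3 ∣ Nat.card G := by
          have := hrH.trans hdG
          rwa [h6, h7] at this
        exact Nat.Coprime.mul_dvd_of_dvd_of_dvd (by norm_num : Nat.Coprime 4 3) a b
      have h9 : ♯(P : Subgroup G) ∣ p ^ 1 := by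
        obtain ⟨k, hk⟩ := hP.pi.card_pow
        rw [hk] at h8 ⊢
        apply pow_dvd_pow
        by_contra h
        exact h8 (pow_dvd_pow p (by omega))
      obtain ⟨i, hi1, hi2, hi⟩ := exists_dvd_of_dvd_relIndex_cent hp hP.pi
        ((relIndex_dvd_card _ _).trans h9) inf_le_right hr' hrp hd
      obtain rfl : i = 1 := by omega
      exact h4 hi
    have hs := hN.sdprod hP
    refine hs.sol (ih _ (card_lt (lt_of_le_of_ne hs.left_le fun h => ?_)) ⟨{p}ᶜ ∩ π, ?_⟩) hP.pi.sol
    · exact (O_pi {p}ᶜ H).not_dvd' hp rfl (h.symm ▸ hpH)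
    · exact (hN.congr (ρ := {p}ᶜ ∩ π)
        fun r hr hd => ⟨fun h => ⟨h, hH.pi r hr hd⟩, fun h => h.1⟩).trans hH Set.inter_subset_right
  exact (CF.Coprime.isSolvable_top_iff).1 (key ⊤ ⟨Set.univ, Hall.refl (piNat_univ _)⟩)

end Cfsg.Agent.S3970
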