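import Cfsg.Statements.S3971
import Cfsg.Agent.Fgs3.Rank

set_option autoImplicit false
open Cfsg

namespace Cfsg.Agent.S3971

open CF.BG Subgroup CF.Fgs3


/-- Let `G` be a finite group of order `2 ^ a * n` with `n` odd and not divisible by `3`, and suppose `G` has an element of order `2 ^ (a - 1)` (so a Sylow `2`-subgroup has a cyclic subgroup of index at most `2`). Then `G` has a normal subgroup of order `n`. -/
theorem result {G : Type*} [Group G] [Finite G] (a n : ℕ) (hG : Nat.card G = 2 ^ a * n) (hn : Odd n) (h3 : ¬ 3 ∣ n) (hx : ∃ x : G, orderOf x = 2 ^ (a - 1)) : ∃ N : Subgroup G, N.Normal ∧ Nat.card N = n := by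
  haveI : Fact (Nat.Prime 2) := ⟨Nat.prime_two⟩
  obtain ⟨x, hx⟩ := hx
  have hx2 : PiGrp {2} (zpowers x) := piGrp_of_card Nat.prime_two (by rw [Nat.card_zpowers, hx])
  obtain ⟨S, hS, hxS⟩ := exists_syl_le le_top hx2
  have hn2 : PiNat {2}ᶜ n := (piNat_compl_single Nat.prime_two).2 fun h =>
    (Nat.not_even_iff_odd.2 hn) (even_iff_two_dvd.2 h)
  have hn0 : n ≠ 0 := hn.pos.ne'
  have hSc : ♯S = 2 ^ a := by
    rw [hS.pi.card_eq, hS.logn_eq rfl, card_top', hG, logn_mul (by positivity) hn0,
      logn_pow Nat.prime_two, logn_eq_zero hn2, add_zero]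
  have hi : (zpowers x).relIndex S ∣ 2 := by
    have := card_mul_relIndex hxS
    rw [Nat.card_zpowers, hx, hSc] at this
    rcases a with _ | a
    · simp only [zero_tsub, pow_zero, one_mul] at this
      rw [this]; exact one_dvd _
    · rw [Nat.add_sub_cancel, pow_succ, Nat.mul_right_inj (by positivity)] at this
      rw [this]
  have hSn : S ≤ 𝐍 (zpowers x) := by
    apply hS.pi.norm_of_logn hxS
    rw [hSc, Nat.card_zpowers, hx, logn_pow Nat.prime_two, logn_pow Nat.prime_two]; omega
  obtain ⟨P, rfl⟩ := hS.exists_sylow_top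
  have hN : Cfsg.HasNormalPComplement 2 G := by
    apply CF.Transfer.frobenius_hasNPC P
    intro Q hQ _ g hg hc
    have hQ' := hS.pi.le hQ
    have h1 : (𝚽 Q).relIndex Q ∣ 2 ^ 2 := by
      refine (relIndex_Phi_dvd_of_cyc Nat.prime_two hQ' (C := zpowers x ⊓ Q) inf_le_right
        ((cyc_zpowers x).mono inf_le_left)).trans ?_
      rw [inf_relIndex_right, pow_two]
      exact Nat.mul_dvd_mul_left _ ((relIndex_dvd_of_norm hQ hSn).trans hi)
    rw [← zpowers_le, ← relIndex_eq_one]
    by_contra h2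
    obtain ⟨q, hq, hd⟩ := Nat.exists_prime_and_dvd h2
    have hqg : q ∣ orderOf g := by
      rw [← Nat.card_zpowers]; exact hd.trans (relIndex_dvd_card _ _)
    have hq2 : q ≠ 2 := by
      rintro rfl; exact not_dvd_of_coprime hc hq hqg dvd_rfl
    obtain ⟨i, hi1, hi2, hi⟩ := exists_dvd_of_dvd_relIndex_cent Nat.prime_two hQ' h1
      (zpowers_le.2 hg) hq hq2 hd
    have hq3 : q = 3 := by
      interval_cases i
      · exact absurd (Nat.dvd_one.1 hi) hq.one_lt.ne'
      · exact (Nat.prime_dvd_prime_iff_eq hq Nat.prime_three).1 hi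
    subst hq3
    have := hqg.trans (orderOf_dvd_natCard g)
    rw [hG] at this
    exact h3 ((Nat.Coprime.pow_right a (by norm_num)).dvd_of_dvd_mul_left this)
  have h4 := ((hasNPC_iff Nat.prime_two).1 hN).sdprod hS
  refine ⟨_, normalIn_top.1 h4.normal, ?_⟩
  have := h4.card
  rw [hSc, card_top', hG, mul_comm, Nat.mul_right_inj (by positivity)] at this
  exact this

end Cfsg.Agent.S3971
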