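import Cfsg.Statements.S3972
import Cfsg.Agent.Recog.SRingAb

set_option autoImplicit false
open Cfsg

namespace Cfsg.Agent.S3972

theorem mem_of_ne_bot {H : Type*} [CommGroup H] [Finite H] [IsCyclic H] {p m : ℕ} (hp : p.Prime)
    (hH : Nat.card H = p ^ m) (K : Subgroup H) (hK : K ≠ ⊥) {z : H} (hz : z ^ p = 1) : z ∈ K := by
  have := Fact.mk hp
  have h1 : p ∣ Nat.card K := by
    obtain ⟨k, -, hk⟩ := (Nat.dvd_prime_pow hp).1 (hH ▸ K.card_subgroup_dvd_card)
    rw [hk]
    refine dvd_pow_self p ?_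
    rintro rfl
    exact hK (Subgroup.card_eq_one.1 (by simpa using hk))
  obtain ⟨y, hy⟩ := exists_prime_orderOf_dvd_card' p h1
  have h2 := CF.Recog.card_ker_pow (H := H) (h1.trans K.card_subgroup_dvd_card)
  have h3 : orderOf (y : H) = p := by simpa using hy
  have h4 : Subgroup.zpowers (y : H) = (powMonoidHom p : H →* H).ker := by
    refine Subgroup.eq_of_le_of_card_ge ?_ (by rw [h2, Nat.card_zpowers, h3])
    rw [Subgroup.zpowers_le, MonoidHom.mem_ker, powMonoidHom_apply, ← h3, pow_orderOf_eq_one]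
  have h5 : z ∈ Subgroup.zpowers (y : H) := h4 ▸ hz
  exact (Subgroup.zpowers_le.2 y.2) h5

open MulAction in

/-- Let `p` be a prime, `m ≥ 2`, and `G` a transitive but not doubly transitive permutation group on `p ^ m` points containing a permutation of order `p ^ m` (necessarily a full cycle). Then `G` is imprimitive, and the normal closure in `G` of the `p ^ (m - 1)`-th power of that permutation is an intransitive normal subgroup. -/
theorem result {Ω : Type*} [Fintype Ω] [DecidableEq Ω] (p m : ℕ) (hp : p.Prime) (hm : 2 ≤ m) (hΩ : Fintype.card Ω = p ^ m) (G : Subgroup (Equiv.Perm Ω)) (htr : MulAction.IsPretransitive G Ω) (h2 : ¬ MulAction.IsMultiplyPretransitive G Ω 2) (g : G) (hg : orderOf g = p ^ m) : ¬ MulAction.IsPreprimitive G Ω ∧ ¬ MulAction.IsPretransitive (Subgroup.normalClosure ({g ^ (p ^ (m - 1))} : Set G)) Ω := by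
  set C := Subgroup.zpowers g with hC
  let _ : CommGroup C := IsCyclic.commGroup
  have hCc : Nat.card C = p ^ m := by rw [Nat.card_zpowers, hg]
  let z : C := ⟨g ^ p ^ (m - 1), Subgroup.pow_mem _ (Subgroup.mem_zpowers g) _⟩
  have hzp : z ^ p = 1 := by
    apply Subtype.ext
    show (g ^ p ^ (m - 1)) ^ p = 1
    rw [← pow_mul, ← pow_succ, Nat.sub_add_cancel (by omega), ← hg, pow_orderOf_eq_one]
  have hz1 : (z : G) ≠ 1 := by
    refine pow_ne_one_of_lt_orderOf (pow_pos hp.pos _).ne' ?_
    rw [hg]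
    exact Nat.pow_lt_pow_right hp.one_lt (by omega)
  obtain ⟨ω, hω⟩ := CF.Perm.exists_smul_ne_of_ne_one (α := Ω) hz1
  have hst : stabilizer C ω = ⊥ := by
    by_contra h
    exact hω (mem_of_ne_bot hp hCc _ h hzp)
  have hinj : Function.Injective fun c : C => c • ω := by
    intro a b hab
    have : b⁻¹ * a ∈ stabilizer C ω := by
      rw [mem_stabilizer_iff, mul_smul, inv_smul_eq_iff]
      exact hab
    rw [hst, Subgroup.mem_bot, inv_mul_eq_one] at this
    exact this.symm
  have hsurj : Function.Surjective fun c : C => c • ω :=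
    ((Nat.bijective_iff_injective_and_card _).2 ⟨hinj, by rw [hCc, Nat.card_eq_fintype_card, hΩ]⟩).2
  have hreg : IsPretransitive C Ω ∧ ∀ a : Ω, stabilizer C a = ⊥ := by
    refine ⟨⟨fun x y => ?_⟩, fun a => ?_⟩
    · obtain ⟨c, rfl⟩ := hsurj x
      obtain ⟨d, rfl⟩ := hsurj y
      exact ⟨d * c⁻¹, by simp [mul_smul]⟩
    · obtain ⟨c, rfl⟩ := hsurj a
      rw [eq_bot_iff]
      intro d hd
      have : (d * c) • ω = c • ω := by rw [mul_smul]; exact hd
      simpa using hinj this
  have hnp : ¬ IsPreprimitive G Ω := fun h => h2 (CF.Recog.twoTrans_of_regular_cyclic h (by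
    rw [Nat.card_eq_fintype_card, hΩ]
    exact Nat.Prime.not_prime_pow hm) C inferInstance hreg)
  refine ⟨hnp, fun hN => hnp (CF.Perm.isPreprimitive_of_rel fun r hr hinv => ?_)⟩
  by_contra! hne
  obtain ⟨⟨x, y, hxy, hne⟩, u, v, huv⟩ := hne
  let K : Subgroup C :=
    { carrier := {c | ∀ x, r x (c • x)}
      one_mem' := fun x => by simpa using hr.refl x
      mul_mem' := fun {a b} ha hb x => by rw [mul_smul]; exact hr.trans (hb x) (ha _)
      inv_mem' := fun {a} ha x => by simpa using hr.symm (ha (a⁻¹ • x)) }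
  have hK : K ≠ ⊥ := by
    obtain ⟨c, rfl⟩ := hreg.1.exists_smul_eq x y
    intro h
    have : c ∈ K := by
      intro w
      obtain ⟨d, rfl⟩ := hreg.1.exists_smul_eq x w
      rw [← mul_smul, mul_comm, mul_smul]
      exact hinv d _ _ hxy
    rw [h, Subgroup.mem_bot] at this
    exact hne (by rw [this, one_smul])
  have hzK := mem_of_ne_bot hp hCc K hK hzp
  let N : Subgroup G :=
    { carrier := {c | ∀ x, r x (c • x)}
      one_mem' := fun x => by simpa using hr.refl x
      mul_mem' := fun {a b} ha hb x => by rw [mul_smul]; exact hr.trans (hb x) (ha _)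
      inv_mem' := fun {a} ha x => by simpa using hr.symm (ha (a⁻¹ • x)) }
  have : N.Normal := ⟨fun a ha h x => by
    simpa [mul_smul] using hinv h _ _ (ha (h⁻¹ • x))⟩
  have hle : Subgroup.normalClosure ({g ^ (p ^ (m - 1))} : Set G) ≤ N :=
    Subgroup.normalClosure_le_normal (Set.singleton_subset_iff.2 hzK)
  obtain ⟨n, rfl⟩ := hN.exists_smul_eq u v
  exact huv (hle n.2 u)

end Cfsg.Agent.S3972
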