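import Cfsg.Statements.S3973
import Cfsg.Agent.Schur.Crit

set_option autoImplicit false
open Cfsg

namespace Cfsg.Agent.S3973

open CF.Schur Subgroup Function

theorem rank_le_of_surj {K V A : Type*} [CommGroup K] [AddCommGroup V] [Module.Free ℤ V]
    [Module.Finite ℤ V] [CommGroup A] [Finite A] {ι : Type*} [Fintype ι] (x : ι → K)
    (hx : Subgroup.closure (Set.range x) = ⊤) (f : K →* Multiplicative V) {N : ℕ} (hN : N ≠ 0)
    (hf : ∀ v : V, Multiplicative.ofAdd (N • v) ∈ f.range) (e : f.ker ≃* A) :
    Group.rank A ≤ Fintype.card ι - Module.finrank ℤ V := by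
  classical
  let ψ : (ι → ℤ) →ₗ[ℤ] Additive K := Fintype.linearCombination ℤ fun i => Additive.ofMul (x i)
  have hψ : Surjective ψ := by
    intro k
    have : k.toMul ∈ ψ.toAddMonoidHom.range.toSubgroup' := by
      refine (show (⊤ : Subgroup K) ≤ _ from ?_) (mem_top _)
      rw [← hx, closure_le]
      rintro _ ⟨i, rfl⟩
      exact ⟨Pi.single i 1, by simp [ψ]; rfl⟩
    exact this
  let g : Additive K →ₗ[ℤ] V := (MonoidHom.toAdditiveLeft f).toIntLinearMap
  let ω := g.comp ψ
  have h1 : Module.finrank ℤ V ≤ Module.finrank ℤ (LinearMap.range ω) := by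
    let μ : V →ₗ[ℤ] LinearMap.range ω := LinearMap.codRestrict _ ((N : ℤ) • LinearMap.id) fun v => by
      obtain ⟨k, hk⟩ := hf v
      obtain ⟨y, hy⟩ := hψ (Additive.ofMul k)
      refine ⟨y, ?_⟩
      show g (ψ y) = _
      rw [hy]
      exact (congrArg Multiplicative.toAdd hk).trans (by simp)
    refine LinearMap.finrank_le_finrank_of_injective (f := μ) fun v w h => ?_
    have h2 : (N : ℤ) • v = (N : ℤ) • w := congrArg Subtype.val h
    exact smul_right_injective V (by exact_mod_cast hN) h2
  have h2 := (LinearMap.ker ω).finrank_quotient_add_finrank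
  rw [ω.quotKerEquivRange.finrank_eq, Module.finrank_fintype_fun_eq_card] at h2
  let b := Module.finBasis ℤ (LinearMap.ker ω)
  let φ : LinearMap.ker ω →+ Additive A := AddMonoidHom.mk'
    (fun y => Additive.ofMul (e ⟨(ψ y).toMul, y.2⟩)) fun y z => by
      rw [← ofMul_mul, ← map_mul]
      congr 2
      exact Subtype.ext (congrArg Additive.toMul (map_add ψ y.1 z.1))
  have h3 : Subgroup.closure
      ((Finset.univ.image fun i => (φ (b i)).toMul : Finset A) : Set A) = ⊤ := by
    rw [eq_top_iff]
    intro a _
    obtain ⟨⟨k, hk⟩, rfl⟩ := e.surjective a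
    obtain ⟨y, hy⟩ := hψ (Additive.ofMul k)
    have hy' : y ∈ LinearMap.ker ω := by
      show g (ψ y) = 0
      rw [hy]; exact hk
    have : e ⟨k, hk⟩ = (φ ⟨y, hy'⟩).toMul := by
      show _ = e ⟨(ψ y).toMul, _⟩
      congr 2
      rw [hy]; rfl
    rw [this, ← b.sum_repr ⟨y, hy'⟩, map_sum, toMul_sum]
    refine Subgroup.prod_mem _ fun i _ => ?_
    rw [map_zsmul, toMul_zsmul]
    exact zpow_mem (subset_closure (by simp)) _
  refine (Group.rank_le h3).trans (Finset.card_image_le.trans ?_)
  rw [Finset.card_univ, Fintype.card_fin]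
  omega

/-- If a finite group is presented by `n` generators and a finite set of `r` relators, then its Schur multiplier can be generated by `r - n` elements. In particular a finite group with a presentation having as many relators as generators has trivial Schur multiplier. -/
theorem result (n : ℕ) (rels : Finset (FreeGroup (Fin n))) [Finite (PresentedGroup (rels : Set (FreeGroup (Fin n))))] {A : Type*} [CommGroup A] [Finite A] (hA : Cfsg.HasSchurMultiplier (PresentedGroup (rels : Set (FreeGroup (Fin n)))) A) : Group.rank A ≤ rels.card - n := by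
  let π := PresentedGroup.mk (rels : Set (FreeGroup (Fin n)))
  have hπ : Surjective π := PresentedGroup.mk_surjective _
  have hker : π.ker = normalClosure (rels : Set (FreeGroup (Fin n))) := QuotientGroup.ker_mk' _
  have hε := isCov_cov hπ
  obtain ⟨e⟩ := hε.hasSchurMultiplier_iff.1 hA
  let _ : CommGroup (cov π).ker := { (inferInstance : Group (cov π).ker) with
    mul_comm := fun a b => Subtype.ext (hε.toCExt.comm b.2 a) }
  let x : rels → (cov π).ker := fun r => ⟨(r.1 : Cov π), PresentedGroup.one_of_mem r.2⟩
  have hx : Subgroup.closure (Set.range x) = ⊤ := by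
    rw [eq_top_iff]
    rintro ⟨y, hy⟩ -
    induction y using QuotientGroup.induction_on with | H y =>
    have h1 : (Subgroup.closure (Set.range x)).map (cov π).ker.subtype ≤ (cov π).ker :=
      map_subtype_le _
    have := hε.toCExt.normal_of_le_ker h1
    have h2 : π.ker ≤ ((Subgroup.closure (Set.range x)).map (cov π).ker.subtype).comap
        (QuotientGroup.mk' _) := by
      refine hker.le.trans (normalClosure_le_normal ?_)
      intro r hr
      exact ⟨x ⟨r, hr⟩, subset_closure ⟨_, rfl⟩, rfl⟩
    exact (mem_map_iff_mem (cov π).ker.subtype_injective).1 (h2 hy)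
  let e' : ((covAb π).comp (cov π).ker.subtype).ker ≃* mul (cov π) :=
    { toFun := fun y => ⟨y.1.1, y.1.2, by rw [← ker_covAb]; exact y.2⟩
      invFun := fun y => ⟨⟨y.1, y.2.1⟩, by
        have := y.2.2
        rw [← ker_covAb] at this
        exact this⟩
      left_inv := fun _ => rfl
      right_inv := fun _ => rfl
      map_mul' := fun _ _ => rfl }
  have := rank_le_of_surj x hx ((covAb π).comp (cov π).ker.subtype)
    (N := Nat.card (PresentedGroup (rels : Set (FreeGroup (Fin n))))) Nat.card_pos.ne' (fun v => by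
      obtain ⟨y, hy⟩ := covAb_surjective π (Multiplicative.ofAdd v)
      refine ⟨⟨y ^ _, by rw [MonoidHom.mem_ker, map_pow, pow_card_eq_one']⟩, ?_⟩
      show covAb π (y ^ _) = _
      rw [map_pow, hy]; rfl) (e'.trans e)
  rwa [Fintype.card_coe, Module.finrank_eq_card_basis (FreeAbelianGroup.basis (Fin n)),
    Fintype.card_fin] at this

end Cfsg.Agent.S3973
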