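import Cfsg.Statements.S3974
import Cfsg.Agent.Schur.Proj

set_option autoImplicit false
universe u v
open Cfsg

namespace Cfsg.Agent.S3974

open CF.Schur Subgroup Function

theorem exists_extend_of_coprime {B K : Type*} [CommGroup B] [CommGroup K] (L : Subgroup B)
    (δ : L →* K) {k : ℕ} (hk : ∀ b, b ^ k ∈ L) (hc : k.Coprime (Nat.card K)) [Finite K] :
    ∃ χ : B →* K, ∀ l : L, χ l = δ l := by
  let e := powCoprime (G := K) hc.symm
  let f : B →* K := δ.comp ((powMonoidHom k).codRestrict L hk)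
  refine ⟨MonoidHom.mk' (fun b => e.symm (f b)) fun a b => e.injective ?_, fun l => e.injective ?_⟩
  · show e (e.symm (f (a * b))) = (e.symm (f a) * e.symm (f b)) ^ k
    rw [mul_pow]
    show _ = e (e.symm (f a)) * e (e.symm (f b))
    simp
  · show e (e.symm (f l)) = δ l ^ k
    rw [e.apply_symm_apply, ← map_pow]; rfl

theorem card_hom {W M : Type*} [AddCommGroup W] [Module.Free ℤ W] [Module.Finite ℤ W]
    [CommGroup M] : Nat.card (Multiplicative W →* M) = Nat.card M ^ Module.finrank ℤ W := by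
  rw [← Nat.card_congr (AddMonoidHom.toMultiplicativeLeft (α := W) (β := M)),
    Nat.card_congr (addMonoidHomLequivInt ℤ).toEquiv,
    ← Nat.card_congr ((Module.finBasis ℤ W).constr ℤ).toEquiv, Nat.card_fun, Nat.card_eq_fintype_card
    (α := Fin _), Fintype.card_fin]
  rfl

theorem exists_not_extend {V M : Type*} [AddCommGroup V] [Module.Free ℤ V] [Module.Finite ℤ V]
    (L : Subgroup (Multiplicative V)) {N : ℕ} (hN : N ≠ 0) (hL : ∀ v, v ^ N ∈ L) [CommGroup M]
    [Finite M] (f : Multiplicative V →* M) (hf : f ≠ 1) (hfL : L ≤ f.ker) :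
    ∃ δ : L →* M, ∀ χ : Multiplicative V →* M, χ.comp L.subtype ≠ δ := by
  by_contra! h
  let W : Submodule ℤ V := (Subgroup.toAddSubgroup' L).toIntSubmodule
  let e : Multiplicative W ≃* L :=
    { toFun := fun w => ⟨Multiplicative.ofAdd w.toAdd.1, w.toAdd.2⟩
      invFun := fun l => Multiplicative.ofAdd ⟨l.1.toAdd, l.2⟩
      left_inv := fun _ => rfl
      right_inv := fun _ => rfl
      map_mul' := fun _ _ => rfl }
  have h1 : Module.finrank ℤ V ≤ Module.finrank ℤ W := by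
    let μ : V →ₗ[ℤ] W := LinearMap.codRestrict _ ((N : ℤ) • LinearMap.id) fun v => by
      have := hL (Multiplicative.ofAdd v)
      rw [← ofAdd_nsmul, ← natCast_zsmul] at this
      exact this
    refine LinearMap.finrank_le_finrank_of_injective (f := μ) fun v w h => ?_
    have h2 : (N : ℤ) • v = (N : ℤ) • w := congrArg Subtype.val h
    exact smul_right_injective V (by exact_mod_cast hN) h2
  have h2 : Nat.card (Multiplicative V →* M) ≤ Nat.card (L →* M) := by
    rw [← Nat.card_congr (e.monoidHomCongrLeftEquiv (N := M)), card_hom, card_hom]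
    exact Nat.pow_le_pow_right Nat.card_pos h1
  have : Finite (Multiplicative V →* M) :=
    Nat.finite_of_card_ne_zero (by rw [card_hom]; exact pow_ne_zero _ Nat.card_pos.ne')
  have h3 := (show Surjective fun χ : Multiplicative V →* M => χ.comp L.subtype from
    h).bijective_of_nat_card_le h2
  exact hf (h3.1 (MonoidHom.ext fun l => hfL l.2))

theorem cover_of_section {G : Type*} [Group G] [Finite G] {E : Type*} [Group E] {ε : E →* G}
    (hε : CExt ε) {B : Type*} [Group B] (ab : E →* B) (hab : ab.ker = _root_.commutator E)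
    (s : (ab.comp ε.ker.subtype).range →* E) (hs : ∀ l, ab (s l) = l) (hs' : ∀ l, ε (s l) = 1) :
    ∃ (_ : s.range.Normal) (h : s.range ≤ ε.ker), Cfsg.IsStemExtension (quo ε s.range h) ∧
      Finite (E ⧸ s.range) ∧ ∃ κ : mul ε ≃* (quo ε s.range h).ker,
        ∀ x, (κ x : E ⧸ s.range) = ((x : E) : E ⧸ s.range) := by
  have h0 : s.range ≤ ε.ker := by rintro _ ⟨l, rfl⟩; exact hs' l
  have := hε.normal_of_le_ker h0
  have h2 : s.range ⊔ mul ε = ε.ker := by
    apply le_antisymm (sup_le h0 (mul_le_ker _))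
    intro x hx
    let l : (ab.comp ε.ker.subtype).range := ⟨_, ⟨x, hx⟩, rfl⟩
    have : x = s l * ((s l)⁻¹ * x) := by simp
    rw [this]
    refine mul_mem (mem_sup_left ⟨l, rfl⟩) (mem_sup_right (mem_inf.2 ⟨mul_mem (inv_mem (h0 ⟨l, rfl⟩)) hx, ?_⟩))
    rw [← hab, MonoidHom.mem_ker, map_mul, map_inv, hs]
    exact inv_mul_cancel (ab x)
  have hst := stem_quo hε s.range h2
  have hbij : Bijective (mulMap (ξ := quo ε s.range h0) (η := ε) (QuotientGroup.mk' _)
      (MonoidHom.id G) rfl) := by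
    refine ⟨?_, mulMap_surjective hst.2.1 hε.surj _⟩
    rw [injective_iff_map_eq_one]
    rintro ⟨x, hx1, hx2⟩ hx
    obtain ⟨l, rfl⟩ : x ∈ s.range := (QuotientGroup.eq_one_iff _).1 (congrArg Subtype.val hx)
    rw [← hab] at hx2
    have : l = 1 := Subtype.ext ((hs l).symm.trans hx2)
    exact Subtype.ext (by simp [this])
  let κ := (MulEquiv.ofBijective _ hbij).trans (MulEquiv.subgroupCongr (stem_mul hst))
  have := hε.finite_mul
  have : Finite (quo ε s.range h0).ker := Finite.of_equiv _ κ.toEquiv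
  exact ⟨inferInstance, h0, hst, finite_of_ker (quo ε s.range h0), κ, fun _ => rfl⟩

/-- Let `Q` be a finite group with Schur multiplier `A`. Any two Schur covering groups of `Q` (finite stem extensions `σ₁ : Γ₁ →* Q`, `σ₂ : Γ₂ →* Q` with kernels isomorphic to `A`, `Γ₁, Γ₂` in the universe of `Q`) are isomorphic over `Q` — there is a group isomorphism `e : Γ₁ ≃* Γ₂` with `σ₂ ∘ e = σ₁` — if and only if the order of the commutator quotient of `Q` is coprime to the order of `A`. In particular a finite perfect group has a unique Schur covering group up to isomorphism over it. -/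
theorem result {Q : Type u} [Group Q] [Finite Q] {A : Type v} [CommGroup A] (hA : Cfsg.HasSchurMultiplier Q A) : (∀ (Γ₁ Γ₂ : Type u) [Group Γ₁] [Finite Γ₁] [Group Γ₂] [Finite Γ₂] (σ₁ : Γ₁ →* Q) (σ₂ : Γ₂ →* Q), Cfsg.IsStemExtension σ₁ → Cfsg.IsStemExtension σ₂ → Nonempty (σ₁.ker ≃* A) → Nonempty (σ₂.ker ≃* A) → ∃ e : Γ₁ ≃* Γ₂, σ₂.comp e.toMonoidHom = σ₁) ↔ Nat.Coprime (Nat.card (Abelianization Q)) (Nat.card A) := by
  have hε := isCov_taut Q
  obtain ⟨eA⟩ := hε.hasSchurMultiplier_iff.1 hA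
  have := (finite_of_hasSchurMultiplier hA).2
  have hab := ker_covAb (taut Q)
  have habs := covAb_surjective (taut Q)
  generalize covAb (taut Q) = ab at hab habs
  generalize cov (taut Q) = ε at hε eA
  let _ : CommGroup ε.ker := { (inferInstance : Group ε.ker) with
    mul_comm := fun a b => Subtype.ext (hε.toCExt.comm b.2 a) }
  let L := (ab.comp ε.ker.subtype).range
  have hL : ∀ v, v ^ Nat.card (Abelianization Q) ∈ L := fun v => by
    obtain ⟨x, rfl⟩ := habs v
    have h1 : ε (x ^ Nat.card (Abelianization Q)) ∈ _root_.commutator Q := by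
      rw [← Abelianization.ker_of, MonoidHom.mem_ker, map_pow, map_pow, pow_card_eq_one']
    rw [← map_commutator_of_over cext_id.central hε.surj (φ := ε) rfl] at h1
    obtain ⟨d, hd, e⟩ := h1
    refine ⟨⟨d⁻¹ * x ^ Nat.card (Abelianization Q), by simp [MonoidHom.mem_ker, e]⟩, ?_⟩
    rw [← hab] at hd
    show ab (d⁻¹ * x ^ _) = _
    rw [map_mul, map_inv, show ab d = 1 from hd, map_pow]; simp
  constructor
  · intro h
    by_contra hc
    obtain ⟨p, hp, h1, h2⟩ := Nat.Prime.not_coprime_iff_dvd.1 hc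
    have : Fact p.Prime := ⟨hp⟩
    let _ := hε.toCExt.commGroup
    have := hε.toCExt.finite_mul
    obtain ⟨π, hπ⟩ := exists_surjective_zmod hp h1
    obtain ⟨a, ha⟩ := exists_prime_orderOf_dvd_card' p h2
    let i : Multiplicative (ZMod p) →* mul ε := eA.symm.toMonoidHom.comp ((zpowers a).subtype.comp
      (mulEquivOfPrimeCardEq (p := p) (by simp) (by rw [Nat.card_zpowers, ha])).toMonoidHom)
    have hi : Injective i :=
      eA.symm.injective.comp (Subtype.val_injective.comp (MulEquiv.injective _))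
    have hk : ab.ker ≤ (i.comp (π.comp (Abelianization.of.comp ε))).ker :=
      hab ▸ Abelianization.commutator_subset_ker _
    let f := ab.liftOfSurjective habs ⟨_, hk⟩
    have hf : ∀ x, f (ab x) = i (π (Abelianization.of (ε x))) := fun x =>
      ab.liftOfRightInverse_comp_apply _ _ ⟨_, hk⟩ x
    obtain ⟨δ, hδ⟩ := exists_not_extend L Nat.card_pos.ne' hL f (fun h0 => by
      obtain ⟨y, hy⟩ := hπ (Multiplicative.ofAdd 1)
      obtain ⟨q, rfl⟩ : ∃ q, Abelianization.of q = y := QuotientGroup.mk'_surjective _ y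
      obtain ⟨x, rfl⟩ := hε.surj q
      have h3 := hf x
      rw [h0, hy, MonoidHom.one_apply, ← map_one i] at h3
      exact one_ne_zero (Multiplicative.ofAdd.injective (hi h3).symm)) (by
      rintro _ ⟨x, rfl⟩
      show f (ab x) = 1
      rw [hf, show ε x = 1 from x.2]; simp)
    obtain ⟨C, hC1, hC2⟩ := exists_compl_of_free (ab.comp ε.ker.subtype)
    have hb : Bijective ((ab.comp ε.ker.subtype).rangeRestrict.comp C.subtype) := by
      constructor
      · rw [injective_iff_map_eq_one]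
        intro c hc
        have : (c : ε.ker) ∈ C ⊓ (ab.comp ε.ker.subtype).ker := ⟨c.2, congrArg Subtype.val hc⟩
        rw [hC1, mem_bot] at this
        exact Subtype.ext this
      · rintro ⟨_, x, rfl⟩
        obtain ⟨c, hc, z, hz, rfl⟩ := mem_sup.1 (hC2 ▸ mem_top x : x ∈ C ⊔ _)
        refine ⟨⟨c, hc⟩, Subtype.ext ?_⟩
        show (ab.comp ε.ker.subtype) c = (ab.comp ε.ker.subtype) (c * z)
        rw [map_mul, show (ab.comp ε.ker.subtype) z = 1 from hz, mul_one]
    let s₀ : L →* ε.ker := C.subtype.comp (MulEquiv.ofBijective _ hb).symm.toMonoidHom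
    have hs₀ : ∀ l, ab (s₀ l) = l := fun l =>
      congrArg Subtype.val ((MulEquiv.ofBijective _ hb).apply_symm_apply l)
    let s₁ : L →* _ := ε.ker.subtype.comp s₀
    let s₂ : L →* _ := ε.ker.subtype.comp (s₀ * (inclusion (mul_le_ker ε)).comp δ)
    have hs₂ : ∀ l, s₂ l = s₁ l * δ l := fun _ => rfl
    obtain ⟨_, k₁, a₁, _, κ₁, -⟩ := cover_of_section hε.toCExt ab hab s₁ hs₀ fun l => (s₀ l).2
    obtain ⟨_, k₂, a₂, _, κ₂, b₂⟩ := cover_of_section hε.toCExt ab hab s₂ (fun l => by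
      have : ab (δ l) = 1 := by rw [← MonoidHom.mem_ker, hab]; exact (δ l).2.2
      rw [hs₂, map_mul, this, mul_one]; exact hs₀ l) fun l => (s₀ l * inclusion (mul_le_ker ε) (δ l)).2
    obtain ⟨e, he⟩ := h _ _ _ _ a₁ a₂ ⟨κ₁.symm.trans eA⟩ ⟨κ₂.symm.trans eA⟩
    let χ := κ₂.symm.toMonoidHom.comp (diffHom (QuotientGroup.mk' s₂.range)
      (e.toMonoidHom.comp (QuotientGroup.mk' s₁.range)) _ a₂.2.1 fun x => by
        have : quo ε _ k₂ (e (x : _ ⧸ s₁.range)) = ε x :=
          DFunLike.congr_fun he (x : _ ⧸ s₁.range)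
        rw [MonoidHom.mem_ker, map_mul, map_inv, inv_mul_eq_one]
        exact this.symm)
    have hk' : ab.ker ≤ χ.ker := hab ▸ Abelianization.commutator_subset_ker _
    refine hδ (ab.liftOfSurjective habs ⟨χ, hk'⟩) (MonoidHom.ext fun l => ?_)
    have h3 : ab.liftOfSurjective habs ⟨χ, hk'⟩ (ab (s₁ l)) = χ (s₁ l) :=
      ab.liftOfRightInverse_comp_apply _ _ ⟨χ, hk'⟩ _
    rw [show ab (s₁ l) = l from hs₀ l] at h3
    refine h3.trans (κ₂.symm_apply_eq.2 (Subtype.ext ?_))
    rw [b₂]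
    show ((s₁ l : Cov _) : _ ⧸ s₂.range)⁻¹ * e ((s₁ l : Cov _) : _ ⧸ s₁.range) = _
    rw [(QuotientGroup.eq_one_iff (N := s₁.range) (s₁ l)).2 ⟨l, rfl⟩, map_one, mul_one, inv_eq_iff_mul_eq_one,
      ← QuotientGroup.mk_mul, ← hs₂, QuotientGroup.eq_one_iff]
    exact ⟨l, rfl⟩
  · intro hc Γ₁ Γ₂ _ _ _ _ σ₁ σ₂ h₁ h₂ k₁ k₂
    obtain ⟨ψ₁, e₁⟩ := hε.exists_lift' (stem_cext h₁)
    obtain ⟨ψ₂, e₂⟩ := hε.exists_lift' (stem_cext h₂)
    have hψ₁ := surjective_of_over_stem h₁ hε.surj e₁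
    let _ : CommGroup σ₂.ker := { (inferInstance : Group σ₂.ker) with
      mul_comm := fun a b => Subtype.ext ((stem_cext h₂).comm b.2 a) }
    have hb : Bijective (mulMap ψ₁ (MonoidHom.id Q) e₁) := by
      refine ⟨?_, mulMap_surjective h₁.2.1 hε.surj _⟩
      rw [injective_iff_map_eq_one]
      intro x hx
      exact Subtype.ext (HasSchur.injOn_of_cover hA hε h₁ k₁ e₁ x.2 (congrArg Subtype.val hx))
    let κ := (MulEquiv.ofBijective _ hb).trans (MulEquiv.subgroupCongr (stem_mul h₁))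
    let r₁ : ε.ker →* σ₁.ker := (ψ₁.comp ε.ker.subtype).codRestrict _ fun x => by
      show σ₁ (ψ₁ x) = 1
      rw [← MonoidHom.comp_apply, e₁]; exact x.2
    let r₂ : ε.ker →* σ₂.ker := (ψ₂.comp ε.ker.subtype).codRestrict _ fun x => by
      show σ₂ (ψ₂ x) = 1
      rw [← MonoidHom.comp_apply, e₂]; exact x.2
    let δ : ε.ker →* σ₂.ker :=
      r₂⁻¹ * r₂.comp ((inclusion (mul_le_ker ε)).comp (κ.symm.toMonoidHom.comp r₁))
    have hδ : ∀ x, δ x = (r₂ x)⁻¹ * r₂ (inclusion (mul_le_ker ε) (κ.symm (r₁ x))) := fun _ => rfl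
    have hk : (ab.comp ε.ker.subtype).rangeRestrict.ker ≤ δ.ker := fun x hx => by
      have h3 : x.1 ∈ _root_.commutator _ := by
        rw [← hab]; exact congrArg Subtype.val hx
      have h4 : κ.symm (r₁ x) = ⟨x, x.2, h3⟩ := κ.symm_apply_eq.2 rfl
      rw [MonoidHom.mem_ker, hδ, h4]
      exact inv_mul_cancel _
    obtain ⟨e₂'⟩ := k₂
    obtain ⟨χ, hχ⟩ := exists_extend_of_coprime L
      (MonoidHom.liftOfSurjective _ (ab.comp ε.ker.subtype).rangeRestrict_surjective ⟨δ, hk⟩) hL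
      (by rwa [Nat.card_congr e₂'.toEquiv])
    have hχ' : ∀ x : ε.ker, χ (ab x) = δ x := fun x =>
      (hχ ((ab.comp ε.ker.subtype).rangeRestrict x)).trans
        (MonoidHom.liftOfRightInverse_comp_apply _ _ _ ⟨δ, hk⟩ x)
    let φ := twist ψ₂ (σ₂.ker.subtype.comp (χ.comp ab)) fun x => h₂.2.1 (χ (ab x)).2
    have hker : ψ₁.ker ≤ φ.ker := fun x hx => by
      have h3 : x ∈ ε.ker := by
        rw [MonoidHom.mem_ker, ← e₁, MonoidHom.comp_apply, show ψ₁ x = 1 from hx, map_one]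
      show ψ₂ x * (χ (ab x) : Γ₂) = 1
      rw [show χ (ab x) = _ from hχ' ⟨x, h3⟩, hδ, show r₁ ⟨x, h3⟩ = 1 from Subtype.ext hx]
      simp only [map_one, mul_one]
      exact mul_inv_cancel (ψ₂ x)
    let ρ := ψ₁.liftOfSurjective hψ₁ ⟨φ, hker⟩
    have hρ : σ₂.comp ρ = σ₁ := MonoidHom.ext fun y => by
      obtain ⟨x, rfl⟩ := hψ₁ y
      have : ρ (ψ₁ x) = φ x := ψ₁.liftOfRightInverse_comp_apply _ _ ⟨φ, hker⟩ x
      rw [MonoidHom.comp_apply, this, twist_apply, map_mul,
        show σ₂ ((σ₂.ker.subtype.comp (χ.comp ab)) x) = 1 from (χ (ab x)).2, mul_one,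
        ← MonoidHom.comp_apply, ← MonoidHom.comp_apply, e₁, e₂]
    obtain ⟨e₁'⟩ := k₁
    refine ⟨MulEquiv.ofBijective ρ ((surjective_of_over_stem h₂ h₁.1 hρ).bijective_of_nat_card_le
      ?_), hρ⟩
    rw [card_eq_mul_ker h₁.1, card_eq_mul_ker h₂.1, Nat.card_congr e₁'.toEquiv,
      Nat.card_congr e₂'.toEquiv]

end Cfsg.Agent.S3974
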