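import Cfsg.Statements.S3976
import Cfsg.Agent.BG.B11
import Cfsg.Agent.Fgs2.SubCount

set_option autoImplicit false
open Cfsg

namespace Cfsg.Agent.S3976

open CF.BG Subgroup
open scoped Pointwise


/-- Let `p` be a prime and `G` a group of order `p ^ m`. For every `s ≤ m` the number of normal subgroups of `G` of order `p ^ s` is congruent to `1` modulo `p`. -/
theorem result {G : Type*} [Group G] [Finite G] (p m s : ℕ) (hp : p.Prime) (hG : Nat.card G = p ^ m) (hs : s ≤ m) : Nat.card {H : Subgroup G // H.Normal ∧ Nat.card H = p ^ s} ≡ 1 [MOD p] := by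
  haveI : Fact p.Prime := ⟨hp⟩
  have h1 := CF.Fgs2.nsub_modEq_one (G := G) (β := s) hp (hG ▸ pow_dvd_pow p hs)
  rw [CF.Fgs2.nsub_eq] at h1
  have h2 : p ∣ {H : Subgroup G | ¬ H.Normal ∧ Nat.card H = p ^ s}.ncard := by
    apply CF.Fgs2.dvd_ncard_of_orbits (G := ConjAct G) _ (Set.toFinite _)
    · rintro g H ⟨h3, h4⟩
      refine ⟨fun h => h3 ?_, ?_⟩
      · have := h.conjAct g⁻¹
        rw [inv_smul_smul] at this
        rw [this]; exact h
      · rw [← h4]; exact (Nat.card_congr (equivSMul g H).toEquiv).symm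
    · rintro H ⟨h3, -⟩
      have h5 : (MulAction.stabilizer (ConjAct G) H).index ∣ p ^ m := by
        rw [← hG]; exact index_dvd_card _
      obtain ⟨k, -, hk⟩ := (Nat.dvd_prime_pow hp).1 h5
      rw [hk]
      refine dvd_pow_self p ?_
      rintro rfl
      rw [pow_zero, index_eq_one] at hk
      apply h3
      refine Subgroup.Normal.of_conjugate_fixed fun g => ?_
      have : ConjAct.toConjAct g ∈ MulAction.stabilizer (ConjAct G) H := hk ▸ mem_top _
      exact this
  have h3 : Nat.card {H : Subgroup G // Nat.card H = p ^ s} =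
      Nat.card {H : Subgroup G // H.Normal ∧ Nat.card H = p ^ s} +
        {H : Subgroup G | ¬ H.Normal ∧ Nat.card H = p ^ s}.ncard := by
    change {H : Subgroup G | Nat.card H = p ^ s}.ncard =
      {H : Subgroup G | H.Normal ∧ Nat.card H = p ^ s}.ncard + _
    rw [← Set.ncard_union_eq (Set.disjoint_left.2 fun H a b => b.1 a.1)]
    congr 1
    ext H
    simp only [Set.mem_ofPred_eq, Set.mem_union]
    tauto
  rw [h3] at h1
  obtain ⟨c, hc⟩ := h2
  rw [hc] at h1
  simpa [Nat.ModEq] using h1

end Cfsg.Agent.S3976
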