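import Cfsg.Statements.S3977
import Cfsg.Agent.BG.B11
import Cfsg.Agent.Solv.CyclicMax

set_option autoImplicit false
open Cfsg

namespace Cfsg.Agent.S3977

open CF.BG Subgroup


/-- Let `p` be a prime and `G` a group of order `p ^ m` which has exactly one subgroup of order `p ^ s`, where `1 ≤ s < m`, and where `s ≥ 2` if `p = 2`. Then `G` is cyclic. (For `p = 2` and `s = 1` the generalized quaternion groups also occur; that case is the classical criterion for a unique involution.) -/
theorem result {G : Type*} [Group G] [Finite G] (p m s : ℕ) (hp : p.Prime) (hG : Nat.card G = p ^ m) (hs : 1 ≤ s) (hsm : s < m) (h2 : p ≠ 2 ∨ 2 ≤ s) (huniq : ∀ H K : Subgroup G, Nat.card H = p ^ s → Nat.card K = p ^ s → H = K) : IsCyclic G := by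
  haveI : Fact p.Prime := ⟨hp⟩
  have hT : PiGrp {p} (⊤ : Subgroup G) := piGrp_of_card hp (card_top'.trans hG)
  have hl : logn p (♯(⊤ : Subgroup G)) = m := by rw [card_top', hG, logn_pow hp]
  obtain ⟨H, -, -, hH⟩ := hT.exists_logn_between (n := s) bot_le (by simp [logn]) (by omega)
  obtain ⟨K, -, -, hK⟩ := hT.exists_logn_between (n := s + 1) bot_le (by simp [logn]) (by omega)
  have hle : ∀ X : Subgroup G, logn p (♯X) ≤ s → X ≤ H := by
    intro X hX
    obtain ⟨L, hL, -, hL'⟩ := hT.exists_logn_between (n := s) le_top hX (by omega)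
    rwa [huniq L H (by rw [(hT.le le_top).card_eq, hL']) (by rw [(hT.le le_top).card_eq, hH])] at hL
  have hnle : ¬ K ≤ H := fun h => by have := logn_card_le (p := p) h; omega
  obtain ⟨x, hxK, hxH⟩ := SetLike.not_le_iff_exists.1 hnle
  have hKx : zpowers x = K := by
    apply (hT.le le_top).eq_of_logn_le (zpowers_le.2 hxK)
    by_contra h
    exact hxH (hle (zpowers x) (by omega) (mem_zpowers x))
  have hHK : H ≤ K := by
    obtain ⟨L, -, hL, hL'⟩ := (hT.le (le_top (a := K))).exists_logn_between (n := s) bot_le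
      (by simp [logn]) (by omega)
    rwa [huniq L H (by rw [(hT.le le_top).card_eq, hL']) (by rw [(hT.le le_top).card_eq, hH])] at hL
  have hc : Cyc H := (hKx ▸ cyc_zpowers x : Cyc K).mono hHK
  rcases CF.Solv.isCyclic_or_quaternion' (IsPGroup.of_card hG) (fun A B hA hB =>
    hc.eq_of_card (hle A (by rw [hA, logn_self hp]; exact hs))
      (hle B (by rw [hB, logn_self hp]; exact hs)) (hA.trans hB.symm)) with h | ⟨rfl, n, hn, ⟨e⟩⟩
  · exact h
  exfalso
  have hs2 : 2 ≤ s := h2.resolve_left (by simp)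
  haveI : NeZero (2 ^ n) := ⟨by positivity⟩
  have hm : ∀ i, e.symm (QuaternionGroup.xa i) ∈ H := by
    intro i
    refine hle (zpowers _) ?_ (mem_zpowers _)
    rw [Nat.card_zpowers, MulEquiv.orderOf_eq, QuaternionGroup.orderOf_xa,
      show 4 = 2 ^ 2 from rfl, logn_pow hp]
    exact hs2
  have := hc.abel.mul_comm (hm 0) (hm 1)
  rw [← map_mul, ← map_mul, e.symm.injective.eq_iff, QuaternionGroup.xa_mul_xa,
    QuaternionGroup.xa_mul_xa, QuaternionGroup.a.injEq] at this
  have e2 : ((2 : ℕ) : ZMod (2 * 2 ^ n)) = 0 := by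
    push_cast; linear_combination this
  rw [ZMod.natCast_eq_zero_iff] at e2
  have := Nat.le_of_dvd two_pos e2
  have : 1 < 2 ^ n := Nat.one_lt_two_pow (by omega)
  omega

end Cfsg.Agent.S3977
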