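import Cfsg.Statements.S3978
import Cfsg.Agent.Schur.Proj

set_option autoImplicit false
open Cfsg

namespace Cfsg.Agent.S3978

/-- A finite group `Q` has trivial Schur multiplier if and only if, for every `n`, every homomorphism from `Q` to the projective general linear group (the quotient of `GL n ℂ` by its centre) lifts to a homomorphism into `GL n ℂ`. -/
theorem result {Q : Type*} [Group Q] [Finite Q] : Cfsg.HasCyclicSchurMultiplier Q 1 ↔ ∀ (n : ℕ) (γ : Q →* (GL (Fin n) ℂ ⧸ Subgroup.center (GL (Fin n) ℂ))), ∃ ρ : Q →* GL (Fin n) ℂ, (QuotientGroup.mk' (Subgroup.center (GL (Fin n) ℂ))).comp ρ = γ := by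
  constructor
  · intro h n γ
    refine CF.Schur.HasSchur.exists_lift_of_divisible h CF.Schur.stem_id ?_
      (CF.Schur.cext_mk' _ le_rfl) (fun m hm d => CF.Schur.center_GL_divisible n m hm d) γ
    exact CF.Schur.nonempty_equiv_zmod_one.2 ⟨fun a b => Subtype.ext (a.2.trans b.2.symm)⟩
  · intro h
    have hε := CF.Schur.isCov_taut Q
    rw [hε.trivial_iff, eq_bot_iff]
    intro x hx
    exact CF.Schur.injOn_of_proj_lift hε (σ := MonoidHom.id Q) h rfl hx hx.1

end Cfsg.Agent.S3978
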