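import Cfsg.Statements.S3992
import Cfsg.Agent.SolvStr.PG1

set_option autoImplicit false
open Cfsg

namespace Cfsg.Agent.S3992

open Subgroup CF.BG CF.SolvStr

variable {G : Type*} [Group G] [Finite G] {p q : ℕ} {A B L : Subgroup G}

theorem exists_ne (h : ¬ Sol A) (p : ℕ) : ∃ q : ℕ, q.Prime ∧ q ∣ ♯A ∧ q ≠ p := by
  simpa only [PiNat, not_forall, exists_prop, Set.mem_singleton_iff] using mt (PiGrp.sol (p := p)) h

theorem eq_bot_of_cent (h : ∀ p, CF.SolvStr.Sep {p} L) (a : A ≤ L) (b : B ≤ L) (s : ¬ Sol A)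
    (c : A ≤ 𝐂 B) : B = ⊥ := by
  by_contra k
  obtain ⟨p, hp, d⟩ := exists_prime_dvd_card k
  obtain ⟨q, hq, dq, qp⟩ := exists_ne s p
  obtain ⟨x, hx, ox⟩ := exists_mem_orderOf_eq hp d
  obtain ⟨y, hy, oy⟩ := exists_mem_orderOf_eq hq dq
  obtain ⟨g, hg, e⟩ := exists_orderOf_mul hp hq qp.symm ox.symm.dvd oy.symm.dvd
    (mem_cent.1 (c hy) x hx) (b hx) (a hy)
  exact (h p).ne hp hq rfl qp hg e

theorem exists_min (h : ∀ p, CF.SolvStr.Sep {p} (⊤ : Subgroup G)) (t : (⊤ : Subgroup G) ≠ ⊥)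
    (s : ∀ N : Subgroup G, N.Normal → Sol N → N = ⊥) : ∃ M : Subgroup G, M.Normal ∧ IsSimpleGroup M ∧
      ¬ IsMulCommutative M ∧ ∀ N : Subgroup G, N.Normal → N ≠ ⊥ → M ≤ N := by
  obtain ⟨M, -, ⟨nM, m1⟩, mM⟩ := exists_minimal (P := fun M : Subgroup G => M ⊴ ⊤ ∧ M ≠ ⊥)
    ⟨NormalIn.refl ⊤, t⟩
  have ns : ¬ Sol M := fun k => m1 (s M (normalIn_top.1 nM) k)
  refine ⟨M, normalIn_top.1 nM, ?_, fun k => ns (Abel.of_comm k).sol, fun N hN n1 => ?_⟩
  · obtain ⟨S, -, ⟨nS, s1⟩, mS⟩ := exists_minimal (P := fun S : Subgroup G => S ⊴ M ∧ S ≠ ⊥)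
      ⟨NormalIn.refl M, m1⟩
    have sS : ¬ Sol S := fun k => m1 (by
      have f := (k.inf_F_ne_bot nS s1)
      exact absurd (s _ (normalIn_top.1 nM.F) (F_nil M).sol) fun e => f (by rw [e, inf_bot_eq]))
    have e : S = M := mM S ⟨⟨le_top, le_norm_of_cj_le fun g _ => ?_⟩, s1⟩ nS.le
    · subst e
      have : Nontrivial S := (nontrivial_iff_ne_bot S).2 s1
      refine ⟨fun X hX => or_iff_not_imp_left.2 fun x1 => map_injective S.subtype_injective ?_⟩
      rw [map_top_subtype]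
      exact mS _ ⟨by simpa [map_top_subtype] using (normalIn_top.2 hX).map S.subtype,
        mt (map_eq_bot_iff_of_injective _ S.subtype_injective).1 x1⟩ (map_subtype_le X)
    have n := nS.cj g
    rw [cj_of_norm (nM.norm (mem_top g))] at n
    by_contra c
    have i : S ⊓ cj g S = ⊥ := by_contra fun i =>
      c (eq_of_card_eq (inf_eq_left.1 (mS _ ⟨nS.inf n, i⟩ inf_le_left)) (by simp)).ge
    exact s1 (by simpa using eq_bot_of_cent h le_top le_top sS (nS.cent_of_inf_eq_bot n i))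
  · by_contra c
    have i : M ⊓ N = ⊥ := by_contra fun i =>
      c (inf_eq_left.1 (mM _ ⟨nM.inf (normalIn_top.2 hN), i⟩ inf_le_left))
    exact n1 (eq_bot_of_cent h le_top le_top ns (nM.cent_of_inf_eq_bot (normalIn_top.2 hN) i))


/-- Let G be a finite non-solvable group in which every element has prime-power order, and let R be its largest solvable normal subgroup. Then R is a p-group for some prime p; G/R has a non-abelian simple normal subgroup contained in every nontrivial normal subgroup of G/R (its unique minimal normal subgroup); and the order of every solvable subgroup of G has at most two prime divisors. -/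
theorem result {G : Type*} [Group G] [Finite G] (hns : ¬ Group.IsSolvable G) (hpp : ∀ g : G, g ≠ 1 → IsPrimePow (orderOf g))
    (R : Subgroup G) [R.Normal] (hRs : Group.IsSolvable ↥R) (hRmax : ∀ N : Subgroup G, N.Normal → Group.IsSolvable ↥N → N ≤ R) :
    (∃ p : ℕ, p.Prime ∧ IsPGroup p ↥R) ∧
      (∃ M : Subgroup (G ⧸ R), M.Normal ∧ IsSimpleGroup ↥M ∧ ¬ IsMulCommutative ↥M ∧
        ∀ N : Subgroup (G ⧸ R), N.Normal → N ≠ ⊥ → M ≤ N) ∧
      ∀ H : Subgroup G, Group.IsSolvable ↥H → (Nat.card ↥H).primeFactors.card ≤ 2 := by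
  have ne : ∀ p q : ℕ, p.Prime → q.Prime → p ≠ q → ∀ g : G, orderOf g ≠ p * q := fun p q hp hq pq g e => by
    obtain ⟨r, k, hr, -, e'⟩ := hpp g fun k => (one_lt_mul'' hp.one_lt hq.one_lt).ne
      (by rw [← e, k, orderOf_one])
    have := fun s (hs : s.Prime) (d : s ∣ p * q) =>
      (Nat.prime_dvd_prime_iff_eq hs hr.nat_prime).1 (hs.dvd_of_dvd_pow (e' ▸ e ▸ d))
    exact pq ((this p hp (dvd_mul_right p q)).trans (this q hq (dvd_mul_left q p)).symm)
  have sep : ∀ p, CF.SolvStr.Sep {p} (⊤ : Subgroup G) := fun p =>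
    sep_of_forall fun a b ha hb ma mb g _ => ne a b ha hb (fun e => mb (e ▸ ma)) g
  have nR : R ⊴ ⊤ := normalIn_top.2 ‹_›
  refine ⟨?_, exists_min (fun p => ?_) (fun e => hns ?_) fun N hN s => ?_, fun H s => ?_⟩
  · by_cases r : R = ⊥
    · exact ⟨2, Nat.prime_two, r ▸ IsPGroup.of_bot⟩
    obtain ⟨p, hp, h1⟩ := Sol.exists_O_ne_bot hRs r
    refine ⟨p, hp, PiGrp.isPGroup (by_contra fun c => hns ?_)⟩
    have sR := (sep p).mono (le_top (a := R))
    obtain ⟨C, -, f⟩ := sR.frob_O2 hRs (sR.O_eq_bot.resolve_right h1) c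
    have sK := Sol.mono hRs (O2_le {p} {p}ᶜ R)
    have sd := sd_norm f sK (nR.O2 _ _) (nR.O _).norm
    obtain ⟨x, -, hq, n⟩ := exists_norm_prime f.reg f.norm h1 (sK.mono f.sd.right_le) f.compl_ne
    have d := (Cyc.der_le_cent (cyc_zpowers x) (inf_le_right.trans n : ⊤ ⊓ 𝐍 C ≤ _))
    have k : PiGrp {orderOf x} (𝐂 (zpowers x)) := fun r hr dr => by_contra fun rq => by
      obtain ⟨y, hy, oy⟩ := exists_mem_orderOf_eq hr dr
      obtain ⟨g, -, e⟩ := exists_orderOf_mul (L := ⊤) hq hr (Ne.symm rq) dvd_rfl oy.symm.dvd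
        (mem_cent.1 hy x (mem_zpowers x)) trivial trivial
      exact ne _ _ hq hr (Ne.symm rq) g e
    have := sd.sol (O_pi _ _).sol (Sol.of_qt (k.le d).sol (der_normal _).norm (abel_qt_der _).sol)
    exact Group.isSolvable_of_surjective (f := (⊤ : Subgroup G).subtype) fun g => ⟨⟨g, trivial⟩, rfl⟩
  · simpa [map_top_of_surjective _ (QuotientGroup.mk'_surjective R)] using
      (sep p).map (QuotientGroup.mk' R)
  · have : Subsingleton (G ⧸ R) := ⟨fun a b => by
      rw [eq_one_of_mem_bot e (mem_top a), eq_one_of_mem_bot e (mem_top b)]⟩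
    exact Group.isSolvable_of_ker_le_range R.subtype (QuotientGroup.mk' R) (by simp)
  · have : Sol (N.comap (QuotientGroup.mk' R)) := Group.isSolvable_of_ker_le_range
      (inclusion (QuotientGroup.le_comap_mk' R N)) ((QuotientGroup.mk' R).subgroupComap N) fun x hx =>
        ⟨⟨x, (QuotientGroup.eq_one_iff _).1 (congrArg Subtype.val hx)⟩, rfl⟩
    rw [← map_comap_eq_self_of_surjective (QuotientGroup.mk'_surjective R) N,
      Subgroup.map_eq_bot_iff, QuotientGroup.ker_mk']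
    exact hRmax _ inferInstance this
  · by_contra c
    obtain ⟨p, q, r, hp, hq, hr, pq, pr, qr⟩ := Finset.two_lt_card_iff.1 (not_le.1 c)
    obtain ⟨g, -, e | e | e⟩ := not_three s (Nat.prime_of_mem_primeFactors hp)
      (Nat.prime_of_mem_primeFactors hq) (Nat.prime_of_mem_primeFactors hr) pq pr qr
      (Nat.dvd_of_mem_primeFactors hp) (Nat.dvd_of_mem_primeFactors hq) (Nat.dvd_of_mem_primeFactors hr)
    exacts [ne p q (Nat.prime_of_mem_primeFactors hp) (Nat.prime_of_mem_primeFactors hq) pq g e,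
      ne p r (Nat.prime_of_mem_primeFactors hp) (Nat.prime_of_mem_primeFactors hr) pr g e,
      ne q r (Nat.prime_of_mem_primeFactors hq) (Nat.prime_of_mem_primeFactors hr) qr g e]

end Cfsg.Agent.S3992
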