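import Cfsg.Statements.S3994
import Cfsg.Agent.Fgs2.FrobCount

set_option autoImplicit false
open Cfsg

namespace Cfsg.Agent.S3994

/-- Let G be a finite group and n a positive integer. The number of elements of G whose order is divisible by n is either 0 or divisible by the largest divisor of the order of G that is coprime to n. -/
theorem result {G : Type*} [Group G] [Finite G] (n : ℕ) (hn : 0 < n) :
    Nat.card {g : G // n ∣ orderOf g} = 0 ∨
      (Nat.card G / Nat.gcd (Nat.card G) (n ^ Nat.card G)) ∣ Nat.card {g : G // n ∣ orderOf g} := by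
  right
  have hG : Nat.card G ≠ 0 := Nat.card_pos.ne'
  set m := Nat.card G / Nat.gcd (Nat.card G) (n ^ Nat.card G) with hm
  have hmG : m ∣ Nat.card G := Nat.div_dvd_of_dvd (Nat.gcd_dvd_left _ _)
  have hcop : m.Coprime n := by
    refine Nat.coprime_of_dvd fun q hq hqm hqn => ?_
    have h1 : m * Nat.gcd (Nat.card G) (n ^ Nat.card G) = Nat.card G :=
      Nat.div_mul_cancel (Nat.gcd_dvd_left _ _)
    set k := (Nat.card G).factorization q with hk
    have h2 : q ^ k ∣ Nat.gcd (Nat.card G) (n ^ Nat.card G) := by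
      refine Nat.dvd_gcd (Nat.ordProj_dvd _ _) ?_
      exact (pow_dvd_pow q (Nat.factorization_lt q hG).le).trans (pow_dvd_pow_of_dvd hqn _)
    have h3 : q ^ (k + 1) ∣ Nat.card G := by
      rw [← h1, pow_succ']
      exact mul_dvd_mul hqm h2
    have := (hq.pow_dvd_iff_le_factorization hG).1 h3
    omega
  have h := CF.Fgs2.gcd_dvd_ncard_pow_mem (G := G) m {k | n ∣ orderOf k} fun h k hk => by
    have : orderOf (h * k * h⁻¹) = orderOf k := (MulAut.conj h).orderOf_eq k
    simpa [this] using hk
  rw [Nat.gcd_eq_left hmG] at h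
  have e : {x : G | x ^ m ∈ {k : G | n ∣ orderOf k}} = {x | n ∣ orderOf x} := by
    ext x
    simp only [Set.mem_ofPred_eq]
    refine ⟨fun h => h.trans (orderOf_pow_dvd m), fun h => ?_⟩
    have h1 : orderOf x ∣ m * orderOf (x ^ m) := by
      rw [orderOf_dvd_iff_pow_eq_one, pow_mul, pow_orderOf_eq_one]
    exact hcop.symm.dvd_of_dvd_mul_left (h.trans h1)
  rw [e] at h
  exact h

end Cfsg.Agent.S3994
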