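import Cfsg.Statements.S3995
import Cfsg.Agent.SolvStr.PG3

set_option autoImplicit false
open Cfsg

namespace Cfsg.Agent.S3995

/-- Let G be a finite group such that the numbers of elements of each order that occurs in G (the numbers #{g : o(g) = m}, m ranging over the element orders of G) take exactly two values, 1 and some n ≠ 1. Then either G is a p-group of exponent p and order at least 3 for some prime p, or G is the quaternion group of order 8, or G is cyclic of order 4, or G ≅ Z₂ × P for a p-group P of exponent p with p an odd prime. -/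
theorem result {G : Type*} [Group G] [Finite G] (n : ℕ) (hn : n ≠ 1) (h : ((fun m : ℕ => Nat.card {g : G // orderOf g = m}) '' Set.range (orderOf : G → ℕ)) = {1, n}) :
    (∃ p : ℕ, p.Prime ∧ IsPGroup p G ∧ 3 ≤ Nat.card G ∧ Monoid.exponent G = p) ∨
      Nonempty (G ≃* QuaternionGroup 2) ∨ (IsCyclic G ∧ Nat.card G = 4) ∨
      (∃ (p : ℕ) (P : Type) (_ : Group P) (_ : Finite P), p.Prime ∧ p ≠ 2 ∧ IsPGroup p P ∧ Monoid.exponent P = p ∧
        Nonempty (G ≃* Multiplicative (ZMod 2) × P)) := by
  open Subgroup CF.BG CF.SolvStr in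
  have k0 : ∀ k, cnt G k = 0 ∨ cnt G k = 1 ∨ cnt G k = n := fun k => by simpa [h] using cnt_mem (G := G) k
  have k : ∀ k, 2 < k → cnt G k = 0 ∨ cnt G k = n := fun k l =>
    (k0 k).imp_right (·.resolve_left fun e => Nat.not_even_one (e ▸ even_cnt l))
  obtain ⟨_, ⟨u, rfl⟩, hu⟩ := h.ge (Or.inr rfl)
  have n0 : n ≠ 0 := hu ▸ cnt_ne_zero.2 ⟨u, rfl⟩
  have uq : ∀ p q : ℕ, p.Prime → q.Prime → p ∣ Nat.card G → q ∣ Nat.card G → cnt G p = n →
      cnt G q = n → q = p := fun p q hp hq dp dq e1 e2 => by_contra fun pq => by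
    have key : ∀ r : ℕ, r.Prime → r ∣ q * p → (n : ZMod r) = -1 → r = 2 := fun r hr d e =>
      by_contra fun o => by
        have h2 := cnt_E2 hq hp pq dq dp d
        rcases k (q * p) (by nlinarith [hp.two_le, hq.two_le]) with e' | e' <;> rw [e', e1, e2] at h2
        · exact one_ne_zmod hr (by push_cast at h2; linear_combination 2 * e - h2)
        · exact two_ne_zmod hr o (by linear_combination 3 * e - h2)
    exact pq ((key q hq (dvd_mul_right q p) (e2 ▸ cnt_E1 hq dq)).trans
      (key p hp (dvd_mul_left p q) (e1 ▸ cnt_E1 hp dp)).symm)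
  have sq : ∀ p : ℕ, p.Prime → p ∣ Nat.card G → cnt G p = n → cnt G (p ^ 2) = 0 := fun p hp d e =>
    (k _ (by nlinarith [hp.two_le])).resolve_right fun e' => one_ne_zmod hp (by
      have := cnt_Esq (G := G) hp
      rw [e', ← e, cnt_E1 hp d] at this
      linear_combination -this)
  have od : ∀ p : ℕ, p.Prime → p ∣ Nat.card G → p ≠ 2 → cnt G p = n := fun p hp d o =>
    (k p (hp.two_le.lt_of_ne' o)).resolve_left (cnt_prime_ne hp d)
  by_cases h2 : cnt G 2 = 1
  swap
  · have al : ∀ p : ℕ, p.Prime → p ∣ Nat.card G → cnt G p = n := fun p hp d => by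
      by_cases o : p = 2
      · exact ((k0 p).resolve_left (cnt_prime_ne hp d)).resolve_left (o ▸ h2)
      · exact od p hp d o
    obtain ⟨p, hp, d⟩ := Nat.exists_prime_and_dvd (n := orderOf u) fun e => hn (by
      rw [← hu, e]; exact cnt_one)
    have t : (⊤ : Subgroup G) ≠ ⊥ := fun e => hp.ne_one (by simpa [eq_one_of_mem_bot e (mem_top u)] using d)
    have d := d.trans (orderOf_dvd_natCard u)
    have pG : PiGrp {p} (⊤ : Subgroup G) := fun q hq dq =>
      uq p q hp hq d (card_top' (G := G) ▸ dq) (al p hp d) (al q hq (card_top' (G := G) ▸ dq))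
    refine Or.inl ⟨p, hp, pG.isPGroup.of_equiv topEquiv, ?_, ?_⟩
    · have := sum_cnt_le (G := G) hp.ne_zero
      rw [hp.sum_divisors, al p hp d, cnt_one] at this
      omega
    · rw [← Monoid.exponent_eq_of_mulEquiv topEquiv, exponent_of_cnt hp (sq p hp d (al p hp d)) pG t]
  obtain ⟨z, hz, c, uz⟩ := exists_inv h2
  have e4 : 4 ∣ Nat.card G → cnt G 4 = n := fun d =>
    (k 4 (by norm_num)).resolve_left (by have := cnt_four h2 d; omega)
  by_cases pG : PiGrp {2} (⊤ : Subgroup G)
  · have e8 : cnt G (2 ^ (2 + 1)) = 0 := (k _ (by norm_num)).resolve_right fun e => by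
      obtain ⟨g, o⟩ := cnt_ne_zero.1 (e ▸ n0)
      have d := o ▸ orderOf_dvd_natCard g
      have := dvd_sum_cnt d
      have d4 : 4 ∣ Nat.card G := Dvd.dvd.trans (by norm_num) d
      have := cnt_four h2 d4
      have := e4 d4
      have := cnt_one (G := G)
      simp only [show (2 ^ (2 + 1) : ℕ).divisors = {1, 2, 4, 2 ^ (2 + 1)} by decide] at *
      rw [Finset.sum_insert (by decide), Finset.sum_insert (by decide), Finset.sum_pair (by decide)]
        at *
      omega
    have e : ∀ g : G, g ^ 4 = 1 := fun g => pow_eq_one_of_cnt Nat.prime_two e8 (pG.elt (mem_top g))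
    rcases CF.Solv.isCyclic_or_quaternion (pG.isPGroup.of_equiv topEquiv) (fun x y hx hy x1 => by
      by_cases y1 : y = 1
      · exact y1 ▸ one_mem _
      · rw [uz x (orderOf_eq_prime hx x1), uz y (orderOf_eq_prime hy y1)]; exact mem_zpowers z)
      with cy | ⟨-, m, m1, ⟨j⟩⟩
    · refine Or.inr (Or.inr (Or.inl ⟨cy, Nat.dvd_antisymm ?_ ?_⟩))
      · exact IsCyclic.exponent_eq_card (α := G) ▸ Monoid.exponent_dvd_of_forall_pow_eq_one e
      · rcases (Nat.dvd_prime_pow (m := 2) Nat.prime_two).1 (orderOf_dvd_of_pow_eq_one (e u))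
          with ⟨i, l, o⟩
        interval_cases i
        · exact absurd (by rw [← hu, o]; exact cnt_one) hn
        · exact absurd (by rw [← hu, o]; exact h2) hn
        · exact (show 4 = orderOf u from o.symm) ▸ orderOf_dvd_natCard u
    · have := Nat.le_of_dvd (by norm_num) (orderOf_dvd_of_pow_eq_one (e (j.symm (QuaternionGroup.a 1))))
      rw [MulEquiv.orderOf_eq, QuaternionGroup.orderOf_a_one, ← pow_succ'] at this
      obtain rfl : m = 1 := by
        have : m + 1 ≤ 2 := (Nat.pow_le_pow_iff_right (a := 2) (by norm_num)).1 this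
        omega
      exact Or.inr (Or.inl ⟨j⟩)
  obtain ⟨p, hp, d, o⟩ : ∃ q : ℕ, q.Prime ∧ q ∣ Nat.card G ∧ q ≠ 2 := by
    simpa only [PiNat, not_forall, exists_prop, Set.mem_singleton_iff, card_top'] using pG
  have n4 : ¬ 4 ∣ Nat.card G := fun d4 => by
    have h1 := cnt_E1 hp d
    have h3 := cnt_E4 h2 d4 hp o d
    rw [od p hp d o] at h1
    rcases k (4 * p) (by have := hp.pos; omega) with e | e <;> rw [e, e4 d4] at h3
    · exact one_ne_zmod hp (by push_cast at h3; linear_combination h1 - h3)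
    · exact two_ne_zmod hp o (by linear_combination 2 * h1 - h3)
  have cz : ♯(zpowers z) = 2 := by rw [Nat.card_zpowers, hz]
  have lZ := (zpowers_le.2 c).trans (center_le_cent ⊤)
  obtain ⟨P, sd, hP⟩ := (syl_mk Nat.prime_two le_top (piGrp_of_card_prime Nat.prime_two cz) fun d2 =>
    n4 (by
      rw [← card_top', ← card_mul_relIndex (le_top (a := zpowers z)), cz]
      exact mul_dvd_mul_left 2 d2)).exists_compl ((cent_comm.1 lZ).trans (cent_le_norm _))
  have pP : PiGrp {p} P := fun q hq dq =>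
    have d' := dq.trans (card_subgroup_dvd_card P)
    uq p q hp hq d d' (od p hp d o) (od q hq d' (hP.pi q hq dq))
  have := Fact.mk Nat.prime_two
  have i : Shrink.{0} P ≃* P := Shrink.mulEquiv
  refine Or.inr (Or.inr (Or.inr ⟨p, Shrink.{0} P, _, Finite.of_equiv _ i.symm.toEquiv, hp, o, pP.isPGroup.of_equiv i.symm, ?_,
    ⟨(MulEquiv.ofBijective ((zpowers z).subtype.noncommCoprod P.subtype fun a b =>
      (mem_center_iff.1 (zpowers_le.2 c a.2) b).symm) sd.isComplement').symm.trans
      ((mulEquivOfPrimeCardEq cz (by simp)).prodCongr i.symm)⟩⟩))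
  rw [Monoid.exponent_eq_of_mulEquiv i, exponent_of_cnt hp (sq p hp d (od p hp d o)) pP
    (hP.ne_bot hp o (by rwa [card_top']))]

end Cfsg.Agent.S3995
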