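import Cfsg.Statements.S3996
import Cfsg.Agent.SolvStr.PG3
import Cfsg.Agent.Hyp.FTProof

set_option autoImplicit false
open Cfsg

namespace Cfsg.Agent.S3996

open Subgroup CF.BG CF.SolvStr

variable {G : Type*} [Group G] [Finite G] {p q m n : ℕ}

theorem aux1 (hp : p.Prime) (hq : q.Prime) (o : p ≠ 2) (pq : p ≠ q) (dp : p ∣ Nat.card G)
    (dq : q ∣ Nat.card G) (e1 : cnt G p = n) (e2 : cnt G q = n)
    (e : cnt G (p * q) = 0 ∨ cnt G (p * q) = n) : False := by
  have h1 := cnt_E1 hp dp
  have h2 := cnt_E2 hp hq pq dp dq (dvd_mul_right p q)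
  rw [e1] at h1 h2
  rcases e with e | e <;> rw [e, e2] at h2
  · exact one_ne_zmod hp (by push_cast at h2; linear_combination 2 * h1 - h2)
  · exact two_ne_zmod hp o (by linear_combination 3 * h1 - h2)

theorem aux2 (h : cnt G 2 = 1) (d : 4 ∣ Nat.card G) (e4 : cnt G 4 = m)
    (k : ∀ k : ℕ, 4 ∣ k.totient → 2 < k → cnt G k = 0 ∨ cnt G k = n)
    (hp : p.Prime) (o : p ≠ 2) (dp : p ∣ Nat.card G) (e : cnt G p = m) :
    cnt G (4 * p) = n ∧ (n : ZMod p) = 1 := by
  have h1 := cnt_E1 hp dp
  have h2 := cnt_E4 h d hp o dp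
  rw [e4, ← e, h1] at h2
  have c : (4 : ℕ).Coprime p := ((Nat.coprime_primes Nat.prime_two hp).2 o.symm).pow_left 2
  rcases k (4 * p) (by
    rw [Nat.totient_mul c]
    exact mul_dvd_mul (dvd_refl 2) (Nat.totient_even (hp.two_le.lt_of_ne' o)).two_dvd)
    (by have := hp.pos; omega) with e | e <;> rw [e] at h2
  · exact absurd (by push_cast at h2; linear_combination -h2) (one_ne_zmod hp)
  · exact ⟨e, by linear_combination h2⟩

theorem aux3 (h : cnt G 2 = 1) (d : 4 ∣ Nat.card G) (e4 : cnt G 4 = m)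
    (k : ∀ k, 2 < k → cnt G k = 0 ∨ cnt G k = m ∨ cnt G k = n)
    (hp : p.Prime) (o : p ≠ 2) (dp : p ∣ Nat.card G) (hq : q.Prime) (o' : q ≠ 2)
    (dq : q ∣ Nat.card G) (pq : p ≠ q) : False := by
  have k' : ∀ k : ℕ, 4 ∣ k.totient → 2 < k → cnt G k = 0 ∨ cnt G k = n := fun j d' l =>
    (k j l).imp_right (·.resolve_left fun e => by
      have := cnt_four h d
      have := d'.trans (totient_dvd_cnt (G := G) j)
      omega)
  have lp := hp.two_le.lt_of_ne' o
  have lq := hq.two_le.lt_of_ne' o'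
  have t : 4 ∣ (p * q).totient := by
    rw [Nat.totient_mul ((Nat.coprime_primes hp hq).2 pq)]
    exact mul_dvd_mul (Nat.totient_even lp).two_dvd (Nat.totient_even lq).two_dvd
  have e := k' _ t (by nlinarith)
  have mix : ∀ {p q : ℕ}, p.Prime → p ≠ 2 → p ∣ Nat.card G → q.Prime → q ∣ Nat.card G → p ≠ q →
      cnt G (p * q) = 0 ∨ cnt G (p * q) = n → cnt G p = m → cnt G q = n → False :=
    fun {p q} hp o dp hq dq pq e e1 e2 => by
      have h1 := cnt_E1 hp dp
      have h2 := cnt_E2 hp hq pq dp dq (dvd_mul_right p q)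
      have h3 := (aux2 h d e4 k' hp o dp e1).2
      rcases e with e | e <;> rw [e, e2] at h2
      · exact one_ne_zmod hp (by push_cast at h2; linear_combination h2 - h1 - h3)
      · exact two_ne_zmod hp o (by linear_combination h2 - h1 - 2 * h3)
  rcases (k p lp).resolve_left (cnt_prime_ne hp dp) with e1 | e1 <;>
    rcases (k q lq).resolve_left (cnt_prime_ne hq dq) with e2 | e2
  · have h3 := (aux2 h d e4 k' hp o dp e1).2
    have h5 := cnt_E5 h d hp o dp hq o' dq pq
    rw [(aux2 h d e4 k' hq o' dq e2).1] at h5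
    rcases k' (4 * p * q) (t.trans (Nat.totient_dvd_of_dvd ⟨4, by ring⟩)) (by nlinarith) with e | e <;>
      rw [e] at h5
    · exact one_ne_zmod hp (by push_cast at h5; linear_combination h5 - h3)
    · exact two_ne_zmod hp o (by linear_combination h5 - 2 * h3)
  · exact mix hp o dp hq dq pq e e1 e2
  · exact mix hq o' dq hp dp pq.symm (mul_comm p q ▸ e) e2 e1
  · exact aux1 hp hq o pq dp dq e1 e2 e


/-- A finite group in which the numbers of elements of each order that occurs (the numbers #{g : o(g) = m}, m ranging over the element orders) take exactly three different values is solvable. -/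
theorem result {G : Type*} [Group G] [Finite G] (h : (((fun m : ℕ => Nat.card {g : G // orderOf g = m}) '' Set.range (orderOf : G → ℕ))).ncard = 3) : Group.IsSolvable G := by
  obtain ⟨m, n, k, k2⟩ := exists_vals h
  by_contra ns
  have d2 : 2 ∣ Nat.card G := by_contra fun c => ns (CF.Hyp.isSolvable_of_odd (Nat.odd_iff.2 (by omega)))
  obtain ⟨p, q, hp, hq, o, o', pq, dp, dq⟩ : ∃ p q : ℕ, p.Prime ∧ q.Prime ∧ p ≠ 2 ∧ q ≠ 2 ∧ p ≠ q ∧
      p ∣ Nat.card G ∧ q ∣ Nat.card G := by
    have := not_le.1 (mt CF.Char.isSolvable_of_card_primeFactors_le_two ns)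
    obtain ⟨p, hp, q, hq, pq⟩ := Finset.one_lt_card.1
      ((Nat.lt_pred_iff.2 this).trans_le (Finset.pred_card_le_card_erase (a := 2)))
    rw [Finset.mem_erase, Nat.mem_primeFactors] at hp hq
    exact ⟨p, q, hp.2.1, hq.2.1, hp.1, hq.1, pq, hp.2.2.1, hq.2.2.1⟩
  have lp := hp.two_le.lt_of_ne' o
  have lq := hq.two_le.lt_of_ne' o'
  by_cases h2 : cnt G 2 = 1
  · by_cases d : 4 ∣ Nat.card G
    · have := cnt_four h2 d
      rcases (k 4 (by norm_num)).resolve_left (by omega) with e | e
      · exact aux3 h2 d e k hp o dp hq o' dq pq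
      · exact aux3 h2 d e (fun j l => (k j l).imp_right Or.symm) hp o dp hq o' dq pq
    obtain ⟨z, hz, c, -⟩ := exists_inv h2
    have : (zpowers z).Normal := normalIn_top.1 ⟨le_top, (cent_comm.1 ((zpowers_le.2 c).trans
      (center_le_cent _))).trans (cent_le_norm _)⟩
    have : Group.IsSolvable (G ⧸ zpowers z) := CF.Hyp.isSolvable_of_odd (Nat.odd_iff.2 (by
      have := card_eq_card_quotient_mul_card_subgroup (zpowers z)
      rw [Nat.card_zpowers, hz] at this
      omega))
    have : Sol (zpowers z) := (abel_zpowers z).sol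
    exact ns (Group.isSolvable_of_ker_le_range (zpowers z).subtype (QuotientGroup.mk' (zpowers z)) (by simp))
  have od : ¬ Even (cnt G 2) := fun e => by
    have := cnt_E1 Nat.prime_two d2
    rw [eq_zmod e.two_dvd dvd_rfl] at this
    exact absurd this (by decide)
  have fin : ∀ {m n}, (∀ k, 2 < k → cnt G k = 0 ∨ cnt G k = m ∨ cnt G k = n) → cnt G 2 = m → False :=
    fun {m n} k e => by
      have k' : ∀ j, 2 < j → cnt G j = 0 ∨ cnt G j = n := fun j l =>
        (k j l).imp_right (·.resolve_left fun e' => od (e ▸ e' ▸ even_cnt l))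
      exact aux1 hp hq o pq dp dq ((k' p lp).resolve_left (cnt_prime_ne hp dp))
        ((k' q lq).resolve_left (cnt_prime_ne hq dq)) (k' _ (by nlinarith))
  rcases k2 with e | e | e | e
  exacts [cnt_prime_ne Nat.prime_two d2 e, h2 e, fin k e, fin (fun j l => (k j l).imp_right Or.symm) e]

end Cfsg.Agent.S3996
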