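import Cfsg.Statements.S3997
import Cfsg.Agent.BG.B11
import Cfsg.Agent.Fgs1.OrderType

set_option autoImplicit false
open Cfsg

namespace Cfsg.Agent.S3997

open CF.BG Subgroup


/-- Let G and H be finite groups with the same order type: for every m they have the same number of elements of order m. If G is nilpotent then so is H. -/
theorem result {G H : Type*} [Group G] [Finite G] [Group H] [Finite H] (hT : (∀ m : ℕ, Nat.card {g : G // orderOf g = m} = Nat.card {h : H // orderOf h = m})) (hG : Group.IsNilpotent G) :
    Group.IsNilpotent H := by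
  obtain ⟨e, he⟩ := CF.Fgs1.exists_equiv_of_orderType hT
  have hG' : Nil (⊤ : Subgroup G) := inferInstance
  have : Nil (⊤ : Subgroup H) := by
    apply nil_of_forall_syl
    intro p hp _
    obtain ⟨P, hP⟩ := exists_syl p (⊤ : Subgroup H)
    have hN := hG'.hall_O {p}
    haveI : (𝐎 {p} (⊤ : Subgroup G)).Normal := normalIn_top.1 (O_normal _ _)
    have := CF.Fgs1.normal_of_orderType e he (hall_top_iff.1 hN) (hall_top_iff.1 hP)
    exact ⟨P, hP, (normalIn_top.2 this).norm⟩
  exact Group.nilpotent_of_mulEquiv (Subgroup.topEquiv : (⊤ : Subgroup H) ≃* H)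

end Cfsg.Agent.S3997
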