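import Mathlib
import Cfsg.Statements.S3998
import Cfsg.Agent.Fgs1.OrderType
import Cfsg.Agent.SolvStr.Super2

set_option autoImplicit false
open Cfsg

namespace Cfsg.Agent.S3998

open Subgroup CF.Solv

theorem isPiHall_piCore {G : Type*} [Group G] [Finite G] (hG : Cfsg.IsSupersolvable G) (t : ℕ) :
    Cfsg.IsPiHall {q | t ≤ q} (Cfsg.piCore {q | t ≤ q} G) := by
  rw [isPiHall_iff]
  refine ⟨piCore_piNum, ?_⟩
  intro q hq hd hqt
  set N := Cfsg.piCore {q | t ≤ q} G with hN
  have hQ := CF.SolvStr.ss_quotient hG N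
  have hne : (Nat.card (G ⧸ N)).primeFactors.Nonempty :=
    ⟨q, Nat.mem_primeFactors.2 ⟨hq, hd, Nat.card_pos.ne'⟩⟩
  set p := (Nat.card (G ⧸ N)).primeFactors.max' hne with hp
  have hpm := Nat.mem_primeFactors.1 (Finset.max'_mem _ hne)
  have hmax : ∀ r : ℕ, r.Prime → r ∣ Nat.card (G ⧸ N) → r ≤ p := fun r hr hrd =>
    Finset.le_max' _ _ (Nat.mem_primeFactors.2 ⟨hr, hrd, Nat.card_pos.ne'⟩)
  obtain ⟨M, hM, hMc⟩ := CF.SolvStr.ss_exists_normal_largest hQ hpm.1 hpm.2.1 hmax
  have hle : M ≤ Cfsg.piCore {q | t ≤ q} (G ⧸ N) := by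
    refine le_piCore ?_
    intro r hr hrd
    rw [hMc] at hrd
    have := (Nat.prime_dvd_prime_iff_eq hr hpm.1).1 hrd
    subst this
    exact le_trans hqt (hmax q hq hd)
  rw [piCore_quotient_piCore, le_bot_iff] at hle
  rw [hle, card_bot] at hMc
  exact hpm.1.one_lt.ne hMc


/-- Let G and H be finite groups with the same order type (for every m the same number of elements of order m). If G is supersolvable then H is solvable. -/
theorem result {G H : Type*} [Group G] [Finite G] [Group H] [Finite H] (hT : (∀ m : ℕ, Nat.card {g : G // orderOf g = m} = Nat.card {h : H // orderOf h = m})) (hG : Cfsg.IsSupersolvable G) :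
    Group.IsSolvable H := by
  obtain ⟨e, he⟩ := CF.Fgs1.exists_equiv_of_orderType hT
  have key : ∀ t : ℕ, t ≤ Nat.card H + 1 → ∃ N : Subgroup H, N.Normal ∧
      Cfsg.IsPiHall {q | t ≤ q} N ∧ Group.IsSolvable N := by
    intro t ht
    induction ht using Nat.decreasingInduction with
    | self =>
      refine ⟨⊥, inferInstance, ?_, inferInstance⟩
      rw [isPiHall_iff, card_bot, index_bot]
      refine ⟨piNum_one, fun q hq hd hqt => ?_⟩
      have := Nat.le_of_dvd Nat.card_pos hd
      simp only [Set.mem_setOf_eq] at hqt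
      omega
    | of_succ t ht ih =>
      obtain ⟨N, hN, hNh, hNs⟩ := ih
      by_cases hp : t.Prime
      · haveI := Fact.mk hp
        obtain ⟨P⟩ : Nonempty (Sylow t H) := inferInstance
        have h1 := CF.Fgs1.isPiHall_sup_sylow hNh P
        have e1 : insert t {q | t + 1 ≤ q} = {q | t ≤ q} := by
          ext q; simp only [Set.mem_insert_iff, Set.mem_setOf_eq]; omega
        rw [e1] at h1
        haveI := P.isPGroup'.isNilpotent
        exact ⟨_, CF.Fgs1.normal_of_orderType e he (isPiHall_piCore hG t) h1, h1,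
          isSolvable_sup _ _⟩
      · refine ⟨N, hN, ⟨fun q hq hd => ?_, fun q hq hqt => ?_⟩, hNs⟩
        · have := hNh.1 q hq hd
          simp only [Set.mem_setOf_eq] at this ⊢
          omega
        · refine hNh.2 q hq ?_
          simp only [Set.mem_setOf_eq] at hqt ⊢
          have : q ≠ t := by rintro rfl; exact hp hq
          omega
  obtain ⟨N, hN, hNh, hNs⟩ := key 0 (Nat.zero_le _)
  have : N = ⊤ := by
    rw [← index_eq_one]
    by_contra hne
    obtain ⟨q, hq, hd⟩ := Nat.exists_prime_and_dvd hne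
    exact hNh.2 q hq (Nat.zero_le q) hd
  subst this
  exact solvable_of_surjective (f := (⊤ : Subgroup H).subtype) fun x => ⟨⟨x, trivial⟩, rfl⟩

end Cfsg.Agent.S3998
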