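import Mathlib
import Cfsg.Statements.S3999
import Cfsg.Agent.Fgs1.FPF8
import Cfsg.Agent.Fgs1.OrderType
import Cfsg.Agent.SolvStr.Schmidt
import Cfsg.Agent.Solv.CyclicMax
import Cfsg.Agent.Coprime.Thompson

set_option autoImplicit false
open Cfsg

namespace Cfsg.Agent.S3999

open Subgroup CF.Fgs1 CF.Fgs1.Fpf CF.Solv CF.Coprime
open scoped commutatorElement MatrixGroups

theorem comm_z {X : Type*} [Group X] [Finite X] [IsZGroup X] (hX : FPF X) {p : ℕ} (hp : p.Prime)
    {u v : X} (hu : orderOf u = p) (hv : orderOf v = p) : u * v = v * u := by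
  haveI := IsZGroup.isCyclic_commutator X
  have hcop := IsZGroup.coprime_commutator_index X
  by_cases h : p ∣ Nat.card (commutator X)
  · have key : ∀ w : X, orderOf w = p → w ∈ commutator X := fun w hw => by
      rw [← QuotientGroup.eq_one_iff, ← orderOf_eq_one_iff]
      exact Nat.eq_one_of_dvd_coprimes (hcop.coprime_dvd_left h)
        (hw ▸ orderOf_map_dvd (QuotientGroup.mk' _) w) (orderOf_dvd_natCard _)
    exact comm_of_mem inferInstance (key u hu) (key v hv)
  · have key : ∀ w : X, orderOf w = p → w ∈ centralizer (commutator X : Set X) := fun w hw =>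
      hX.mem_centralizer (hw ▸ hp) (le_normalizer_of_normal (mem_top _))
        (hw ▸ (Nat.Prime.coprime_iff_not_dvd hp).mpr h)
    have hc : ⁅u, v⁆ ∈ commutator X := commutator_mem_commutator (mem_top _) (mem_top _)
    have h1 : ∀ k : ℕ, ⁅u, v⁆ ^ k * v = u ^ k * v * (u ^ k)⁻¹ := fun k => by
      induction k with
      | zero => simp
      | succ k ih =>
        have h2 : Commute ⁅u, v⁆ (u ^ k) := Commute.pow_right (key u hu _ hc) k
        calc ⁅u, v⁆ ^ (k + 1) * v = ⁅u, v⁆ * (u ^ k * v * (u ^ k)⁻¹) := by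
              rw [pow_succ', mul_assoc, ih]
          _ = u ^ k * (⁅u, v⁆ * v) * (u ^ k)⁻¹ := by
              rw [← mul_assoc, ← mul_assoc, h2.eq, mul_assoc (u ^ k)]
          _ = _ := by rw [commutatorElement_def]; group
    have h2 := h1 p
    rw [← hu, pow_orderOf_eq_one, hu, inv_one, one_mul, mul_one, mul_eq_right] at h2
    rw [← commutatorElement_eq_one_iff_mul_comm, ← orderOf_eq_one_iff]
    exact Nat.eq_one_of_dvd_coprimes ((Nat.Prime.coprime_iff_not_dvd hp).mpr h)
      (orderOf_dvd_of_pow_eq_one h2) (orderOf_dvd_natCard _ hc)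

theorem card_le {X : Type*} [Group X] [Finite X] [Group.IsSolvable X] (hX : FPF X) :
    Nat.card {x : X // orderOf x = 5} ≤ 4 := by
  classical
  obtain ⟨N, _, _, h⟩ := hX.solvable_struct
  have h1 : N.index ∣ 24 := by
    rcases h with rfl | ⟨f, hf, rfl⟩ | ⟨f, hf, rfl⟩ | ⟨f, hf, rfl⟩
    · simp
    · rw [index_ker, MonoidHom.range_eq_top.mpr hf, card_top, IsKleinFour.card_four]; decide
    · rw [index_ker, MonoidHom.range_eq_top.mpr hf, card_top]
      exact (card_subgroup_dvd_card _).trans (by simp [Nat.card_perm]; decide)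
    · rw [index_ker, MonoidHom.range_eq_top.mpr hf, card_top]; simp [Nat.card_perm]; decide
  have key : ∀ w : X, orderOf w = 5 → w ∈ N := fun w hw => by
    rw [← QuotientGroup.eq_one_iff, ← orderOf_eq_one_iff]
    exact Nat.eq_one_of_dvd_coprimes (by decide : Nat.Coprime 5 24)
      (hw ▸ orderOf_map_dvd (QuotientGroup.mk' _) w) ((_root_.orderOf_dvd_natCard _).trans h1)
  rcases isEmpty_or_nonempty {x : X // orderOf x = 5} with h0 | ⟨⟨u, hu⟩⟩
  · simp
  have h2 : {x : X | orderOf x = 5} ⊆ (zpowers u : Set X) \ {1} := fun v hv =>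
    ⟨hX.mem_zpowers_of_commute Nat.prime_five hu (hv ▸ pow_orderOf_eq_one v)
      (congrArg Subtype.val (comm_z (hX.subgroup N) Nat.prime_five (u := ⟨u, key u hu⟩)
        (v := ⟨v, key v hv⟩) (by simpa) (by simpa))), fun h => by simp_all⟩
  have h3 := Set.ncard_le_ncard h2
  rwa [Set.ncard_diff_singleton_of_mem (one_mem _), ← Nat.card_coe_set_eq, ← Nat.card_coe_set_eq,
    SetLike.coe_sort_coe, Nat.card_zpowers, hu] at h3

def five : Fin 5 → SL(2, ZMod 5) :=
  ![⟨!![1, 1; 0, 1], by decide⟩, ⟨!![1, 2; 0, 1], by decide⟩, ⟨!![1, 3; 0, 1], by decide⟩,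
    ⟨!![1, 4; 0, 1], by decide⟩, ⟨!![1, 0; 1, 1], by decide⟩]

theorem le_card {X : Type*} [Group X] [Finite X] (h : ¬ Group.IsSolvable X) (hX : FPF X) :
    5 ≤ Nat.card {x : X // orderOf x = 5} := by
  obtain ⟨L, -, -, -, -, ⟨e⟩, -⟩ := hX.nonsolvable h
  haveI := Fact.mk Nat.prime_five
  have h1 : ∀ i, orderOf (e.symm (five i) : X) = 5 := fun i => by
    rw [orderOf_coe, MulEquiv.orderOf_eq]
    exact orderOf_eq_prime (by revert i; decide) (by revert i; decide)
  simpa using Nat.card_le_card_of_injective (fun i => (⟨_, h1 i⟩ : {x : X // orderOf x = 5}))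
    fun i j h => (by decide : Function.Injective five)
      (e.symm.injective (Subtype.ext (congrArg (Subtype.val : {x : X // orderOf x = 5} → X) h)))

theorem cnt {X : Type*} [Group X] [Finite X] {K H : Subgroup X} [K.Normal] (hc : IsComplement' K H)
    (hs : SemiReg H K) (h5 : 5 ∣ Nat.card H) :
    Nat.card {x : X // orderOf x = 5} = Nat.card K * Nat.card {x : H // orderOf x = 5} := by
  have h1 : ∀ (k : K) (h : H), h ≠ 1 → orderOf ((k : X) * h) = orderOf h := fun k h h1 => by
    rw [fpf_orderOf_mul (le_normalizer_of_normal (mem_top _)) (hs h h.2 fun e => h1 (Subtype.ext e))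
      k.2, orderOf_coe]
  rw [← Nat.card_prod]
  refine (Nat.card_eq_of_bijective (fun x : K × {x : H // orderOf x = 5} =>
    (⟨x.1 * x.2.1, (h1 _ _ fun e => by simpa [e] using x.2.2).trans x.2.2⟩ :
      {x : X // orderOf x = 5})) ⟨fun x y h => ?_, fun g => ?_⟩).symm
  · have := hc.1 (a₁ := (x.1, x.2.1)) (a₂ := (y.1, y.2.1)) (congrArg Subtype.val h)
    exact Prod.ext (Prod.mk.inj this).1 (Subtype.ext (Prod.mk.inj this).2)
  · obtain ⟨⟨k, h⟩, e⟩ := hc.2 g.1
    have h2 : h ≠ 1 := by
      rintro rfl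
      have h3 : 5 ∣ Nat.card K := g.2 ▸ orderOf_dvd_natCard K (by rw [← e]; simp)
      exact absurd (Nat.eq_one_of_dvd_coprimes (hs.coprime le_normalizer_of_normal) h5 h3) (by decide)
    exact ⟨(k, ⟨h, by rw [← h1 k h h2, ← g.2, ← e]⟩), Subtype.ext e⟩

theorem solv {F G : Type*} [Group F] [Finite F] [Group G] [Finite G] {K C : Subgroup F}
    {N D : Subgroup G} [K.Normal] [N.Normal] (h1 : IsComplement' K C) (h2 : IsComplement' N D)
    (s1 : SemiReg C K) (s2 : SemiReg D N) (hK : K ≠ ⊥) (hN : N ≠ ⊥) [Group.IsSolvable K]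
    (c1 : Nat.card K = Nat.card N) (c2 : Nat.card C = Nat.card D)
    (hT : Nat.card {g : F // orderOf g = 5} = Nat.card {h : G // orderOf h = 5})
    (hG : Group.IsSolvable G) : Group.IsSolvable F := by
  haveI : Group.IsSolvable C := by
    by_contra h
    have h3 := le_card h (fpf_of_semiReg s1 le_normalizer_of_normal hK)
    have h4 := card_le (fpf_of_semiReg s2 le_normalizer_of_normal hN)
    obtain ⟨x, hx⟩ : Nonempty {x : C // orderOf x = 5} := (Nat.card_pos_iff.mp (by omega)).1
    have h5 : 5 ∣ Nat.card C := hx ▸ _root_.orderOf_dvd_natCard x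
    rw [cnt h1 s1 h5, cnt h2 s2 (c2 ▸ h5), c1] at hT
    have := Nat.eq_of_mul_eq_mul_left Nat.card_pos hT
    omega
  haveI := CF.Solv.isSolvable_sup C K
  exact Group.isSolvable_of_surjective (f := (C ⊔ K).subtype) fun g =>
    ⟨⟨g, by rw [sup_comm, h1.sup_eq_top]; trivial⟩, rfl⟩


/-- Let F be a finite Frobenius group (it has a Frobenius complement) and G a finite group with the same order type as F (for every m the same number of elements of order m). Then G is a Frobenius group; moreover G is solvable if and only if F is. -/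
theorem result {F G : Type*} [Group F] [Finite F] [Group G] [Finite G] (hF : (∃ C : Subgroup F, Cfsg.IsFrobeniusComplement C)) (hT : (∀ m : ℕ, Nat.card {g : F // orderOf g = m} = Nat.card {h : G // orderOf h = m})) :
    (∃ C : Subgroup G, Cfsg.IsFrobeniusComplement C) ∧ (Group.IsSolvable G ↔ Group.IsSolvable F) := by
  obtain ⟨C, hC⟩ := hF
  obtain ⟨K, -, _, hc, hK1, hs, _⟩ := frob_exists_nilpotent_kernel hC
  obtain ⟨e, he⟩ := exists_equiv_of_orderType hT
  have hcard : Nat.card F = Nat.card G := Nat.card_congr e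
  have hcop := (hs.coprime le_normalizer_of_normal).symm
  have hK : IsPiHall {q | q ∣ Nat.card K} K := isPiHall_of_coprime (by rwa [hc.symm.index_eq_card])
  set π := {q | q ∣ Nat.card K}
  let N := piCore π G
  have hN : IsPiHall π N := by
    refine isPiHall_iff.mpr ⟨piCore_piNum, fun p hp hd hπ => ?_⟩
    haveI := Fact.mk hp
    obtain ⟨P⟩ : Nonempty (Sylow p F) := inferInstance
    obtain ⟨Q⟩ : Nonempty (Sylow p G) := inferInstance
    have hπ' : ({p} : Set ℕ) ⊆ π := by simpa using hπ
    haveI : (P : Subgroup F).Normal := CF.SolvStr.sylow_normal_of_le_nilpotent P fun x hx =>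
      (mem_of_isPiHall_normal hK).mpr (piNum_card_iff_orderOf.mp
        ((isPiHall_iff.mp (sylow_isPiHall P)).1.mono hπ') x hx)
    haveI := normal_of_orderType e he (sylow_isPiHall P) (sylow_isPiHall Q)
    exact Q.not_dvd_index (hd.trans (index_dvd_of_le
      (le_piCore ((isPiHall_iff.mp (sylow_isPiHall Q)).1.mono hπ'))))
  have c1 : Nat.card K = Nat.card N := by
    rw [← card_piElements_of_normal hK, ← card_piElements_of_normal hN, card_filter_of_equiv e he]
  obtain ⟨D, hD⟩ := exists_right_complement'_of_coprime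
    ((isPiHall_iff.mp hN).1.coprime (isPiHall_iff.mp hN).2)
  have c2 : Nat.card C = Nat.card D := by
    refine Nat.eq_of_mul_eq_mul_left (Nat.card_pos (α := K)) ?_
    rw [hc.card_mul, c1, hD.card_mul, hcard]
  have s2 : SemiReg D N := fun d hd hd1 => fpf_iff.mpr fun n hn hdn => by
    have hco : (orderOf d).Coprime (orderOf n) :=
      ((c1 ▸ c2 ▸ hcop).coprime_dvd_left (orderOf_dvd_natCard N hn)).symm.coprime_dvd_left
        (orderOf_dvd_natCard D hd)
    have h1 := Commute.orderOf_mul_eq_mul_orderOf_of_coprime hdn hco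
    obtain ⟨x, hx⟩ := e.surjective (d * n)
    rw [← hx, he] at h1
    by_cases hxK : x ∈ K
    · refine absurd (orderOf_eq_one_iff.mp (Nat.eq_one_of_dvd_coprimes hcop
        ((Dvd.intro _ h1.symm).trans (orderOf_dvd_natCard K hxK)) ?_)) hd1
      exact c2 ▸ orderOf_dvd_natCard D hd
    · obtain ⟨k, -, hk⟩ := hs.exists_conj_mem le_normalizer_of_normal
        (hc.sup_eq_top ▸ mem_top x) hxK
      refine orderOf_eq_one_iff.mp (Nat.eq_one_of_dvd_coprimes hcop
        (c1 ▸ orderOf_dvd_natCard N hn) ((Dvd.intro_left _ h1.symm).trans ?_))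
      have := orderOf_dvd_natCard C hk
      rwa [← CF.Transfer.orderOf_conj' k, show k * (k⁻¹ * x * k) * k⁻¹ = x by group] at this
  have hN1 : N ≠ ⊥ := fun h => hK1 (eq_bot_of_card_eq _ (by rw [c1, h, card_bot]))
  have hD1 : D ≠ ⊥ := fun h => hC.1 (eq_bot_of_card_eq _ (by rw [c2, h, card_bot]))
  have hF' := isFrobeniusComplement_of_semiReg s2 le_normalizer_of_normal hD.sup_eq_top hN1 hD1
  haveI : Group.IsNilpotent N := by
    obtain ⟨N', h1, -, -, -, -, h2⟩ := frob_exists_nilpotent_kernel hF'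
    rw [frobeniusKernel_eq_of_semiReg s2 le_normalizer_of_normal hD.sup_eq_top] at h1
    rwa [← SetLike.coe_injective h1]
  exact ⟨⟨D, hF'⟩, solv hc hD hs s2 hK1 hN1 c1 c2 (hT 5),
    solv hD hc s2 hs hN1 hK1 c1.symm c2.symm (hT 5).symm⟩

end Cfsg.Agent.S3999
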