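import Cfsg.Statements.S4001
import Cfsg.Agent.SolvStr.PG1

set_option autoImplicit false
open Cfsg

namespace Cfsg.Agent.S4001

/-- Let G be a 2-Frobenius group: it has normal subgroups H < K with K a Frobenius group with kernel H and G/H a Frobenius group with kernel K/H. Then G is solvable; K/H has odd order coprime to the order of H and to the order of G/K (it is the image of an odd-order Hall subgroup); G/K is cyclic; and the prime graph of G has exactly two connected components, both complete: for distinct primes p, q dividing the order of G, G has an element of order pq exactly when p and q either both divide the order of K/H or both do not. -/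
theorem result {G : Type*} [Group G] [Finite G] (H K : Subgroup G) [H.Normal] [K.Normal] (hlt : H < K)
    (hK : ∃ C : Subgroup ↥K, Cfsg.IsFrobeniusComplement C ∧ Cfsg.frobeniusKernel C = (H.subgroupOf K : Set ↥K))
    (hGH : ∃ C : Subgroup (G ⧸ H), Cfsg.IsFrobeniusComplement C ∧ Cfsg.frobeniusKernel C = (K.map (QuotientGroup.mk' H) : Set (G ⧸ H))) :
    Group.IsSolvable G ∧ Odd (Nat.card (↥K ⧸ H.subgroupOf K)) ∧
      Nat.Coprime (Nat.card (↥K ⧸ H.subgroupOf K)) (Nat.card ↥H * Nat.card (G ⧸ K)) ∧ IsCyclic (G ⧸ K) ∧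
      ∀ p q : ℕ, p.Prime → q.Prime → p ≠ q → p ∣ Nat.card G → q ∣ Nat.card G →
        ((∃ g : G, orderOf g = p * q) ↔ (p ∣ Nat.card (↥K ⧸ H.subgroupOf K) ↔ q ∣ Nat.card (↥K ⧸ H.subgroupOf K))) := by
  open CF.BG CF.SolvStr in
  obtain ⟨C₀, c1, c2⟩ := hK
  obtain ⟨M', m1, m2⟩ := hGH
  have f1 := frob_of_subgroupOf c1 hlt.le c2
  obtain ⟨M, f⟩ := frob2_of_quot (normalIn_top.2 ‹K.Normal›).norm f1 (frob_of_isFrob m1 m2)
  generalize C₀.map K.subtype = C at f1 f
  have sd := f.sd'
  rw [f1.sd.sup] at sd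
  have e1 : Nat.card (K ⧸ H.subgroupOf K) = ♯C := f1.sd.relIndex_left
  have e2 : Nat.card (G ⧸ K) = ♯M := by rw [← sd.relIndex_left, Subgroup.relIndex_top_right]; rfl
  have cd : Nat.card G = ♯H * (♯C * ♯M) := by rw [f.f2.sd.card, f.sd.card, card_top']
  have cop : (♯C).Coprime (♯H * ♯M) := f1.coprime.mul_right f.f2.coprime.symm
  have s : Group.IsSolvable G := have := f.sol; Group.isSolvable_of_surjective (f := (⊤ : Subgroup G).subtype)
    fun g => ⟨⟨g, trivial⟩, rfl⟩
  rw [e1, e2]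
  refine ⟨s, f.odd, cop, ?_, fun p q hp hq pq dp dq => ⟨?_, fun k => ?_⟩⟩
  · have := f.cycM
    refine isCyclic_of_surjective ((QuotientGroup.mk' K).comp M.subtype) fun x => ?_
    obtain ⟨x, rfl⟩ := QuotientGroup.mk'_surjective K x
    obtain ⟨m, hm, k, hk, rfl⟩ := sd.exists_mul' (Subgroup.mem_top x)
    exact ⟨⟨m, hm⟩, by simp [(QuotientGroup.eq_one_iff k).2 hk]⟩
  · have sep : CF.SolvStr.Sep (piOf (♯C)) (⊤ : Subgroup G) := fun x _ y _ px py c => by
      refine or_iff_not_imp_left.2 fun x1 => by_contra fun y1 => ?_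
      have pM : PiGrp (piOf (♯C))ᶜ M := piNat_compl_piOf.2 f.f2.coprime
      have pH : PiGrp (piOf (♯C))ᶜ H := piNat_compl_piOf.2 f1.coprime.symm
      have xK : x ∈ K := px.mem_of_relIndex (Subgroup.mem_top x) sd.normal.norm (sd.relIndex_left ▸ pM)
      have xH : x ∉ H := fun k => x1 (px.eq_one (pH.elt k))
      have fm := f.frob_map (QuotientGroup.ker_mk' H)
      have yK : y ∈ K := by
        have := fm.cent1_le (Subgroup.mem_map_of_mem _ (f1.sd.sup.ge xK))
          (mt (QuotientGroup.eq_one_iff x).1 xH) ⟨Subgroup.mem_map_of_mem _ (Subgroup.mem_top y),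
          mem_cent1.2 (by rw [← map_mul, ← c, map_mul])⟩
        rwa [← Subgroup.mem_comap, Subgroup.comap_map_eq, QuotientGroup.ker_mk', f1.sd.sup,
          sup_eq_left.2 hlt.le] at this
      exact xH (f1.cent1_le ((f1.sd.hall_left pH (piGrp_piOf C).compl_compl).mem_normal
        f1.sd.normal.norm yK py) y1 ⟨xK, mem_cent1.2 c⟩)
    rintro ⟨g, e⟩
    refine ⟨fun k => by_contra fun k' => sep.ne hp hq ⟨hp, k⟩ (fun l => k' l.2) trivial e,
      fun k => by_contra fun k' => sep.ne hq hp ⟨hq, k⟩ (fun l => k' l.2) trivial (mul_comm p q ▸ e)⟩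
  have nil : ∀ X : Subgroup G, Nil X → p ∣ ♯X → q ∣ ♯X → ∃ g : G, orderOf g = p * q :=
    fun X n dp dq => by
      obtain ⟨a, ha, oa⟩ := exists_mem_orderOf_eq hp dp
      obtain ⟨b, hb, ob⟩ := exists_mem_orderOf_eq hq dq
      obtain ⟨g, -, e⟩ := exists_orderOf_mul hp hq pq oa.symm.dvd ob.symm.dvd (n.comm_of_coprime ha hb
        (by rw [oa, ob]; exact (Nat.coprime_primes hp hq).2 pq)) ha hb
      exact ⟨g, e⟩
  have mix : ∀ {p q : ℕ}, p.Prime → q.Prime → p ≠ q → p ∣ ♯H → q ∣ ♯M → ∃ g : G, orderOf g = p * q :=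
    fun {p q} hp hq pq dp dq => by
      obtain ⟨b, hb, ob⟩ := exists_mem_orderOf_eq hq dq
      obtain ⟨a, ha, a1⟩ := exists_mem_ne_one (f.exists_cent (O_le {p} H)
        ((f.nil.hall_O {p}).ne_bot hp rfl dp) (le_norm_O _ f.sd.norm) hb
        (ob ▸ ((piNat_prime hq).2 pq.symm).coprime' (O_pi {p} H)))
      obtain ⟨g, -, e⟩ := exists_orderOf_mul (L := ⊤) hp hq pq (by
        simpa using ((O_pi {p} H).elt ha.1).zpowers.dvd_card (mt Subgroup.zpowers_eq_bot.1 a1))
        ob.symm.dvd (mem_cent1.1 ha.2) trivial trivial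
      exact ⟨g, e⟩
  by_cases c : p ∣ ♯C
  · exact nil C f.cycC.nil c (k.1 c)
  rw [cd, hp.dvd_mul, hp.dvd_mul, or_iff_right c] at dp
  rw [cd, hq.dvd_mul, hq.dvd_mul, or_iff_right (mt k.2 c)] at dq
  rcases dp with dp | dp <;> rcases dq with dq | dq
  exacts [nil H f.nil dp dq, mix hp hq pq dp dq, mul_comm p q ▸ mix hq hp pq.symm dq dp,
    nil M f.cycM.nil dp dq]

end Cfsg.Agent.S4001
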