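import Cfsg.Statements.S4002
import Cfsg.Agent.SolvStr.PG1

set_option autoImplicit false
open Cfsg

namespace Cfsg.Agent.S4002

/-- If the set of element orders of a finite group G is {1, 2, …, n} with n ≥ 7, then G is not solvable. -/
theorem result {G : Type*} [Group G] [Finite G] (n : ℕ) (hn : 7 ≤ n) (h : Set.range (orderOf : G → ℕ) = {k : ℕ | 1 ≤ k ∧ k ≤ n}) : ¬ Group.IsSolvable G := by
  open CF.BG CF.SolvStr in
  intro hs
  have key : ∀ p q r : ℕ, p.Prime → q.Prime → r.Prime → p < q → q < r → r ≤ n → n < p * q → False :=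
    fun p q r hp hq hr pq qr rn l => by
      have d : ∀ k, 1 ≤ k → k ≤ n → k ∣ ♯(⊤ : Subgroup G) := fun k h1 h2 => by
        obtain ⟨g, rfl⟩ := h.ge ⟨h1, h2⟩
        exact orderOf_dvd_card' (Subgroup.mem_top g)
      obtain ⟨g, -, e⟩ := not_three (L := (⊤ : Subgroup G)) inferInstance hp hq hr pq.ne (pq.trans qr).ne
        qr.ne (d p hp.pos (by omega)) (d q hq.pos (by omega)) (d r hr.pos rn)
      have := (h.le ⟨g, rfl⟩).2
      rcases e with e | e | e <;> rw [e] at this <;> nlinarith
  by_cases h1 : n < 15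
  · exact key 3 5 7 (by norm_num) (by norm_num) (by norm_num) (by norm_num) (by norm_num) hn h1
  by_cases h2 : n < 35
  · exact key 5 7 11 (by norm_num) (by norm_num) (by norm_num) (by norm_num) (by norm_num) (by omega) h2
  by_cases h3 : n < 77
  · exact key 7 11 13 (by norm_num) (by norm_num) (by norm_num) (by norm_num) (by norm_num) (by omega) h3
  obtain ⟨p, hp, p1, p2⟩ := Nat.exists_prime_lt_and_le_two_mul (n / 8) (by omega)
  obtain ⟨q, hq, q1, q2⟩ := Nat.exists_prime_lt_and_le_two_mul (2 * (n / 8)) (by omega)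
  obtain ⟨r, hr, r1, r2⟩ := Nat.exists_prime_lt_and_le_two_mul (4 * (n / 8)) (by omega)
  refine key p q r hp hq hr (by omega) (by omega) (by omega) ?_
  have : 9 ≤ p := by omega
  have : n < 9 * q := by omega
  nlinarith

end Cfsg.Agent.S4002
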