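import Mathlib
import Cfsg.Agent.Fgs2.SubCount2
import Cfsg.Agent.Fgs2.Basic
import Cfsg.Statements.S4003

set_option autoImplicit false
open Cfsg

namespace Cfsg.Agent.S4003

/-- Let G be a finite group, p an odd prime dividing the order of G whose Sylow p-subgroups are not cyclic, and n = p^s·m with s > 1 and m coprime to p. Then the number of elements of G of order n is a multiple of p^s. -/
theorem result {G : Type*} [Group G] [Finite G] (p : ℕ) [Fact p.Prime] (hodd : p ≠ 2) (hpG : p ∣ Nat.card G)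
    (P : Sylow p G) (hP : ¬ IsCyclic ↥(P : Subgroup G)) (s m : ℕ) (hs : 1 < s) (hm : Nat.Coprime p m) :
    p ^ s ∣ Nat.card {g : G // orderOf g = p ^ s * m} := by
  have hp : p.Prime := Fact.out
  rcases Nat.eq_zero_or_pos m with rfl | hm0
  · simp [hp.ne_one] at hm
  obtain ⟨j, rfl⟩ : ∃ j, s = j + 1 := ⟨s - 1, by omega⟩
  have hcop : Nat.Coprime (p ^ (j + 1)) m := hm.pow_left _
  obtain ⟨a, ha1, ha2⟩ := Nat.chineseRemainder hcop 0 1
  obtain ⟨b, hb1, hb2⟩ := Nat.chineseRemainder hcop 1 0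
  have hab : a + b ≡ 1 [MOD p ^ (j + 1) * m] :=
    (Nat.modEq_and_modEq_iff_modEq_mul hcop).1 ⟨by simpa using ha1.add hb1, by simpa using ha2.add hb2⟩
  have hda : p ^ (j + 1) ∣ a := (Nat.modEq_zero_iff_dvd).1 ha1
  have hdb : m ∣ b := (Nat.modEq_zero_iff_dvd).1 hb2
  have hga : Nat.gcd (p ^ (j + 1) * m) a = p ^ (j + 1) := by
    rw [hcop.mul_gcd, Nat.gcd_eq_left hda, Nat.gcd_comm, ha2.gcd_eq]; simp
  have hgb : Nat.gcd (p ^ (j + 1) * m) b = m := by
    rw [hcop.mul_gcd, Nat.gcd_eq_left hdb, Nat.gcd_comm, hb1.gcd_eq]; simp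
  have hoa : ∀ g : G, orderOf g = p ^ (j + 1) * m → orderOf (g ^ a) = m := by
    intro g hg
    rw [orderOf_pow, hg, hga, Nat.mul_div_cancel_left _ (pow_pos hp.pos _)]
  have hob : ∀ g : G, orderOf g = p ^ (j + 1) * m → orderOf (g ^ b) = p ^ (j + 1) := by
    intro g hg
    rw [orderOf_pow, hg, hgb, Nat.mul_div_cancel _ hm0]
  -- the fibres of the map to the `p'`-part
  have hfib : ∀ y : G, orderOf y = m → {g : G | orderOf g = p ^ (j + 1) * m ∧ g ^ a = y}.ncard =
      {x : Subgroup.centralizer ({y} : Set G) | orderOf x = p ^ (j + 1)}.ncard := by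
    intro y hy
    symm
    refine Set.ncard_congr (fun x _ => (x : G) * y) ?_ ?_ ?_
    · intro x hx
      have hx' : orderOf (x : G) = p ^ (j + 1) := by rw [Subgroup.orderOf_coe]; exact hx
      have hc : Commute (x : G) y := Subgroup.mem_centralizer_singleton_iff.1 x.2
      refine ⟨by rw [hc.orderOf_mul_eq_mul_orderOf_of_coprime (by rw [hx', hy]; exact hcop), hx', hy],
        ?_⟩
      rw [hc.mul_pow, orderOf_dvd_iff_pow_eq_one.1 (hx' ▸ hda), one_mul]
      conv_rhs => rw [← pow_one y]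
      rw [pow_eq_pow_iff_modEq, hy]; exact ha2
    · intro x x' _ _ h
      exact Subtype.ext (mul_right_cancel h)
    · rintro g ⟨hg, rfl⟩
      refine ⟨⟨g ^ b, Subgroup.mem_centralizer_singleton_iff.2 (Commute.pow_pow_self g b a)⟩, ?_, ?_⟩
      · exact (Subgroup.orderOf_coe _).symm.trans (hob g hg)
      · simp only
        rw [← pow_add, add_comm]
        conv_rhs => rw [← pow_one g]
        rw [pow_eq_pow_iff_modEq, hg]; exact hab
  have hconj : ∀ y c : G, {g : G | orderOf g = p ^ (j + 1) * m ∧ g ^ a = c * y * c⁻¹}.ncard =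
      {g : G | orderOf g = p ^ (j + 1) * m ∧ g ^ a = y}.ncard := by
    intro y c
    rw [← Set.ncard_image_of_injective {g : G | orderOf g = p ^ (j + 1) * m ∧ g ^ a = y}
      (MulAut.conj c).injective]
    congr 1
    ext g
    simp only [Set.mem_ofPred_eq, Set.mem_image]
    constructor
    · rintro ⟨h1, h2⟩
      refine ⟨(MulAut.conj c).symm g, ⟨by rw [MulEquiv.orderOf_eq, h1], ?_⟩, by simp [mul_assoc]⟩
      rw [← map_pow, h2]; simp [mul_assoc]
    · rintro ⟨x, ⟨h1, h2⟩, rfl⟩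
      exact ⟨by rw [MulEquiv.orderOf_eq, h1], by rw [← map_pow, h2]; rfl⟩
  change p ^ (j + 1) ∣ {g : G | orderOf g = p ^ (j + 1) * m}.ncard
  refine CF.Fgs2.dvd_ncard_of_fibers _ (Set.toFinite _) (fun g => ConjClasses.mk (g ^ a)) _
    fun g hg => ?_
  have hy := hoa g hg
  rw [CF.Fgs2.ncard_eq_mul_of_fibers _ (Set.toFinite _) (fun x => x ^ a)
    ({x : G | orderOf x = p ^ (j + 1) * m ∧ x ^ a = g ^ a}.ncard)]
  swap
  · rintro x ⟨hx, hxc⟩
    obtain ⟨c, hc⟩ := isConj_iff.1 (ConjClasses.mk_eq_mk_iff_isConj.1 hxc.symm)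
    rw [← hconj (g ^ a) c, hc]
    congr 1
    ext w
    simp only [Set.mem_ofPred_eq]
    exact ⟨fun h => ⟨h.1.1, h.2⟩, fun h => ⟨⟨h.1, by rw [h.2]; exact hxc⟩, h.2⟩⟩
  have himg : (fun x => x ^ a) '' {s' ∈ {g : G | orderOf g = p ^ (j + 1) * m} |
      ConjClasses.mk (s' ^ a) = ConjClasses.mk (g ^ a)} = {w | IsConj (g ^ a) w} := by
    ext w
    simp only [Set.mem_image, Set.mem_ofPred_eq, ConjClasses.mk_eq_mk_iff_isConj]
    constructor
    · rintro ⟨x, ⟨-, h⟩, rfl⟩; exact h.symm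
    · intro h
      obtain ⟨c, rfl⟩ := isConj_iff.1 h
      exact ⟨MulAut.conj c g, ⟨by rw [MulEquiv.orderOf_eq]; exact hg, by
        rw [← map_pow]; exact h.symm⟩, by rw [← map_pow]; rfl⟩
  rw [himg, hfib _ hy, CF.Fgs2.ncard_orderOf_eq, Nat.totient_prime_pow_succ hp]
  have hcl : {w | IsConj (g ^ a) w}.ncard = (Subgroup.centralizer ({g ^ a} : Set G)).index :=
    CF.Fgs2.card_isConj _
  rw [hcl, pow_succ]
  obtain ⟨Q⟩ : Nonempty (Sylow p (Subgroup.centralizer ({g ^ a} : Set G))) := inferInstance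
  by_cases hQ : IsCyclic Q
  · have : p ∣ (Subgroup.centralizer ({g ^ a} : Set G)).index := by
      by_contra hn
      apply hP
      have h1 : ¬ p ∣ ((Q : Subgroup _).map (Subgroup.centralizer ({g ^ a} : Set G)).subtype).index := by
        rw [Subgroup.index_map_subtype]
        exact fun h => (hp.dvd_mul.1 h).elim Q.not_dvd_index hn
      let Q' : Sylow p G := (Q.2.map _).toSylow h1
      have h2 : IsCyclic Q' := (Subgroup.equivMapOfInjective _ _ (Subgroup.subtype_injective _)).isCyclic.1 hQ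
      exact (Sylow.equiv Q' P).isCyclic.1 h2
    obtain ⟨c, hc⟩ := this
    rw [hc]
    exact ⟨c * CF.Fgs2.ncyc _ (p ^ j * p) * (p - 1), by ring⟩
  · obtain ⟨c, hc⟩ := CF.Fgs2.dvd_ncyc_of_odd hodd Q hQ (show 1 ≤ j by omega)
    rw [← pow_succ, hc, pow_succ]
    exact ⟨(Subgroup.centralizer ({g ^ a} : Set G)).index * c * (p - 1), by ring⟩

end Cfsg.Agent.S4003
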