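import Cfsg.Statements.S4004
import Cfsg.Agent.SolvStr.PG3

set_option autoImplicit false
open Cfsg

namespace Cfsg.Agent.S4004

open Subgroup CF.BG CF.SolvStr

variable {G : Type*} [Group G] [Finite G] {p q m n : ℕ}

omit [Group G] [Finite G] in
theorem lt_of_dvd (o : Odd (Nat.card G)) (hp : p.Prime) (d : p ∣ Nat.card G) : 2 < p :=
  hp.two_le.lt_of_ne' fun e => o.not_two_dvd_nat (e ▸ d)

theorem aux0 (o : Odd (Nat.card G)) (k : ∀ k, 2 < k → cnt G k = 0 ∨ cnt G k = m ∨ cnt G k = n)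
    (hp : p.Prime) (hq : q.Prime) (pq : p ≠ q) (dp : p ∣ Nat.card G) (dq : q ∣ Nat.card G)
    (e1 : cnt G p = m) (e2 : cnt G q = m) : cnt G (p * q) = n ∧ (n : ZMod p) = 1 := by
  have l := lt_of_dvd o hp dp
  have h1 := cnt_E1 hp dp
  have h2 := cnt_E2 hp hq pq dp dq (dvd_mul_right p q)
  rw [e1] at h1 h2
  rcases k (p * q) (by nlinarith [hq.two_le]) with e | e | e <;> rw [e, e2] at h2
  · exact absurd (by push_cast at h2; linear_combination 2 * h1 - h2) (one_ne_zmod hp)
  · exact absurd (by linear_combination 3 * h1 - h2) (two_ne_zmod hp l.ne')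
  · exact ⟨e, by linear_combination h2 - 2 * h1⟩

theorem aux1 (o : Odd (Nat.card G)) (k : ∀ k, 2 < k → cnt G k = 0 ∨ cnt G k = m ∨ cnt G k = n)
    (hp : p.Prime) (hq : q.Prime) (pq : p ≠ q) (dp : p ∣ Nat.card G) (dq : q ∣ Nat.card G)
    (e1 : cnt G p = m) (e2 : cnt G q = m) : False := by
  have a1 := aux0 o k hp hq pq dp dq e1 e2
  have a2 := aux0 o k hq hp pq.symm dq dp e2 e1
  have mix : ∀ {p r : ℕ}, p.Prime → r.Prime → p ∣ Nat.card G → r ∣ Nat.card G → p ≠ r → cnt G p = m →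
      cnt G r = n → (n : ZMod p) = 1 → cnt G (p * r) = m := fun {p r} hp hr dp dr pr e1 e2 e3 => by
    have l := lt_of_dvd o hp dp
    have h1 := cnt_E1 hp dp
    have h2 := cnt_E2 hp hr pr dp dr (dvd_mul_right p r)
    refine ((k _ (by nlinarith [hr.two_le])).resolve_left fun e => ?_).resolve_right fun e => ?_ <;>
      rw [e, e2] at h2
    · exact one_ne_zmod hp (by push_cast at h2; linear_combination h2 - h1 - e3)
    · exact two_ne_zmod hp l.ne' (by linear_combination h2 - h1 - 2 * e3)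
  have al : ∀ r : ℕ, r.Prime → r ∣ Nat.card G → cnt G r = m := fun r hr dr => by
    by_cases pr : p = r
    · exact pr ▸ e1
    by_cases qr : q = r
    · exact qr ▸ e2
    have l := lt_of_dvd o hr dr
    refine ((k r l).resolve_left (cnt_prime_ne hr dr)).resolve_right fun e3 => ?_
    have b1 := mix hp hr dp dr pr e1 e3 a1.2
    have b2 := mix hq hr dq dr qr e2 e3 a2.2
    have h1 := cnt_E1 hp dp
    have h2 := cnt_E1 hr dr
    have h3 := cnt_E2 hp hr pr dp dr (dvd_mul_left r p)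
    have h4 := fun k => cnt_E3 (k := k) hp hq hr pq pr qr dp dq dr
    rw [e1] at h1 h3
    rw [e3] at h2 h3
    rw [b1] at h3
    simp only [e1, e2, e3, a1.1, b1, b2] at h4
    have h5 := h4 p ⟨q * r, mul_assoc _ _ _⟩
    have h6 := h4 r (dvd_mul_left _ _)
    have := lt_of_dvd o hp dp
    rcases k (p * q * r) (by nlinarith [Nat.mul_pos hp.pos hq.pos]) with e | e | e <;> rw [e] at h5 h6
    · exact one_ne_zmod hp (by push_cast at h5; linear_combination 4 * h1 + 2 * a1.2 - h5)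
    · exact two_ne_zmod hp this.ne' (by linear_combination 5 * h1 + 2 * a1.2 - h5)
    · exact two_ne_zmod hr l.ne' (by linear_combination 2 * h3 + h2 - h6)
  have d : Nat.card G ∣ m + 1 := (Nat.dvd_iff_prime_pow_dvd_dvd _ _).2 fun r j hr d => by
    rcases j with _ | j
    · simp
    have dr := (dvd_pow_self r j.succ_ne_zero).trans d
    have l := lt_of_dvd o hr dr
    have e3 : (n : ZMod r) = 1 := by
      by_cases pr : r = p
      · exact pr ▸ a1.2
      · exact (aux0 o k hr hp pr dr dp (al r hr dr) e1).2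
    have h1 := cnt_Esq (G := G) hr
    refine al r hr dr ▸ pow_dvd_of_cnt hr ((k _ (by nlinarith)).resolve_right ?_) d
    rintro (e | e) <;> rw [e] at h1
    · have := cnt_E1 hr dr
      rw [al r hr dr] at this
      exact one_ne_zmod hr (by linear_combination this - h1)
    · exact one_ne_zmod hr (e3 ▸ h1)
  have c := (Nat.coprime_primes hp hq).2 pq
  have := sum_cnt_le (G := G) (Nat.mul_pos hp.pos hq.pos).ne'
  rw [sum_div_mul hq c, hp.sum_divisors, hp.sum_divisors, cnt_one, one_mul, e1, e2] at this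
  have := Nat.le_of_dvd m.succ_pos d
  have := cnt_prime_ne hp dp
  omega

theorem aux2 (o : Odd (Nat.card G)) (hp : p.Prime) (hq : q.Prime) (pq : p ≠ q) (dp : p ∣ Nat.card G)
    (dq : q ∣ Nat.card G) : cnt G (p * q) ≠ cnt G p := fun e => by
  have h1 := cnt_E1 hp dp
  have h2 := cnt_E2 hp hq pq dp dq (dvd_mul_right p q)
  rw [e] at h2
  obtain ⟨P, hP⟩ := exists_syl p (⊤ : Subgroup G)
  obtain ⟨y, oy, l⟩ : ∃ y : G, orderOf y = q ∧ P ≤ 𝐂₁ y := by
    by_contra c
    push Not at c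
    exact one_ne_zmod hp (by linear_combination 2 * h1 - h2 + eq_zmod (dvd_cnt hp hP.pi c) dvd_rfl)
  have key : ∀ x y : G, orderOf x = p → orderOf y = q → x * y = y * x →
      orderOf (x * y) = p * q ∧ (x * y) ^ q = x ^ q := fun x y ox oy c =>
    ⟨by rw [(show Commute x y from c).orderOf_mul_eq_mul_orderOf_of_coprime
      (by rw [ox, oy]; exact (Nat.coprime_primes hp hq).2 pq), ox, oy],
      by rw [Commute.mul_pow c, ← oy, pow_orderOf_eq_one, mul_one]⟩
  have ex : ∀ x : G, orderOf x = p → ∃ y : G, orderOf y = q ∧ x * y = y * x := fun x ox => by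
    obtain ⟨g, -, lg⟩ := hP.syl_le_cj le_top (piGrp_of_card_prime hp ((Nat.card_zpowers x).trans ox))
    exact ⟨g * y * g⁻¹, (orderOf_conj' g y).trans oy,
      mem_cent1.1 (cj_cent1 g y ▸ cj_le_cj.2 l (lg (mem_zpowers x)))⟩
  let f : {g : G // orderOf g = p * q} → {g : G // orderOf g = p} := fun g =>
    ⟨g.1 ^ q, by rw [orderOf_pow' _ hq.ne_zero, g.2]; simp [hq.pos]⟩
  have sj : Function.Surjective f := fun ⟨x, ox⟩ => by
    obtain ⟨j, hj⟩ := exists_pow_eq_self_of_coprime (x := x) (n := q)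
      (by rw [ox]; exact (Nat.coprime_primes hq hp).2 pq.symm)
    obtain ⟨y, oy, c⟩ := ex x ox
    have o' : orderOf (x ^ j) = p := Nat.dvd_antisymm (ox ▸ orderOf_pow_dvd j) (by
      have := orderOf_pow_dvd (x := x ^ j) q
      rwa [← pow_mul, mul_comm, pow_mul, hj, ox] at this)
    have := key _ y o' oy ((show Commute x y from c).pow_left j)
    exact ⟨⟨_, this.1⟩, Subtype.ext (by simp only [f, this.2]; rw [← pow_mul, mul_comm, pow_mul, hj])⟩
  obtain ⟨x, ox⟩ := cnt_ne_zero.1 (cnt_prime_ne hp dp)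
  obtain ⟨y, oy, c⟩ := ex x ox
  have k1 := key x y ox oy c
  have k2 := key x y⁻¹ ox ((orderOf_inv y).trans oy) (show Commute x y from c).inv_right
  have := mul_left_cancel (congrArg Subtype.val ((sj.bijective_of_nat_card_le e.le).1
    (a₁ := ⟨_, k1.1⟩) (a₂ := ⟨_, k2.1⟩) (Subtype.ext (k1.2.trans k2.2.symm))))
  have := Nat.le_of_dvd two_pos (orderOf_dvd_of_pow_eq_one (x := y) (by
    rw [pow_two, ← eq_inv_iff_mul_eq_one, ← this]))
  have := lt_of_dvd o hq dq
  omega

theorem aux3 (o : Odd (Nat.card G)) (hp : p.Prime) (hq : q.Prime) (pq : p ≠ q) (dp : p ∣ Nat.card G)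
    (dq : q ∣ Nat.card G) (k : ∀ k, 2 < k → cnt G k = 0 ∨ cnt G k = cnt G p ∨ cnt G k = cnt G q)
    (h : cnt G (p * q) = 0) : cnt G (p ^ 2) = 0 := by
  have l := lt_of_dvd o hp dp
  refine (k _ (by nlinarith)).resolve_right ?_
  rintro (e | e)
  · have := cnt_Esq (G := G) hp
    rw [e] at this
    exact one_ne_zmod hp (by linear_combination cnt_E1 hp dp - this)
  obtain ⟨Q, hQ⟩ := exists_syl q (⊤ : Subgroup G)
  have := dvd_cnt (m := p ^ 2) hq hQ.pi fun y oy c => by
    obtain ⟨x, hx, ox⟩ := exists_mem_orderOf_eq hq (hQ.prime_dvd hq rfl (by rwa [card_top']))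
    obtain ⟨g, -, e⟩ := exists_orderOf_mul (L := ⊤) hp hq pq (oy ▸ dvd_pow_self p two_ne_zero)
      ox.symm.dvd (mem_cent1.1 (c hx)).symm trivial trivial
    exact cnt_ne_zero.2 ⟨g, e⟩ h
  rw [e] at this
  exact one_ne_zmod hq (by linear_combination cnt_E1 hq dq - eq_zmod this dvd_rfl)

theorem aux4 (o : Odd (Nat.card G)) (s : Sol (⊤ : Subgroup G)) (hp : p.Prime) (hq : q.Prime)
    (pq : p ≠ q) (dq : q ∣ Nat.card G) (al : ∀ r : ℕ, r.Prime → r ∣ Nat.card G → r = p ∨ r = q)
    (h : cnt G (p * q) = 0) (h1 : cnt G (p ^ 2) = 0) (h2 : cnt G (q ^ 2) = 0)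
    (e : 𝐎 {q} (⊤ : Subgroup G) = ⊥) :
    ∃ C : Subgroup G, Cfsg.IsFrobeniusComplement C ∧ (Nat.card C).Prime := by
  have cv : ∀ X : Subgroup G, PiGrp {p}ᶜ X → PiGrp {q} X := fun X k r hr d =>
    (al r hr (d.trans (card_subgroup_dvd_card X))).resolve_left (k r hr d)
  have sep : CF.SolvStr.Sep {p} (⊤ : Subgroup G) := sep_of_forall fun a b _ hb ma mb g _ e' => by
    obtain rfl : a = p := ma
    obtain rfl := (al b hb ((dvd_mul_left b a).trans (e' ▸ orderOf_dvd_natCard g))).resolve_left mb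
    exact cnt_ne_zero.2 ⟨g, e'⟩ h
  obtain ⟨C, k, f | ⟨M, kM, f⟩⟩ := sep.frob s (eq_bot_mono e (le_O (O_normal _ _) (cv _ (O_pi _ _))))
    fun k => pq (k q hq (by rwa [card_top'])).symm
  · refine ⟨C, (Frob.isFrob f).1, ?_⟩
    obtain ⟨x, rfl⟩ := (f.reg.cyc_of_pi f.norm f.ker_ne (cv C k)
      (o.of_dvd_nat (card_subgroup_dvd_card C))).exists_gen
    have := Fact.mk hq
    rwa [Nat.card_zpowers, orderOf_eq_prime (by simpa using pow_eq_one_of_cnt hq h2 ((cv _ k).elt
      (mem_zpowers x))) (mt zpowers_eq_bot.2 f.compl_ne)]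
  obtain ⟨x, hx, x1⟩ := exists_mem_ne_one f.f2.compl_ne
  have sd := f.sd'
  have nil := kegel_nil hp (sd.norm hx) fun a ha => by
    refine (pow_one p ▸ pow_eq_one_of_cnt hp h1 (?_ : PiElt {p} (a * x)) :)
    rcases sep _ trivial _ trivial (constt_pi {p} (a * x)) (constt_pi _ (a * x)) (constt_comm _ _ _)
      with e | e
    · have := (constt_eq_one.1 e).mem_of_relIndex (mem_top _) sd.normal.norm
        (sd.relIndex_left ▸ kM.compl_compl)
      exact absurd (eq_one_of_mem_bot sd.inf ⟨(mul_mem_cancel_left ha).1 this, hx⟩) x1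
    · exact (constt_eq_one.1 e).of_compl_compl
  exact absurd (f.f1.reg.eq_bot_of_cent le_rfl (by
    rw [inf_eq_left.2 (nil.cent_of_coprime le_sup_left le_sup_right f.f1.coprime.symm)]
    exact f.f1.ker_ne)) f.f1.compl_ne


/-- Let G be a finite group of odd order in which the numbers of elements of each order that occurs (the numbers #{g : o(g) = m}, m ranging over the element orders of G) take exactly three different values. Then the order of G has at most two prime divisors; and if it has exactly two, then every Sylow subgroup of G for a prime dividing its order has prime exponent, G is a Frobenius group, and some Frobenius complement of G has prime order. -/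
theorem result {G : Type*} [Group G] [Finite G] (hodd : Odd (Nat.card G)) (h : (((fun m : ℕ => Nat.card {g : G // orderOf g = m}) '' Set.range (orderOf : G → ℕ))).ncard = 3) :
    (Nat.card G).primeFactors.card ≤ 2 ∧
      ((Nat.card G).primeFactors.card = 2 →
        (∀ (p : ℕ) [Fact p.Prime] (P : Sylow p G), p ∣ Nat.card G → Monoid.exponent ↥(P : Subgroup G) = p) ∧
        ∃ C : Subgroup G, Cfsg.IsFrobeniusComplement C ∧ (Nat.card ↥C).Prime) := by
  obtain ⟨m, n, k, -⟩ := exists_vals h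
  have ne : ∀ p q : ℕ, p.Prime → q.Prime → p ≠ q → p ∣ Nat.card G → q ∣ Nat.card G →
      cnt G p ≠ cnt G q := fun p q hp hq pq dp dq e => by
    rcases (k p (lt_of_dvd hodd hp dp)).resolve_left (cnt_prime_ne hp dp) with e1 | e1
    · exact aux1 hodd k hp hq pq dp dq e1 (e ▸ e1)
    · exact aux1 hodd (fun j l => (k j l).imp_right Or.symm) hp hq pq dp dq e1 (e ▸ e1)
  have v := fun p (hp : p.Prime) d => (k p (lt_of_dvd hodd hp d)).resolve_left (cnt_prime_ne hp d)
  refine ⟨by_contra fun c => ?_, fun c => ?_⟩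
  · obtain ⟨p, q, r, hp, hq, hr, pq, pr, qr⟩ := Finset.two_lt_card_iff.1 (not_le.1 c)
    rw [Nat.mem_primeFactors] at hp hq hr
    have := ne p q hp.1 hq.1 pq hp.2.1 hq.2.1
    have := ne p r hp.1 hr.1 pr hp.2.1 hr.2.1
    have := ne q r hq.1 hr.1 qr hq.2.1 hr.2.1
    have := v p hp.1 hp.2.1
    have := v q hq.1 hq.2.1
    have := v r hr.1 hr.2.1
    omega
  have s := CF.Char.isSolvable_of_card_primeFactors_le_two c.le
  obtain ⟨p, q, pq, e⟩ := Finset.card_eq_two.1 c
  have al : ∀ r : ℕ, r.Prime → r ∣ Nat.card G → r = p ∨ r = q := fun r hr d => by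
    simpa using e.le (Nat.mem_primeFactors.2 ⟨hr, d, Nat.card_pos.ne'⟩)
  obtain ⟨hp, dp, -⟩ := Nat.mem_primeFactors.1 (e.ge (Finset.mem_insert_self _ _))
  obtain ⟨hq, dq, -⟩ := Nat.mem_primeFactors.1 (e.ge (show q ∈ ({p, q} : Finset ℕ) by simp))
  have k' : ∀ j, 2 < j → cnt G j = 0 ∨ cnt G j = cnt G p ∨ cnt G j = cnt G q := fun j l => by
    have := ne p q hp hq pq dp dq
    have := v p hp dp
    have := v q hq dq
    have := k j l
    omega
  have h0 : cnt G (p * q) = 0 := (k' _ (by nlinarith [lt_of_dvd hodd hp dp, hq.two_le])).resolve_right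
    (not_or.2 ⟨aux2 hodd hp hq pq dp dq, mul_comm q p ▸ aux2 hodd hq hp pq.symm dq dp⟩)
  have h1 := aux3 hodd hp hq pq dp dq k' h0
  have h2 := aux3 hodd hq hp pq.symm dq dp (fun j l => (k' j l).imp_right Or.symm) (mul_comm p q ▸ h0)
  refine ⟨fun r hr R d => exponent_of_cnt hr.out ((al r hr.out d).elim (· ▸ h1) (· ▸ h2))
    (syl_sylow_top R).pi ((syl_sylow_top R).ne_bot hr.out rfl (by rwa [card_top'])), ?_⟩
  by_cases e : 𝐎 {q} (⊤ : Subgroup G) = ⊥
  · exact aux4 hodd inferInstance hp hq pq dq al h0 h1 h2 e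
  refine aux4 hodd inferInstance hq hp pq.symm dp (fun r hr d => (al r hr d).symm) (mul_comm p q ▸ h0)
    h2 h1 (by_contra fun e' => ?_)
  obtain ⟨x, hx, ox⟩ := exists_mem_orderOf_eq hp ((O_pi _ _).dvd_card e')
  obtain ⟨y, hy, oy⟩ := exists_mem_orderOf_eq hq ((O_pi _ _).dvd_card e)
  obtain ⟨g, -, e⟩ := exists_orderOf_mul (L := ⊤) hp hq pq ox.symm.dvd oy.symm.dvd (mem_cent.1
    (O_cent_normal (O_normal _ _) ((O_pi _ _).of_single_ne pq) hy) x hx) trivial trivial
  exact cnt_ne_zero.2 ⟨g, e⟩ h0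

end Cfsg.Agent.S4004
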