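import Cfsg.Statements.S4005
import Cfsg.Agent.SolvStr.PG2

set_option autoImplicit false
open Cfsg

namespace Cfsg.Agent.S4005

/-- A finite group whose set of element orders is exactly {1, 2, 3} has either a normal elementary abelian 3-subgroup of index 2 or a normal elementary abelian 2-subgroup of index 3. -/
theorem result {G : Type*} [Group G] [Finite G] (h : Set.range (orderOf : G → ℕ) = {k : ℕ | 1 ≤ k ∧ k ≤ 3}) :
    (∃ N : Subgroup G, N.Normal ∧ Cfsg.IsElementaryAbelian 3 N ∧ N.index = 2) ∨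
      (∃ N : Subgroup G, N.Normal ∧ Cfsg.IsElementaryAbelian 2 N ∧ N.index = 3) := by
  open CF.BG CF.SolvStr in
  have h3 : ∀ g : G, orderOf g ≤ 3 := fun g => (h.le ⟨g, rfl⟩).2
  have d : ∀ k, 1 ≤ k → k ≤ 3 → k ∣ Nat.card G := fun k h1 h2 => by
    obtain ⟨g, rfl⟩ := h.ge ⟨h1, h2⟩
    exact orderOf_dvd_natCard g
  have e2 : ∀ x : G, PiElt {2} x → x ^ 2 = 1 := fun x k => by
    obtain ⟨n, e⟩ := k.exists_pow (orderOf_pos x).ne'
    have : n < 2 := (Nat.pow_lt_pow_iff_right (a := 2) (by norm_num)).1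
      ((e ▸ h3 x).trans_lt (by norm_num))
    exact orderOf_dvd_iff_pow_eq_one.1 (by rw [e]; interval_cases n <;> simp)
  have ab : ∀ X : Subgroup G, PiGrp {2} X → Abel X := fun X k => abel_of_forall fun a ha b hb => by
    have a2 := e2 a (k.elt ha)
    have b2 := e2 b (k.elt hb)
    have ab := e2 _ (k.elt (mul_mem ha hb))
    rw [pow_two, mul_eq_one_iff_eq_inv] at a2 b2 ab
    rw [ab, mul_inv_rev, ← a2, ← b2]
  rcases small_cases (fun g => (h3 g).trans (by norm_num)) (d 2 (by norm_num) (by norm_num))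
    (d 3 (by norm_num) le_rfl) with ⟨H, C, f, a, k⟩ | ⟨H, C, k, c, l, f | ⟨M, m, f⟩⟩
  · refine Or.inl ⟨H, normalIn_top.1 f.sd.normal, a.isEA, ?_⟩
    obtain ⟨x, rfl⟩ := (f.reg.cyc_of_abel f.norm f.ker_ne (ab C k)).exists_gen
    rw [← Subgroup.relIndex_top_right, f.sd.relIndex_left, Nat.card_zpowers, orderOf_eq_prime
      (e2 x (k.elt (Subgroup.mem_zpowers x))) (mt Subgroup.zpowers_eq_bot.2 f.compl_ne)]
  · exact Or.inr ⟨H, normalIn_top.1 f.sd.normal, ⟨(ab H k).comm, fun a ha => e2 a (k.elt ha)⟩,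
      by rw [← Subgroup.relIndex_top_right, f.sd.relIndex_left, c]⟩
  · exact absurd (eq_bot_mono f.sd.inf (le_inf (((ab _ (k.sup (piGrp_of_card_prime Nat.prime_two m)
      (Or.inr (le_sup_right.trans f.sd.norm)))).cent le_sup_right le_sup_left).trans l) le_sup_right))
      f.f2.compl_ne

end Cfsg.Agent.S4005
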