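import Cfsg.Statements.S4006
import Cfsg.Agent.SolvStr.PG2

set_option autoImplicit false
open Cfsg

namespace Cfsg.Agent.S4006

/-- A finite group whose set of element orders is exactly {1, 2, 3, 4} has a normal subgroup N such that either N is a 2-group of exponent 4 and nilpotency class at most 2 with G/N of order 3, or N is an elementary abelian 2-group with G/N isomorphic to the symmetric group of degree 3, or N is an elementary abelian 3-group with G/N cyclic of order 4 or quaternion of order 8. -/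
theorem result {G : Type*} [Group G] [Finite G] (h : Set.range (orderOf : G → ℕ) = {k : ℕ | 1 ≤ k ∧ k ≤ 4}) :
    ∃ (N : Subgroup G) (_ : N.Normal),
      (IsPGroup 2 ↥N ∧ Monoid.exponent ↥N = 4 ∧ Group.nilpotencyClass ↥N ≤ 2 ∧ N.index = 3) ∨
      (Cfsg.IsElementaryAbelian 2 N ∧ Nonempty (G ⧸ N ≃* Equiv.Perm (Fin 3))) ∨
      (Cfsg.IsElementaryAbelian 3 N ∧ ((IsCyclic (G ⧸ N) ∧ N.index = 4) ∨ Nonempty (G ⧸ N ≃* QuaternionGroup 2))) := by
  open CF.BG CF.SolvStr in
  have h4 : ∀ g : G, orderOf g ≤ 4 := fun g => (h.le ⟨g, rfl⟩).2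
  have d : ∀ k, 1 ≤ k → k ≤ 4 → k ∣ Nat.card G := fun k h1 h2 => by
    obtain ⟨g, rfl⟩ := h.ge ⟨h1, h2⟩
    exact orderOf_dvd_natCard g
  have e4 : ∀ x : G, PiElt {2} x → orderOf x ∣ 4 := fun x k => by
    obtain ⟨n, e⟩ := k.exists_pow (orderOf_pos x).ne'
    have : n < 3 := (Nat.pow_lt_pow_iff_right (a := 2) (by norm_num)).1
      ((e ▸ h4 x).trans_lt (by norm_num))
    rw [e]; interval_cases n <;> simp
  obtain ⟨u, hu⟩ := h.ge (show 4 ∈ {k : ℕ | 1 ≤ k ∧ k ≤ 4} by simp)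
  have pu : PiElt {2} u := by rw [PiElt, hu]; exact piNat_pow_self Nat.prime_two 2
  have y3 : ∀ {C : Subgroup G}, ♯C = 3 → ∃ y, C = Subgroup.zpowers y ∧ y ^ 3 = 1 ∧ y ≠ 1 := fun c => by
    obtain ⟨y, rfl⟩ := (cyc_of_prime (c ▸ Nat.prime_three)).exists_gen
    rw [Nat.card_zpowers] at c
    exact ⟨y, rfl, c ▸ pow_orderOf_eq_one y, fun e => by simp [e] at c⟩
  rcases small_cases h4 (d 2 (by norm_num) (by norm_num)) (d 3 (by norm_num) (by norm_num))
    with ⟨H, C, f, a, k⟩ | ⟨H, C, k, c, l, f | ⟨M, m, f⟩⟩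
  · have n := normalIn_top.1 f.sd.normal
    obtain ⟨i⟩ := SDProd.quot_iso f.sd
    refine ⟨H, n, Or.inr (Or.inr ⟨a.isEA, ?_⟩)⟩
    rcases f.reg.sr.isCyclic_or_quaternion f.norm f.ker_ne k.isPGroup with c | ⟨-, m, m1, ⟨j⟩⟩
    · refine Or.inl ⟨isCyclic_of_surjective i.symm i.symm.surjective, ?_⟩
      have d4 := (f.sd.hall_right (a.pi.of_single_ne (by norm_num)) k).card_dvd le_top pu.zpowers
      obtain ⟨x, rfl⟩ := Cyc.exists_gen c
      rw [Nat.card_zpowers, Nat.card_zpowers, hu] at d4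
      rw [← Subgroup.relIndex_top_right, f.sd.relIndex_left, Nat.card_zpowers]
      exact Nat.dvd_antisymm (e4 x (k.elt (Subgroup.mem_zpowers x))) d4
    · have := h4 (j.symm (QuaternionGroup.a 1))
      rw [Subgroup.orderOf_coe, MulEquiv.orderOf_eq, QuaternionGroup.orderOf_a_one, ← pow_succ'] at this
      obtain rfl : m = 1 := by
        have : m + 1 ≤ 2 := (Nat.pow_le_pow_iff_right (a := 2) (by norm_num)).1 this
        omega
      exact Or.inr ⟨i.trans j⟩
  · obtain ⟨y, rfl, y3, y1⟩ := y3 c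
    have m := (f.sd.hall_left k ((piGrp_of_card_prime Nat.prime_three c).of_single_ne
      (by norm_num))).mem_normal f.sd.normal.norm trivial pu
    have := k.nil
    refine ⟨H, normalIn_top.1 f.sd.normal, Or.inl ⟨k.isPGroup, Nat.dvd_antisymm
      (Monoid.exponent_dvd.2 fun x => Subgroup.orderOf_coe x ▸ e4 x (k.elt x.2))
      (hu ▸ Subgroup.orderOf_mk u m ▸ Monoid.order_dvd_exponent _), ?_,
      by rw [← Subgroup.relIndex_top_right, f.sd.relIndex_left, c]⟩⟩
    exact Subgroup.upperCentralSeries_eq_top_iff_nilpotencyClass_le.1 (ucs_of_lcs (comm_eq_bot.2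
      (class_two_of_fpf (f.norm (Subgroup.mem_zpowers y)) y3 (f.reg y (Subgroup.mem_zpowers y) y1))))
  · have n := normalIn_top.1 f.sd.normal
    obtain ⟨y, rfl, y3, y1⟩ := y3 c
    obtain ⟨t, ht, o⟩ := exists_mem_orderOf_eq Nat.prime_two m.symm.dvd
    have t2 : t ^ 2 = 1 := o ▸ pow_orderOf_eq_one t
    have q : ∀ x ∈ H, x ^ 2 = 1 := fun x hx => sq_eq_one_of_S3 f.sd.normal.norm y3
      (f.f1.reg y (Subgroup.mem_zpowers y) y1) (pow_two t ▸ t2) (CF.Coprime.fpf_conj_eq_inv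
        (f.f2.norm ht) (f.f2.reg t ht fun e => by simp [e] at o) (t2 ▸ one_mem _)
        (Subgroup.mem_zpowers y)) (fun a ha => orderOf_dvd_iff_pow_eq_one.1 (e4 _ ((k.sup
          (piGrp_of_card_prime Nat.prime_two m) (Or.inr (le_sup_right.trans f.sd.norm))).elt
            (Subgroup.mul_mem_sup ha ht)))) hx
    have fm := f.f2
    obtain ⟨i⟩ := SDProd.quot_iso f.sd
    refine ⟨H, n, Or.inr (Or.inl ⟨⟨(abel_of_forall fun a ha b hb => ?_).comm, q⟩, ?_⟩)⟩
    · have a2 := q a ha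
      have b2 := q b hb
      have ab := q _ (mul_mem ha hb)
      rw [pow_two, mul_eq_one_iff_eq_inv] at a2 b2 ab
      rw [ab, mul_inv_rev, ← a2, ← b2]
    · obtain ⟨j⟩ := Frob.equiv_perm_three (frob_of_isFrob fm.subgroupOf.1 fm.subgroupOf.2)
        ((Nat.card_congr (Subgroup.subgroupOfEquivOfLe le_sup_left).toEquiv).trans c)
        ((Nat.card_congr (Subgroup.subgroupOfEquivOfLe le_sup_right).toEquiv).trans m)
      exact ⟨i.trans j⟩

end Cfsg.Agent.S4006
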