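import Cfsg.Statements.S4203
import Cfsg.Agent.SolvStr.Huppert
import Cfsg.Agent.SolvStr.Misc1
import Cfsg.Agent.Char.Integral

set_option autoImplicit false
open Cfsg

namespace Cfsg.Agent.S4203

/-- A finite group in which every maximal subgroup has index a prime or the square of a prime is solvable. -/
theorem result {G : Type*} [Group G] [Finite G] (h : ∀ M : Subgroup G, IsCoatom M → ∃ p : ℕ, p.Prime ∧ (M.index = p ∨ M.index = p ^ 2)) : Group.IsSolvable G := by
  open Subgroup CF.Solv CF.SolvStr CF.Transfer in
  revert h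
  refine group_induction (P := fun G _ _ => (∀ M : Subgroup G, IsCoatom M →
    ∃ p : ℕ, p.Prime ∧ (M.index = p ∨ M.index = p ^ 2)) → Group.IsSolvable G) ?_ G
  intro G _ _ ih h
  rcases subsingleton_or_nontrivial G with _ | _
  · infer_instance
  obtain ⟨N, hN⟩ := exists_isMinNormal (G := G)
  have := hN.1
  have h1 := ih _ (card_quotient_lt hN.2.1) fun M hM => by
    have := h (M.comap (QuotientGroup.mk' N))
      (Subgroup.isCoatom_comap_of_surjective (QuotientGroup.mk'_surjective N) hM)
    rwa [index_comap_mk'] at this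
  suffices Group.IsSolvable N from isSolvable_of_normal_of_quotient N
  obtain ⟨p, hp, hd, hmax⟩ := exists_max_prime (n := Nat.card N) Nat.card_pos.ne'
    (by simpa using hN.2.1)
  have := Fact.mk hp
  obtain ⟨P⟩ : Nonempty (Sylow p N) := inferInstance
  have hS := isSylowIn_map_sylow P
  set S := (P : Subgroup N).map N.subtype with hSdef
  by_cases hn : normalizer (S : Set G) = ⊤
  · rcases hN.2.2 S (normalizer_eq_top_iff.1 hn) hS.le with h0 | h0
    · exact absurd hd (hS.eq_bot_iff.1 h0)
    · have := (h0 ▸ hS.isPGroup : IsPGroup p N).isNilpotent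
      infer_instance
  obtain ⟨M, hM, hle⟩ := exists_isCoatom_ge hn
  have h2 : M.index = M.relIndex N := by
    refine ((CF.Fgs2.forall_exists_mul_iff_relIndex_eq M N).1 fun g => ?_).symm
    obtain ⟨n, hn, y, hy, rfl⟩ := hS.frattini (h := g) (le_normalizer_of_normal (mem_top g))
    exact ⟨n, hn, y, hle hy, rfl⟩
  have h3 : M.relIndex N ≡ 1 [MOD p] := by
    refine index_modEq_one_of_normalizer_le P fun x hx => hle ?_
    exact le_normalizer_map N.subtype ⟨x, hx, rfl⟩
  obtain ⟨q, hq, hqM⟩ := h M hM
  have hqN : q ∣ Nat.card N := by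
    refine dvd_trans ?_ (relIndex_dvd_card M N)
    rw [← h2]
    rcases hqM with e | e <;> rw [e]
    exact dvd_pow_self q two_ne_zero
  have hqp := hmax q hq hqN
  have hq2 := hq.two_le
  have hp3 : p ≤ 3 := by
    rw [← h2] at h3
    rcases hqM with e | e <;> rw [e] at h3
    · have := Nat.le_of_dvd (by omega) ((Nat.modEq_iff_dvd' (by omega)).1 h3.symm)
      omega
    · have h4 := (Nat.modEq_iff_dvd' (Nat.one_le_pow _ _ hq.pos)).1 h3.symm
      rw [show q ^ 2 - 1 = (q + 1) * (q - 1) from by
        simpa using Nat.sq_sub_sq q 1] at h4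
      rcases (Nat.Prime.dvd_mul hp).1 h4 with h5 | h5
      · have h6 := Nat.le_of_dvd (by omega) h5
        have h7 : p ≠ q := by
          rintro rfl
          exact hp.one_lt.ne' (Nat.dvd_one.1 ((Nat.dvd_add_right dvd_rfl).1 h5))
        have h8 : p = q + 1 := by omega
        rcases hq.eq_two_or_odd' with h9 | h9
        · omega
        · have := hp.even_iff.1 (h8 ▸ h9.add_one)
          omega
      · have := Nat.le_of_dvd (by omega) h5
        omega
  refine CF.Char.isSolvable_of_card_primeFactors_le_two ((Finset.card_le_card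
    (t := {2, 3}) fun r hr => ?_).trans (by decide))
  have h5 := Nat.prime_of_mem_primeFactors hr
  have h6 := hmax r h5 (Nat.dvd_of_mem_primeFactors hr)
  have h7 := h5.two_le
  simp only [Finset.mem_insert, Finset.mem_singleton]
  omega

end Cfsg.Agent.S4203
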