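import Cfsg.Statements.S4204
import Cfsg.Agent.PLocal.Util

set_option autoImplicit false
open Cfsg

namespace Cfsg.Agent.S4204

open Subgroup in
theorem lcs_normal {G : Type*} [Group G] (H : Subgroup G) [H.Normal] (n : ℕ) :
    (H.lowerCentralSeries n).Normal := by
  induction n with
  | zero => exact inferInstanceAs H.Normal
  | succ n ih => rw [Subgroup.lowerCentralSeries_succ]; infer_instance

/-- The lower central series shifted by one step. -/
def sh {G : Type*} [Group G] (H : Subgroup G) : ℕ → Subgroup G
  | 0 => ⊤
  | n + 1 => H.lowerCentralSeries n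

theorem sh_normal {G : Type*} [Group G] (H : Subgroup G) [H.Normal] : ∀ n, (sh H n).Normal
  | 0 => inferInstanceAs (⊤ : Subgroup G).Normal
  | n + 1 => lcs_normal H n

theorem sh_comm {G : Type*} [Group G] (H : Subgroup G) [H.Normal] :
    ∀ n, ⁅sh H n, H⁆ ≤ sh H (n + 1)
  | 0 => Subgroup.commutator_le_right _ _
  | _ + 1 => le_rfl

theorem sh_eq_bot {G : Type*} [Group G] {H : Subgroup G} {c : ℕ}
    (h : H.lowerCentralSeries c = ⊥) : ∀ n, c < n → sh H n = ⊥
  | 0, hn => absurd hn (by omega)
  | n + 1, hn => le_bot_iff.1 (h ▸ H.lowerCentralSeries_antitone (by omega : c ≤ n))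


/-- If `H` and `K` are normal subgroups of a finite group with `H` nilpotent of class at most `c` and `K` nilpotent of class at most `d` (the terms with index `c`, respectively `d`, of their lower central series are trivial, indices starting at `0`), then `HK` is nilpotent of class at most `c + d`. -/
theorem result {G : Type*} [Group G] [Finite G] (H K : Subgroup G) [H.Normal] [K.Normal] (c d : ℕ) (hH : H.lowerCentralSeries c = ⊥) (hK : K.lowerCentralSeries d = ⊥) : (H ⊔ K).lowerCentralSeries (c + d) = ⊥ := by
  have hH' := sh_normal H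
  have hK' := sh_normal K
  have key : ∀ n, (H ⊔ K).lowerCentralSeries n ≤
      ⨆ x : {x : ℕ × ℕ // x.1 + x.2 = n + 1}, sh H x.1.1 ⊓ sh K x.1.2 := by
    intro n
    induction n with
    | zero =>
      refine sup_le (le_iSup_of_le ⟨(1, 0), rfl⟩ (le_inf le_rfl le_top))
        (le_iSup_of_le ⟨(0, 1), rfl⟩ (le_inf le_top le_rfl))
    | succ n ih =>
      rw [Subgroup.lowerCentralSeries_succ]
      refine (Subgroup.commutator_mono ih le_rfl).trans
        (CF.PLocal.commutator_iSup_le (fun _ => Subgroup.le_normalizer_of_normal) ?_)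
      rintro ⟨⟨i, j⟩, hij⟩
      rw [Subgroup.commutator_comm]
      refine CF.PLocal.commutator_sup_le Subgroup.le_normalizer_of_normal
        Subgroup.le_normalizer_of_normal ?_ ?_
      · refine le_iSup_of_le ⟨(i + 1, j), by simp only at hij ⊢; omega⟩ (le_inf ?_ ?_)
        · rw [Subgroup.commutator_comm]
          exact (Subgroup.commutator_mono inf_le_left le_rfl).trans (sh_comm H i)
        · exact (Subgroup.commutator_le_right _ _).trans inf_le_right
      · refine le_iSup_of_le ⟨(i, j + 1), by simp only at hij ⊢; omega⟩ (le_inf ?_ ?_)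
        · exact (Subgroup.commutator_le_right _ _).trans inf_le_left
        · rw [Subgroup.commutator_comm]
          exact (Subgroup.commutator_mono inf_le_right le_rfl).trans (sh_comm K j)
  refine le_bot_iff.1 ((key _).trans (iSup_le ?_))
  rintro ⟨⟨i, j⟩, hij⟩
  simp only at hij ⊢
  by_cases h : c < i
  · rw [sh_eq_bot hH i h]; exact inf_le_left
  · rw [sh_eq_bot hK j (by omega)]; exact inf_le_right

end Cfsg.Agent.S4204
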