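import Cfsg.Statements.S4213
import Cfsg.Agent.SolvStr.Misc1
import Cfsg.Agent.Fgs2.FrobCount

set_option autoImplicit false
open Cfsg
universe u

namespace Cfsg.Agent.S4213

open Subgroup CF.Solv CF.SolvStr CF.Transfer in
theorem aux (G : Type u) [Group G] [Finite G] : Group.IsSolvable G → ∀ n : ℕ, n ∣ Nat.card G →
    Nat.card {x : G // x ^ n = 1} = n → ∃ H : Subgroup G, (H : Set G) = {x : G | x ^ n = 1} := by
  refine group_induction (P := fun G _ _ => Group.IsSolvable G → ∀ n : ℕ, n ∣ Nat.card G →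
    Nat.card {x : G // x ^ n = 1} = n → ∃ H : Subgroup G, (H : Set G) = {x : G | x ^ n = 1}) ?_ G
  intro G _ _ ih hG n hn hc
  replace hc : {x : G | x ^ n = 1}.ncard = n := hc
  rcases subsingleton_or_nontrivial G with _ | _
  · exact ⟨⊤, (Set.eq_univ_of_forall fun x => Subsingleton.elim (x ^ n) 1).symm⟩
  obtain ⟨V, hV⟩ := exists_isMinNormal (G := G)
  have := hV.1
  obtain ⟨p, hp, hVp⟩ := hV.exists_prime_pow_eq_one
  have := Fact.mk hp
  have hVp' := isPGroup_of_forall_pow_eq_one hVp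
  have hs := QuotientGroup.mk'_surjective V
  have hn0 : 0 < n := Nat.pos_of_dvd_of_pos hn Nat.card_pos
  have hGV : Nat.card G = Nat.card (G ⧸ V) * Nat.card V := card_eq_card_quotient_mul_card_subgroup V
  have hpos : ∀ m, 0 < Nat.card {x : G ⧸ V // x ^ m = 1} := fun m =>
    have : Nonempty {x : G ⧸ V // x ^ m = 1} := ⟨⟨1, one_pow m⟩⟩
    Nat.card_pos
  by_cases hpn : p ∣ n
  · set d := Nat.gcd n (Nat.card V) with hd
    have hd0 : 0 < d := Nat.gcd_pos_of_pos_left _ hn0
    obtain ⟨u, hu⟩ : d ∣ n := Nat.gcd_dvd_left _ _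
    obtain ⟨v, hv⟩ : d ∣ Nat.card V := Nat.gcd_dvd_right _ _
    have huv : u.Coprime v := by
      have := Nat.coprime_div_gcd_div_gcd (m := n) (n := Nat.card V) hd0
      rwa [← hd, hu, hv, Nat.mul_div_cancel_left _ hd0, Nat.mul_div_cancel_left _ hd0] at this
    have hu' : u ∣ Nat.card (G ⧸ V) := by
      refine huv.dvd_of_dvd_mul_right (Nat.dvd_of_mul_dvd_mul_left hd0 ?_)
      rw [← hu, mul_left_comm, ← hv, ← hGV]; exact hn
    have hpd : p ∣ d := Nat.dvd_gcd hpn (by
      have := (nontrivial_iff_ne_bot V).2 hV.2.1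
      exact hVp'.card_eq_or_dvd.resolve_left Finite.one_lt_card.ne')
    have hsub : (QuotientGroup.mk ⁻¹' {x : G ⧸ V | x ^ u = 1} : Set G) ⊆ {x | x ^ n = 1} := by
      intro x hx
      obtain ⟨c, hc⟩ := hpd
      have := hVp _ ((QuotientGroup.eq_one_iff (x ^ u)).1 hx)
      change x ^ n = 1
      rw [hu, hc, mul_comm, pow_mul, pow_mul, this, one_pow]
    have h1 : (QuotientGroup.mk ⁻¹' {x : G ⧸ V | x ^ u = 1} : Set G).ncard =
        Nat.card V * Nat.card {x : G ⧸ V // x ^ u = 1} := QuotientGroup.card_preimage_mk _ _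
    have h2 := Set.ncard_le_ncard hsub
    have h3 := Nat.le_of_dvd (hpos u) (CF.Fgs2.dvd_card_pow_eq_one hu')
    have h4 : d ≤ Nat.card V := Nat.le_of_dvd Nat.card_pos ⟨v, hv⟩
    have h5 : Nat.card {x : G ⧸ V // x ^ u = 1} = u := by
      rw [h1, hc] at h2
      refine le_antisymm (Nat.le_of_mul_le_mul_left (?_ : d * _ ≤ d * u) hd0) h3
      rw [← hu]
      exact (Nat.mul_le_mul_right _ h4).trans h2
    obtain ⟨H, hH⟩ := ih _ (card_quotient_lt hV.2.1) inferInstance u hu' h5
    refine ⟨H.comap (QuotientGroup.mk' V), ?_⟩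
    rw [coe_comap, hH]
    refine Set.eq_of_subset_of_ncard_le hsub ?_
    refine le_of_le_of_eq ?_ h1.symm
    rw [hc, h5, hu]
    exact Nat.mul_le_mul_right _ h4
  · have hcop : n.Coprime (Nat.card V) :=
      (coprime_card_of_isPGroup hVp' (hp.coprime_iff_not_dvd.2 hpn).symm).symm
    have hn' : n ∣ Nat.card (G ⧸ V) := hcop.dvd_of_dvd_mul_right (hGV ▸ hn)
    have h1 : {x : G ⧸ V | x ^ n = 1} ⊆ QuotientGroup.mk' V '' {x : G | x ^ n = 1} := by
      intro z hz
      obtain ⟨x, rfl⟩ := hs z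
      obtain ⟨y, -, hy, hyx⟩ := exists_coprime_lift (p := p) (QuotientGroup.mk' V)
        (isOfFinOrder_of_finite x) ((hp.coprime_iff_not_dvd.2 hpn).symm.coprime_dvd_left
          (orderOf_dvd_of_pow_eq_one hz))
      refine ⟨y, eq_one_of_mem_pGroup_of_coprime hVp' ?_
        (hy.coprime_dvd_left (orderOf_pow_dvd n)), hyx⟩
      rw [← QuotientGroup.eq_one_iff]
      change QuotientGroup.mk' V _ = 1
      rw [map_pow, hyx]; exact hz
    have h2 : Nat.card {x : G ⧸ V // x ^ n = 1} = n :=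
      le_antisymm (((Set.ncard_le_ncard h1).trans (Set.ncard_image_le)).trans hc.le)
        (Nat.le_of_dvd (hpos n) (CF.Fgs2.dvd_card_pow_eq_one hn'))
    obtain ⟨H, hH⟩ := ih _ (card_quotient_lt hV.2.1) inferInstance n hn' h2
    have h3 : Nat.card H = n := by rw [← h2]; exact congrArg Set.ncard hH
    have h4 : V.relIndex (H.comap (QuotientGroup.mk' V)) = n := by
      rw [← card_map_mk', map_comap_mk', h3]
    obtain ⟨K, -, -, -, hK⟩ := exists_complement_of_coprime (le_comap_mk' V H)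
      le_normalizer_of_normal (h4 ▸ hcop.symm)
    refine ⟨K, Set.eq_of_subset_of_ncard_le (fun x hx => ?_) ?_⟩
    · have := orderOf_dvd_natCard K hx
      rwa [hK, h4, orderOf_dvd_iff_pow_eq_one] at this
    · rw [hc, ← h4, ← hK]; rfl


/-- If `G` is a finite solvable group and `n` divides the order of `G` and exactly `n` elements `x` of `G` satisfy `x^n = 1`, then these elements form a normal subgroup. -/
theorem result {G : Type*} [Group G] [Finite G] [Group.IsSolvable G] (n : ℕ) (hn : n ∣ Nat.card G) (hcount : Nat.card {x : G // x ^ n = 1} = n) : ∃ H : Subgroup G, H.Normal ∧ (H : Set G) = {x : G | x ^ n = 1} := by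
  obtain ⟨H, hH⟩ := aux G inferInstance n hn hcount
  refine ⟨H, ⟨fun x hx g => ?_⟩, hH⟩
  have hx' : x ∈ (H : Set G) := hx
  change _ ∈ (H : Set G)
  rw [hH] at hx' ⊢
  change _ = _
  rw [conj_pow, show x ^ n = 1 from hx']
  simp

end Cfsg.Agent.S4213
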