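import Mathlib
import Cfsg.Agent.Fgs2.Yoshida
import Cfsg.Agent.Fgs2.SubCount
import Cfsg.Statements.S4216

set_option autoImplicit false
open Cfsg

namespace Cfsg.Agent.S4216

open Subgroup MulAction CF.Fgs2 in
theorem aux {G α : Type*} [Group G] [Finite G] [MulAction G α] {p : ℕ} [Fact p.Prime] {u : G}
    (hu : IsPGroup p (zpowers u)) (T : Set α) (hT : T.Finite) (hinv : ∀ x ∈ T, u • x ∈ T) :
    T.ncard ≡ {x ∈ T | u • x = x}.ncard [MOD p] := by
  have h1 : p ∣ {x ∈ T | ¬ u • x = x}.ncard := by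
    refine dvd_ncard_of_orbits (G := zpowers u) _ (hT.subset (Set.sep_subset _ _)) ?_ _ ?_
    · rintro ⟨g, hg⟩ x ⟨hx, hx'⟩
      rw [← mem_powers_iff_mem_zpowers] at hg
      obtain ⟨i, rfl⟩ := hg
      change u ^ i • x ∈ _
      refine ⟨?_, fun h => hx' ?_⟩
      · clear hg
        induction i with
        | zero => simpa using hx
        | succ i ih => rw [pow_succ', mul_smul]; exact hinv _ ih
      · rw [smul_smul, ← pow_succ', pow_succ, mul_smul] at h
        exact MulAction.injective _ h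
    · rintro x ⟨-, hx⟩
      obtain ⟨k, hk⟩ := hu.index (stabilizer _ x)
      rw [hk]
      refine dvd_pow_self p ?_
      rintro rfl
      rw [pow_zero, index_eq_one] at hk
      have : (⟨u, mem_zpowers u⟩ : zpowers u) ∈ stabilizer _ x := hk ▸ mem_top _
      exact hx this
  obtain ⟨c, hc⟩ := h1
  have h2 : T.ncard = {x ∈ T | u • x = x}.ncard + p * c := by
    rw [← hc, ← Set.ncard_union_eq _ (hT.subset (Set.sep_subset _ _))
      (hT.subset (Set.sep_subset _ _))]
    · congr 1; ext x; simp only [Set.mem_ofPred_eq, Set.mem_union]; tauto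
    · rw [Set.disjoint_left]; intro H h h'; exact h'.2 h.2
  rw [h2]
  simp [Nat.ModEq]

/-- Grün's first Theorem: if `P` is a Sylow `p`-subgroup of the finite group `G`, then `P ∩ G'` is the subgroup generated by `P ∩ N_G(P)'` together with the subgroups `P ∩ z P' z⁻¹` for all `z ∈ G`, where `'` denotes the derived subgroup and `N_G(P)` the normalizer of `P`. -/
theorem result {G : Type*} [Group G] [Finite G] {p : ℕ} [Fact p.Prime] (P : Sylow p G) : (P : Subgroup G) ⊓ commutator G = ((P : Subgroup G) ⊓ ⁅Subgroup.normalizer ((P : Subgroup G) : Set G), Subgroup.normalizer ((P : Subgroup G) : Set G)⁆) ⊔ ⨆ z : G, (P : Subgroup G) ⊓ (⁅(P : Subgroup G), (P : Subgroup G)⁆).map (MulAut.conj z).toMonoidHom := by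
  classical
  have hp : p.Prime := Fact.out
  set D := ((P : Subgroup G) ⊓ ⁅Subgroup.normalizer ((P : Subgroup G) : Set G),
    Subgroup.normalizer ((P : Subgroup G) : Set G)⁆) ⊔ ⨆ z : G, (P : Subgroup G) ⊓
    (⁅(P : Subgroup G), (P : Subgroup G)⁆).map (MulAut.conj z).toMonoidHom with hD
  apply le_antisymm
  swap
  · refine sup_le (inf_le_inf_left _ (Subgroup.commutator_mono le_top le_top))
      (iSup_le fun z => inf_le_inf_left _ ?_)
    rw [Subgroup.map_commutator]
    exact Subgroup.commutator_mono le_top le_top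
  have hD2 : ∀ z : G, ∀ y ∈ ⁅(P : Subgroup G), (P : Subgroup G)⁆, z * y * z⁻¹ ∈ (P : Subgroup G) →
      z * y * z⁻¹ ∈ D := fun z y hy h =>
    Subgroup.mem_sup_right (Subgroup.mem_iSup_of_mem z ⟨h, y, hy, rfl⟩)
  have hPD : ⁅(P : Subgroup G), (P : Subgroup G)⁆ ≤ D := fun y hy => by
    simpa using hD2 1 y hy (by
      rw [one_mul, inv_one, mul_one]; exact (P : Subgroup G).commutator_le_self hy)
  haveI := CF.Transfer.normal_subgroupOf_of_commutator_le hPD
  letI : CommGroup (P ⧸ D.subgroupOf P) :=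
    { (inferInstance : Group (P ⧸ D.subgroupOf P)) with
      mul_comm := by
        intro a b
        obtain ⟨a, rfl⟩ := QuotientGroup.mk_surjective a
        obtain ⟨b, rfl⟩ := QuotientGroup.mk_surjective b
        rw [← QuotientGroup.mk_mul, ← QuotientGroup.mk_mul, QuotientGroup.eq]
        refine hPD ?_
        have := Subgroup.commutator_mem_commutator (b⁻¹).2 (a⁻¹).2
        rw [commutatorElement_def] at this
        simpa [mul_assoc] using this }
  let φ : P →* P ⧸ D.subgroupOf P := QuotientGroup.mk' _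
  have hφ : ∀ (x : G) (hx : x ∈ (P : Subgroup G)), φ ⟨x, hx⟩ = 1 ↔ x ∈ D := fun x hx =>
    QuotientGroup.eq_one_iff _
  have hφ' : ∀ (x y : G) (hx : x ∈ (P : Subgroup G)) (hy : y ∈ (P : Subgroup G)),
      x * y⁻¹ ∈ D → φ ⟨x, hx⟩ = φ ⟨y, hy⟩ := fun x y hx hy h => by
    rw [← mul_inv_eq_one, ← map_inv, ← map_mul]
    exact (hφ _ _).2 h
  by_contra hn
  obtain ⟨u, ⟨⟨huP, huG⟩, huD⟩, hmin⟩ := WellFounded.has_min (measure (fun x : G => orderOf x)).wf
    {x | x ∈ (P : Subgroup G) ⊓ commutator G ∧ x ∉ D} (SetLike.not_le_iff_exists.1 hn)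
  replace huP : u ∈ (P : Subgroup G) := huP
  replace huG : u ∈ commutator G := huG
  have hE : ∀ m : ℕ, m ∣ orderOf u → 1 < m →
      ∀ (x : G) (hx : x⁻¹ * u ^ m * x ∈ (P : Subgroup G)), φ ⟨_, hx⟩ = 1 := by
    intro m hm hm1 x hx
    rw [hφ]
    by_contra h
    refine hmin _ ⟨⟨hx, ?_⟩, h⟩ ?_
    · simpa using (inferInstance : (commutator G).Normal).conj_mem _ (pow_mem huG m) x⁻¹
    · change orderOf _ < orderOf u
      rw [CF.Transfer.orderOf_inv_conj, orderOf_pow_of_dvd (by omega) hm]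
      exact Nat.div_lt_self (orderOf_pos _) hm1
  obtain ⟨k, hk⟩ : ∃ k, orderOf u = p ^ k := by
    obtain ⟨k, hk⟩ := (IsPGroup.iff_orderOf.1 P.2) ⟨u, huP⟩
    exact ⟨k, by rw [← hk, ← Subgroup.orderOf_coe]⟩
  have hpu : p ∣ orderOf u := by
    rw [hk]
    refine dvd_pow_self p ?_
    rintro rfl
    rw [pow_zero, orderOf_eq_one_iff] at hk
    exact huD (hk ▸ D.one_mem)
  have hpow : ∀ (x : G) (hx : x⁻¹ * u * x ∈ (P : Subgroup G)), φ ⟨_, hx⟩ ^ p = 1 := by
    intro x hx
    have h1 : (x⁻¹ * u * x) ^ p = x⁻¹ * u ^ p * x := by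
      simpa using conj_pow (a := x⁻¹) (b := u) (i := p)
    rw [← map_pow, ← hE p hpu hp.one_lt x (h1 ▸ pow_mem hx p)]
    congr 1
    exact Subtype.ext h1
  have hup : IsPGroup p (Subgroup.zpowers u) := IsPGroup.of_card ((Nat.card_zpowers u).trans hk)
  letI := Fintype.ofFinite (G ⧸ (P : Subgroup G))
  have h1 : CF.Fgs2.tr φ Finset.univ u = 1 :=
    Abelianization.commutator_subset_ker (CF.Fgs2.trHom φ) huG
  rw [CF.Fgs2.tr_eq_prod_fixed φ (fun _ _ => Finset.mem_univ _) hE] at h1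
  have h2 : ∏ q : G ⧸ (P : Subgroup G) with u • q = q, (CF.Fgs2.coc φ u q * (φ ⟨u, huP⟩)⁻¹) = 1 := by
    refine CF.Fgs2.prod_eq_one_of_fibers _ (MulAction.orbit P) _ fun s hs => ?_
    obtain ⟨x, rfl⟩ := QuotientGroup.mk_surjective s
    have hx : x⁻¹ * u * x ∈ (P : Subgroup G) :=
      CF.Fgs2.smul_mk_eq_iff.1 (Finset.mem_filter.1 hs).2
    rw [Finset.prod_congr rfl (g := fun _ => φ ⟨_, hx⟩ * (φ ⟨u, huP⟩)⁻¹), Finset.prod_const]
    swap
    · intro t ht
      simp only [Finset.mem_filter, Finset.mem_univ, true_and, MulAction.orbit_eq_iff] at ht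
      obtain ⟨ht, y, rfl⟩ := ht
      change u • (((y : G) * x : G) : G ⧸ (P : Subgroup G)) = (((y : G) * x : G) : G ⧸ _) at ht
      change CF.Fgs2.coc φ u (((y : G) * x : G) : G ⧸ (P : Subgroup G)) * _ = _
      rw [CF.Fgs2.smul_mk_eq_iff] at ht
      rw [CF.Fgs2.coc_of_fixed φ ht]
      congr 1
      apply hφ'
      have h3 := hD2 x⁻¹ _ (Subgroup.commutator_mem_commutator (y⁻¹).2 huP)
      have h4 : x⁻¹ * (((y⁻¹ : P) : G) * u * ((y⁻¹ : P) : G)⁻¹ * u⁻¹) * x⁻¹⁻¹ = ((y : G) * x)⁻¹ * u * (y * x) * (x⁻¹ * u * x)⁻¹ := by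
        simp [mul_assoc]
      rw [commutatorElement_def, h4] at h3
      exact h3 (mul_mem ht (inv_mem hx))
    by_cases hst : MulAction.stabilizer P (x : G ⧸ (P : Subgroup G)) = ⊤
    · have hxN : x⁻¹ ∈ Subgroup.normalizer ((P : Subgroup G) : Set G) := by
        refine CF.Transfer.mem_normalizer_of_cj_le (CF.Transfer.cj_le_iff_forall.2 fun y hy => ?_)
        have : (⟨y, hy⟩ : P) ∈ MulAction.stabilizer P (x : G ⧸ (P : Subgroup G)) :=
          hst ▸ Subgroup.mem_top _
        simpa using CF.Fgs2.smul_mk_eq_iff.1 this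
      rw [hφ' _ u hx huP, mul_inv_cancel, one_pow]
      refine Subgroup.mem_sup_left ⟨Subgroup.mul_mem _ hx (Subgroup.inv_mem _ huP), ?_⟩
      have := Subgroup.commutator_mem_commutator hxN (Subgroup.le_normalizer huP)
      rwa [commutatorElement_def, inv_inv] at this
    · have h3 := aux hup (MulAction.orbit P (x : G ⧸ (P : Subgroup G))) (Set.toFinite _)
        (fun q hq => MulAction.mapsTo_smul_orbit (⟨u, huP⟩ : P) _ hq)
      have h4 : p ∣ (MulAction.orbit P (x : G ⧸ (P : Subgroup G))).ncard := by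
        rw [← MulAction.index_stabilizer]
        obtain ⟨j, hj⟩ := P.2.index (MulAction.stabilizer P (x : G ⧸ (P : Subgroup G)))
        rw [hj]
        refine dvd_pow_self p ?_
        rintro rfl
        rw [pow_zero, Subgroup.index_eq_one] at hj
        exact hst hj
      obtain ⟨c, hc⟩ := (h3.dvd_iff dvd_rfl).1 h4
      rw [← Set.ncard_coe_finset]
      have h5 : ((Finset.univ.filter (fun q : G ⧸ (P : Subgroup G) => u • q = q)).filter
          (fun t => MulAction.orbit P t = MulAction.orbit P (x : G ⧸ (P : Subgroup G))) : Set _) =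
          {q ∈ MulAction.orbit P (x : G ⧸ (P : Subgroup G)) | u • q = q} := by
        ext q; simp [MulAction.orbit_eq_iff, and_comm]
      have h6 := hpow 1 (by rw [inv_one, one_mul, mul_one]; exact huP)
      simp only [inv_one, one_mul, mul_one] at h6
      rw [h5, hc, pow_mul, mul_pow, hpow, inv_pow, h6]; simp
  rw [Finset.prod_mul_distrib, h1, one_mul, Finset.prod_const, inv_pow, inv_eq_one] at h2
  have h3 := aux hup (Set.univ : Set (G ⧸ (P : Subgroup G))) (Set.toFinite _)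
    (fun _ _ => Set.mem_univ _)
  have h4 : ¬ p ∣ (Finset.univ.filter (fun q : G ⧸ (P : Subgroup G) => u • q = q)).card := by
    rw [← Set.ncard_coe_finset]
    intro h
    apply P.not_dvd_index
    rw [Subgroup.index, ← Set.ncard_univ, h3.dvd_iff dvd_rfl]
    simpa using h
  have h6 := hpow 1 (by rw [inv_one, one_mul, mul_one]; exact huP)
  simp only [inv_one, one_mul, mul_one] at h6
  have h7 := (pow_gcd_eq_one (a := φ ⟨u, huP⟩)).2 ⟨h6, h2⟩
  rw [(hp.coprime_iff_not_dvd.2 h4), pow_one, hφ] at h7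
  exact huD h7

end Cfsg.Agent.S4216
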