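import Cfsg.Statements.S4217
import Cfsg.Agent.SolvStr.Misc1
import Cfsg.Agent.Solv.Gaschutz

set_option autoImplicit false
open Cfsg

namespace Cfsg.Agent.S4217

open Subgroup CF.Solv CF.SolvStr CF.Transfer in
theorem one_prime {G : Type*} [Group G] [Finite G] (A : Subgroup G) [A.Normal]
    [IsMulCommutative A] {q : ℕ} (hq : q.Prime) {K : Subgroup G} (h1 : K ⊓ A = ⊥)
    (h2 : ¬ q ∣ (K ⊔ A).index) :
    ∃ H : Subgroup G, H.relIndex A = H.index ∧ PiNum {q} H.index ∧
      PiNum {q}ᶜ (Nat.card (H ⊓ A : Subgroup G)) := by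
  have := Fact.mk hq
  have : Group.IsNilpotent A := isNilpotent_of_isMulCommutative _
  set B := (piCore {q}ᶜ A).map A.subtype with hB
  have hBA : B ≤ A := map_subtype_le _
  have hBh : IsPiHallOf {q}ᶜ B A :=
    isPiHallOf_map_subtype_iff.2 (isPiHall_piCore_of_isNilpotent _)
  have hBn : B.Normal := inferInstance
  have hs := QuotientGroup.mk'_surjective B
  have : (A.map (QuotientGroup.mk' B)).Normal := Normal.map inferInstance _ hs
  have := isMulCommutative_map (QuotientGroup.mk' B) A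
  have hAq : PiNum {q} (Nat.card (A.map (QuotientGroup.mk' B))) := by
    rw [card_map_mk']; simpa using (isPiHallOf_iff.1 hBh).2.2
  obtain ⟨H, hH⟩ := gaschutz_exists (A.map (QuotientGroup.mk' B))
    ((K ⊔ A).map (QuotientGroup.mk' B)) (A := K.map (QuotientGroup.mk' B)) (by
      rw [index_map_mk', sup_assoc, sup_eq_left.2 hBA]
      exact hAq.coprime ((piNum_compl_singleton_iff hq).2 (hq.coprime_iff_not_dvd.2 h2).symm))
    (by
      rw [← map_comap_mk' B (_ ⊓ _), comap_inf, comap_map_mk', comap_map_mk',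
        sup_eq_left.2 hBA, sup_inf_assoc' K hBA, h1, bot_sup_eq, map_mk'_eq_bot_iff])
    (by rw [Subgroup.map_sup, sup_comm])
  refine ⟨H.comap (QuotientGroup.mk' B), ?_, ?_, ?_⟩
  · refine (CF.Fgs2.forall_exists_mul_iff_relIndex_eq _ _).1 fun g => ?_
    obtain ⟨⟨⟨_, a, ha, rfl⟩, h⟩, e⟩ := hH.2 (g : G ⧸ B)
    refine ⟨a, ha, a⁻¹ * g, ?_, by group⟩
    change QuotientGroup.mk' B _ ∈ H
    rw [map_mul, map_inv, QuotientGroup.mk'_apply B g, ← e]
    simp
  · rw [index_comap_mk', hH.index_eq_card]; exact hAq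
  · refine piNum_card_of_le (isPiHallOf_iff.1 hBh).2.1 ?_
    rintro x ⟨hx1, hx2⟩
    rw [← QuotientGroup.eq_one_iff]
    exact disjoint_def.1 hH.disjoint ⟨x, hx2, rfl⟩ hx1


/-- Let `A` be an abelian normal subgroup of the finite group `G`. Then `A` has a complement in `G` if and only if, for every prime `p` dividing the index of `A`, there are a Sylow `p`-subgroup `S` of `G/A` and a subgroup `K` of `G` with `K ∩ A = 1` and `KA` equal to the preimage of `S` (that is, `A` has a complement in the preimage of a Sylow `p`-subgroup of `G/A`). -/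
theorem result {G : Type*} [Group G] [Finite G] (A : Subgroup G) [A.Normal] (hA : IsMulCommutative A) : (∃ K : Subgroup G, K.IsComplement' A) ↔ ∀ p : ℕ, p.Prime → p ∣ A.index → ∃ (S : Sylow p (G ⧸ A)) (K : Subgroup G), K ⊓ A = ⊥ ∧ K ⊔ A = (S : Subgroup (G ⧸ A)).comap (QuotientGroup.mk' A) := by
  open Subgroup CF.Solv CF.SolvStr CF.Transfer in
  constructor
  · rintro ⟨K, hK⟩ p hp _
    have := Fact.mk hp
    obtain ⟨S⟩ : Nonempty (Sylow p (G ⧸ A)) := inferInstance
    refine ⟨S, K ⊓ (S : Subgroup (G ⧸ A)).comap (QuotientGroup.mk' A), ?_, ?_⟩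
    · rw [eq_bot_iff, ← hK.disjoint.eq_bot]
      exact inf_le_inf_right _ inf_le_left
    · rw [← sup_inf_assoc' K (le_comap_mk' A _), hK.sup_eq_top, top_inf_eq]
  · intro h
    have h1 : ∀ q : ℕ, q.Prime → ∃ H : Subgroup G, H.relIndex A = H.index ∧
        CF.Solv.PiNum {q} H.index ∧ CF.Solv.PiNum {q}ᶜ (Nat.card (H ⊓ A : Subgroup G)) := by
      intro q hq
      by_cases hd : q ∣ A.index
      · obtain ⟨S, K, h1, h2⟩ := h q hq hd
        have := Fact.mk hq
        exact one_prime A hq h1 (by rw [h2, CF.Solv.index_comap_mk']; exact S.not_dvd_index)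
      · exact one_prime A hq (bot_inf_eq A) (by rwa [bot_sup_eq])
    have h2 : ∀ s : Finset ℕ, (∀ q ∈ s, q.Prime) → ∃ H : Subgroup G, H.relIndex A = H.index ∧
        CF.Solv.PiNum s H.index ∧ CF.Solv.PiNum (s : Set ℕ)ᶜ (Nat.card (H ⊓ A : Subgroup G)) := by
      intro s
      induction s using Finset.induction_on with
      | empty => exact fun _ => ⟨⊤, by simp, by simpa using CF.Solv.piNum_one, by simp [CF.Solv.PiNum]⟩
      | insert q s hqs ih =>
        intro hs
        obtain ⟨H, a1, a2, a3⟩ := ih fun r hr => hs r (Finset.mem_insert_of_mem hr)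
        obtain ⟨L, b1, b2, b3⟩ := h1 q (hs q (Finset.mem_insert_self _ _))
        have hc : H.index.Coprime L.index := a2.coprime (b2.mono (by rintro _ rfl; exact hqs))
        refine ⟨H ⊓ L, ?_, ?_, ?_⟩
        · rw [CF.Solv.index_inf_of_coprime hc, ← a1, ← b1]
          exact CF.Solv.index_inf_of_coprime (H := H.subgroupOf A) (K := L.subgroupOf A)
            (by rwa [← a1, ← b1] at hc)
        · rw [CF.Solv.index_inf_of_coprime hc]
          exact (a2.mono (by simp)).mul (b2.mono (by simp))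
        · intro r hr hd
          have c1 := a3 r hr (hd.trans (Subgroup.card_dvd_of_le (inf_le_inf_right A inf_le_left)))
          have c2 := b3 r hr (hd.trans (Subgroup.card_dvd_of_le (inf_le_inf_right A inf_le_right)))
          simp only [Finset.coe_insert, Set.mem_compl_iff, Set.mem_insert_iff, not_or]
          exact ⟨c2, c1⟩
    obtain ⟨H, a1, -, a3⟩ := h2 (Nat.card A).primeFactors fun q => Nat.prime_of_mem_primeFactors
    have h3 : H ⊓ A = ⊥ := Subgroup.card_eq_one.1 ((CF.Solv.piNum_card_of_le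
      (CF.Solv.piNum_primeFactors Nat.card_pos.ne') inf_le_right).eq_one a3)
    refine ⟨H, (CF.Solv.isComplement'_of_inf_eq_bot_of_sup_eq_top (inf_comm H A ▸ h3) ?_).symm⟩
    rw [eq_top_iff]
    intro g _
    obtain ⟨a, ha, x, hx, rfl⟩ := (CF.Fgs2.forall_exists_mul_iff_relIndex_eq _ _).2 a1 g
    exact Subgroup.mul_mem_sup ha hx

end Cfsg.Agent.S4217
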