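import Cfsg.Statements.S4218
import Cfsg.Agent.SolvStr.Misc1
import Cfsg.Agent.Solv.PiSep
import Cfsg.Agent.Solv.FrattiniP
import Cfsg.Agent.Coprime.Action

set_option autoImplicit false
open Cfsg

namespace Cfsg.Agent.S4218

open Subgroup CF.Solv CF.SolvStr CF.Transfer in
theorem aux {G : Type*} [Group G] [Finite G] {p : ℕ} [Fact p.Prime] (hG : IsPSolvable p G)
    (h0 : pPrimeCore p G = ⊥) (g : G)
    (h : ∀ x ∈ pCore p G, g * x * g⁻¹ * x⁻¹ ∈ CF.Coprime.frattiniOf (pCore p G)) : g ∈ pCore p G := by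
  set Q := pCore p G with hQ
  set F := CF.Coprime.frattiniOf Q with hF
  have hFn : F.Normal := inferInstanceAs ((frattini Q).map Q.subtype).Normal
  have hs := QuotientGroup.mk'_surjective F
  have : (Q.map (QuotientGroup.mk' F)).Normal := Normal.map inferInstance _ hs
  set C := (centralizer ((Q.map (QuotientGroup.mk' F) : Subgroup (G ⧸ F)) : Set (G ⧸ F))).comap
    (QuotientGroup.mk' F) with hC
  have h1 : ⁅Q, C⁆ ≤ F := by
    rw [← map_mk'_eq_bot_iff F, map_commutator, commutator_comm,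
      commutator_eq_bot_iff_le_centralizer]
    exact map_comap_le _ _
  have h2 : IsPGroup p C := by
    refine isPGroup_of_forall_coprime fun y hy => ?_
    rw [← Subgroup.orderOf_coe] at hy
    have h3 := CF.Coprime.le_centralizer_of_commutator_le_frattini (zpowers (y : G)) Q
      le_normalizer_of_normal (by
        rw [Nat.card_zpowers]
        exact (coprime_card_of_isPGroup (pCore_isPGroup.to_subgroup _) hy).symm)
      ((commutator_mono le_rfl (zpowers_le.2 y.2)).trans h1) (mem_zpowers _)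
    exact Subtype.ext (eq_one_of_mem_pGroup_of_coprime pCore_isPGroup
      (centralizer_pCore_le_of_isPSolvable hG h0 h3) hy)
  refine le_pCore h2 ?_
  rintro _ ⟨x, hx, rfl⟩
  have := (QuotientGroup.eq_one_iff _).2 (h x hx)
  simp only [QuotientGroup.mk_mul, QuotientGroup.mk_inv] at this
  simp only [QuotientGroup.mk'_apply]
  calc (x : G ⧸ F) * g = ((g : G ⧸ F) * x * (g : G ⧸ F)⁻¹ * (x : G ⧸ F)⁻¹) * (x * g) := by
        rw [this, one_mul]
    _ = _ := by group


/-- Let `G` be a finite `p`-solvable group, `N₀ = O_{p'}(G)`, `P₁ = O_{p',p}(G)`, and let `F ≤ P₁` be the preimage of the Frattini subgroup of `P₁/N₀`. Then an element `g` of `G` induces the identity on `P₁/F` by conjugation (that is, `g x g⁻¹ x⁻¹ ∈ F` for all `x ∈ P₁`) if and only if `g ∈ P₁`: the group `G/P₁` acts faithfully on `P₁/F`. -/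
theorem result {G : Type*} [Group G] [Finite G] {p : ℕ} [Fact p.Prime] (hG : Cfsg.IsPSolvable p G) (g : G) : (∀ x ∈ Cfsg.pPrimePCore p G, g * x * g⁻¹ * x⁻¹ ∈ ((frattini (↥(Cfsg.pPrimePCore p G) ⧸ (Cfsg.pPrimeCore p G).subgroupOf (Cfsg.pPrimePCore p G))).comap (QuotientGroup.mk' ((Cfsg.pPrimeCore p G).subgroupOf (Cfsg.pPrimePCore p G)))).map (Cfsg.pPrimePCore p G).subtype) ↔ g ∈ Cfsg.pPrimePCore p G := by
  open Subgroup CF.Solv CF.SolvStr CF.Transfer in
  set D := pPrimeCore p G with hD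
  set L := pPrimePCore p G with hL
  let ι : (L ⧸ D.subgroupOf L) →* G ⧸ D := QuotientGroup.map _ _ L.subtype le_rfl
  have hι : Function.Injective ι := by
    rw [injective_iff_map_eq_one]
    intro x hx
    obtain ⟨x, rfl⟩ := QuotientGroup.mk_surjective x
    exact (QuotientGroup.eq_one_iff _).2 ((QuotientGroup.eq_one_iff (x : G)).1 hx)
  have hr : (⊤ : Subgroup (L ⧸ D.subgroupOf L)).map ι = pCore p (G ⧸ D) := by
    rw [← map_pPrimePCore]
    ext y
    constructor
    · rintro ⟨x, -, rfl⟩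
      obtain ⟨x, rfl⟩ := QuotientGroup.mk_surjective x
      exact ⟨x, x.2, rfl⟩
    · rintro ⟨x, hx, rfl⟩
      exact ⟨((⟨x, hx⟩ : L) : L ⧸ D.subgroupOf L), trivial, rfl⟩
  have hX : IsPGroup p (L ⧸ D.subgroupOf L) :=
    (pCore_isPGroup (G := G ⧸ D)).of_injective
      (ι.codRestrict _ fun x => hr ▸ ⟨x, trivial, rfl⟩) fun a b e => hι (congrArg Subtype.val e)
  constructor
  · intro h
    refine aux (isPSolvable_quotient hG D) pPrimeCore_quotient_pPrimeCore (g : G ⧸ D) fun x hx => ?_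
    obtain ⟨x, rfl⟩ := QuotientGroup.mk_surjective x
    obtain ⟨y, hy, hye⟩ := h x hx
    rw [← hr, CF.Coprime.frattiniOf_map_of_injective _ hι, CF.Coprime.frattiniOf_top]
    refine ⟨_, hy, ?_⟩
    change ((y : G) : G ⧸ D) = _
    rw [show (y : G) = _ from hye]
    rfl
  · intro hg x hx
    refine ⟨⟨g, hg⟩ * ⟨x, hx⟩ * ⟨g, hg⟩⁻¹ * ⟨x, hx⟩⁻¹, ?_, rfl⟩
    refine commutator_le_frattini_of_isPGroup hX ?_
    simp only [map_mul, map_inv]
    exact commutator_mem_commutator (mem_top _) (mem_top _)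

end Cfsg.Agent.S4218
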