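import Mathlib
import Cfsg.Agent.Fgs2.Basic
import Cfsg.Statements.S4219

set_option autoImplicit false
open Cfsg

namespace Cfsg.Agent.S4219

open MulAction
open scoped Pointwise

theorem aux {G : Type*} [Group G] [Finite G] {β : Type*} [MulAction G β] [IsPretransitive G β]
    (x : β) {p : ℕ} [Fact p.Prime] (P : Sylow p (stabilizer G x)) (a : β)
    (ha : ∀ u ∈ (P : Subgroup (stabilizer G x)).map (stabilizer G x).subtype, u • a = a) :
    ∃ g ∈ Subgroup.normalizer ((((P : Subgroup (stabilizer G x)).map
      (stabilizer G x).subtype) : Subgroup G) : Set G), g • a = x := by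
  set Q := (P : Subgroup (stabilizer G x)).map (stabilizer G x).subtype with hQ
  obtain ⟨g, hg⟩ := exists_smul_eq G a x
  have h1 : MulAut.conj g • Q ≤ stabilizer G x := by
    intro y hy
    rw [CF.Fgs2.mem_conj_smul_iff] at hy
    have := ha _ hy
    rw [mem_stabilizer_iff, ← hg]
    calc y • g • a = g • (g⁻¹ * y * g) • a := by simp [mul_smul]
      _ = _ := by rw [this]
  have hQp : IsPGroup p Q := P.2.map _
  have h2 : IsPGroup p ((MulAut.conj g • Q).subgroupOf (stabilizer G x)) :=
    (hQp.map (MulAut.conj g).toMonoidHom).comap_subtype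
  obtain ⟨R, hR⟩ := h2.exists_le_sylow
  obtain ⟨h, rfl⟩ := exists_smul_eq (stabilizer G x) P R
  refine ⟨(h : G)⁻¹ * g, ?_, by rw [mul_smul, hg]; exact (stabilizer G x).inv_mem h.2⟩
  refine Subgroup.mem_normalizer_fintype ?_
  intro y hy
  have h3 : g * y * g⁻¹ ∈ MulAut.conj g • Q := by
    rw [CF.Fgs2.mem_conj_smul_iff]; simpa [mul_assoc] using hy
  have h4 := CF.Fgs2.mem_sylow_smul_iff.1 (hR (x := ⟨_, h1 h3⟩) h3)
  exact ⟨_, h4, by simp; group⟩

/-- Let a finite group `G` act `t`-fold transitively on a finite set, let `H` be the stabilizer of `t` distinct points and `P` a Sylow `p`-subgroup of `H`. Then the normalizer of `P` in `G` is `t`-fold transitive on the fixed points of `P`: any `t` distinct fixed points of `P` can be carried to any other `t` distinct fixed points of `P` by an element normalizing `P`. -/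
theorem result {G : Type*} [Group G] [Finite G] {α : Type*} [Fintype α] [MulAction G α] {t : ℕ} (hG : MulAction.IsMultiplyPretransitive G α t) (x : Fin t ↪ α) {p : ℕ} [Fact p.Prime] (P : Sylow p (MulAction.stabilizer G x)) (a b : Fin t ↪ α) (ha : ∀ i, a i ∈ MulAction.fixedPoints ((P : Subgroup (MulAction.stabilizer G x)).map (MulAction.stabilizer G x).subtype) α) (hb : ∀ i, b i ∈ MulAction.fixedPoints ((P : Subgroup (MulAction.stabilizer G x)).map (MulAction.stabilizer G x).subtype) α) : ∃ g ∈ Subgroup.normalizer ((((P : Subgroup (MulAction.stabilizer G x)).map (MulAction.stabilizer G x).subtype) : Subgroup G) : Set G), g • a = b := by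
  have := hG
  have key : ∀ a : Fin t ↪ α, (∀ i, a i ∈ MulAction.fixedPoints ((P : Subgroup
      (MulAction.stabilizer G x)).map (MulAction.stabilizer G x).subtype) α) →
      ∀ u ∈ (P : Subgroup (stabilizer G x)).map (stabilizer G x).subtype, u • a = a := by
    intro a ha u hu
    ext i
    exact ha i ⟨u, hu⟩
  obtain ⟨g, hg, h1⟩ := aux x P a (key a ha)
  obtain ⟨g', hg', h2⟩ := aux x P b (key b hb)
  exact ⟨g'⁻¹ * g, mul_mem (inv_mem hg') hg, by rw [mul_smul, h1, ← h2, inv_smul_smul]⟩

end Cfsg.Agent.S4219
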