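import Mathlib
import Cfsg.Statements.S4223

set_option autoImplicit false
open Cfsg

namespace Cfsg.Agent.S4223

/-- directly indecomposable -/
def Indec (A : Type*) [Group A] : Prop :=
  ∀ H K : Subgroup A, H.Normal → K.Normal → H ⊓ K = ⊥ → H ⊔ K = ⊤ → H = ⊥ ∨ K = ⊥

/-- normal endomorphism -/
def NE {A : Type*} [Group A] (θ : Monoid.End A) : Prop := ∀ g a, θ (g * a * g⁻¹) = g * θ a * g⁻¹

theorem mul_app {A : Type*} [Group A] (θ τ : Monoid.End A) (a : A) : (θ * τ) a = θ (τ a) := rfl

theorem NE.mul {A : Type*} [Group A] {θ τ : Monoid.End A} (h : NE θ) (h' : NE τ) : NE (θ * τ) :=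
  fun g a => by rw [mul_app, h', h, mul_app]

theorem NE.pow {A : Type*} [Group A] {θ : Monoid.End A} (h : NE θ) (n : ℕ) : NE (θ ^ n) := by
  induction n with
  | zero => intro g a; rfl
  | succ n ih => rw [pow_succ]; exact ih.mul h

theorem fitting {A : Type*} [Group A] [Finite A] (hA : Indec A) {θ : Monoid.End A} (h : NE θ) :
    Function.Injective θ ∨ ∃ n, ∀ a, (θ ^ n) a = 1 := by
  haveI : Finite (Monoid.End A) := Finite.of_injective _ DFunLike.coe_injective
  obtain ⟨n, hn, hi⟩ : ∃ n, 1 ≤ n ∧ θ ^ n * θ ^ n = θ ^ n := by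
    obtain ⟨i, j, hij, he⟩ := Finite.exists_ne_map_eq_of_infinite (fun k : ℕ => θ ^ k)
    wlog hlt : i < j generalizing i j
    · exact this j i hij.symm he.symm (by omega)
    obtain ⟨d, rfl⟩ := Nat.exists_eq_add_of_lt hlt
    have h1 : ∀ t, θ ^ (i + (d + 1) * t) = θ ^ i := by
      intro t
      induction t with
      | zero => simp
      | succ t ih => rw [mul_add, ← add_assoc, pow_add, ih, ← pow_add, mul_one, ← add_assoc, ← he]
    refine ⟨(d + 1) * (i + 1), by nlinarith, ?_⟩
    obtain ⟨c, hc⟩ : ∃ c, (d + 1) * (i + 1) = c + i := ⟨(d + 1) * (i + 1) - i, by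
      have : i ≤ (d + 1) * (i + 1) := by nlinarith
      omega⟩
    rw [← pow_add]
    conv_lhs => enter [2, 1]; rw [hc]
    rw [add_assoc, pow_add, h1, ← pow_add, ← hc]
  have he : ∀ a, (θ ^ n) ((θ ^ n) a) = (θ ^ n) a := fun a => DFunLike.congr_fun hi a
  refine Or.elim (hA (MonoidHom.ker (θ ^ n)) (MonoidHom.range (θ ^ n)) inferInstance
    ⟨by rintro _ ⟨a, rfl⟩ g; exact ⟨_, h.pow n g a⟩⟩ ?_ ?_) (fun h1 => ?_) (fun h1 => ?_)
  rotate_left 2
  · left
    have := (MonoidHom.ker_eq_bot_iff _).1 h1
    obtain ⟨k, rfl⟩ := Nat.exists_eq_add_of_le' hn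
    rw [pow_succ] at this
    exact Function.Injective.of_comp (f := (θ ^ k : Monoid.End A)) this
  · exact Or.inr ⟨n, fun a => Subgroup.mem_bot.1 (h1 ▸ ⟨a, rfl⟩)⟩
  · rw [eq_bot_iff]
    rintro _ ⟨h1, a, rfl⟩
    exact (he a).symm.trans h1
  · rw [eq_top_iff]
    intro a _
    have : a = (a * ((θ ^ n) a)⁻¹) * (θ ^ n) a := by simp
    rw [this]
    refine mul_mem (Subgroup.mem_sup_left ?_) (Subgroup.mem_sup_right ⟨a, rfl⟩)
    change (θ ^ n) _ = 1
    rw [map_mul, map_inv, he, mul_inv_cancel]

theorem inj_or {A : Type*} [Group A] [Finite A] (hA : Indec A) {θ τ σ : Monoid.End A} (h1 : NE θ)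
    (h3 : NE σ) (h : ∀ a, σ a = θ a * τ a) (hs : Function.Injective σ) :
    Function.Injective θ ∨ Function.Injective τ := by
  let s := MulEquiv.ofBijective σ (Finite.injective_iff_bijective.1 hs)
  let s' : Monoid.End A := s.symm.toMonoidHom
  have h4 : NE s' := fun g a => hs (by
    rw [h3]
    exact (s.apply_symm_apply _).trans (by rw [show σ (s' a) = a from s.apply_symm_apply _]))
  rcases fitting hA (h4.mul h1) with h5 | ⟨n, h5⟩
  · exact Or.inl (Function.Injective.of_comp (f := s') h5)
  · right
    rw [injective_iff_map_eq_one]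
    intro a ha
    have h6 : (s' * θ) a = a := by
      have := h a
      rw [ha, mul_one] at this
      rw [mul_app, ← this]
      exact s.symm_apply_apply a
    have h7 : ∀ k, ((s' * θ) ^ k) a = a := by
      intro k
      induction k with
      | zero => rfl
      | succ k ih => rw [pow_succ, mul_app, h6, ih]
    rw [← h7 n, h5]

theorem exch {ι κ : Type*} [DecidableEq ι] [DecidableEq κ] [Fintype κ] {A : ι → Type*}
    {B : κ → Type*} [∀ i, Group (A i)] [∀ j, Group (B j)] [∀ i, Finite (A i)] [∀ j, Finite (B j)]
    (e : ((i : ι) → A i) ≃* ((j : κ) → B j)) (i : ι) [Nontrivial (A i)] (hA : Indec (A i))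
    (hB : ∀ j, Indec (B j)) :
    ∃ j, Function.Bijective (fun b : B j => e.symm (Pi.mulSingle j b) i) := by
  let P : Finset κ → (((j : κ) → B j) →* ((j : κ) → B j)) := fun s =>
    { toFun := fun b j => if j ∈ s then b j else 1
      map_one' := by ext j; simp
      map_mul' := by intro a b; ext j; simp only [Pi.mul_apply]; split_ifs <;> simp }
  have hP : ∀ s g b, P s (g * b * g⁻¹) = g * P s b * g⁻¹ := by
    intro s g b
    ext j
    simp only [P, MonoidHom.coe_mk, OneHom.coe_mk, Pi.mul_apply, Pi.inv_apply]
    split_ifs <;> simp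
  have hs : ∀ (g a : A i), Pi.mulSingle i (g * a * g⁻¹) =
      (Pi.mulSingle i g * Pi.mulSingle i a * (Pi.mulSingle i g)⁻¹ : (i : ι) → A i) := by
    intro g a; rw [Pi.mulSingle_mul, Pi.mulSingle_mul, Pi.mulSingle_inv]
  let θ : Finset κ → Monoid.End (A i) := fun s =>
    (Pi.evalMonoidHom A i).comp (e.symm.toMonoidHom.comp ((P s).comp
      (e.toMonoidHom.comp (MonoidHom.mulSingle A i))))
  have hθ : ∀ s a, θ s a = e.symm (P s (e (Pi.mulSingle i a))) i := fun _ _ => rfl
  have hN : ∀ s, NE (θ s) := by
    intro s g a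
    rw [hθ, hθ, hs, map_mul e, map_mul e, map_inv e, hP]
    simp
  obtain ⟨j, hj⟩ : ∃ j, Function.Injective (θ {j}) := by
    by_contra hn
    push Not at hn
    have : ∀ s, ¬ Function.Injective (θ s) := by
      intro s
      induction s using Finset.induction_on with
      | empty =>
        intro h
        obtain ⟨a, ha⟩ := exists_ne (1 : A i)
        refine ha (h ?_)
        have : ∀ b, P ∅ b = 1 := fun b => by ext j; simp [P]
        rw [hθ, hθ, this, this]
      | insert j s hj ih =>
        intro h
        refine (inj_or hA (hN {j}) (hN _) (fun a => ?_) h).elim (hn j) ih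
        have : ∀ b, P (insert j s) b = P {j} b * P s b := fun b => by
          ext k
          simp only [P, MonoidHom.coe_mk, OneHom.coe_mk, Pi.mul_apply, Finset.mem_insert,
            Finset.mem_singleton]
          by_cases hk : k = j
          · subst hk; simp [hj]
          · simp [hk]
        rw [hθ, hθ, hθ, this, map_mul]; rfl
    apply this Finset.univ
    intro a b hab
    have : ∀ b, P Finset.univ b = b := fun b => by ext j; simp [P]
    simpa [hθ, this] using hab
  let f : A i →* B j := (Pi.evalMonoidHom B j).comp (e.toMonoidHom.comp (MonoidHom.mulSingle A i))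
  let g : B j →* A i := (Pi.evalMonoidHom A i).comp
    (e.symm.toMonoidHom.comp (MonoidHom.mulSingle B j))
  have hgf : ∀ a, θ {j} a = g (f a) := by
    intro a
    have : ∀ b, P {j} b = Pi.mulSingle j (b j) := fun b => by
      ext k
      simp only [P, MonoidHom.coe_mk, OneHom.coe_mk, Finset.mem_singleton]
      by_cases hk : k = j
      · subst hk; simp
      · simp [hk]
    rw [hθ, this]; rfl
  have hbij : Function.Bijective (θ {j}) := Finite.injective_iff_bijective.1 hj
  refine ⟨j, ?_, fun a => ?_⟩
  swap
  · obtain ⟨a', rfl⟩ := hbij.2 a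
    exact ⟨f a', (hgf a').symm⟩
  let ψ : Monoid.End (B j) := f.comp g
  have hψ : NE ψ := by
    intro x b
    change e (Pi.mulSingle i (e.symm (Pi.mulSingle j (x * b * x⁻¹)) i)) j =
      x * e (Pi.mulSingle i (e.symm (Pi.mulSingle j b) i)) j * x⁻¹
    have h1 : ∀ (w : (i : ι) → A i) (a : A i),
        Pi.mulSingle i (w i * a * (w i)⁻¹) = w * Pi.mulSingle i a * w⁻¹ := by
      intro w a
      ext k
      by_cases hk : k = i
      · subst hk; simp
      · simp [hk]
    rw [Pi.mulSingle_mul, Pi.mulSingle_mul, Pi.mulSingle_inv, map_mul, map_mul, map_inv,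
      Pi.mul_apply, Pi.mul_apply, Pi.inv_apply, h1]
    simp
  rcases fitting (hB j) hψ with h | ⟨n, h⟩
  · exact Function.Injective.of_comp (f := f) h
  · exfalso
    have h1 : ∀ k a, g ((ψ ^ k) (f a)) = (θ {j} ^ (k + 1)) a := by
      intro k
      induction k with
      | zero => intro a; simp [hgf]
      | succ k ih =>
        intro a
        rw [pow_succ ψ, pow_succ (θ {j}), mul_app, mul_app, ← ih, hgf]
        rfl
    obtain ⟨a, ha⟩ := exists_ne (1 : A i)
    have h2 : ∀ k : ℕ, Function.Injective (fun a => (θ {j} ^ k : Monoid.End (A i)) a) := by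
      intro k
      induction k with
      | zero => exact Function.injective_id
      | succ k ih => rw [pow_succ]; exact ih.comp hj
    refine ha (h2 (n + 1) ?_)
    simp only
    rw [← h1, h, map_one, map_one]

/-- If a finite group is isomorphic both to a direct product of `m` directly indecomposable nontrivial groups and to a direct product of `n` such groups (a group is directly indecomposable when it is not the internal direct product of two nontrivial normal subgroups), then `m = n` and the factors are isomorphic in pairs after a suitable matching. -/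
theorem result {m n : ℕ} {A : Fin m → Type*} {B : Fin n → Type*} [∀ i, Group (A i)] [∀ j, Group (B j)] [∀ i, Finite (A i)] [∀ j, Finite (B j)] (hA : ∀ i, Nontrivial (A i) ∧ ∀ H K : Subgroup (A i), H.Normal → K.Normal → H ⊓ K = ⊥ → H ⊔ K = ⊤ → H = ⊥ ∨ K = ⊥) (hB : ∀ j, Nontrivial (B j) ∧ ∀ H K : Subgroup (B j), H.Normal → K.Normal → H ⊓ K = ⊥ → H ⊔ K = ⊤ → H = ⊥ ∨ K = ⊥) (e : ((i : Fin m) → A i) ≃* ((j : Fin n) → B j)) : ∃ σ : Fin m ≃ Fin n, ∀ i, Nonempty (A i ≃* B (σ i)) := by
  induction m generalizing n with
  | zero =>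
    cases n with
    | zero => exact ⟨Equiv.refl _, fun i => i.elim0⟩
    | succ n =>
      exfalso
      haveI := (hB 0).1
      obtain ⟨b, hb⟩ := exists_ne (1 : B 0)
      have : (Pi.mulSingle 0 b : (j : Fin (n + 1)) → B j) = 1 :=
        e.symm.injective (Subsingleton.elim _ _)
      exact hb (by simpa using congrFun this 0)
  | succ m ih =>
    haveI := (hA 0).1
    obtain ⟨j, hj⟩ := exch e 0 (hA 0).2 (fun j => (hB j).2)
    cases n with
    | zero => exact j.elim0
    | succ n =>
      let g : B j →* A 0 := (Pi.evalMonoidHom A 0).comp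
        (e.symm.toMonoidHom.comp (MonoidHom.mulSingle B j))
      let φ : ((i : Fin m) → A i.succ) →* ((k : Fin n) → B (j.succAbove k)) :=
        { toFun := fun a k => e (Fin.cons 1 a) (j.succAbove k)
          map_one' := by
            have : (Fin.cons 1 1 : (i : Fin (m + 1)) → A i) = 1 := by
              ext i; cases i using Fin.cases <;> simp
            ext k; simp [this]
          map_mul' := by
            intro a b
            have : (Fin.cons 1 (a * b) : (i : Fin (m + 1)) → A i) = Fin.cons 1 a * Fin.cons 1 b := by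
              ext i; cases i using Fin.cases <;> simp
            ext k; simp [this] }
      have hinj : Function.Injective φ := by
        rw [injective_iff_map_eq_one]
        intro a ha
        have h1 : e (Fin.cons 1 a) = Pi.mulSingle j (e (Fin.cons 1 a) j) := by
          ext k
          rcases Fin.eq_self_or_eq_succAbove j k with rfl | ⟨k, rfl⟩
          · simp
          · rw [Pi.mulSingle_eq_of_ne (Fin.succAbove_ne j k)]
            exact congrFun ha k
        have h2 : e (Fin.cons 1 a) j = 1 := by
          apply hj.1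
          simp only
          rw [← h1]; simp
        rw [h2, Pi.mulSingle_one, map_eq_one_iff _ e.injective] at h1
        ext i
        simpa using congrFun h1 i.succ
      have hcard : Nat.card ((i : Fin m) → A i.succ) = Nat.card ((k : Fin n) → B (j.succAbove k)) := by
        have h1 := Nat.card_congr e.toEquiv
        rw [Nat.card_pi, Nat.card_pi, Fin.prod_univ_succ, Fin.prod_univ_succAbove _ j,
          Nat.card_congr (Equiv.ofBijective _ hj)] at h1
        rw [Nat.card_pi, Nat.card_pi]
        exact Nat.eq_of_mul_eq_mul_left Nat.card_pos h1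
      obtain ⟨σ, hσ⟩ := ih (fun i => hA i.succ) (fun k => hB (j.succAbove k))
        (MulEquiv.ofBijective φ ((Nat.bijective_iff_injective_and_card _).2 ⟨hinj, hcard⟩))
      refine ⟨(finSuccEquiv m).trans (σ.optionCongr.trans (finSuccEquiv' j).symm), fun i => ?_⟩
      cases i using Fin.cases with
      | zero =>
        have : ((finSuccEquiv m).trans (σ.optionCongr.trans (finSuccEquiv' j).symm)) 0 = j := by simp
        rw [this]
        exact ⟨(MulEquiv.ofBijective g hj).symm⟩
      | succ i =>
        have : ((finSuccEquiv m).trans (σ.optionCongr.trans (finSuccEquiv' j).symm)) i.succ =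
          j.succAbove (σ i) := by simp
        rw [this]
        exact hσ i

end Cfsg.Agent.S4223
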