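import Mathlib
import Cfsg.Agent.Fgs2.Yoshida
import Cfsg.Statements.S4226

set_option autoImplicit false
open Cfsg

namespace Cfsg.Agent.S4226

/-- Let `P` be a Sylow `p`-subgroup of the finite group `G` with nilpotency class less than `p` (the term of index `p - 1` of the lower central series of `P`, indexed from `0`, is trivial), and let `N` be its normalizer. Then `O^p(N) = O^p(G) ∩ N`, where `O^p` denotes the subgroup generated by the elements of order prime to `p`; so the largest `p`-factor groups of `G` and of `N` are isomorphic. -/
theorem result {G : Type*} [Group G] [Finite G] {p : ℕ} [Fact p.Prime] (P : Sylow p G) (hcl : (P : Subgroup G).lowerCentralSeries (p - 1) = ⊥) : Cfsg.pResidualOf p (Subgroup.normalizer ((P : Subgroup G) : Set G)) = Cfsg.pResidual p G ⊓ Subgroup.normalizer ((P : Subgroup G) : Set G) := by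
  have h1 := CF.Fgs2.hall_wielandt P (CF.Transfer.isWeaklyClosed_self _) (by
    intro u hu z hz
    have : ∀ k, (fun y : G => y⁻¹ * z⁻¹ * y * z)^[k] u ∈ (P : Subgroup G).lowerCentralSeries k := by
      intro k
      induction k with
      | zero => exact hu
      | succ k ih =>
        rw [Function.iterate_succ_apply', Subgroup.lowerCentralSeries_succ]
        have := Subgroup.commutator_mem_commutator (Subgroup.inv_mem _ ih) (Subgroup.inv_mem _ hz)
        rwa [commutatorElement_def, inv_inv, inv_inv] at this
    have h := this (p - 1)
    rwa [hcl] at h)
  have h2 := CF.Transfer.tate_of_commutator P Subgroup.le_normalizer (h1.le.trans inf_le_right)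
  rw [inf_comm, h2]
  exact CF.Transfer.map_pResidual_subtype _

end Cfsg.Agent.S4226
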