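import Mathlib
import Cfsg.Agent.Fgs2.HHDual
import Cfsg.Agent.Char.Integral
import Cfsg.Statements.S4227

set_option autoImplicit false
open Cfsg

namespace Cfsg.Agent.S4227

open CF.Fgs2

theorem pow_eq_one_of {G : Type*} [Group G] (h : ∀ x : G, x ^ 6 = 1) {p r : ℕ} (e : 6 = p * r)
    (c : r.Coprime p) {x : G} (hx : ∃ m, x ^ p ^ m = 1) : x ^ p ^ 1 = 1 := by
  obtain ⟨m, hm⟩ := hx
  rw [pow_one, ← orderOf_dvd_iff_pow_eq_one]
  exact ((c.pow_right m).coprime_dvd_right (orderOf_dvd_of_pow_eq_one hm)).symm.dvd_of_dvd_mul_right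
    (e ▸ orderOf_dvd_of_pow_eq_one (h x))

/-- A finite group in which every element has order dividing `6` has `2`-length at most `1` and `3`-length at most `1`. -/
theorem result {G : Type*} [Group G] [Finite G] (h : ∀ x : G, x ^ 6 = 1) : Cfsg.PLengthLE 2 1 G ∧ Cfsg.PLengthLE 3 1 G := by
  haveI : Group.IsSolvable G := by
    refine CF.Char.isSolvable_of_card_primeFactors_le_two ((Finset.card_le_card (t := {2, 3})
      fun q hq => ?_).trans Finset.card_le_two)
    have hq' := Nat.prime_of_mem_primeFactors hq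
    haveI := Fact.mk hq'
    obtain ⟨y, hy⟩ := exists_prime_orderOf_dvd_card' q (Nat.dvd_of_mem_primeFactors hq)
    have h1 : q ∣ 2 * 3 := hy ▸ orderOf_dvd_of_pow_eq_one (h y)
    rcases (Nat.Prime.dvd_mul hq').1 h1 with e | e
    · simp [(Nat.prime_dvd_prime_iff_eq hq' Nat.prime_two).1 e]
    · simp [(Nat.prime_dvd_prime_iff_eq hq' Nat.prime_three).1 e]
  haveI : Fact (Nat.Prime 3) := ⟨Nat.prime_three⟩
  refine ⟨pLen_of_exp (CF.Solv.isPSolvable_of_isSolvable 2)
    (fun x hx => pow_eq_one_of h (r := 3) rfl (by norm_num) hx) fun q m a hq _ hm h1 h2 h3 => ?_,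
    pLen_of_exp (CF.Solv.isPSolvable_of_isSolvable 3)
    (fun x hx => pow_eq_one_of h (r := 2) rfl (by norm_num) hx) fun q m a hq _ hm h1 h2 h3 Q hQ => ?_⟩
  · obtain rfl : a = 1 := by omega
    have := Nat.one_lt_pow (by omega : m ≠ 0) hq.one_lt
    omega
  · obtain rfl : a = 1 := by omega
    have h4 : q = 2 := (Nat.prime_dvd_prime_iff_eq hq Nat.prime_two).1
      ((dvd_pow_self q (by omega : m ≠ 0)).trans (dvd_of_eq (by omega)))
    subst h4
    have h5 : ∀ x ∈ Q, x * x = 1 := fun x hx => by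
      simpa [sq] using pow_eq_one_of h (r := 3) rfl (by norm_num) (exists_pow_of_mem hQ hx)
    refine (CF.BG.abel_of_forall fun x hx y hy => ?_).comm
    have h6 := h5 _ (mul_mem hx hy)
    rw [← eq_inv_iff_mul_eq_one, mul_inv_rev, inv_eq_of_mul_eq_one_right (h5 x hx),
      inv_eq_of_mul_eq_one_right (h5 y hy)] at h6
    exact h6

end Cfsg.Agent.S4227
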