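import Mathlib
import Cfsg.Agent.BG.B11
import Cfsg.Agent.Small.Sv3
import Cfsg.Statements.S4274

set_option autoImplicit false
open Cfsg

namespace Cfsg.Agent.S4274

open Subgroup CF.BG

theorem key : ((List.range 9240).all fun m => m ≤ 1 || 9240 % m != 0 ||
    !CF.Small.Sv.test [19, 11, 7, 5, 3, 2] 300 (19 * m)) = true := by decide +kernel

theorem not_simple {G : Type*} [Group G] [Finite G] [IsSimpleGroup G] {m : ℕ} (h : Nat.card G = 19 * m)
    (h1 : 1 < m) (h2 : m < 9240) (h3 : m ∣ 9240) : False := by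
  have := List.all_eq_true.1 key m (List.mem_range.2 h2)
  simp only [Bool.or_eq_true, decide_eq_true_eq, bne_iff_ne, Bool.not_eq_true'] at this
  refine CF.Small.card_ne_of_test [19, 11, 7, 5, 3, 2] 300 (by simp; norm_num) ?_ ?_
    (this.resolve_left ?_) h
  · have := Nat.le_of_dvd (by norm_num) h3
    obtain ⟨k, hk⟩ := h3
    rcases k with _ | _ | k
    · omega
    · omega
    · nlinarith
  · exact Nat.not_prime_mul (by norm_num) h1.ne'
  · rintro (h | h)
    · omega
    · exact h (Nat.mod_eq_zero_of_dvd h3)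

universe u

theorem cent_small {G : Type*} [Group G] [Finite G] {P Q : Subgroup G} (hP : ♯P = 19) (n : P ≤ 𝐍 Q)
    (c : ♯Q ≤ 19) : P ≤ 𝐂 Q := by
  rw [cent_comm]
  intro x hx
  by_contra hc
  have pP : (♯P).Prime := by rw [hP]; norm_num
  have h1 : P ⊓ 𝐂₁ x = ⊥ := inf_eq_bot_of_prime_of_not_le pP fun l => hc (le_cent1_iff.1 l)
  have x1 : x ≠ 1 := fun e => hc (e ▸ one_mem _)
  let f : Option P → Q := fun o => o.elim 1 fun g => ⟨g * x * (g : G)⁻¹, conj_mem_of_norm (n g.2) hx⟩
  have hf : Function.Injective f := by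
    rintro (_ | a) (_ | b) e
    · rfl
    · exact absurd (by simpa [f] using congrArg Subtype.val e.symm) x1
    · exact absurd (by simpa [f] using congrArg Subtype.val e) x1
    · have e1 : (a : G) * x * (a : G)⁻¹ = b * x * (b : G)⁻¹ := congrArg Subtype.val e
      have : (b : G)⁻¹ * a = 1 := eq_one_of_mem_bot h1 ⟨P.mul_mem (P.inv_mem b.2) a.2, mem_cent1.2 (by
        calc (b : G)⁻¹ * a * x = (b : G)⁻¹ * (a * x * (a : G)⁻¹) * a := by group
          _ = _ := by rw [e1]; group)⟩
      rw [inv_mul_eq_one] at this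
      rw [Subtype.ext this]
  have := Nat.card_le_card_of_injective f hf
  rw [Finite.card_option] at this
  omega

theorem main (n : ℕ) : ∀ {G : Type u} [Group G] [Finite G] {H P : Subgroup G}, ♯H = n → n ∣ 175560 →
    Syl 19 P H → (n ≠ 175560 ∨ ∃ N, N ⊴ H ∧ N ≠ ⊥ ∧ N ≠ H) → H ≤ 𝐍 P := by
  induction n using Nat.strong_induction_on with
  | _ n ih =>
  intro G _ _ H P hn hd hP h
  have p19 : Nat.Prime 19 := by norm_num
  by_cases P1 : P = ⊥
  · rw [P1, norm_bot]; exact le_top
  have cP : ♯P = 19 := by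
    obtain ⟨k, hk⟩ := hP.pi.card_pow
    have h1 : 19 ^ k ∣ 175560 := hk ▸ (card_dvd hP.le).trans (hn ▸ hd)
    rcases k with _ | _ | k
    · exact absurd (card_eq_one'.1 hk) P1
    · exact hk
    · exact absurd ((pow_dvd_pow 19 (by omega : 2 ≤ k + 1 + 1)).trans h1) (by norm_num)
  by_cases hs : ∃ N, N ⊴ H ∧ N ≠ ⊥ ∧ N ≠ H
  · obtain ⟨N, hN, N1, NH⟩ := hs
    have lt : ♯N < n := hn ▸ card_lt (lt_of_le_of_ne hN.le NH)
    have dN : ♯N ∣ 175560 := (card_dvd hN.le).trans (hn ▸ hd)
    have le : n ≤ 175560 := Nat.le_of_dvd (by norm_num) hd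
    rcases inf_eq_bot_or_le_of_prime (cP ▸ p19) N with i | l
    · have c := card_mul_relIndex hN.le
      rw [← card_qt hN.norm, hn] at c
      have lt2 : ♯(qt N H) < n := by
        have := one_lt_card.2 N1
        have := card_pos' (qt N H)
        nlinarith
      have a := norm_sup_of_qt (hP.le.trans hN.norm) hN.norm
        (ih _ lt2 rfl ((Dvd.intro_left _ c).trans hd) (hP.qt hN.norm) (Or.inl (by omega)))
      have nP := hP.le.trans hN.norm
      have cop : (♯P).Coprime (♯N) := by
        rw [cP, p19.coprime_iff_not_dvd]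
        exact fun d => (hP.inf_normal hN).syl_ne_bot p19 d i
      have b : N ≤ 𝐂 P := by
        refine le_of_forall_syl fun q hq d => ?_
        obtain ⟨Q, hQ, nQ⟩ := exists_syl_inv nP cop (Or.inl hP.pi.sol) q
        refine ⟨Q, hQ, cent_symm (cent_small cP nQ ?_)⟩
        obtain ⟨k, hk⟩ := hQ.pi.card_pow
        have h1 : q ^ k ∣ 2 ^ 3 * 3 * 5 * 7 * 11 * 19 := hk ▸ (card_dvd hQ.le).trans dN
        rw [hk]
        have h2 : ∀ a b : ℕ, q ^ k ∣ a * b → a.Coprime b → q ^ k ∣ a ∨ q ^ k ∣ b := by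
          intro a b h3 h4
          by_cases h5 : q ∣ a
          · exact Or.inl ((Nat.Coprime.pow_left k ((hq.coprime_iff_not_dvd).2
              (not_dvd_of_coprime h4 hq h5))).dvd_of_dvd_mul_right h3)
          · exact Or.inr ((Nat.Coprime.pow_left k ((hq.coprime_iff_not_dvd).2 h5)).dvd_of_dvd_mul_left h3)
        have h3 : ∀ a, q ^ k ∣ a → 0 < a → a ≤ 19 → q ^ k ≤ 19 := fun a d h0 l => (Nat.le_of_dvd h0 d).trans l
        rcases h2 _ _ h1 (by norm_num) with h1 | h1
        · rcases h2 _ _ h1 (by norm_num) with h1 | h1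
          · rcases h2 _ _ h1 (by norm_num) with h1 | h1
            · rcases h2 _ _ h1 (by norm_num) with h1 | h1
              · rcases h2 _ _ h1 (by norm_num) with h1 | h1 <;> exact h3 _ h1 (by norm_num) (by norm_num)
              · exact h3 _ h1 (by norm_num) (by norm_num)
            · exact h3 _ h1 (by norm_num) (by norm_num)
          · exact h3 _ h1 (by norm_num) (by norm_num)
        · exact h3 _ h1 (by norm_num) (by norm_num)
      exact a.trans ((hP.of_le le_sup_right (sup_le hN.le hP.le)).norm_le_norm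
        (sup_le (norm_of_cent b) (le_norm_self _)))
    · exact hN.norm.trans ((hP.of_le l hN.le).norm_le_norm (ih _ lt rfl dN (hP.of_le l hN.le) (Or.inl (by omega))))
  · have h := h.resolve_right hs
    push Not at hs
    obtain ⟨m, hm⟩ : 19 ∣ n := cP ▸ hn ▸ card_dvd hP.le
    have dm : m ∣ 9240 := Nat.dvd_of_mul_dvd_mul_left (by norm_num : 0 < 19) (hm ▸ hd)
    rcases Nat.lt_or_ge 1 m with h1 | h1
    · exfalso
      haveI : Nontrivial H := (nontrivial_iff_ne_bot _).2 (ne_bot_mono P1 hP.le)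
      haveI : IsSimpleGroup H := ⟨fun N hN => by
        by_contra hc
        push Not at hc
        refine hc.2 (map_injective H.subtype_injective ((hs _ (normal_iff_map_subtype.1 hN) fun e => hc.1 ?_).trans
          (map_top_subtype H).symm))
        exact (map_eq_bot_iff_of_injective _ H.subtype_injective).1 e⟩
      exact not_simple (G := H) (hn.trans hm) h1 (lt_of_le_of_ne (Nat.le_of_dvd (by norm_num) dm) (by omega)) dm
    · rw [← eq_of_card_le hP.le (by omega)]; exact le_norm_self _

/-- A finite group of order 175560 = 2³·3·5·7·11·19 is either simple or has a normal Sylow 19-subgroup. -/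
theorem result {G : Type*} [Group G] [Finite G] (hG : Nat.card G = 175560) : IsSimpleGroup G ∨ ∀ P : Sylow 19 G, (P : Subgroup G).Normal := by
  by_cases h : IsSimpleGroup G
  · exact Or.inl h
  refine Or.inr fun P => ?_
  haveI : Fact (Nat.Prime 19) := ⟨by norm_num⟩
  haveI : Nontrivial G := Finite.one_lt_card_iff_nontrivial.1 (by omega)
  refine normalIn_top.1 ⟨le_top, main _ (card_top'.trans hG) dvd_rfl (syl_sylow_top P) (Or.inr ?_)⟩
  by_contra hc
  push Not at hc
  exact h ⟨fun N hN => (em (N = ⊥)).imp_right (hc N (normalIn_top.2 hN))⟩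

end Cfsg.Agent.S4274
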