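import Mathlib
import Cfsg.Statements.S4275

set_option autoImplicit false
open Cfsg

namespace Cfsg.Agent.S4275

/-- Let G be a transitive group of permutations of a finite set Ω, let o ∈ Ω, and let α be an automorphism of G. Then α is induced by conjugation by a permutation of Ω normalizing G if and only if the image under α of the stabilizer of o fixes some point of Ω. -/
theorem result {Ω : Type*} [Fintype Ω] (G : Subgroup (Equiv.Perm Ω)) (htr : MulAction.IsPretransitive G Ω) (o : Ω) (α : G ≃* G) : (∃ σ : Equiv.Perm Ω, σ ∈ Subgroup.normalizer (G : Set (Equiv.Perm Ω)) ∧ ∀ g : G, ((α g : G) : Equiv.Perm Ω) = σ * (g : Equiv.Perm Ω) * σ⁻¹) ↔ ∃ ω : Ω, ∀ g ∈ (MulAction.stabilizer G o).map α.toMonoidHom, g • ω = ω := by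
  constructor
  · rintro ⟨σ, -, h⟩
    refine ⟨σ o, ?_⟩
    rintro _ ⟨g, hg, rfl⟩
    have hg : (g : Equiv.Perm Ω) o = o := hg
    change ((α g : G) : Equiv.Perm Ω) (σ o) = σ o
    rw [h]; simp [hg]
  · rintro ⟨ω, hω⟩
    choose t ht using fun x => htr.exists_smul_eq o x
    have key : ∀ (g : G) (x : Ω), g • o = x → α (t x) • ω = α g • ω := by
      intro g x hx
      have h1 : g⁻¹ * t x ∈ MulAction.stabilizer G o := by
        rw [MulAction.mem_stabilizer_iff, mul_smul, ht, ← hx, inv_smul_smul]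
      have h2 := hω _ ⟨_, h1, rfl⟩
      change α (g⁻¹ * t x) • ω = ω at h2
      rwa [map_mul, map_inv, mul_smul, inv_smul_eq_iff] at h2
    let f : Ω → Ω := fun x => α (t x) • ω
    have hf : Function.Surjective f := by
      intro y
      obtain ⟨g, rfl⟩ := htr.exists_smul_eq ω y
      obtain ⟨g, rfl⟩ := α.surjective g
      exact ⟨g • o, key g _ rfl⟩
    let σ : Equiv.Perm Ω := Equiv.ofBijective f hf.bijective_of_finite
    have hσ : ∀ g : G, ((α g : G) : Equiv.Perm Ω) = σ * (g : Equiv.Perm Ω) * σ⁻¹ := by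
      intro g
      rw [eq_mul_inv_iff_mul_eq]
      ext x
      change α g • α (t x) • ω = α (t (g • x)) • ω
      rw [key (g * t x) (g • x) (by rw [mul_smul, ht]), map_mul, mul_smul]
    refine ⟨σ, Subgroup.mem_normalizer_fintype fun g hg => ?_, hσ⟩
    rw [← hσ ⟨g, hg⟩]
    exact (α ⟨g, hg⟩).2

end Cfsg.Agent.S4275
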