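import Cfsg.Statements.S4276
import Cfsg.Agent.Perm.Linked

set_option autoImplicit false
open Cfsg

namespace Cfsg.Agent.S4276

/-- Let G be a doubly transitive group of permutations of a finite set Ω of size n, let o ∈ Ω, and let α be an automorphism of G of odd order. Suppose that the image under α of the stabilizer of o has an orbit on Ω whose length k is coprime to n. Then α is induced by conjugation by a permutation of Ω normalizing G, and k = 1 or k = n − 1. -/
theorem result {Ω : Type*} [Fintype Ω] (G : Subgroup (Equiv.Perm Ω)) (h2 : MulAction.IsMultiplyPretransitive G Ω 2) (o : Ω) (α : MulAut G) (hα : Odd (orderOf α)) (ω : Ω) (hk : (Nat.card (MulAction.orbit ((MulAction.stabilizer G o).map α.toMonoidHom) ω)).Coprime (Fintype.card Ω)) : (∃ σ : Equiv.Perm Ω, σ ∈ Subgroup.normalizer (G : Set (Equiv.Perm Ω)) ∧ ∀ g : G, ((α g : G) : Equiv.Perm Ω) = σ * (g : Equiv.Perm Ω) * σ⁻¹) ∧ (Nat.card (MulAction.orbit ((MulAction.stabilizer G o).map α.toMonoidHom)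 ω) = 1 ∨ Nat.card (MulAction.orbit ((MulAction.stabilizer G o).map α.toMonoidHom) ω) = Fintype.card Ω - 1) := by
  classical
  obtain ⟨σ, h, hσ⟩ := CF.Perm.exists_conj_of_odd G h2 o hα ω hk
  refine ⟨⟨σ, h, hσ⟩, ?_⟩
  have h1 : ∀ g : G, g • o = o → α g • σ o = σ o := fun g hg => by
    show ((α g : G) : Equiv.Perm Ω) (σ o) = _
    rw [hσ]
    exact congrArg σ ((congrArg g.1 (σ.symm_apply_apply o)).trans hg)
  rw [Nat.card_coe_set_eq]
  by_cases e : ω = σ o
  · refine .inl (Set.ncard_eq_one.2 ⟨ω, Set.eq_singleton_iff_unique_mem.2 ⟨MulAction.mem_orbit_self _, ?_⟩⟩)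
    rintro _ ⟨⟨_, g, hg, rfl⟩, rfl⟩
    exact e ▸ h1 g hg
  · refine .inr ?_
    rw [← Nat.card_eq_fintype_card, ← Set.ncard_singleton (σ o), ← Set.ncard_compl]
    congr 1
    ext x
    refine ⟨?_, fun hx => ?_⟩
    · rintro ⟨⟨_, g, hg, rfl⟩, rfl⟩ hx
      exact e (smul_left_cancel _ (hx.trans (h1 g hg).symm))
    · obtain ⟨g, e1, e2⟩ := MulAction.is_two_pretransitive_iff.1 h2 (fun t => e (σ.symm.injective t.symm) :
        σ.symm (σ o) ≠ σ.symm ω) (fun t => hx (σ.symm.injective t.symm) : σ.symm (σ o) ≠ σ.symm x)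
      refine ⟨⟨_, g, by simpa using e1, rfl⟩, ?_⟩
      show ((α g : G) : Equiv.Perm Ω) ω = x
      rw [hσ]
      exact (congrArg σ e2).trans (σ.apply_symm_apply x)

end Cfsg.Agent.S4276
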