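import Mathlib
import Cfsg.Agent.Perm.Linked
import Cfsg.Agent.Perm.PrimeDegree
import Cfsg.Statements.S4277

set_option autoImplicit false
open Cfsg

namespace Cfsg.Agent.S4277

open MulAction Subgroup in
theorem aux {G Ω : Type*} [Group G] [Finite G] [MulAction G Ω] [Fintype Ω] [FaithfulSMul G Ω]
    [IsPretransitive G Ω] {p : ℕ} [hp : Fact p.Prime] (hΩ : Fintype.card Ω = p)
    (h2 : IsMultiplyPretransitive G Ω 2) : Group.IsSolvable (Cfsg.Out G) := by
  classical
  obtain ⟨t, ht⟩ := CF.Perm.exists_orderOf_eq_prime_degree (G := G) hΩ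
  obtain ⟨e, he⟩ := CF.Perm.exists_coord' hΩ t ht
  have hp0 : p ≠ 0 := hp.out.ne_zero
  have : NeZero p := ⟨hp0⟩
  have hfac : Nat.card G ∣ p.factorial := by
    have h1 := Subgroup.card_dvd_of_injective (toPermHom G Ω) toPerm_injective
    rwa [Nat.card_perm, Nat.card_eq_fintype_card (α := Ω), hΩ] at h1
  have hsq : ¬ p * p ∣ Nat.card G := fun h => by
    have h1 := h.trans hfac
    obtain ⟨n, rfl⟩ := Nat.exists_eq_succ_of_ne_zero hp0
    rw [Nat.factorial_succ] at h1
    have h3 := Nat.dvd_of_mul_dvd_mul_left (Nat.succ_pos n) h1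
    have := (hp.out.dvd_factorial).1 h3
    omega
  have hcP : ∀ s : G, orderOf s = p → ∃ S : Sylow p G, (S : Subgroup G) = zpowers s := by
    intro s hs
    have h1 : IsPGroup p (zpowers s) := IsPGroup.of_card (n := 1) (by rw [Nat.card_zpowers, hs, pow_one])
    refine ⟨h1.toSylow fun h => hsq ?_, rfl⟩
    rw [← (zpowers s).card_mul_index, Nat.card_zpowers, hs]
    exact Nat.mul_dvd_mul_left _ h
  have hpow : ∀ (n : ℕ) (j : ZMod p), t ^ n • e j = e (j + n) := by
    intro n j
    induction n with
    | zero => simp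
    | succ n ih => rw [pow_succ', mul_smul, ih, he]; congr 1; push_cast; ring
  have hodd : ∀ α : MulAut G, α t = t → Odd (orderOf α) → α ∈ Cfsg.Inn G := by
    intro α h1 ho
    have hk : (Nat.card (orbit ((stabilizer G (e 0)).map α.toMonoidHom) (e 0))).Coprime
        (Fintype.card Ω) := by
      rw [hΩ]
      refine ((Nat.Prime.coprime_iff_not_dvd hp.out).2 fun h => hsq ?_).symm
      have h3 : Nat.card (orbit ((stabilizer G (e 0)).map α.toMonoidHom) (e 0)) ∣
          Nat.card ((stabilizer G (e 0)).map α.toMonoidHom) := by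
        rw [Nat.card_coe_set_eq, ← index_stabilizer]
        exact index_dvd_card _
      rw [card_map_of_injective α.injective] at h3
      rw [← (stabilizer G (e 0)).card_mul_index, index_stabilizer_of_transitive,
        Nat.card_eq_fintype_card (α := Ω), hΩ]
      exact Nat.mul_dvd_mul_right (h.trans h3) _
    obtain ⟨x, hx⟩ := CF.Perm.exists_fix_of_odd h2 (e 0) ho (e 0) hk
    obtain ⟨σ, hσ⟩ := CF.Perm.exists_perm_of_fix hx
    obtain ⟨c, hc⟩ := e.surjective (σ (e 0))
    have h4 : ∀ y, σ y = t ^ c.val • y := by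
      intro y
      obtain ⟨j, rfl⟩ := e.surjective y
      have h5 : e j = t ^ j.val • e 0 := by rw [hpow]; simp
      rw [h5, hσ, map_pow, h1, ← hc, hpow, hpow, hpow]
      simp [add_comm]
    refine ⟨t ^ c.val, ?_⟩
    ext g
    rw [MulAut.conj_apply, mul_inv_eq_iff_eq_mul]
    refine eq_of_smul_eq_smul (α := Ω) fun y => ?_
    rw [mul_smul, mul_smul, ← h4, ← h4, hσ]
  let C : Subgroup (MulAut G) := stabilizer (MulAut G) t
  let π := QuotientGroup.mk' (Cfsg.Inn G)
  have hC : IsPGroup 2 (C.map π) := by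
    rintro ⟨_, α, hα, rfl⟩
    obtain ⟨k, m, hm, hk⟩ := Nat.exists_eq_two_pow_mul_odd (orderOf_pos α).ne'
    refine ⟨k, Subtype.ext ?_⟩
    simp only [SubgroupClass.coe_pow, OneMemClass.coe_one]
    rw [← map_pow, QuotientGroup.mk'_apply, QuotientGroup.eq_one_iff]
    refine hodd _ (C.pow_mem hα _) ?_
    refine hm.of_dvd_nat (orderOf_dvd_of_pow_eq_one ?_)
    rw [← pow_mul, ← hk, pow_orderOf_eq_one]
  have hN : ∀ x : Cfsg.Out G, ∃ α : MulAut G, π α = x ∧ ∃ a : ℕ, α t = t ^ a := by
    intro x
    obtain ⟨α, rfl⟩ := QuotientGroup.mk'_surjective _ x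
    obtain ⟨S, hS⟩ := hcP t ht
    obtain ⟨T, hT⟩ := hcP (α t) (by rw [MulEquiv.orderOf_eq, ht])
    obtain ⟨g, hg⟩ := exists_smul_eq G T S
    refine ⟨MulAut.conj g * α, ?_, ?_⟩
    · have h0 : π (MulAut.conj g) = 1 := (QuotientGroup.eq_one_iff _).2 ⟨g, rfl⟩
      rw [map_mul, h0, one_mul]
    · have h1 : MulAut.conj g (α t) ∈ (S : Subgroup G) := by
        rw [← hg, Sylow.coe_subgroup_smul, hT]
        exact Subgroup.smul_mem_pointwise_smul _ _ _ (mem_zpowers _)
      rw [hS, ← mem_powers_iff_mem_zpowers] at h1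
      obtain ⟨a, ha⟩ := h1
      exact ⟨a, ha.symm⟩
  have hle : _root_.commutator (Cfsg.Out G) ≤ C.map π := by
    rw [_root_.commutator_def, commutator_le]
    intro x _ y _
    obtain ⟨α, rfl, a, ha⟩ := hN x
    obtain ⟨β, rfl, b, hb⟩ := hN y
    refine ⟨_, ?_, map_commutatorElement π α β⟩
    have h1 : (α * β) t = (β * α) t := by
      simp only [MulAut.mul_apply, ha, hb, map_pow, ← pow_mul, mul_comm]
    have h2 : ∀ x ∈ zpowers t, (α * β) x = (β * α) x := by
      rintro _ ⟨k, rfl⟩
      rw [map_zpow, map_zpow, h1]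
    have h3 : (β * α)⁻¹ t ∈ zpowers t := by
      have h4 : (zpowers t).map (β * α).toMonoidHom = zpowers t := by
        refine eq_of_le_of_card_ge ?_ (card_map_of_injective (β * α).injective).ge
        rw [MonoidHom.map_zpowers, zpowers_le]
        change β (α t) ∈ _
        rw [ha, map_pow, hb]
        exact pow_mem (pow_mem (mem_zpowers t) _) _
      have h5 : t ∈ (zpowers t).map (β * α).toMonoidHom := by rw [h4]; exact mem_zpowers t
      obtain ⟨u, hu, hut⟩ := h5
      have : (β * α)⁻¹ t = u := by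
        rw [← hut]; simp
      rwa [this]
    change (α * β * α⁻¹ * β⁻¹) t = t
    rw [mul_assoc (α * β), ← mul_inv_rev, MulAut.mul_apply, h2 _ h3]
    simp
  have h1 : IsPGroup 2 (_root_.commutator (Cfsg.Out G)) := hC.to_le hle
  have h2 : Group.IsNilpotent (_root_.commutator (Cfsg.Out G)) := h1.isNilpotent
  exact Group.isSolvable_of_ker_le_range (_root_.commutator (Cfsg.Out G)).subtype
    (Abelianization.of (G := Cfsg.Out G)) (by simp)

/-- A case of the Schreier conjecture: if a finite simple group G has a subgroup of prime index, then the outer automorphism group of G is solvable. -/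
theorem result {G : Type*} [Group G] [Finite G] [IsSimpleGroup G] (H : Subgroup G) (hH : H.index.Prime) : Group.IsSolvable (Cfsg.Out G) := by
  classical
  have : Fact H.index.Prime := ⟨hH⟩
  have := Fintype.ofFinite (G ⧸ H)
  have hf : FaithfulSMul G (G ⧸ H) := by
    have h1 : H.normalCore = ⊥ := by
      rcases IsSimpleGroup.eq_bot_or_eq_top_of_normal H.normalCore inferInstance with h | h
      · exact h
      · have h2 : H = ⊤ := top_le_iff.1 (h ▸ H.normalCore_le)
        rw [h2, Subgroup.index_top] at hH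
        exact absurd hH Nat.not_prime_one
    rw [Subgroup.normalCore_eq_ker, MonoidHom.ker_eq_bot_iff] at h1
    exact ⟨fun h => h1 (Equiv.ext h)⟩
  have hc : Fintype.card (G ⧸ H) = H.index := by rw [Subgroup.index_eq_card, Nat.card_eq_fintype_card]
  rcases CF.Perm.solvable_or_twoTrans (G := G) hc with h | h
  · have h1 : ∀ a b : G, a * b = b * a := IsSimpleGroup.comm_iff_isSolvable.2 h
    let _ : CommGroup G := { (inferInstance : Group G) with mul_comm := h1 }
    have : IsCyclic G := inferInstance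
    have h2 : Group.IsSolvable (MulAut G) :=
      Group.isSolvable_of_comm fun a b => (IsCyclic.mulAutMulEquiv G).injective (by
        rw [map_mul, map_mul, mul_comm])
    infer_instance
  · exact aux hc h

end Cfsg.Agent.S4277
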