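import Mathlib
import Cfsg.Agent.Fgs2.IrrDim
import Cfsg.Agent.Fgs2.HHB
import Cfsg.Statements.S4282

set_option autoImplicit false
open Cfsg

namespace Cfsg.Agent.S4282

open CF.Fgs2 CF.Fgs1 CF.BG Subgroup Module Polynomial

/-- A critical case behind the Hall–Higman theorem. Let p ≠ q be primes and G a finite group generated by a normal q-subgroup Q and a cyclic p-subgroup generated by x, such that the centralizer of every non-identity element of that cyclic subgroup is its product with the centre of G. Let K be an algebraically closed field of characteristic p and ρ a faithful representation of G on a nonzero finite-dimensional K-space whose restriction to Q is irreducible. If s is the least exponent with (ρ(x) − 1)^s = 0, then |⟨x⟩| − 1 ≤ s ≤ |⟨x⟩|; and if s = |⟨x⟩| − 1 then |⟨x⟩| − 1 is a power of q and Q is non-abelian. -/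
theorem result {G : Type*} [Group G] [Finite G] (p q : ℕ) [Fact p.Prime] [Fact q.Prime] (hpq : p ≠ q) (Q : Subgroup G) [Q.Normal] (hQ : IsPGroup q Q) (x : G) (hx : IsPGroup p (Subgroup.zpowers x)) (hgen : Q ⊔ Subgroup.zpowers x = ⊤) (hC : ∀ y ∈ Subgroup.zpowers x, y ≠ 1 → Subgroup.centralizer ({y} : Set G) = Subgroup.zpowers x ⊔ Subgroup.center G) {K : Type*} [Field K] [IsAlgClosed K] [CharP K p] {V : Type*} [AddCommGroup V] [Module K V] [FiniteDimensional K V] [Nontrivial V] (ρ : Representation K G V) (hfaith : Function.Injective ρ) (hirr : ∀ W : Submodule K V, (∀ g ∈ Q, Submodule.map (ρ g) W ≤ W) → W = ⊥ ∨ W = ⊤) (s : ℕ) (hs : (ρ x - 1) ^ s = 0) (hmin : ∀ k < s, (ρ x - 1) ^ k ≠ 0) : Nat.card (Subgroup.zpowers x) - 1 ≤ s ∧ s ≤ Nat.card (Subgroup.zpowers x) ∧ (s = Nat.card (Subgroup.zpowers x) - 1 → (∃ b : ℕ, Nat.card (Subgroup.zpowers x) - 1 = q ^ b) ∧ ¬ IsMulCommutative Q) := by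
  have hp : p.Prime := Fact.out
  have hq : q.Prime := Fact.out
  obtain ⟨n, hn⟩ := IsPGroup.iff_card.1 hx
  rw [hn]
  rw [Nat.card_zpowers] at hn
  have ho : x ^ p ^ n = 1 := hn ▸ pow_orderOf_eq_one x
  have hpos := pow_pos hp.pos n
  have frob : ∀ {M : Type _} [AddCommGroup M] [Module K M] (T : End K M),
      (T - 1) ^ p ^ n = T ^ p ^ n - 1 := fun T => by
    have := congrArg (aeval T) (sub_pow_char_pow (X : K[X]) 1 (p := p) (n := n))
    simpa using this
  have hle : s ≤ p ^ n := by
    by_contra c
    exact hmin _ (not_le.1 c) (by rw [frob, ← map_pow, ho, map_one, sub_self])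
  have r : RepOn Q ρ := (repOn_hom ρ).mono le_top
  have irr : ∀ U : Submodule K V, U ≠ ⊥ → Stab ρ Q U → U = ⊤ := fun U h0 h =>
    (hirr U fun g hg => Submodule.map_le_iff_le_comap.2 (h g hg)).resolve_left h0
  have pi := piGrp_of_isPGroup hq hQ
  have hk : ((♯Q : ℕ) : K) ≠ 0 := fun e =>
    (pi.of_single_ne hpq.symm).not_dvd' hp rfl ((CharP.cast_eq_zero_iff K p _).1 e)
  have hs0 : s ≠ 0 := fun e => by simp [e] at hs
  have hscal : IsScal (ρ x) → p ^ n = 1 := fun ⟨c, hc⟩ => by
    obtain ⟨v, hv⟩ := exists_ne (0 : V)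
    have e : ρ x - 1 = (c - 1) • 1 := LinearMap.ext fun w => by simp [hc, sub_smul]
    rw [e, _root_.smul_pow, one_pow, smul_eq_zero, or_iff_left one_ne_zero, pow_eq_zero_iff hs0,
      sub_eq_zero] at hs
    rw [← hn, orderOf_eq_one_iff]
    exact hfaith (LinearMap.ext fun w => by simp [hc, hs])
  have hone : finrank K V = 1 → p ^ n = 1 := fun e => hscal (by
    obtain ⟨c, hc⟩ := (finrank_eq_one_iff_of_nonzero' _ (exists_ne (0 : V)).choose_spec).1 e
      (ρ x (exists_ne (0 : V)).choose)
    refine ⟨c, fun w => ?_⟩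
    obtain ⟨d, rfl⟩ := (finrank_eq_one_iff_of_nonzero' _ (exists_ne (0 : V)).choose_spec).1 e w
    rw [map_smul, ← hc, smul_comm])
  have key : s < p ^ n → finrank K V + 1 = p ^ n ∧ s + 1 = p ^ n := by
    intro hlt
    have hD : 1 < finrank K V := lt_of_le_of_ne finrank_pos fun e => by
      have := hone e.symm
      omega
    let T : End K (End K V) := LinearMap.mulLeftRight K (ρ x, ρ x⁻¹)
    have hT : ∀ (i : ℕ) A, (T ^ i) A = ρ (x ^ i) * A * ρ (x ^ i)⁻¹ := fun i A => by
      induction i with
      | zero => simp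
      | succ i ih =>
        rw [pow_succ', End.mul_apply, ih, LinearMap.mulLeftRight_apply, pow_succ', mul_inv_rev,
          map_mul, map_mul]
        simp only [mul_assoc]
    obtain ⟨m, hm⟩ : ∃ m, p ^ n = m + 1 := ⟨p ^ n - 1, by omega⟩
    have hU : (T - 1) ^ (m + 1) = 0 := by
      rw [← hm, frob, sub_eq_zero]
      exact LinearMap.ext fun A => by simp [hT, ho]
    have hν : ∑ i ∈ Finset.range (p ^ n), T ^ i = (T - 1) ^ m := by
      have : (∑ i ∈ Finset.range (p ^ n), (X : K[X]) ^ i) = (X - 1) ^ m := by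
        refine mul_right_cancel₀ (b := X - 1) (by simpa using X_sub_C_ne_zero (1 : K)) ?_
        rw [geom_sum_mul, ← pow_succ, ← hm, sub_pow_char_pow, one_pow]
      simpa using congrArg (aeval T) this
    have hker : LinearMap.ker (T - 1) = centEnd (ρ x) := by
      ext A
      rw [LinearMap.mem_ker, LinearMap.sub_apply, sub_eq_zero, mem_centEnd,
        LinearMap.mulLeftRight_apply, End.one_apply]
      exact ⟨fun e => by
        conv_rhs => rw [← e, mul_assoc, ← map_mul, inv_mul_cancel, map_one, mul_one],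
        fun e => by rw [e, mul_assoc, ← map_mul, mul_inv_cancel, map_one, mul_one]⟩
    have hle' : centEnd (ρ x) ≤ (K ∙ 1) ⊔ LinearMap.range ((T - 1) ^ m) := by
      classical
      intro A hA
      rw [← Submodule.smul_mem_iff _ hk, ← fourier r irr A]
      refine Submodule.smul_mem _ _ ?_
      rw [← Finset.sum_filter_add_sum_filter_not _ (· ∈ center G)]
      refine add_mem (Submodule.mem_sup_left (Submodule.sum_mem _ fun g hg => ?_))
        (Submodule.mem_sup_right ?_)
      · obtain ⟨c, hc⟩ := RepOn.schur irr (T := ρ g) fun a _ => by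
          rw [← map_mul, ← map_mul, mem_center_iff.1 (Finset.mem_filter.1 hg).2]
        rw [show ρ g = c • 1 from LinearMap.ext hc]
        exact Submodule.smul_mem _ _ (Submodule.smul_mem _ _ (Submodule.mem_span_singleton_self _))
      · rw [← hν]
        have hσ : ∀ (i : ℕ) g, ((MulAut.toPerm G (MulAut.conj x)) ^ i) g = x ^ i * g * (x ^ i)⁻¹ :=
          fun i g => by rw [← map_pow, ← map_pow]; rfl
        refine sum_mem_range_of_free (MulAut.toPerm G (MulAut.conj x)) hpos
          (by rw [← map_pow, ← map_pow, ho, map_one, map_one]) _ (fun g hg => ?_)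
          (fun g hg i hi0 hi e => ?_) T _ fun g hg => ?_
        · simp only [Finset.mem_filter, mem_fs] at hg ⊢
          refine ⟨Normal.conj_mem inferInstance _ hg.1 x, fun c => hg.2 ?_⟩
          simpa [mul_assoc] using Normal.conj_mem' inferInstance (x * g * x⁻¹) c x
        · simp only [Finset.mem_filter, mem_fs] at hg
          rw [hσ, mul_inv_eq_iff_eq_mul] at e
          have h1 := hC _ (pow_mem (mem_zpowers x) i) (pow_ne_one_of_lt_orderOf hi0.ne' (hn ▸ hi))
          obtain ⟨y, hy, z, hz, rfl⟩ := mem_sup_of_normal_right.1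
            (h1.le (mem_centralizer_singleton_iff.2 e.symm))
          have h2 : (y * z) ^ p ^ n ∈ center G := by
            obtain ⟨j, rfl⟩ := mem_powers_iff_mem_zpowers.2 hy
            rw [Commute.mul_pow (mem_center_iff.1 hz _), ← pow_mul, mul_comm j, pow_mul, ho, one_pow,
              one_mul]
            exact pow_mem hz _
          exact hg.2 ((mem_zpowers_pow_iff.2 (((pi.of_single_ne hpq.symm).elt hg.1).coprime'
            (piNat_pow_self hp n)).symm |> (zpowers_le.2 h2 ·)))
        · change LinearMap.trace K V (A * ρ (x * g * x⁻¹)⁻¹) • ρ (x * g * x⁻¹) = _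
          rw [map_smul, LinearMap.mulLeftRight_apply, ← map_mul, ← map_mul,
            show (x * g * x⁻¹)⁻¹ = x * (g⁻¹ * x⁻¹) by group, map_mul ρ x, ← mul_assoc,
            ← mem_centEnd.1 hA, mul_assoc, LinearMap.trace_mul_comm, mul_assoc, ← map_mul,
            inv_mul_cancel_right]
    have h1 := (Submodule.finrank_mono hle').trans (Submodule.finrank_add_le_finrank_add_finrank _ _)
    have h2 := finrank_ker_add hU
    rw [finrank_span_singleton one_ne_zero] at h1
    rw [hker, finrank_linearMap, ← sq] at h2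
    have h3 := sq_finrank_le_centEnd (ρ x) (g := (X - 1) ^ s)
      (pow_ne_zero _ (by simpa using X_sub_C_ne_zero (1 : K))) (by simpa using hs)
    rw [natDegree_pow, ← C_1, natDegree_X_sub_C, mul_one] at h3
    refine ((hh_arith (h := p ^ n) hD (finrank_le_centEnd (ρ x)) ?_).2 s h3).resolve_left hlt.not_ge
    rw [hm]
    nlinarith [Nat.mul_le_mul_left m h1]
  refine ⟨?_, hle, fun e => ?_⟩
  · rcases hle.eq_or_lt with e | e
    · omega
    · have := key e
      omega
  · obtain ⟨h1, h2⟩ := key (by omega)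
    obtain ⟨b, hb⟩ := finrank_eq_pow hq _ Q le_rfl pi r irr
    refine ⟨⟨b, by omega⟩, fun c => ?_⟩
    obtain ⟨w, hw⟩ := exists_ne (0 : V)
    have : finrank K V = 1 := by
      rw [← finrank_top, ← irr (K ∙ w) (by simpa using hw) fun g hg u hu =>
        (RepOn.schur irr fun a ha => by
          rw [← map_mul, ← map_mul, (Abel.of_comm c).mul_comm ha hg]).mem hu,
        finrank_span_singleton hw]
    have := hone this
    omega

end Cfsg.Agent.S4282
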