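import Mathlib
import Cfsg.Agent.Fgs2.Basic
import Cfsg.Agent.Coprime.Frobenius
import Cfsg.Statements.S4283

set_option autoImplicit false
open Cfsg

namespace Cfsg.Agent.S4283

/-- Let G be a finite group with centre Z and let K, H be abelian subgroups of G containing Z such that G/Z is a Frobenius group with complement H/Z and kernel K/Z. Then the conjugacy class sizes of G are exactly 1, [G : K] and [G : H], and these two indices are coprime. (This is the converse half of the characterization of finite groups whose conjugacy class sizes are exactly 1, m and n with m and n coprime.) -/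
theorem result {G : Type*} [Group G] [Finite G] (K H : Subgroup G) (hZK : Subgroup.center G ≤ K) (hZH : Subgroup.center G ≤ H) (hK : IsMulCommutative K) (hH : IsMulCommutative H) (hFrob : Cfsg.IsFrobeniusComplement (H.map (QuotientGroup.mk' (Subgroup.center G)))) (hker : Cfsg.frobeniusKernel (H.map (QuotientGroup.mk' (Subgroup.center G))) = (K.map (QuotientGroup.mk' (Subgroup.center G)) : Set (G ⧸ Subgroup.center G))) : Set.range (fun x : G => (Subgroup.centralizer ({x} : Set G)).index) = ({1, K.index, H.index} : Set ℕ) ∧ K.index.Coprime H.index := by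
  set π := QuotientGroup.mk' (Subgroup.center G) with hπ
  obtain ⟨K0, hK0, hK0n, hcompl, hK1, hsr⟩ := CF.Coprime.frob_exists_kernel hFrob
  have hKK : K0 = K.map π := SetLike.coe_injective (hK0.trans hker)
  subst hKK
  have hker' : π.ker = Subgroup.center G := QuotientGroup.ker_mk' _
  have hmem : ∀ (L : Subgroup G), Subgroup.center G ≤ L → ∀ x, π x ∈ L.map π ↔ x ∈ L := by
    intro L hL x
    rw [← Subgroup.mem_comap, Subgroup.comap_map_eq_self (hker'.le.trans hL)]
  have hone : ∀ x, π x = 1 ↔ x ∈ Subgroup.center G := fun x => by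
    rw [← MonoidHom.mem_ker, hker']
  have hsup : K.map π ⊔ H.map π = ⊤ := hcompl.sup_eq_top
  have hnorm : H.map π ≤ Subgroup.normalizer (K.map π : Set _) := Subgroup.le_normalizer_of_normal
  have hCK : ∀ x ∈ K, x ∉ Subgroup.center G → Subgroup.centralizer {x} = K := by
    intro x hx hxZ
    apply le_antisymm
    · intro g hg
      rw [← hmem K hZK]
      refine hsr.sup_inf_centralizer_le hnorm ((hmem K hZK x).2 hx) (mt (hone x).1 hxZ) ⟨?_, ?_⟩
      · rw [hsup]; trivial
      · rw [Subgroup.mem_centralizer_singleton_iff] at hg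
        apply Subgroup.mem_centralizer_singleton_iff.2
        rw [← map_mul, hg, map_mul]
    · intro g hg
      rw [Subgroup.mem_centralizer_singleton_iff]
      exact setLike_mul_comm hg hx
  have hCH : ∀ x ∈ H, x ∉ Subgroup.center G → Subgroup.centralizer {x} = H := by
    intro x hx hxZ
    apply le_antisymm
    · intro g hg
      rw [← hmem H hZH]
      refine CF.Coprime.frob_centralizer_le hFrob ((hmem H hZH x).2 hx) (mt (hone x).1 hxZ) ?_
      rw [Subgroup.mem_centralizer_singleton_iff] at *
      rw [← map_mul, hg, map_mul]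
    · intro g hg
      rw [Subgroup.mem_centralizer_singleton_iff]
      exact setLike_mul_comm hg hx
  have hex : ∀ L : Subgroup G, L.map π ≠ ⊥ → ∃ x ∈ L, x ∉ Subgroup.center G := by
    intro L hL
    by_contra h
    push Not at h
    exact hL ((Subgroup.map_eq_bot_iff _).2 (le_trans h hker'.ge))
  have hidx : ∀ L : Subgroup G, Subgroup.center G ≤ L → (L.map π).index = L.index := fun L hL =>
    Subgroup.index_map_eq _ (QuotientGroup.mk'_surjective _) (hker'.le.trans hL)
  constructor
  · ext n
    simp only [Set.mem_range, Set.mem_insert_iff, Set.mem_singleton_iff]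
    constructor
    · rintro ⟨x, rfl⟩
      by_cases hxZ : x ∈ Subgroup.center G
      · left
        rw [Subgroup.index_eq_one, Subgroup.centralizer_eq_top_iff_subset]
        simpa using hxZ
      by_cases hxK : x ∈ K
      · right; left; rw [hCK x hxK hxZ]
      right; right
      obtain ⟨k, -, hk⟩ := hsr.exists_conj_mem hnorm (x := π x) (by rw [hsup]; trivial)
        (mt (hmem K hZK x).1 hxK)
      obtain ⟨k, rfl⟩ := QuotientGroup.mk'_surjective _ k
      rw [← hπ, ← map_inv, ← map_mul, ← map_mul, hmem H hZH] at hk
      have hc : IsConj x (k⁻¹ * x * k) := isConj_iff.2 ⟨k⁻¹, by simp⟩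
      have h2 : k⁻¹ * x * k ∉ Subgroup.center G := fun h => hxZ (by
        have := (Subgroup.Normal.conj_mem inferInstance _ h k)
        simpa [mul_assoc] using this)
      rw [← hCH _ hk h2, ← CF.Fgs2.ncard_carrier_mk, ← CF.Fgs2.ncard_carrier_mk,
        ConjClasses.mk_eq_mk_iff_isConj.2 hc]
    · rintro (rfl | rfl | rfl)
      · exact ⟨1, by simp⟩
      · obtain ⟨x, hx, hxZ⟩ := hex K hK1
        exact ⟨x, by rw [hCK x hx hxZ]⟩
      · obtain ⟨x, hx, hxZ⟩ := hex H hFrob.1
        exact ⟨x, by rw [hCH x hx hxZ]⟩
  · rw [← hidx K hZK, ← hidx H hZH, hcompl.symm.index_eq_card, hcompl.index_eq_card]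
    exact hsr.coprime hnorm

end Cfsg.Agent.S4283
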