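import Mathlib
import Cfsg.Statements.S4284
import Cfsg.Agent.Fgs1.Rank2
import Cfsg.Agent.Fgs3.SqFree

set_option autoImplicit false
open Cfsg

namespace Cfsg.Agent.S4284

open Subgroup CF.BG CF.Fgs1 CF.SolvStr
open scoped commutatorElement

theorem aux {G : Type*} [Group G] [Finite G] (hnodf : ∀ A B : Subgroup G, A ⊴ ⊤ → B ⊴ ⊤ →
    A ⊓ B = ⊥ → A ⊔ B = ⊤ → Abel A → A = ⊥) {m n p : ℕ} (hm : 1 < m) (hn : 1 < n)
    (hcop : m.Coprime n) (c : ∀ x : G, ind x = 1 ∨ ind x = m ∨ ind x = m * n)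
    (ex : ∃ x : G, ind x = m * n) (hp : p.Prime) (dp : p ∣ m) {P : Subgroup G} (hP : Syl p P ⊤) :
    m = p ∧ p ∣ n - 1 ∧ NPC p (⊤ : Subgroup G) ∧ ♯⁅P, P⁆ = p ∧ ∃ M : Subgroup G, M ⊴ ⊤ ∧
      (∀ x, x ∈ M ↔ ind x = 1 ∨ ind x = m) ∧ M.index = m ∧ Abel M := by
  have c2 : ∀ x : G, x ∉ center G → ind x = m ∨ ind x = m * n := fun x nx =>
    (c x).resolve_left (mt ind_eq_one.1 nx)
  have dm : ∀ x : G, x ∉ center G → m ∣ ind x := fun x nx => by
    rcases c2 x nx with e | e <;> simp [e]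
  have npc : ∀ q, q.Prime → q ∣ m → NPC q (⊤ : Subgroup G) := fun q hq d =>
    npc_of_part (sol_of_ind_two c) fun v u nv nu _ _ => by
      have : ∀ x : G, x ∉ center G → logn q (ind x) = logn q m := fun x nx => by
        rcases c2 x nx with e | e <;> rw [e]
        rw [logn_mul (by omega) (by omega), logn_eq_zero ((piNat_compl_single hq).2
          (not_dvd_of_coprime hcop hq d)), add_zero]
      rw [this v nv, this u nu]
  have hH := npc p hp dp
  set H := 𝐎 {p}ᶜ (⊤ : Subgroup G)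
  have nH : H ⊴ ⊤ := O_normal _ _
  have N : ∀ K, K ≤ 𝐍 H := fun K => le_top.trans nH.norm
  have sd := hH.sdprod hP
  obtain ⟨g₀, hg₀⟩ := ex
  have pn : PiNat {p}ᶜ n := (piNat_compl_single hp).2 (not_dvd_of_coprime hcop hp dp)
  have cP : ∀ x, P ≤ 𝐂₁ x → x ∈ center G := fun x l => by_contra fun nx =>
    (pi_ind_of_hall hP l).not_dvd' hp rfl (dp.trans (dm x nx))
  have pm : PiNat {p} m := fun q hq d => by
    by_contra qp
    obtain ⟨w, hw, nw⟩ : ∃ w ∈ P, w ∉ center G := by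
      by_contra k
      push Not at k
      have := ind_eq_one.2 (cP g₀ fun w hw => center_le_cent1 _ (k w hw))
      nlinarith
    obtain ⟨R, hR, nR⟩ := exists_syl_inv (N (zpowers w)) ((hP.pi.elt hw).zpowers.coprime hH.pi)
      (Or.inl (abel_zpowers w).sol) q
    have := (npc q hq d).cent le_top hR.pi le_top ((hP.pi.elt hw).zpowers.of_single_ne
      (Ne.symm qp)) nR (mem_zpowers w)
    exact (pi_ind_of_hall (hR.syl_trans hH qp) (le_cent1_iff.2 this)).not_dvd' hq rfl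
      (d.trans (dm w nw))
  have F1 : ∀ g, H ≤ 𝐂₁ g ↔ ind g = 1 ∨ ind g = m := fun g => ⟨fun l => by
    refine (c g).imp_right (·.resolve_right fun e => hn.ne' ?_)
    exact pn.eq_one ((pi_ind_of_hall hH l).dvd (e ▸ dvd_mul_left n m)),
    fun e => le_cent1_of_coprime nH.norm (hH.pi.coprime' (by
      rcases e with e | e <;> rw [e]
      exacts [piNat_one _, pm]))⟩
  have F2 : ∀ g, ¬ H ≤ 𝐂₁ g → ind g = m * n ∧ (𝐂₁ g).relIndex H = n := fun g l => by
    have e : ind g = m * n := by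
      have := c g
      rw [F1] at l
      tauto
    exact ⟨e, eq_of_pi_mul (hH.pi.relIndex _) pn (hH.idx_of_le le_sup_left) pm.compl_compl
      (by rw [← ind_eq_mul nH, e, mul_comm])⟩
  have F3 : ∀ w ∈ P, w ∉ center G → (𝐂₁ w).relIndex P = m := fun w hw nw => by
    have e := ind_of_sd sd (le_norm_self P hw)
    rcases c2 w nw with k | k
    · exact eq_of_pi_mul (hP.pi.relIndex _) pm (hH.pi.relIndex _) (piNat_one _)
        (by rw [mul_comm, ← e, k, mul_one])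
    · exact eq_of_pi_mul (hP.pi.relIndex _) pm (hH.pi.relIndex _) pn (by rw [mul_comm, ← e, k])
  have H1 : H ≠ ⊥ := fun e => by
    have := (F1 g₀).1 (e ▸ bot_le)
    rw [hg₀] at this
    rcases this with k | k <;> nlinarith
  have nP : ¬ P ≤ 𝐂 H := fun l => by
    have k : H ≤ center G := fun x hx => cP x (l.trans (cent_le_cent1 hx))
    exact H1 (hnodf H P nH (sd.dprod l).normal_right sd.inf sd.sup
      (k.trans (center_le_cent H)))
  have aH : Abel H := by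
    by_contra na
    obtain ⟨w, hw, nw⟩ := SetLike.not_le_iff_exists.1 nP
    rw [← le_cent1_iff] at nw
    obtain ⟨x, hx, nx, l⟩ : ∃ x ∈ H, ¬ H ≤ 𝐂₁ x ∧ H ⊓ 𝐂₁ w ≤ 𝐂₁ x := by
      by_cases k : H ⊓ 𝐂₁ w ≤ 𝐂 H
      · obtain ⟨x, hx, nx⟩ := SetLike.not_le_iff_exists.1 na
        exact ⟨x, hx, mt le_cent1_iff.1 nx, k.trans (cent_le_cent1 hx)⟩
      obtain ⟨x, hx, nx⟩ := SetLike.not_le_iff_exists.1 k
      have e := cent1_mul (mem_cent1.1 hx.2).symm ((hP.pi.elt hw).coprime (hH.pi.elt hx.1))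
      refine ⟨x, hx.1, mt le_cent1_iff.1 nx, inf_le_right.trans ((cent1_eq_of_le
        (e.le.trans inf_le_left) ?_).ge.trans (e.le.trans inf_le_right))⟩
      rw [(F2 w nw).1, (F2 _ fun k => nw (k.trans (e.le.trans inf_le_left))).1]
    have e := eq_of_card_eq (le_inf inf_le_left l) (card_eq_of_relIndex
      ((F2 w nw).2.trans (F2 x nx).2.symm))
    refine nw (le_cent1_iff.2 ((nil_of_relIndex fun x _ nx => (F2 x (mt le_cent1_iff.1 nx)).2
      ).cent_of_cent_cent (N _) ((hP.pi.elt hw).zpowers.coprime hH.pi) (C := H ⊓ 𝐂₁ w) inf_le_left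
      (cent_zpowers w ▸ inf_le_right) ?_ (mem_zpowers w)))
    rw [cent_zpowers]
    exact ((inf_le_inf_left H (cent_le_cent1 (e.ge ⟨hx, self_mem_cent1 x⟩))).trans e.ge).trans
      inf_le_right
  have F4 : ∀ x ∈ H, x ≠ 1 → x ∉ center G := by
    have d := aH.dprod_cent_comm (N P) (hP.pi.coprime hH.pi)
    have z : H ⊓ 𝐂 P ≤ center G := fun x hx => cP x (le_cent1_iff.2 hx.2)
    have e : H ⊓ 𝐂 P ⊔ (⁅H, P⁆ ⊔ P) = ⊤ := by rw [← sup_assoc, d.sup, sd.sup]
    have := hnodf _ (⁅H, P⁆ ⊔ P) ⟨le_top, norm_of_cent' (z.trans (center_le_cent _))⟩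
      ⟨le_top, e.ge.trans (sup_le (norm_of_cent (z.trans (center_le_cent _))) (le_norm_self _))⟩
      (by rw [inf_right_comm, inf_sup_left d.right_le (Or.inr (norm_comm_right H P)), sd.inf,
        sup_bot_eq, aH.comm_inf_cent (N P) (hP.pi.coprime hH.pi)]) e (aH.mono inf_le_left)
    exact fun x hx x1 k => x1 (eq_one_of_mem_bot this ⟨hx, center_le_cent _ k⟩)
  have F5 : ∀ x ∈ H, x ≠ 1 → ind x = m := fun x hx x1 =>
    ((F1 x).1 (le_cent1_iff.2 (aH hx))).resolve_left (mt ind_eq_one.1 (F4 x hx x1))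
  have F6 : ∀ x ∈ H, x ≠ 1 → (𝐂₁ x).relIndex P = m := fun x hx x1 => by
    have e := (sd.inf_of_left_le (le_cent1_iff.2 (aH hx))).card
    rw [top_inf_eq, inf_comm] at e
    refine Nat.eq_of_mul_eq_mul_left (CF.BG.card_pos' (𝐂₁ x)) ?_
    rw [← F5 x hx x1, card_mul_ind, ← e, mul_assoc, CF.BG.card_inf_mul_relIndex, sd.card, card_top']
  set B := P ⊓ 𝐂 H
  have nB : B ⊴ P := normalIn_inf_cent (N P)
  have NB : ∀ K, K ≤ 𝐍 B := fun K => (le_top.trans sd.sup.ge).trans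
    (sup_le (norm_of_cent' inf_le_right) nB.norm)
  obtain ⟨u, hu, u1⟩ := exists_mem_ne_one ((hP.pi.qt B).center_ne_bot fun e =>
    nP (((qt_eq_bot nB.norm).1 e).trans inf_le_right))
  obtain ⟨w, hw, -, rfl⟩ := mem_qt.1 hu.1
  have wB : w ∉ 𝐂 H := fun k => u1 (qe_of_mem ⟨hw, k⟩)
  have reg : ∀ v ∈ P, v ∉ 𝐂 H → H ⊓ 𝐂₁ v = ⊥ := by
    have nW := (normalIn_of_le_center (zpowers_le.2 hu)).qp_of_qt nB
    rw [← qt_zpowers (nB.norm hw), qp_qt (NB _)] at nW
    have cop := (hP.pi.le nW.le).coprime hH.pi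
    have i := aH.comm_inf_cent (N _) cop
    have k : H ⊓ 𝐂 (B ⊔ zpowers w) = ⊥ := by
      by_contra k
      obtain ⟨x, hx, x1⟩ := exists_mem_ne_one k
      obtain ⟨y, hy, y1⟩ := exists_mem_ne_one (H := ⁅H, B ⊔ zpowers w⁆) fun e =>
        wB (comm_eq_bot'.1 e (mem_sup_right (mem_zpowers w)))
      have yH := comm_le_left (N _) hy
      have l : P ⊓ 𝐂₁ (x * y) ≤ P ⊓ 𝐂₁ x := fun g hg => ⟨hg.1, mem_cent1.2 (by
        have h1 := conj_mem_of_norm (norm_inf_cent (N P) nW.norm hg.1) hx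
        have h2 := conj_mem_of_norm (norm_commutator (N P) nW.norm hg.1) hy
        have e : x⁻¹ * (g * x * g⁻¹) = y * (g * y * g⁻¹)⁻¹ := by
          rw [inv_mul_eq_iff_eq_mul, ← mul_assoc, ← mul_inv_eq_iff_eq_mul.2 (mem_cent1.1 hg.2)]
          group
        have := eq_one_of_mem_bot i (mem_inf.2 ⟨e ▸ mul_mem hy (inv_mem h2), (mul_mem (inv_mem hx) h1).2⟩)
        rwa [inv_mul_eq_one, eq_mul_inv_iff_mul_eq, eq_comm] at this)⟩
      have e := eq_of_card_eq l (card_eq_of_relIndex ((F6 _ (mul_mem hx.1 yH) fun e => x1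
        (eq_one_of_mem_bot i (mem_inf.2 ⟨eq_inv_of_mul_eq_one_left e ▸ inv_mem hy, hx.2⟩))).trans
        (F6 x hx.1 x1).symm))
      have c1 := mem_cent.1 hx.2 w (mem_sup_right (mem_zpowers w))
      have c3 := mem_cent1.1 (e.ge ⟨hw, mem_cent1.2 c1⟩).2
      rw [← mul_assoc, c1, mul_assoc, mul_assoc, mul_right_inj] at c3
      refine y1 (eq_one_of_mem_bot i ⟨hy, le_cent_sup (A := zpowers y) (zpowers_le.2
        (cent_symm inf_le_right yH)) (zpowers_le.2 ?_) (mem_zpowers y)⟩)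
      rw [cent_zpowers]
      exact mem_cent1.2 c3.symm
    intro v _ nv
    rw [← card_eq_one', card_eq_of_relIndex ((F2 v (mt le_cent1_iff.1 nv)).2.trans
      (F2 w (mt le_cent1_iff.1 wB)).2.symm), card_eq_one']
    refine eq_bot_mono k (le_inf inf_le_left (le_cent_sup
      (inf_le_left.trans (cent_symm inf_le_right)) ?_))
    rw [cent_zpowers]
    exact inf_le_right
  have cH : ♯H = n := by
    rw [← (F2 w (mt le_cent1_iff.1 wB)).2, relIndex_of_inf_bot (by rw [inf_comm, reg w hw wB])]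
  obtain ⟨x, hx, x1⟩ := exists_mem_ne_one H1
  have PB : P ⊓ 𝐂₁ x ≤ 𝐂 H := fun v hv => by_contra fun nv =>
    x1 (eq_one_of_mem_bot (reg v hv.1 nv) ⟨hx, mem_cent1_comm.1 hv.2⟩)
  have eM : 𝐂 H = 𝐂₁ x := le_antisymm (cent_le_cent1 hx) fun g hg => by
    obtain ⟨a, ha, b, hb, rfl⟩ := sd.exists_mul (mem_top g)
    exact mul_mem (aH ha) (PB ⟨hb, (mul_mem_cancel_left (cent_le_cent1 hx (aH ha))).1 hg⟩)
  have R : Reg (qt B H) (qt B P) := reg_of_forall fun a' ha' a1 b' hb' c => by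
    obtain ⟨a, ha, na, rfl⟩ := mem_qt.1 ha'
    obtain ⟨b, hb, nb, rfl⟩ := mem_qt.1 hb'
    rw [← qe_mul na nb, ← qe_mul nb na, qe_eq_iff (mul_mem na nb) (mul_mem nb na)] at c
    have := eq_one_of_mem_bot sd.inf ⟨by
      simpa [mul_assoc] using mul_mem (inv_mem hb) (conj_mem_of_norm' (N P ha) hb), c.1⟩
    rw [eq_one_of_mem_bot (reg a ha fun k => a1 (qe_of_mem ⟨ha, k⟩))
      ⟨hb, mem_cent1.2 (inv_mul_eq_one.1 this).symm⟩, qe_of_mem (one_mem B)]
  have cB : ♯(qt B H) = n := by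
    rw [card_qt_of_inf_bot (NB H) (eq_bot_mono sd.inf' (inf_le_inf_right H inf_le_left)), cH]
  have cP' : ♯(qt B P) = m := by
    rw [card_qt (NB P), ← F6 x hx x1, ← eM, ← inf_relIndex_right (𝐂 H), inf_comm]
  have ex : ∀ u ∈ qt B P, u ^ p = 1 := fun u hu => by
    obtain ⟨v, hv, nv, rfl⟩ := mem_qt.1 hu
    have k := pow_mem_cent_of_relIndex hp hP.pi (fun v hv nv => F3 v hv fun k =>
      nv (center_le_cent _ k)) hv
    rw [← qe_pow nv, qe_of_mem (mem_inf.2 ⟨pow_mem hv p, center_le_cent _ (cP _ (le_cent1_iff.2 k))⟩)]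
  have o : ♯(zpowers (qe B w)) = p := by
    rw [Nat.card_zpowers, orderOf_eq_of_pow hp (ex _ hu.1) u1]
  have mp : m = p := by
    rw [← cP', ← o]
    refine congrArg _ (congrArg _ (le_antisymm (fun v hv => ?_) (zpowers_le.2 hu.1)))
    have l := sup_le (zpowers_le.2 hu.1) (zpowers_le.2 hv)
    obtain ⟨g, hg⟩ := ((R.mono le_rfl l).cyc_of_abel (l.trans (qt_norm B (N P)))
      (fun e => by rw [e, card_bot] at cB; omega) ((abel_zpowers _).sup (abel_zpowers v)
      (zpowers_le.2 (cent_anti (zpowers_le.2 hv) hu.2)))).exists_gen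
    refine (eq_of_card_le (le_sup_left : _ ≤ _ ⊔ zpowers v) ?_).ge (mem_sup_right (mem_zpowers v))
    rw [o, ← hg, Nat.card_zpowers]
    exact Nat.le_of_dvd hp.pos (orderOf_dvd_of_pow_eq_one (ex g (l (hg ▸ mem_zpowers g))))
  refine ⟨mp, by rw [← mp, ← cP', ← cB]; exact R.card_dvd (qt_norm B (N P)), hH, ?_, 𝐂 H,
    ⟨le_top, norm_cent (N _)⟩, fun g => le_cent1_iff.symm.trans (F1 g), by rw [eM]; exact F5 x hx x1,
    fun y hy => ?_⟩
  · refine ((Nat.dvd_prime hp).1 (CF.Fgs3.card_der_dvd_of_class hp hP.pi fun v hv => ?_)).resolve_left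
      fun e => wB (center_le_cent _ (cP w (le_cent1_iff.2 (der_eq_bot.1 (card_eq_one'.1 e) hw))))
    by_cases k : v ∈ center G
    · rw [cent1_eq_top.2 k, relIndex_top_left]
      exact one_dvd p
    · rw [F3 v hv k, mp]
  · obtain ⟨a, ha, b, hb, rfl⟩ := sd.exists_mul (mem_top y)
    have hb' := (mul_mem_cancel_left (aH ha)).1 hy
    refine mul_mem (cent_symm le_rfl ha) (le_cent1_iff.1 ?_)
    have e := cent1_mul (mem_cent.1 hb' x hx) ((hH.pi.elt hx).coprime' (hP.pi.elt hb))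
    rw [eM]
    refine (cent1_eq_of_le (e.le.trans inf_le_left) ?_).ge.trans (e.le.trans inf_le_right)
    have := (F1 _).1 (e.ge.trans' (le_inf (le_cent1_iff.2 (aH hx)) (le_cent1_iff.2 hb')))
    rw [F5 x hx x1]
    omega

/-- Let G be a finite group with no nontrivial abelian direct factor whose conjugacy class sizes are exactly 1, m and m·n with m, n > 1 coprime. Then m is a prime p dividing n − 1; the elements whose class has size 1 or p form an abelian normal subgroup of index p; G has a normal p-complement; and the commutator subgroup of a Sylow p-subgroup of G has order p. -/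
theorem result {G : Type*} [Group G] [Finite G] (hnodf : ∀ A B : Subgroup G, A.Normal → B.Normal → A ⊓ B = ⊥ → A ⊔ B = ⊤ → IsMulCommutative A → A = ⊥) (m n : ℕ) (hm : 1 < m) (hn : 1 < n) (hcop : m.Coprime n) (h : Set.range (fun x : G => (Subgroup.centralizer ({x} : Set G)).index) = ({1, m, m * n} : Set ℕ)) : m.Prime ∧ m ∣ n - 1 ∧ (∃ M : Subgroup G, M.Normal ∧ (M : Set G) = {x : G | (Subgroup.centralizer ({x} : Set G)).index = 1 ∨ (Subgroup.centralizer ({x} : Set G)).index = m} ∧ M.index = m ∧ IsMulCommutative M) ∧ (∃ N : Subgroup G, N.Normal ∧ (Nat.card N).Coprime m ∧ ∃ a : ℕ, N.index = m ^ a) ∧ ∀ P : Sylow m G, Nat.card (commutator (P : Subgroup G)) = m := by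
  obtain ⟨p, hp, dp⟩ := Nat.exists_prime_and_dvd hm.ne'
  have A := fun P => aux (P := P) (fun A B a b i s k => hnodf A B (normalIn_top.1 a)
    (normalIn_top.1 b) i s k.comm) hm hn hcop (fun x => h.le ⟨x, rfl⟩) (h.ge (by simp)) hp dp
  obtain ⟨P, hP⟩ := exists_syl p (⊤ : Subgroup G)
  obtain ⟨rfl, h1, h2, -, M, nM, h3, h4, h5⟩ := A P hP
  have := Fact.mk hp
  refine ⟨hp, h1, ⟨M, normalIn_top.1 nM, Set.ext h3, h4, h5.comm⟩, ⟨_, normalIn_top.1 (O_normal _ _),
    (piNat_compl_single_iff_coprime hp).1 h2.pi, ?_⟩, fun P => ?_⟩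
  · rw [← relIndex_top_right]
    exact h2.idx.of_compl_compl.exists_pow (relIndex_ne_zero' _ _)
  · rw [← card_map (P : Subgroup G).subtype_injective, map_subtype_commutator]
    exact (A P (syl_sylow_top P)).2.2.2.1

end Cfsg.Agent.S4284
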