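import Mathlib
import Cfsg.Statements.S4291
import Cfsg.Agent.Fgs1.FPF8
import Cfsg.Agent.Classical.MaxL2

set_option autoImplicit false
open Cfsg

namespace Cfsg.Agent.S4291

open Subgroup CF.Fgs1 CF.Fgs1.Fpf CF.Char

theorem eq_of_zgroup {X : Type*} [Group X] [Finite X] {K : Subgroup X} [IsZGroup K] {u v : X}
    (hu : u ∈ K) (hv : v ∈ K) (hu1 : u ≠ 1) (hv1 : v ≠ 1) (hu2 : u * u = 1) (hv2 : v * v = 1)
    (hc : u * v = v * u) : u = v := by
  haveI : Fact (Nat.Prime 2) := ⟨Nat.prime_two⟩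
  let P : Subgroup K := closure {⟨u, hu⟩, ⟨v, hv⟩}
  haveI : IsMulCommutative P := isMulCommutative_closure (by
    rintro a (rfl | rfl) b (rfl | rfl)
    exacts [rfl, Subtype.ext hc, Subtype.ext hc.symm, rfl])
  have hsq : ∀ x ∈ P, x ^ 2 = 1 := fun x hx => by
    induction hx using closure_induction with
    | mem x hx => rcases hx with rfl | rfl <;> exact Subtype.ext (by simpa [sq])
    | one => simp
    | mul x y hx hy h1 h2 => rw [Commute.mul_pow (comm_of_mem inferInstance hx hy), h1, h2, one_mul]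
    | inv x _ h => rw [inv_pow, h, inv_one]
  have hP : IsPGroup 2 P := fun x => ⟨1, Subtype.ext (by simpa using hsq x x.2)⟩
  haveI := hP.isCyclic_of_isZGroup
  have h1 : Nat.card P ∣ 2 := by
    rw [← IsCyclic.exponent_eq_card]
    exact Monoid.exponent_dvd_of_forall_pow_eq_one fun x => Subtype.ext (hsq x x.2)
  by_contra hne
  have h2 : ({1, ⟨u, hu⟩, ⟨v, hv⟩} : Set K) ⊆ P := by
    rintro x (rfl | rfl | rfl)
    exacts [one_mem _, subset_closure (by simp), subset_closure (by simp)]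
  have h3 := Set.ncard_le_ncard h2
  rw [Set.ncard_eq_three.mpr ⟨_, _, _, fun h => hu1 (congrArg Subtype.val h).symm,
    fun h => hv1 (congrArg Subtype.val h).symm, fun h => hne (congrArg Subtype.val h), rfl⟩,
    ← Nat.card_coe_set_eq] at h3
  have := Nat.le_of_dvd two_pos h1
  exact absurd (h3.trans this) (by decide)

/-- No non-trivial normal subgroup is a Z-group, and the group is not abelian. -/
def NoZ (X : Type*) [Group X] : Prop :=
  (∀ K : Subgroup X, K.Normal → IsZGroup K → K = ⊥) ∧ ∃ x y : X, x * y ≠ y * x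

theorem noZ_of_dec {X : Type*} [Group X] [Finite X] (h : ∀ x : X, x ≠ 1 → ∃ g h : X,
    x * g * x⁻¹ * g⁻¹ ≠ 1 ∧ (x * g * x⁻¹ * g⁻¹) * (x * g * x⁻¹ * g⁻¹) = 1 ∧
    h * (x * g * x⁻¹ * g⁻¹) * h⁻¹ ≠ x * g * x⁻¹ * g⁻¹ ∧
    h * (x * g * x⁻¹ * g⁻¹) * h⁻¹ * (x * g * x⁻¹ * g⁻¹) =
      (x * g * x⁻¹ * g⁻¹) * (h * (x * g * x⁻¹ * g⁻¹) * h⁻¹)) (h' : ∃ x y : X, x * y ≠ y * x) :
    NoZ X := by
  refine ⟨fun K hK _ => eq_bot_iff.mpr fun x hx => mem_bot.mpr ?_, h'⟩
  by_contra hx1
  obtain ⟨g, k, h1, h2, h3, h4⟩ := h x hx1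
  have hu : x * g * x⁻¹ * g⁻¹ ∈ K := by
    simpa [mul_assoc] using mul_mem hx (hK.conj_mem _ (inv_mem hx) g)
  generalize x * g * x⁻¹ * g⁻¹ = u at *
  refine h3 (eq_of_zgroup (hK.conj_mem _ hu k) hu (by simpa using h1) h1 ?_ h2 h4)
  calc k * u * k⁻¹ * (k * u * k⁻¹) = k * (u * u) * k⁻¹ := by group
    _ = 1 := by rw [h2]; group

theorem noZ_A4 : NoZ (alternatingGroup (Fin 4)) := noZ_of_dec (by decide +kernel) (by decide +kernel)

theorem noZ_S4 : NoZ (Equiv.Perm (Fin 4)) := noZ_of_dec (by decide +kernel) (by decide +kernel)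

theorem noZ_A5 : NoZ (alternatingGroup (Fin 5)) := by
  refine ⟨fun K hK _ => hK.eq_bot_or_eq_top.resolve_right ?_,
    CF.Classical.a5x, CF.Classical.a5y, by decide⟩
  rintro rfl
  exact CF.Classical.not_isSolvable_A5 (Group.isSolvable_of_surjective
    (f := (⊤ : Subgroup _).subtype) fun g => ⟨⟨g, mem_top g⟩, rfl⟩)

theorem noZ_S5 : NoZ (Equiv.Perm (Fin 5)) := by
  refine ⟨fun K hK _ => ?_, Equiv.swap 0 1, Equiv.swap 1 2, by decide⟩
  by_contra h
  have := Equiv.Perm.alternatingGroup_le_of_normal (N := K) (by simp)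
    ((nontrivial_iff_ne_bot K).mpr h)
  exact CF.Classical.not_isSolvable_A5 (Group.isSolvable_of_isSolvable_injective
    (f := inclusion this) (inclusion_injective this))

/-- Type C. -/
def TC {G : Type*} [Group G] (N : Subgroup G) : Prop :=
  (∀ K : Subgroup G, K.Normal → IsZGroup K → K ≤ N) ∧ ∃ x y : G, x * y * x⁻¹ * y⁻¹ ∉ N

theorem tc_of {G X : Type*} [Group G] [Finite G] [Group X] (hX : NoZ X) {N : Subgroup G}
    (h : ∃ f : G →* X, Function.Surjective f ∧ f.ker = N) : TC N := by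
  obtain ⟨f, hf, rfl⟩ := h
  refine ⟨fun K hK _ => (map_eq_bot_iff K).mp (hX.1 _ (hK.map f hf)
    (IsZGroup.of_surjective (f := f.subgroupMap K) (f.subgroupMap_surjective K))), ?_⟩
  obtain ⟨x, y, hxy⟩ := hX.2
  obtain ⟨x, rfl⟩ := hf x
  obtain ⟨y, rfl⟩ := hf y
  refine ⟨x, y, fun h => hxy ?_⟩
  rw [MonoidHom.mem_ker, map_mul, map_mul, map_mul, map_inv, map_inv, mul_inv_eq_one,
    mul_inv_eq_iff_eq_mul] at h
  exact h

theorem tb_of {G : Type*} [Group G] [Finite G] {N : Subgroup G}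
    (h : ∃ f : G →* DihedralGroup 2, Function.Surjective f ∧ f.ker = N) :
    N.index = 4 ∧ (∀ g, g ^ 2 ∈ N) ∧ (∀ x y : G, x * y * x⁻¹ * y⁻¹ ∈ N) ∧ ¬ IsZGroup G := by
  obtain ⟨f, hf, rfl⟩ := h
  refine ⟨?_, fun g => ?_, fun x y => ?_, fun _ => ?_⟩
  · rw [index_ker, MonoidHom.range_eq_top.mpr hf, card_top, IsKleinFour.card_four]
  · rw [MonoidHom.mem_ker, map_pow]; generalize f g = x; revert x; decide
  · rw [MonoidHom.mem_ker, map_mul, map_mul, map_mul, map_inv, map_inv]
    generalize f x = a; generalize f y = b; revert a b; decide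
  · haveI := IsZGroup.of_surjective hf
    exact absurd (eq_of_zgroup (K := (⊤ : Subgroup (DihedralGroup 2))) (mem_top (.r 1))
      (mem_top (.sr 0)) (by decide) (by decide) (by decide) (by decide) (by decide)) (by decide)

theorem index_le_four {G : Type*} [Group G] [Finite G] (hG : FPF G) (D : Subgroup G) [D.Normal]
    (hD : ∀ g, g ^ 2 ∈ D) : D.index ≤ 4 := by
  haveI : Fact (Nat.Prime 2) := ⟨Nat.prime_two⟩
  obtain ⟨S, hS⟩ := CF.Transfer.exists_isSylowIn 2 (⊤ : Subgroup G)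
  obtain ⟨a, b, hab⟩ : ∃ a b : G, closure {b, a} = S := by
    rcases hG.isCyclic_or_quaternion hS.isPGroup with hc | ⟨_, m, hm, ⟨e⟩⟩
    · obtain ⟨a, ha⟩ := (Subgroup.isCyclic_iff_exists_zpowers_eq_top S).mp hc
      exact ⟨a, a, by rw [Set.pair_eq_singleton, ← zpowers_eq_closure, ha]⟩
    · obtain ⟨a, b, hab⟩ := exists_qSetup e
      exact ⟨a, b, hab.closure_eq⟩
  have hsq : ∀ x : G ⧸ D, x * x = 1 := fun x => by
    obtain ⟨g, rfl⟩ := QuotientGroup.mk_surjective x
    rw [← sq, ← QuotientGroup.mk_pow, QuotientGroup.eq_one_iff]; exact hD g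
  have hinv : ∀ x : G ⧸ D, x⁻¹ = x := fun x => inv_eq_of_mul_eq_one_right (hsq x)
  have hcomm : ∀ x y : G ⧸ D, x * y = y * x := fun x y => by
    rw [← hinv (x * y), mul_inv_rev, hinv, hinv]
  have hP : IsPGroup 2 (⊤ : Subgroup (G ⧸ D)) := fun x => ⟨1, Subtype.ext (by simpa [sq] using hsq x)⟩
  have h1 := (hS.map (QuotientGroup.mk' D)).eq_of_le hP le_top (by
    rw [map_top_of_surjective _ (QuotientGroup.mk'_surjective D)])
  rw [← hab, MonoidHom.map_closure, Set.image_pair] at h1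
  generalize QuotientGroup.mk' D b = u at h1
  generalize QuotientGroup.mk' D a = v at h1
  have h2 : ∀ x : G ⧸ D, x ∈ ({1, u, v, u * v} : Set (G ⧸ D)) := fun x => by
    have hx : x ∈ closure ({u, v} : Set (G ⧸ D)) := h1 ▸ mem_top x
    have l1 : ∀ s t : G ⧸ D, s * (s * t) = t := fun s t => by rw [← mul_assoc, hsq, one_mul]
    have l2 : ∀ s t : G ⧸ D, t * (s * t) = s := fun s t => by rw [hcomm s t, l1]
    induction hx using closure_induction with
    | mem x hx => rcases hx with rfl | rfl <;> simp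
    | one => simp
    | mul x y _ _ hx hy =>
      rcases hx with rfl | rfl | rfl | rfl <;> rcases hy with rfl | rfl | rfl | rfl <;>
        simp [hsq, l1, l2, mul_assoc, hcomm]
    | inv x _ h => rwa [hinv]
  rw [index_eq_card, ← Set.ncard_univ]
  refine (Set.ncard_le_ncard fun x _ => h2 x).trans ?_
  refine (Set.ncard_insert_le _ _).trans (Nat.succ_le_succ ?_)
  refine (Set.ncard_insert_le _ _).trans (Nat.succ_le_succ ?_)
  refine (Set.ncard_insert_le _ _).trans (Nat.succ_le_succ ?_)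
  rw [Set.ncard_singleton]


/-- Let G be a finite group that occurs as a Frobenius complement. Then G has exactly one normal subgroup N such that every Sylow subgroup of N is cyclic and the quotient of G by N is trivial or isomorphic to one of the following five groups: the Klein four-group, the alternating group of degree 4, the symmetric group of degree 4, the alternating group of degree 5, the symmetric group of degree 5. (The quotient is described by a surjective homomorphism with kernel N; the Klein four-group is written as the dihedral group of order 4.) -/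
theorem result {G : Type*} [Group G] [Finite G]
    (hFC : (∃ (L : Type) (_ : Group L) (_ : Finite L) (H : Subgroup L), Cfsg.IsFrobeniusComplement H ∧ Nonempty (G ≃* H))) :
    ∃! N : Subgroup G, N.Normal ∧ (∀ (p : ℕ) [Fact p.Prime] (P : Sylow p N), IsCyclic P) ∧
      (N = ⊤ ∨
        (∃ f : G →* DihedralGroup 2, Function.Surjective f ∧ f.ker = N) ∨
        (∃ f : G →* alternatingGroup (Fin 4), Function.Surjective f ∧ f.ker = N) ∨
        (∃ f : G →* Equiv.Perm (Fin 4), Function.Surjective f ∧ f.ker = N) ∨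
        (∃ f : G →* alternatingGroup (Fin 5), Function.Surjective f ∧ f.ker = N) ∨
        (∃ f : G →* Equiv.Perm (Fin 5), Function.Surjective f ∧ f.ker = N)) := by
  have hG := fpf_of_fc hFC
  have zi : ∀ N : Subgroup G, (∀ (p : ℕ) [Fact p.Prime] (P : Sylow p N), IsCyclic P) ↔ IsZGroup N :=
    fun N => ⟨fun h => ⟨fun p hp P => by haveI := Fact.mk hp; exact h p P⟩,
      fun _ _ _ _ => inferInstance⟩
  simp only [zi]
  refine existsUnique_of_exists_of_unique ?_ ?_
  · by_cases hs : Group.IsSolvable G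
    · obtain ⟨N, h1, h2, h3⟩ := hG.solvable_struct
      refine ⟨N, h1, h2, ?_⟩
      rcases h3 with h3 | h3 | h3 | h3
      exacts [Or.inl h3, Or.inr (Or.inl h3), Or.inr (Or.inr (Or.inl h3)),
        Or.inr (Or.inr (Or.inr (Or.inl h3)))]
    · obtain ⟨L, M, f, _, _, _, _, _, _, h1, h2, _, h3⟩ := hG.nonsolvable hs
      refine ⟨_, inferInstance, h3, Or.inr (Or.inr (Or.inr (Or.inr ?_)))⟩
      have h4 : alternatingGroup (Fin 5) ≤ f.range := h2 ▸ map_le_range f L
      by_cases h5 : f.range = ⊤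
      · exact Or.inr ⟨f, MonoidHom.range_eq_top.mp h5, h1⟩
      · have h6 : f.range = alternatingGroup (Fin 5) := by
          refine Equiv.Perm.eq_alternatingGroup_of_index_eq_two ?_
          have := index_dvd_of_le h4
          rw [alternatingGroup.index_eq_two] at this
          exact ((Nat.dvd_prime Nat.prime_two).mp this).resolve_left fun h => h5 (index_eq_one.mp h)
        have h7 : ∀ g, f g ∈ alternatingGroup (Fin 5) := fun g => by rw [← h6]; exact ⟨g, rfl⟩
        refine Or.inl ⟨f.codRestrict _ h7, fun x => ?_, by rw [← h1]; simp⟩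
        obtain ⟨g, hg⟩ : x.1 ∈ f.range := by rw [h6]; exact x.2
        exact ⟨g, Subtype.ext hg⟩
  · have cl : ∀ N : Subgroup G, (N = ⊤ ∨
        (∃ f : G →* DihedralGroup 2, Function.Surjective f ∧ f.ker = N) ∨
        (∃ f : G →* alternatingGroup (Fin 4), Function.Surjective f ∧ f.ker = N) ∨
        (∃ f : G →* Equiv.Perm (Fin 4), Function.Surjective f ∧ f.ker = N) ∨
        (∃ f : G →* alternatingGroup (Fin 5), Function.Surjective f ∧ f.ker = N) ∨
        (∃ f : G →* Equiv.Perm (Fin 5), Function.Surjective f ∧ f.ker = N)) → N = ⊤ ∨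
        (N.index = 4 ∧ (∀ g, g ^ 2 ∈ N) ∧ (∀ x y : G, x * y * x⁻¹ * y⁻¹ ∈ N) ∧ ¬ IsZGroup G) ∨
        TC N := by
      rintro N (h | h | h | h | h | h)
      exacts [Or.inl h, Or.inr (Or.inl (tb_of h)), Or.inr (Or.inr (tc_of noZ_A4 h)),
        Or.inr (Or.inr (tc_of noZ_S4 h)), Or.inr (Or.inr (tc_of noZ_A5 h)),
        Or.inr (Or.inr (tc_of noZ_S5 h))]
    have zt : IsZGroup (⊤ : Subgroup G) → IsZGroup G := fun _ =>
      IsZGroup.of_surjective (f := (⊤ : Subgroup G).subtype) fun g => ⟨⟨g, mem_top g⟩, rfl⟩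
    rintro N₁ N₂ ⟨a1, a2, a3⟩ ⟨b1, b2, b3⟩
    rcases cl _ a3 with rfl | ⟨c1, c2, c3, c4⟩ | ⟨c1, x, y, c2⟩ <;>
      rcases cl _ b3 with rfl | ⟨d1, d2, d3, d4⟩ | ⟨d1, x', y', d2⟩
    · rfl
    · exact absurd (zt a2) d4
    · exact absurd (d1 _ a1 a2 (mem_top _)) d2
    · exact absurd (zt b2) c4
    · have h1 := index_le_four hG (N₁ ⊓ N₂) fun g => mem_inf.mpr ⟨c2 g, d2 g⟩
      have key : ∀ N : Subgroup G, N₁ ⊓ N₂ ≤ N → N.index = 4 → N₁ ⊓ N₂ = N := fun N h hN => by
        have h2 := relIndex_mul_index h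
        have h3 : (N₁ ⊓ N₂).relIndex N ≠ 0 := CF.Transfer.relIndex_ne_zero' _ _
        rw [hN] at h2
        exact le_antisymm h (relIndex_eq_one.mp (by omega))
      exact (key _ inf_le_left c1).symm.trans (key _ inf_le_right d1)
    · exact absurd (d1 _ a1 a2 (c3 _ _)) d2
    · exact absurd (c1 _ b1 b2 (mem_top _)) c2
    · exact absurd (c1 _ b1 b2 (d3 _ _)) c2
    · exact le_antisymm (d1 _ a1 a2) (c1 _ b1 b2)

end Cfsg.Agent.S4291
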