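import Mathlib
import Cfsg.Statements.S4292
import Cfsg.Agent.Fgs1.FPF2

set_option autoImplicit false
open Cfsg

namespace Cfsg.Agent.S4292

open CF.Fgs1.Fpf
open scoped TensorProduct

theorem nrm_comp {G H R : Type*} [Group G] [Group H] [Ring R] (ρ : G →* R) (f : H →* G)
    (hf : Function.Injective f) (x : H) : nrm ρ (f x) = nrm (ρ.comp f) x := by
  simp [nrm, orderOf_injective f hf]

theorem fpf_prod {A B : Type*} [Group A] [Finite A] [Group B] [Finite B] {RA RB : Type*}
    [Ring RA] [Ring RB] [Algebra ℚ RA] [Algebra ℚ RB] [Nontrivial RA] [Nontrivial RB]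
    (ρA : A →* RA) (ρB : B →* RB) (hA : NZ ρA) (hB : NZ ρB)
    (hc : (Nat.card A).Coprime (Nat.card B)) : FPF (A × B) := by
  haveI : Nontrivial (RA ⊗[ℚ] RB) :=
    Algebra.TensorProduct.nontrivial_of_algebraMap_injective_of_flat_left ℚ RA RB
      (algebraMap ℚ RB).injective
  let iA : RA →+* RA ⊗[ℚ] RB := Algebra.TensorProduct.includeLeftRingHom
  let iB : RB →+* RA ⊗[ℚ] RB := (Algebra.TensorProduct.includeRight (R := ℚ) (A := RA)).toRingHom
  let ρ : A × B →* RA ⊗[ℚ] RB :=
    { toFun x := ρA x.1 ⊗ₜ ρB x.2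
      map_one' := by simp [Algebra.TensorProduct.one_def]
      map_mul' x y := by simp }
  haveI : CharZero (RA ⊗[ℚ] RB) := charZero_of_injective_algebraMap (algebraMap ℚ _).injective
  have h1 : ∀ a : A, a ≠ 1 → nrm ρ (MonoidHom.inl A B a) = 0 := fun a ha => by
    rw [nrm_comp ρ _ (fun x y h => congrArg Prod.fst h)]
    have : ρ.comp (MonoidHom.inl A B) = iA.toMonoidHom.comp ρA := by
      ext x; change ρA x ⊗ₜ ρB 1 = ρA x ⊗ₜ 1; rw [map_one]
    rw [this, ← map_nrm, hA a ha, map_zero]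
  have h2 : ∀ b : B, b ≠ 1 → nrm ρ (MonoidHom.inr A B b) = 0 := fun b hb => by
    rw [nrm_comp ρ _ (fun x y h => congrArg Prod.snd h)]
    have : ρ.comp (MonoidHom.inr A B) = iB.toMonoidHom.comp ρB := by
      ext x; change ρA 1 ⊗ₜ ρB x = 1 ⊗ₜ ρB x; rw [map_one]
    rw [this, ← map_nrm, hB b hb, map_zero]
  refine fpf_of_charZero ρ fun x hx => ?_
  by_cases ha : x.1 = 1
  · have : x = MonoidHom.inr A B x.2 := Prod.ext ha rfl
    rw [this]
    exact h2 _ fun hb => hx (Prod.ext ha hb)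
  · have h3 : x ^ Nat.card B = MonoidHom.inl A B (x.1 ^ Nat.card B) := Prod.ext rfl (by simp)
    have h4 := nrm_mul_of_fix ρ (x ^ Nat.card B) (y := nrm ρ x) (by
      rw [map_pow, rho_pow_mul_nrm])
    rw [h3, h1 _ (fun h5 => ha ?_), zero_mul, eq_comm, ← Nat.cast_smul_eq_nsmul ℚ,
      smul_eq_zero] at h4
    · exact h4.resolve_left (by exact_mod_cast (orderOf_pos _).ne')
    · exact orderOf_eq_one_iff.mp (Nat.eq_one_of_dvd_coprimes hc (orderOf_dvd_natCard _)
        (orderOf_dvd_of_pow_eq_one h5))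


/-- Let A and B be nontrivial finite groups. Then the direct product A × B occurs as a Frobenius complement if and only if A and B both occur as Frobenius complements and the orders of A and B are coprime. -/
theorem result {A B : Type*} [Group A] [Finite A] [Nontrivial A] [Group B] [Finite B] [Nontrivial B] :
    (∃ (L : Type) (_ : Group L) (_ : Finite L) (H : Subgroup L), Cfsg.IsFrobeniusComplement H ∧ Nonempty ((A × B) ≃* H)) ↔
    ((∃ (L : Type) (_ : Group L) (_ : Finite L) (H : Subgroup L), Cfsg.IsFrobeniusComplement H ∧ Nonempty (A ≃* H)) ∧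
     (∃ (L : Type) (_ : Group L) (_ : Finite L) (H : Subgroup L), Cfsg.IsFrobeniusComplement H ∧ Nonempty (B ≃* H)) ∧
     (Nat.card A).Coprime (Nat.card B)) := by
  constructor
  · intro h
    have h1 := fpf_of_fc h
    refine ⟨(h1.of_injective (MonoidHom.inl A B) fun x y h => congrArg Prod.fst h).fc,
      (h1.of_injective (MonoidHom.inr A B) fun x y h => congrArg Prod.snd h).fc, ?_⟩
    refine Nat.coprime_of_dvd fun p hp hA hB => ?_
    haveI := Fact.mk hp
    obtain ⟨a, ha⟩ := exists_prime_orderOf_dvd_card' p hA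
    obtain ⟨b, hb⟩ := exists_prime_orderOf_dvd_card' p hB
    obtain ⟨n, hn⟩ := h1.mem_zpowers_of_commute hp (x := (a, 1)) (y := (1, b)) (by rw [Prod.orderOf_mk, orderOf_one, ha, Nat.lcm_one_right])
      (by simp [← hb]) (by simp)
    have h2 : b = 1 := by simpa using (congrArg Prod.snd hn).symm
    rw [h2, orderOf_one] at hb
    exact hp.ne_one hb.symm
  · rintro ⟨hA, hB, hc⟩
    obtain ⟨V, _, _, _, _, ρA, h1⟩ := (fpf_of_fc hA).exists_rep ℚ
    obtain ⟨W, _, _, _, _, ρB, h2⟩ := (fpf_of_fc hB).exists_rep ℚ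
    exact (fpf_prod ρA ρB h1.nz h2.nz hc).fc

end Cfsg.Agent.S4292
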