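import Mathlib
import Cfsg.Statements.S4293
import Cfsg.Agent.Fgs1.FPF2

set_option autoImplicit false
open Cfsg

namespace Cfsg.Agent.S4293

open CF.Fgs1.Fpf in

/-- A nontrivial finite subgroup of the multiplicative group of a division ring occurs as a Frobenius complement of some finite Frobenius group. -/
theorem result {D : Type*} [DivisionRing D] (H : Subgroup Dˣ) [Finite H] (hH : H ≠ ⊥) :
    ∃ (L : Type) (_ : Group L) (_ : Finite L) (C : Subgroup L), Cfsg.IsFrobeniusComplement C ∧ Nonempty (H ≃* C) := by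
  haveI := (Subgroup.nontrivial_iff_ne_bot H).mpr hH
  let ρ : H →* D := (Units.coeHom D).comp H.subtype
  have hρ : Function.Injective ρ := Units.val_injective.comp H.subtype_injective
  have hnz : NZ ρ := fun x hx => by
    have h1 := rho_mul_nrm ρ x
    rw [← sub_eq_zero, ← sub_one_mul, mul_eq_zero, sub_eq_zero] at h1
    exact h1.resolve_left ((map_ne_one_iff ρ hρ).mpr hx)
  refine FPF.fc ?_
  obtain ⟨p, hp⟩ := CharP.exists D
  rcases CharP.char_is_prime_or_zero D p with hpp | rfl
  · refine fpf_of_char hpp (fun hd => ?_) (CharP.cast_eq_zero D p) ρ hnz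
    haveI := Fact.mk hpp
    obtain ⟨x, hx⟩ := exists_prime_orderOf_dvd_card' p hd
    have h1 := sub_pow_char_of_commute (p := p) (Commute.one_right (ρ x))
    rw [← map_pow, ← hx, pow_orderOf_eq_one, map_one, one_pow, sub_self,
      pow_eq_zero_iff (hx ▸ hpp.ne_zero), sub_eq_zero, map_eq_one_iff ρ hρ] at h1
    rw [h1, orderOf_one] at hx
    exact hpp.ne_one hx.symm
  · haveI := CharP.charP_to_charZero D
    exact fpf_of_charZero ρ hnz

end Cfsg.Agent.S4293
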