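import Mathlib
import Cfsg.Agent.Fgs1.FPF7
import Cfsg.Agent.Fgs2.Level
import Cfsg.Statements.S4294

set_option autoImplicit false
open Cfsg

namespace Cfsg.Agent.S4294

open Subgroup CF.Fgs1.Fpf
open scoped MatrixGroups

section ring
variable {D : Type*} [DivisionRing D] [CharZero D]

theorem no_root {I J s x : D} (hI : I * I = -1) (hJ : J * J = -1) (hIJ : J * I = -(I * J))
    (hs : s * s = 5) {p : ℕ} (hp : p.Prime) (h2 : p ≠ 2) (h5 : p ≠ 5) (hx : x ^ p = 1) (h1 : x ≠ 1)
    (c1 : s * x = x * s) (c2 : s * I = I * s) (c3 : s * J = J * s) (c4 : x * I = I * x) (c5 : x * J = J * x) :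
    False := by
  let A : Subfield D :=
    { Subring.centralizer {s, x, I, J} with inv_mem' := fun y hy => Set.inv_mem_centralizer₀ hy }
  have hA : ∀ y, y ∈ A ↔ s * y = y * s ∧ x * y = y * x ∧ I * y = y * I ∧ J * y = y * J := by
    intro y
    change y ∈ Subring.centralizer {s, x, I, J} ↔ _
    simp [Subring.mem_centralizer_iff]
  let f : Subring.center A →+* D := A.subtype.comp (Subring.center A).subtype
  have hf : Function.Injective f := f.injective
  have : CharZero (Subring.center A) := f.charZero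
  let s' : Subring.center A := ⟨⟨s, (hA s).2 ⟨rfl, c1.symm, c2.symm, c3.symm⟩⟩,
    Subring.mem_center_iff.2 fun y => Subtype.ext ((hA y).1 y.2).1.symm⟩
  let x' : Subring.center A := ⟨⟨x, (hA x).2 ⟨c1, rfl, c4.symm, c5.symm⟩⟩,
    Subring.mem_center_iff.2 fun y => Subtype.ext ((hA y).1 y.2).2.1.symm⟩
  obtain ⟨a, b, e⟩ := CF.Fgs2.neg_one_sq_add_sq (s := s') (x := x') (hf (by rw [map_mul, map_ofNat]; exact hs))
    hp h2 h5 (hf (by rw [map_pow, map_one]; exact hx)) (fun h => h1 (congrArg f h))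
  have e' := congrArg f e
  rw [map_add, map_pow, map_pow, map_neg, map_one, sq, sq] at e'
  have ab : f b * f a = f a * f b := by rw [← map_mul, mul_comm, map_mul]
  obtain ⟨-, -, aI, aJ⟩ := (hA (f a)).1 a.1.2
  obtain ⟨-, -, bI, bJ⟩ := (hA (f b)).1 b.1.2
  generalize f a = a, f b = b at e' ab aI aJ bI bJ
  have q2 : (a * I + b * J) * (a * I + b * J) = 1 := by
    have e1 : a * I * (a * I) = -(a * a) := by rw [mul_assoc, ← mul_assoc I, aI, mul_assoc, hI]; simp
    have e2 : b * J * (b * J) = -(b * b) := by rw [mul_assoc, ← mul_assoc J, bJ, mul_assoc, hJ]; simp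
    have e3 : a * I * (b * J) = a * b * (I * J) := by rw [mul_assoc, ← mul_assoc I, bI]; simp [mul_assoc]
    have e4 : b * J * (a * I) = -(a * b * (I * J)) := by
      rw [mul_assoc, ← mul_assoc J, aJ, mul_assoc, hIJ, ← mul_assoc, ab]; simp
    rw [add_mul, mul_add, mul_add, e1, e2, e3, e4, ← neg_eq_iff_eq_neg.2 e']; abel
  have anti : (I * J) * (a * I + b * J) = -((a * I + b * J) * (I * J)) := by
    have e1 : I * J * (a * I) = a * J := by
      rw [mul_assoc, ← mul_assoc J, aJ, mul_assoc, hIJ, ← mul_assoc, aI, mul_neg, mul_assoc, ← mul_assoc I, hI]; simp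
    have e2 : I * J * (b * J) = -(b * I) := by
      rw [mul_assoc, ← mul_assoc J, bJ, mul_assoc, hJ, ← mul_assoc, bI]; simp
    have e3 : a * I * (I * J) = -(a * J) := by rw [mul_assoc, ← mul_assoc I, hI]; simp
    have e4 : b * J * (I * J) = b * I := by
      rw [mul_assoc, ← mul_assoc J, hIJ, neg_mul, mul_assoc I, hJ]; simp
    rw [mul_add, add_mul, e1, e2, e3, e4]; abel
  have hK : I * J ≠ 0 := mul_ne_zero (by rintro rfl; simp at hI) (by rintro rfl; simp at hJ)
  rcases mul_self_eq_one_iff.1 q2 with h | h <;> rw [h] at anti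
  · exact hK (by simpa [CharZero.eq_neg_self_iff] using anti)
  · exact hK (by simpa [neg_eq_self] using anti)

theorem no_outer {I J s r : D} (hI : I * I = -1) (hJ : J * J = -1) (hIJ : J * I = -(I * J))
    (hs : s * s = 5) (hr : r * r = 2) (hsr : s * r = -(r * s))
    (c2 : Commute s I) (c3 : Commute s J) (c4 : Commute r I) (c5 : Commute r J) : False := by
  have q1 : (I + J + I * J) * (I + J + I * J) = -3 := by
    have e1 : I * (I * J) = -J := by rw [← mul_assoc, hI]; simp
    have e2 : J * (I * J) = I := by rw [← mul_assoc, hIJ, neg_mul, mul_assoc, hJ]; simp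
    have e3 : I * J * I = J := by rw [mul_assoc, hIJ, mul_neg, e1, neg_neg]
    have e4 : I * J * J = -I := by rw [mul_assoc, hJ]; simp
    have e5 : I * J * (I * J) = -1 := by rw [← mul_assoc, e3, hJ]
    simp only [add_mul, mul_add, e1, e2, e3, e4, e5, hI, hJ, hIJ]
    rw [show (3 : D) = 1 + 1 + 1 by norm_num]; abel
  have q2 : (r + s + r * s) * (r + s + r * s) = -3 := by
    have e1 : r * (r * s) = 2 * s := by rw [← mul_assoc, hr]
    have e2 : s * (r * s) = -(r * 5) := by rw [← mul_assoc, hsr, neg_mul, mul_assoc, hs]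
    have e3 : r * s * r = -(2 * s) := by rw [mul_assoc, hsr, mul_neg, e1]
    have e4 : r * s * s = r * 5 := by rw [mul_assoc, hs]
    have e5 : r * s * (r * s) = -10 := by rw [← mul_assoc, e3, neg_mul, mul_assoc, hs]; norm_num
    simp only [add_mul, mul_add, e1, e2, e3, e4, e5, hr, hs, hsr]
    have : (-3 : D) = 2 + 5 + -10 := by norm_num
    rw [this]; abel
  have cI : Commute (r + s + r * s) I := (c4.add_left c2).add_left (c4.mul_left c2)
  have cJ : Commute (r + s + r * s) J := (c5.add_left c3).add_left (c5.mul_left c3)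
  have c : Commute (r + s + r * s) (I + J + I * J) := (cI.add_right cJ).add_right (cI.mul_right cJ)
  have cc : Commute (I + J + I * J) I := by
    rcases c.mul_self_eq_mul_self_iff.1 (q2.trans q1.symm) with h | h
    · exact h ▸ cI
    · rw [h] at cI; exact Commute.neg_left_iff.1 cI
  have e1 : I * (I * J) = -J := by rw [← mul_assoc, hI]; simp
  have e3 : I * J * I = J := by rw [mul_assoc, hIJ, mul_neg, e1, neg_neg]
  have := cc.eq
  simp only [add_mul, mul_add, e1, e3, hIJ] at this
  have h2 : (2 : D) * ((I - 1) * J) = 0 := by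
    rw [two_mul, sub_mul, one_mul, ← sub_eq_zero.2 this.symm]; abel
  have hJ0 : J ≠ 0 := by rintro rfl; simp at hJ
  have : I = 1 := by simpa [hJ0, sub_eq_zero] using h2
  rw [this] at hI; norm_num at hI

theorem tau {W E : D} (hW : W * W = -1) (hE : E * E = -1 - E) :
    Commute (W * E + E * W + W) W ∧ Commute (W * E + E * W + W) E := by
  constructor
  · rw [Commute, SemiconjBy]
    simp only [add_mul, mul_add, mul_assoc, hW]
    simp only [← mul_assoc, hW]; noncomm_ring
  · rw [Commute, SemiconjBy]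
    simp only [add_mul, mul_add, mul_assoc, hE]
    simp only [← mul_assoc, hE]; noncomm_ring

end ring

theorem p5 : ∀ σ : Equiv.Perm (Fin 5), σ ^ 5 = 1 → ∃ g : Equiv.Perm (Fin 5), g * σ * g⁻¹ = σ ^ 2 := by
  decide +kernel

theorem q8 : ∃ i j : SL(2, ZMod 5), i * i = -1 ∧ j * j = -1 ∧ j * i = -1 * (i * j) :=
  ⟨⟨!![2, 0; 0, 3], by decide⟩, ⟨!![0, 1; -1, 0], by decide⟩, by decide, by decide, by decide⟩

theorem charZero {D : Type*} [DivisionRing D] (H : Subgroup Dˣ) [Finite H] (hH : ¬ Group.IsSolvable H) :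
    CharZero D := by
  obtain ⟨p, hp⟩ := CharP.exists D
  rcases CharP.char_is_prime_or_zero D p with h | rfl
  · exfalso
    have := Fact.mk h
    let _ : Algebra (ZMod p) D := ZMod.algebra D p
    let φ := MonoidAlgebra.lift (ZMod p) D H ((Units.coeHom D).comp H.subtype)
    have : Finite (MonoidAlgebra (ZMod p) H) := Module.finite_of_finite (ZMod p)
    have : Finite φ.range := Finite.of_surjective _ φ.rangeRestrict_surjective
    have hf := Finite.isDomain_to_isField φ.range
    have m : ∀ a : H, ((a : Dˣ) : D) ∈ φ.range := fun a => ⟨MonoidAlgebra.of _ _ a, by simp [φ]⟩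
    have : IsMulCommutative H := ⟨⟨fun a b => Subtype.ext (Units.ext
      (congrArg Subtype.val (hf.mul_comm ⟨_, m a⟩ ⟨_, m b⟩)))⟩⟩
    exact hH (Group.isSolvable_of_comm this.is_comm.comm)
  · exact CharP.charP_to_charZero D

theorem main {G D : Type*} [Group G] [Finite G] [DivisionRing D] [CharZero D] (ρ : G →* D)
    (hρ : Function.Injective ρ) (hH : ¬ Group.IsSolvable G) : Nonempty (G ≃* SL(2, ZMod 5)) := by
  have nz : NZ ρ := fun x hx => by
    have := rho_mul_nrm ρ x
    rw [← sub_eq_zero, ← sub_one_mul] at this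
    exact (mul_eq_zero.1 this).resolve_left fun h => hx (hρ (by rw [map_one]; exact sub_eq_zero.1 h))
  have hG := fpf_of_charZero ρ nz
  obtain ⟨L, M, f, nL, nM, ⟨e⟩, hi, hc, h30, hk, hm, hs, -⟩ := hG.nonsolvable hH
  obtain ⟨z, π, hD⟩ := exists_dc_of_equiv e
  obtain ⟨w, d, hw, hd, hwd, d1, wd1, hcl⟩ := hD.exists_gens
  have z2 : (z : G) * z = 1 := congrArg Subtype.val hD.zz
  have z1 : (z : G) ≠ 1 := fun h => hD.z1 (Subtype.ext h)
  have hz : ρ z = -1 := nz.invol z2 z1
  have hW : ρ w * ρ w = -1 := by rw [← map_mul, ← hz, ← hw]; rfl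
  have d3 : (d : G) ^ 3 = 1 := by simpa using congrArg Subtype.val hd
  have d1' : (d : G) ≠ 1 := fun h => d1 (Subtype.ext h)
  have hE := nz.three d3 d1'
  set s : G := w * d with hsd
  have s5 : s ^ 5 = 1 := by simpa using congrArg Subtype.val hwd
  have s1 : s ≠ 1 := fun h => wd1 (Subtype.ext h)
  have sL : s ∈ L := mul_mem w.2 d.2
  have inv4 : ∀ {x : G}, ρ x * ρ x = -1 → ρ x⁻¹ = -ρ x := fun {x} h => by
    have : ρ x ≠ 0 := by intro h0; rw [h0] at h; simp at h
    apply mul_left_cancel₀ this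
    rw [← map_mul, mul_inv_cancel, map_one, mul_neg, h, neg_neg]
  have ht : ρ s + ρ s⁻¹ = ρ w * ρ d + ρ d * ρ w + ρ w := by
    rw [hsd, mul_inv_rev, map_mul, map_mul, nz.three_inv d3 d1', inv4 hW]; noncomm_ring
  have hcen : ∀ x ∈ L, Commute (ρ s + ρ s⁻¹) (ρ x) := by
    intro x hx
    have : (⟨x, hx⟩ : L) ∈ closure {w, d} := hcl ▸ mem_top _
    change Commute _ (ρ (⟨x, hx⟩ : L))
    generalize (⟨x, hx⟩ : L) = y at this
    induction this using closure_induction with
    | mem y hy => rw [ht]; rcases hy with rfl | rfl; exacts [(tau hW hE).1, (tau hW hE).2]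
    | one => simp
    | mul a b _ _ ha hb => rw [Subgroup.coe_mul, map_mul ρ (a : G)]; exact ha.mul_right hb
    | inv a _ ha => exact (ha.units_inv_right (u := ρ.toHomUnits a))
  have hS : 1 + ρ s + ρ s ^ 2 + ρ s ^ 3 + ρ s ^ 4 = 0 := by
    have : Fact (Nat.Prime 5) := ⟨by norm_num⟩
    have := nz s s1
    rw [nrm, orderOf_eq_prime s5 s1] at this
    simpa [Finset.sum_range_succ] using this
  have hS5 : ρ s ^ 5 = 1 := by rw [← map_pow, s5, map_one]
  have si : ρ s⁻¹ = ρ s ^ 4 := by
    rw [← map_pow]; congr 1; rw [inv_eq_iff_mul_eq_one, ← pow_succ', s5]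
  set t : D := 2 * (ρ s + ρ s⁻¹) + 1 with htd
  have t5 : t * t = 5 := by
    rw [htd, si]
    generalize ρ s = S at hS hS5
    have e1 : (2 * (S + S ^ 4) + 1) * (2 * (S + S ^ 4) + 1) =
      4 * (1 + S + S ^ 2 + S ^ 3 + S ^ 4) + (4 * S ^ 3 + 8) * (S ^ 5 - 1) + 5 := by
        rw [show (5 : D) = 1 + 4 by norm_num, show (8 : D) = 4 + 4 by norm_num]; noncomm_ring
        norm_num
    rw [e1, hS, hS5]; simp
  have tc : ∀ x, Commute (ρ s + ρ s⁻¹) x → Commute t x := fun x h =>
    (((Commute.ofNat_left 2 x).mul_left h).add_left (Commute.one_left x))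
  have hM : M = ⊥ := by
    by_contra h
    have := (nontrivial_iff_ne_bot M).2 h
    obtain ⟨p, hp, hd⟩ := Nat.exists_prime_and_dvd (Finite.one_lt_card (α := M)).ne'
    have := Fact.mk hp
    obtain ⟨x, hx⟩ := exists_prime_orderOf_dvd_card' p hd
    have hp30 := (Nat.Coprime.coprime_dvd_left hd h30)
    obtain ⟨i', j', q1, q2, q3⟩ := q8
    let i : L := e.symm i'
    let j : L := e.symm j'
    have m1 : ρ (e.symm (-1) : L) = -1 := nz.invol
      (by rw [← Subgroup.coe_mul, ← map_mul]; simp)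
      (fun h => by
        have : (-1 : SL(2, ZMod 5)) = 1 := e.symm.injective (Subtype.ext (by simpa using h))
        exact absurd this (by decide))
    have cx : ∀ y ∈ L, ρ x * ρ y = ρ y * ρ x := fun y hy => by
      rw [← map_mul, ← map_mul, (hc x.2 y hy)]
    refine no_root (I := ρ i) (J := ρ j) (x := ρ x) ?_ ?_ ?_ t5 hp ?_ ?_ ?_ ?_ ?_ (tc _ (hcen _ i.2)) (tc _ (hcen _ j.2))
      (cx _ i.2) (cx _ j.2)
    · rw [← m1, ← map_mul, ← Subgroup.coe_mul]; unfold i; rw [← map_mul e.symm, q1]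
    · rw [← m1, ← map_mul, ← Subgroup.coe_mul]; unfold j; rw [← map_mul e.symm, q2]
    · rw [← neg_one_mul, ← m1, ← map_mul, ← map_mul, ← map_mul, ← Subgroup.coe_mul, ← Subgroup.coe_mul,
        ← Subgroup.coe_mul]
      unfold i j
      rw [← map_mul e.symm, ← map_mul e.symm, ← map_mul e.symm, q3]
    · rintro rfl; norm_num at hp30
    · rintro rfl; norm_num at hp30
    · rw [← map_pow, ← Subgroup.coe_pow, ← hx, pow_orderOf_eq_one]; simp
    · intro h
      have : x = 1 := Subtype.ext (hρ (by simpa using h))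
      rw [this, orderOf_one] at hx; exact hp.one_lt.ne hx
    · exact tc _ ((Commute.symm (cx _ sL)).add_left (Commute.symm (cx _ (inv_mem sL))))
  rw [hM, sup_bot_eq] at hs
  have memL : ∀ x, x ∈ L ↔ Equiv.Perm.sign (f x) = 1 := fun x => by rw [hs]; rfl
  have hker : ∀ x, f x = 1 → x = 1 ∨ x = z := by
    intro x hx
    have xL : x ∈ L := (memL x).2 (by simp [hx])
    have xc : x ∈ centralizer (L : Set G) := hk ▸ hx
    have : e ⟨x, xL⟩ ∈ center SL(2, ZMod 5) := by
      rw [mem_center_iff]; intro g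
      obtain ⟨g, rfl⟩ := e.surjective g
      rw [← map_mul, ← map_mul]; congr 1; exact Subtype.ext (xc g g.2)
    obtain ⟨r, hr, h⟩ := Matrix.SpecialLinearGroup.mem_center_iff.1 this
    have h2 : (⟨x, xL⟩ : L) * ⟨x, xL⟩ = 1 := by
      apply e.injective
      rw [map_mul, map_one]
      ext1
      rw [Matrix.SpecialLinearGroup.coe_mul, ← h, ← map_mul, ← sq]
      simp only [Fintype.card_fin] at hr
      rw [hr]; simp
    rcases hD.uniq _ h2 with h | h
    · exact Or.inl (congrArg Subtype.val h)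
    · exact Or.inr (congrArg Subtype.val h)
  have fz : f z = 1 := by
    rw [← MonoidHom.mem_ker, hk]; intro g hg; exact congrArg Subtype.val (hD.cen ⟨g, hg⟩)
  have zc : ∀ g : G, g * z = z * g := mem_center_iff.1 (hG.mem_center z2)
  by_cases hL : L = ⊤
  · subst hL; exact ⟨topEquiv.symm.trans e⟩
  exfalso
  have surj : Function.Surjective f := by
    obtain ⟨v, hv⟩ : ∃ v, v ∉ L := by by_contra! h; exact hL (eq_top_iff.2 fun x _ => h x)
    have ev : ∀ σ, Equiv.Perm.sign σ = 1 → ∃ x, f x = σ := fun σ h => by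
      have : σ ∈ L.map f := hm ▸ h
      obtain ⟨x, -, hx⟩ := this; exact ⟨x, hx⟩
    intro σ
    rcases Int.units_eq_one_or (Equiv.Perm.sign σ) with h | h
    · exact ev σ h
    · have hv' := (Int.units_eq_one_or _).resolve_left ((memL v).not.1 hv)
      obtain ⟨x, hx⟩ := ev (σ * (f v)⁻¹) (by simp [h, hv'])
      exact ⟨x * v, by simp [hx]⟩
  have sq1 : ∀ x : G, x * x = 1 → f x = 1 := fun x hx => by
    by_cases h : x = 1
    · simp [h]
    · rw [hG.eq_of_sq h z1 hx z2, fz]
  obtain ⟨g, hg⟩ := p5 (f s) (by rw [← map_pow, s5, map_one])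
  obtain ⟨v, rfl⟩ := surj g
  have hv : v * s * v⁻¹ = s ^ 2 := by
    rcases hker (v * s * v⁻¹ * (s ^ 2)⁻¹) (by simp only [map_mul, map_inv, map_pow, hg, mul_inv_cancel]) with h | h
    · exact mul_inv_eq_one.1 h
    · exfalso
      have h1 := congrArg (· ^ 5) (mul_inv_eq_iff_eq_mul.1 h)
      simp only [conj_pow, s5, mul_one, mul_inv_cancel] at h1
      rw [(Commute.symm (zc _)).mul_pow, ← pow_mul, mul_comm 2, pow_mul, s5, one_pow, mul_one,
        show 5 = 2 * 2 + 1 by rfl, pow_succ, pow_mul, sq (z : G), z2] at h1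
      exact z1 (by simpa using h1.symm)
  have anti : t * ρ v = -(ρ v * t) := by
    have h1 : ρ v * ρ s = ρ s ^ 2 * ρ v := by rw [← map_pow, ← map_mul, ← map_mul, ← hv]; simp
    have h4 : ρ v * ρ s ^ 4 = ρ s ^ 3 * ρ v := by
      rw [← map_pow, ← map_pow, ← map_mul, ← map_mul]; congr 1
      rw [← mul_inv_eq_iff_eq_mul, ← conj_pow, hv, ← pow_mul, show 2 * 4 = 5 + 3 by rfl, pow_add, s5, one_mul]
    have h0 : (2 : D) * ((1 + ρ s + ρ s ^ 2 + ρ s ^ 3 + ρ s ^ 4) * ρ v) = 0 := by rw [hS]; simp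
    rw [htd, si, eq_neg_iff_add_eq_zero, ← h0]
    simp only [two_mul, mul_add, add_mul, h1, h4, mul_one, one_mul]; abel
  have t0 : t ≠ 0 := by intro h; rw [h] at t5; norm_num at t5
  have r0 : ∀ x, ρ x ≠ 0 := fun x => (Group.isUnit x |>.map ρ).ne_zero
  have vL : v ∉ L := fun h => by
    rw [(tc _ (hcen v h)).eq, CharZero.eq_neg_self_iff] at anti
    exact mul_ne_zero (r0 v) t0 anti
  obtain ⟨u, hu⟩ := surj (Equiv.swap 0 1 * Equiv.swap 1 2 * Equiv.swap 2 3)
  obtain ⟨j, hj⟩ := surj (Equiv.swap 0 1 * Equiv.swap 2 3)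
  have jL : j ∈ L := (memL j).2 (by rw [hj]; decide)
  have u2L : u * u ∈ L := (memL _).2 (by simp)
  have vu : v⁻¹ * u ∈ L := (memL _).2 (by
    have hv' := (Int.units_eq_one_or _).resolve_left ((memL v).not.1 vL)
    rw [map_mul, map_inv, hu, map_mul, map_inv, hv']; decide)
  have u4 : u * u * (u * u) = z := (hker _ (by simp only [map_mul, hu]; decide)).resolve_left fun h => by
    have := sq1 _ h
    rw [map_mul, hu] at this; exact absurd this (by decide)
  have j2 : j * j = z := (hker _ (by simp only [map_mul, hj]; decide)).resolve_left fun h => by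
    have := sq1 _ h
    rw [hj] at this; exact absurd this (by decide)
  have ju : u * j * u = j := by
    rcases hker (u * j * u * j⁻¹) (by simp only [map_mul, map_inv, hu, hj]; decide) with h | h
    · exact mul_inv_eq_one.1 h
    · exfalso
      have := sq1 (u * j) (by rw [← mul_assoc, mul_inv_eq_iff_eq_mul.1 h, mul_assoc, j2, z2])
      rw [map_mul, hu, hj] at this; exact absurd this (by decide)
  have hI : ρ (u * u) * ρ (u * u) = -1 := by rw [← map_mul, u4, hz]
  have au : t * ρ u = -(ρ u * t) := by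
    rw [← mul_inv_cancel_left v u, map_mul, ← mul_assoc, anti, neg_mul, mul_assoc, (tc _ (hcen _ vu)).eq, mul_assoc]
  have uu : ρ u * ρ u⁻¹ = 1 := by rw [← map_mul, mul_inv_cancel, map_one]
  have uu' : ρ u⁻¹ * ρ u = 1 := by rw [← map_mul, inv_mul_cancel, map_one]
  refine no_outer (I := ρ (u * u)) (J := ρ j) (r := ρ u + ρ u⁻¹) hI (by rw [← map_mul, j2, hz]) ?_ t5 ?_ ?_
    (tc _ (hcen _ u2L)) (tc _ (hcen _ jL)) ?_ ?_
  · rw [← neg_mul, ← inv4 hI, ← map_mul, ← map_mul]; congr 1
    rw [eq_inv_mul_iff_mul_eq]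
    conv_rhs => rw [← ju, ← ju]
    group
  · have := inv4 hI
    rw [mul_inv_rev, map_mul, map_mul] at this
    rw [add_mul, mul_add, mul_add, uu, uu', this, ← one_add_one_eq_two]; abel
  · have : t * ρ u⁻¹ = -(ρ u⁻¹ * t) := by
      apply mul_left_cancel₀ (r0 u)
      rw [mul_neg, ← mul_assoc, ← mul_assoc, uu, ← neg_neg (ρ u * t), ← au, neg_mul, mul_assoc, uu]; simp
    rw [mul_add, add_mul (ρ u), au, this]; abel
  · refine Commute.add_left (Commute.map ?_ ρ) (Commute.map ?_ ρ)
    · exact (Commute.refl u).mul_right (Commute.refl u)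
    · exact ((Commute.refl u).mul_right (Commute.refl u)).inv_left
  · rw [Commute, SemiconjBy, add_mul, mul_add, add_comm]
    simp only [← map_mul]
    congr 2
    · rw [inv_mul_eq_iff_eq_mul, ← mul_assoc, ju]
    · rw [eq_mul_inv_iff_mul_eq, ju]

/-- A finite non-solvable subgroup of the multiplicative group of a division ring is isomorphic to the binary icosahedral group SL(2,5). -/
theorem result {D : Type*} [DivisionRing D] (H : Subgroup Dˣ) [Finite H] (hH : ¬ Group.IsSolvable H) :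
    Nonempty (H ≃* Matrix.SpecialLinearGroup (Fin 2) (ZMod 5)) := by
  have := charZero H hH
  exact main ((Units.coeHom D).comp H.subtype) (Units.val_injective.comp Subtype.val_injective) hH

end Cfsg.Agent.S4294
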