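import Mathlib
import Cfsg.Statements.S4296
import Cfsg.Agent.Fgs1.FPF5

set_option autoImplicit false
open Cfsg

namespace Cfsg.Agent.S4296

open Subgroup CF.Fgs1 CF.Fgs1.Fpf CF.Coprime

theorem exists_sq (n : ℕ) (hn : Odd n) : ∃ a b : ℕ, n ∣ a ^ 2 + b ^ 2 + 1 := by
  obtain ⟨k, rfl⟩ := hn
  obtain ⟨p, -, hp, h⟩ := Nat.forall_exists_prime_gt_and_modEq 0 (q := 4 * (2 * k + 1))
    (a := 4 * k + 1) (by omega) (by
      refine Nat.Coprime.mul_right (Nat.coprime_mul_left_add_left ..|>.mpr (by simp)) ?_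
      rw [← Nat.isCoprime_iff_coprime]
      exact ⟨-1, 2, by push_cast; ring⟩)
  haveI := Fact.mk hp
  have h4 : p % 4 = 1 := by
    have : p % 4 = (4 * k + 1) % 4 := h.of_mul_right _
    omega
  obtain ⟨a, b, hab⟩ := Nat.Prime.sq_add_sq (p := p) (by omega)
  refine ⟨a, b, ?_⟩
  rw [hab, ← Nat.modEq_zero_iff_dvd]
  exact ((h.of_mul_left 4).add_right 1).trans (Nat.modEq_zero_iff_dvd.mpr ⟨2, by ring⟩)

theorem isSquare {V : Type*} [AddCommGroup V] [Finite V] (hV : Odd (Nat.card V)) (I J : V →+ V)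
    (e1 : ∀ x, I (I x) = -x) (e2 : ∀ x, J (J x) = -x) (e3 : ∀ x, J (I x) = -I (J x)) :
    IsSquare (Nat.card V) := by
  obtain ⟨a, b, c, hab⟩ := exists_sq _ hV
  let U : V →+ V := a • I + b • J
  have hU : ∀ x, U x = a • I x + b • J x := fun _ => rfl
  have h1 : ∀ x, U (U x) = x := fun x => by
    have : (a ^ 2 + b ^ 2 + 1) • x = 0 := by rw [hab, mul_comm, mul_smul, card_nsmul_eq_zero', smul_zero]
    simp only [hU, map_add, map_nsmul, e1, e2, e3]
    linear_combination (norm := module) -this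
  have h2 : ∀ x, U (I (J x)) = -I (J (U x)) := fun x => by
    simp only [hU, map_add, map_nsmul, e1, e2, e3, map_neg, neg_neg]
    module
  have h3 : ∀ x, I (J (I (J x))) = -x := fun x => by simp only [e1, e2, e3, map_neg, neg_neg]
  obtain ⟨k, hk⟩ := hV
  have h4 : ∀ x : V, (k + 1) • (x + x) = x := fun x => by
    have := card_nsmul_eq_zero' (x := x)
    rw [hk] at this
    linear_combination (norm := module) this
  refine ⟨Nat.card {x // U x = x}, ?_⟩
  rw [← Nat.card_prod]
  refine (Nat.card_eq_of_bijective (fun x : {x // U x = x} × {x // U x = x} => x.1.1 + I (J x.2.1))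
    ⟨?_, fun v => ?_⟩).symm
  · rintro ⟨⟨x, hx⟩, ⟨y, hy⟩⟩ ⟨⟨x', hx'⟩, ⟨y', hy'⟩⟩ h
    have h5 := congrArg U h
    simp only [map_add, h2, hx, hy, hx', hy'] at h h5
    have h6 : x = x' := by
      rw [← h4 x, ← h4 x']; congr 1
      linear_combination (norm := module) h + h5
    have h7 := congrArg (fun t => I (J t)) (add_left_cancel (h6 ▸ h))
    simp only [h3, neg_inj] at h7
    simp only [h6, h7]
  · rw [← h4 v, smul_add]
    generalize (k + 1) • v = w
    refine ⟨(⟨w + U w, by rw [map_add, h1, add_comm]⟩, ⟨I (J (U w - w)), ?_⟩), ?_⟩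
    · rw [h2, map_sub U, h1, ← map_neg, ← map_neg, neg_sub]
    · simp only [h3]; abel


/-- Let H be a Frobenius complement in a finite group, and suppose some Sylow subgroup of H is not cyclic. Then the number of elements of the Frobenius kernel (the identity together with the elements lying in no conjugate of H) is an odd perfect square. -/
theorem result {L : Type*} [Group L] [Finite L] (H : Subgroup L) (hF : Cfsg.IsFrobeniusComplement H)
    (hZ : ∃ (p : ℕ) (_ : Fact p.Prime) (P : Sylow p H), ¬ IsCyclic P) :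
    Odd (Nat.card (Cfsg.frobeniusKernel H)) ∧ IsSquare (Nat.card (Cfsg.frobeniusKernel H)) := by
  obtain ⟨p, _, P, hP⟩ := hZ
  obtain ⟨K, hK, hn, -, -, hs⟩ := frob_exists_kernel hF
  obtain ⟨-, m, hm, ⟨e⟩⟩ := ((fpf_of_frob hF).isCyclic_or_quaternion P.isPGroup').resolve_left hP
  obtain ⟨m, rfl⟩ : ∃ n, m = n + 1 := ⟨m - 1, by omega⟩
  obtain ⟨a, b, hab⟩ := CF.Char.exists_qSetup e
  obtain ⟨z, i, j, h⟩ : ∃ z i j : H, QP z i j := ⟨_, _, _, qp_of_qSetup hab hab.b_mem hab.notMem⟩
  have hz1 : (z : L) ≠ 1 := fun h' => h.z1 (Subtype.ext h')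
  have hz2 : (z : L) ^ 2 = 1 := by rw [sq]; exact congrArg Subtype.val h.zz
  have hinv : ∀ k ∈ K, z * k * (z : L)⁻¹ = k⁻¹ := fun k hk =>
    fpf_conj_eq_inv (le_normalizer_of_normal (mem_top _)) (hs z z.2 hz1) (hz2 ▸ one_mem _) hk
  haveI := isMulCommutative_of_conj_eq_inv hinv
  have hodd : Odd (Nat.card K) := by
    refine Nat.coprime_two_left.mp ((hs.coprime le_normalizer_of_normal).coprime_dvd_left ?_)
    rw [← orderOf_eq_prime hz2 hz1]
    exact orderOf_dvd_natCard H z.2
  rw [← hK]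
  refine ⟨hodd, ?_⟩
  letI : CommGroup K := { (inferInstance : Group K) with mul_comm := fun a b => mul_comm' a b }
  let c : H → Additive K →+ Additive K := fun g =>
    MonoidHom.toAdditive (MulAut.conjNormal (g : L) : MulAut K).toMonoidHom
  have hc : ∀ g g' x, c g (c g' x) = c (g * g') x := fun g g' x => by simp [c]
  have hcz : ∀ x, c z x = -x := fun x => Subtype.ext (hinv _ x.toMul.2)
  exact isSquare (V := Additive K) hodd (c i) (c j) (fun x => by rw [hc, h.ii, hcz])
    (fun x => by rw [hc, h.jj, hcz]) fun x => by rw [hc, h.nf.2.2.2.2.2.2.1, ← hc, hcz, hc]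

end Cfsg.Agent.S4296
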