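import Mathlib
import Cfsg.Agent.S4296
import Cfsg.Agent.Fgs2.FrobComp
import Cfsg.Statements.S4295

set_option autoImplicit false
open Cfsg

namespace Cfsg.Agent.S4295

open QuaternionGroup

theorem exists_ring (n : ℕ) (hn : Odd n) : ∃ (R : Type) (_ : CommRing R) (_ : Finite R), Nat.card R = n ∧
    (∃ a b : R, a * a + b * b = -1) ∧ ∀ x : R, -x = x → x = 0 := by
  induction n using Nat.recOnMul with
  | zero => simp at hn
  | one => exact ⟨PUnit, inferInstance, inferInstance, by simp, ⟨0, 0, rfl⟩, fun _ _ => rfl⟩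
  | prime p hp =>
    have := Fact.mk hp
    obtain ⟨a, b, h⟩ := ZMod.sq_add_sq p (-1)
    refine ⟨ZMod p, inferInstance, inferInstance, by simp, ⟨a, b, by linear_combination h⟩, fun x hx => ?_⟩
    have h2 : (2 : ZMod p) ≠ 0 := by
      intro h
      have : p ∣ 2 := (ZMod.natCast_eq_zero_iff 2 p).1 h
      rw [(Nat.prime_dvd_prime_iff_eq hp Nat.prime_two).1 this] at hn
      exact absurd hn (by decide)
    exact (mul_eq_zero.1 (show 2 * x = 0 by linear_combination -hx)).resolve_left h2
  | mul m k ihm ihk =>
    obtain ⟨h1, h2⟩ := Nat.odd_mul.1 hn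
    obtain ⟨R, _, _, c, ⟨a, b, h⟩, e⟩ := ihm h1
    obtain ⟨R', _, _, c', ⟨a', b', h'⟩, e'⟩ := ihk h2
    exact ⟨R × R', inferInstance, inferInstance, by rw [Nat.card_prod, c, c'], ⟨(a, a'), (b, b'), Prod.ext h h'⟩,
      fun x hx => Prod.ext (e _ (congrArg Prod.fst hx)) (e' _ (congrArg Prod.snd hx))⟩

variable {R : Type} [CommRing R]

def rot (i : ZMod (2 * 2)) (v : R × R) : R × R :=
  if i = 0 then v else if i = 1 then (-v.2, v.1) else if i = 2 then -v else (v.2, -v.1)

def act (s t : R) : QuaternionGroup 2 → R × R → R × R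
  | a i, v => rot i v
  | xa i, v => (s * (rot i v).1 + t * (rot i v).2, t * (rot i v).1 - s * (rot i v).2)

theorem nc : (a 1 * xa 0 : QuaternionGroup 2) ≠ xa 0 * a 1 := by decide

theorem sq2 : ∀ g : QuaternionGroup 2, g ≠ 1 → g = a 2 ∨ g * g = a 2 := by decide

theorem cases4 (i : ZMod (2 * 2)) : i = 0 ∨ i = 1 ∨ i = 2 ∨ i = 3 := by revert i; decide

theorem rot0 (v : R × R) : rot 0 v = v := rfl
theorem rot1 (v : R × R) : rot 1 v = (-v.2, v.1) := rfl
theorem rot2 (v : R × R) : rot 2 v = -v := rfl
theorem rot3 (v : R × R) : rot 3 v = (v.2, -v.1) := rfl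

theorem rot_add (i j : ZMod (2 * 2)) (v : R × R) : rot (i + j) v = rot i (rot j v) := by
  rcases cases4 i with rfl | rfl | rfl | rfl <;> rcases cases4 j with rfl | rfl | rfl | rfl <;>
    (first | rfl | (ext <;> simp (decide := true) [rot]))

theorem act_mul {s t : R} (h : s * s + t * t = -1) (g k : QuaternionGroup 2) (v : R × R) :
    act s t (g * k) v = act s t g (act s t k v) := by
  rcases g with i | i <;> rcases k with j | j
  · exact rot_add i j v
  · rw [a_mul_xa, sub_eq_neg_add, act, act, act, rot_add]
    generalize rot j v = w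
    rcases cases4 i with rfl | rfl | rfl | rfl
    · simp [rot0]
    · rw [show (-1 : ZMod (2 * 2)) = 3 from rfl]; ext <;> simp [rot1, rot3] <;> ring
    · rw [show (-2 : ZMod (2 * 2)) = 2 from rfl]; ext <;> simp [rot2] <;> ring
    · rw [show (-3 : ZMod (2 * 2)) = 1 from rfl]; ext <;> simp [rot1, rot3] <;> ring
  · rw [xa_mul_a, act, act, act, rot_add]
  · rw [xa_mul_xa, show ((2 : ℕ) : ZMod (2 * 2)) + j - i = (2 - i) + j by push_cast; ring, act, act, act, rot_add]
    generalize rot j v = w
    rcases cases4 i with rfl | rfl | rfl | rfl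
    · rw [sub_zero]; ext <;> simp [rot0, rot2]
      · linear_combination -w.1 * h
      · linear_combination -w.2 * h
    · rw [show (2 - 1 : ZMod (2 * 2)) = 1 from rfl]; ext <;> simp [rot1]
      · linear_combination -w.2 * h
      · linear_combination w.1 * h
    · rw [sub_self]; ext <;> simp [rot0, rot2]
      · linear_combination w.1 * h
      · linear_combination w.2 * h
    · rw [show (2 - 3 : ZMod (2 * 2)) = 3 from rfl]; ext <;> simp [rot3]
      · linear_combination w.2 * h
      · linear_combination -w.1 * h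

theorem rot_add' (i : ZMod (2 * 2)) (v w : R × R) : rot i (v + w) = rot i v + rot i w := by
  rcases cases4 i with rfl | rfl | rfl | rfl <;> ext <;> simp [rot0, rot1, rot2, rot3, add_comm]

theorem act_add (s t : R) (g : QuaternionGroup 2) (v w : R × R) :
    act s t g (v + w) = act s t g v + act s t g w := by
  rcases g with i | i
  · exact rot_add' i v w
  · simp only [act, rot_add']; ext <;> simp <;> ring

/-- For a natural number m the following are equivalent: (a) some finite group has a Frobenius complement isomorphic to the quaternion group of order 8 whose Frobenius kernel (the identity together with the elements lying in no conjugate of the complement) has exactly m elements; (b) m is an odd perfect square greater than 1. -/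
theorem result (m : ℕ) :
    (∃ (L : Type) (_ : Group L) (_ : Finite L) (H : Subgroup L), Cfsg.IsFrobeniusComplement H ∧
        Nonempty (H ≃* QuaternionGroup 2) ∧ Nat.card (Cfsg.frobeniusKernel H) = m) ↔
    (Odd m ∧ IsSquare m ∧ 1 < m) := by
  constructor
  · rintro ⟨L, _, _, H, hF, ⟨e⟩, rfl⟩
    have : Fact (Nat.Prime 2) := ⟨Nat.prime_two⟩
    have hp : IsPGroup 2 H := IsPGroup.of_card (n := 3) (by
      rw [Nat.card_congr e.toEquiv, Nat.card_eq_fintype_card, QuaternionGroup.card]; norm_num)
    obtain ⟨P⟩ : Nonempty (Sylow 2 H) := inferInstance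
    have hP : (P : Subgroup H) = ⊤ := (P.3 (hp.to_subgroup ⊤) le_top).symm
    have h := S4296.result H hF ⟨2, this, P, fun hc => by
      rw [hP] at hc
      have : IsCyclic (QuaternionGroup 2) := isCyclic_of_surjective (e.toMonoidHom.comp (⊤ : Subgroup H).subtype)
        (e.surjective.comp fun x => ⟨⟨x, trivial⟩, rfl⟩)
      exact nc ((IsCyclic.commGroup (α := QuaternionGroup 2)).mul_comm (a 1) (xa 0))⟩
    refine ⟨h.1, h.2, ?_⟩
    obtain ⟨K, hK, -, -, h1, -⟩ := CF.Coprime.frob_exists_kernel hF
    rw [← hK]
    exact (Subgroup.one_lt_card_iff_ne_bot K).2 h1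
  · rintro ⟨ho, ⟨n, rfl⟩, h1⟩
    obtain ⟨R, _, _, c, ⟨s, t, h⟩, e⟩ := exists_ring n (Nat.odd_mul.1 ho).1
    have hc : Nat.card (R × R) = n * n := by rw [Nat.card_prod, c]
    have : Nontrivial (R × R) := Finite.one_lt_card_iff_nontrivial.1 (hc ▸ h1)
    let _ : DistribMulAction (QuaternionGroup 2) (R × R) :=
      { smul := act s t
        one_smul := fun v => rfl
        mul_smul := act_mul h
        smul_zero := fun g => by
          have := act_add s t g 0 0
          rw [add_zero] at this
          exact left_eq_add.1 this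
        smul_add := act_add s t }
    obtain ⟨L, _, _, H, h1, ⟨f⟩, h2⟩ := CF.Fgs2.exists_frobenius_of_distrib.{0} (QuaternionGroup 2) (R × R)
      fun g hg v hv => by
        have h2 : (a 2 : QuaternionGroup 2) • v = v := by
          have : g = a 2 ∨ g * g = a 2 := sq2 g hg
          rcases this with rfl | h
          · exact hv
          · rw [← h, mul_smul, hv, hv]
        exact Prod.ext (e _ (congrArg Prod.fst h2)) (e _ (congrArg Prod.snd h2))
    exact ⟨L, _, inferInstance, H, h1, ⟨f.symm⟩, h2.trans hc⟩

end Cfsg.Agent.S4295
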