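import Mathlib
import Cfsg.Agent.Fgs2.FrobComp
import Cfsg.Statements.S4297

set_option autoImplicit false
open Cfsg

namespace Cfsg.Agent.S4297

open QuaternionGroup

/-- the action of the dicyclic group on a plane -/
def act {n : ℕ} {F : Type} [CommRing F] (e : AddChar (ZMod (2 * n)) F) :
    QuaternionGroup n → F × F → F × F
  | a i, v => (e i * v.1, e (-i) * v.2)
  | xa i, v => (-(e (-i) * v.2), e i * v.1)

theorem act_a {n : ℕ} {F : Type} [CommRing F] (e : AddChar (ZMod (2 * n)) F) (i) (v : F × F) :
    act e (a i) v = (e i * v.1, e (-i) * v.2) := rfl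

theorem act_xa {n : ℕ} {F : Type} [CommRing F] (e : AddChar (ZMod (2 * n)) F) (i) (v : F × F) :
    act e (xa i) v = (-(e (-i) * v.2), e i * v.1) := rfl

/-- For every n ≥ 2 the dicyclic group of order 4n (generated by an element a of order 2n and an element x with x² = aⁿ and x a x⁻¹ = a⁻¹) occurs as a Frobenius complement of some finite Frobenius group. -/
theorem result (n : ℕ) (hn : 2 ≤ n) :
    ∃ (L : Type) (_ : Group L) (_ : Finite L) (H : Subgroup L), Cfsg.IsFrobeniusComplement H ∧ Nonempty (H ≃* QuaternionGroup n) := by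
  have h2n : 2 * n ≠ 0 := by omega
  have : NeZero n := ⟨by omega⟩
  have : NeZero (2 * n) := ⟨h2n⟩
  obtain ⟨p, hp, hp2, ζ, hζ⟩ := CF.Fgs2.exists_prime_primitiveRoot h2n 2
  have := Fact.mk hp
  let e : AddChar (ZMod (2 * n)) (ZMod p) := AddChar.zmodChar (2 * n) hζ.pow_eq_one
  have he : ∀ i, e i = 1 → i = 0 := by
    intro i hi
    rw [AddChar.zmodChar_apply, ← pow_zero ζ] at hi
    exact (ZMod.val_eq_zero i).1 (hζ.pow_inj (ZMod.val_lt i) (NeZero.pos _) hi)
  have hn1 : e n = -1 := by
    rw [AddChar.zmodChar_apply']
    exact (hζ.pow (by omega) (mul_comm 2 n)).eq_neg_one_of_two_right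
  have hn2 : e (-n) = -1 := by
    have := e.map_add_eq_mul n (-n)
    rw [add_neg_cancel, e.map_zero_eq_one, hn1] at this
    linear_combination this
  let : DistribMulAction (QuaternionGroup n) (ZMod p × ZMod p) :=
    { smul := act e
      one_smul := fun v => by
        change act e (a 0) v = v
        rw [act_a]; simp
      mul_smul := fun x y v => by
        change act e (x * y) v = act e x (act e y v)
        rcases x with i | i <;> rcases y with j | j <;>
          simp only [a_mul_a, a_mul_xa, xa_mul_a, xa_mul_xa, act_a, act_xa, sub_eq_add_neg, neg_add,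
            AddChar.map_add_eq_mul, neg_neg, hn1, hn2, Prod.mk.injEq] <;>
          constructor <;> ring
      smul_zero := fun x => by
        change act e x 0 = 0
        rcases x with i | i <;> simp [act_a, act_xa]
      smul_add := fun x v w => by
        change act e x (v + w) = act e x v + act e x w
        rcases x with i | i <;> simp only [act_a, act_xa, Prod.fst_add, Prod.snd_add,
          Prod.mk_add_mk, Prod.mk.injEq] <;> constructor <;> ring }
  obtain ⟨L, _, _, H, h1, ⟨h2⟩, -⟩ :=
    CF.Fgs2.exists_frobenius_of_distrib.{0} (QuaternionGroup n) (ZMod p × ZMod p) (by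
    intro c hc v hv
    change act e c v = v at hv
    obtain ⟨x, y⟩ := v
    rcases c with i | i
    · have hi : i ≠ 0 := by rintro rfl; exact hc rfl
      simp only [act_a, Prod.mk.injEq] at hv
      have h1 : x = 0 := by
        by_contra h0
        exact hi (he _ ((mul_eq_right₀ h0).1 hv.1))
      have h2 : y = 0 := by
        by_contra h0
        exact hi (neg_eq_zero.1 (he _ ((mul_eq_right₀ h0).1 hv.2)))
      rw [h1, h2]; rfl
    · simp only [act_xa, Prod.mk.injEq] at hv
      have h3 := e.map_add_eq_mul i (-i)
      rw [add_neg_cancel, e.map_zero_eq_one] at h3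
      have h4 : (2 : ZMod p) ≠ 0 := by
        intro h
        have : p ∣ 2 := (ZMod.natCast_eq_zero_iff 2 p).1 (by exact_mod_cast h)
        have := Nat.le_of_dvd two_pos this
        omega
      have h1 : x = 0 := by
        have : 2 * x = 0 := by linear_combination -hv.1 + e (-i) * hv.2 + x * h3
        exact (mul_eq_zero.1 this).resolve_left h4
      have h2 : y = 0 := by rw [← hv.2, h1, mul_zero]
      rw [h1, h2]; rfl)
  exact ⟨L, inferInstance, inferInstance, H, h1, ⟨h2.symm⟩⟩

end Cfsg.Agent.S4297
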