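import Mathlib
import Cfsg.Agent.Fgs2.FrobComp
import Cfsg.Statements.S4298

set_option autoImplicit false
open Cfsg

namespace Cfsg.Agent.S4298

/-- an embedding of `SL(2,3)` in `SL(2,5)` -/
def tbl (a b c d : ZMod 3) : ZMod 5 × ZMod 5 × ZMod 5 × ZMod 5 :=
  ([(0, 0, 0, 0), (0, 0, 0, 0), (0, 0, 0, 0), (0, 0, 0, 0), (0, 0, 0, 0), (0, 0, 0, 0), (0, 0, 0, 0), (0, 0, 0, 0), (0, 0, 0, 0), 
    (0, 0, 0, 0), (0, 0, 0, 0), (0, 0, 0, 0), (0, 0, 0, 0), (0, 0, 0, 0), (0, 0, 0, 0),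
    (3, 0, 1, 2), (2, 2, 1, 4), (0, 3, 3, 4), (0, 0, 0, 0), (0, 0, 0, 0), (0, 0, 0, 0),
    (2, 0, 4, 3), (0, 2, 2, 1), (3, 3, 4, 1), (0, 0, 0, 0), (0, 0, 0, 0), (0, 0, 0, 0),
    (0, 0, 0, 0), (1, 0, 0, 1), (0, 0, 0, 0), (0, 0, 0, 0), (2, 1, 3, 2), (0, 0, 0, 0),
    (0, 0, 0, 0), (2, 4, 2, 2), (0, 0, 0, 0), (0, 0, 0, 0), (0, 1, 4, 4), (0, 0, 0, 0),
    (0, 0, 0, 0), (0, 0, 0, 0), (4, 1, 3, 1), (1, 3, 3, 0), (0, 0, 0, 0), (0, 0, 0, 0),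
    (0, 0, 0, 0), (4, 4, 1, 0), (0, 0, 0, 0), (4, 3, 4, 2), (0, 0, 0, 0), (0, 0, 0, 0),
    (0, 0, 0, 0), (0, 0, 0, 0), (2, 3, 0, 3), (0, 0, 0, 0), (0, 0, 0, 0), (4, 0, 0, 4),
    (0, 0, 0, 0), (0, 0, 0, 0), (3, 1, 3, 3), (0, 0, 0, 0), (0, 0, 0, 0), (3, 4, 2, 3),
    (0, 0, 0, 0), (0, 0, 0, 0), (1, 1, 4, 0), (0, 0, 0, 0), (3, 2, 0, 2), (0, 0, 0, 0),
    (1, 2, 1, 3), (0, 0, 0, 0), (0, 0, 0, 0), (0, 0, 0, 0), (0, 0, 0, 0), (0, 4, 1, 1),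
    (4, 2, 2, 0), (0, 0, 0, 0), (0, 0, 0, 0), (0, 0, 0, 0), (1, 4, 2, 4), (0, 0, 0, 0)] : List (ZMod 5 × ZMod 5 × ZMod 5 × ZMod 5)).getD
    (27 * a.val + 9 * b.val + 3 * c.val + d.val) (0, 0, 0, 0)

/-- matrix action on a plane -/
def ap (m : ZMod 5 × ZMod 5 × ZMod 5 × ZMod 5) (v : ZMod 5 × ZMod 5) : ZMod 5 × ZMod 5 :=
  (m.1 * v.1 + m.2.1 * v.2, m.2.2.1 * v.1 + m.2.2.2 * v.2)

/-- matrix product -/
def mm (m n : ZMod 5 × ZMod 5 × ZMod 5 × ZMod 5) : ZMod 5 × ZMod 5 × ZMod 5 × ZMod 5 :=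
  (m.1 * n.1 + m.2.1 * n.2.2.1, m.1 * n.2.1 + m.2.1 * n.2.2.2,
    m.2.2.1 * n.1 + m.2.2.2 * n.2.2.1, m.2.2.1 * n.2.1 + m.2.2.2 * n.2.2.2)

theorem tbl_mul : ∀ a b c d : ZMod 3, a * d - b * c = 1 → ∀ a' b' c' d' : ZMod 3,
    a' * d' - b' * c' = 1 →
    tbl (a * a' + b * c') (a * b' + b * d') (c * a' + d * c') (c * b' + d * d') =
      mm (tbl a b c d) (tbl a' b' c' d') := by decide +kernel

set_option synthInstance.maxSize 2000 in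
theorem tbl_fix : ∀ a b c d : ZMod 3, a * d - b * c = 1 → ∀ v : ZMod 5 × ZMod 5,
    ap (tbl a b c d) v = v → v = 0 ∨ (a = 1 ∧ b = 0 ∧ c = 0 ∧ d = 1) := by decide +kernel

theorem tbl_one : ∀ v : ZMod 5 × ZMod 5, ap (tbl 1 0 0 1) v = v := by decide +kernel

/-- The group SL(2,3) of order 24 (the binary tetrahedral group) occurs as a Frobenius complement of some finite Frobenius group. -/
theorem result :
    ∃ (L : Type) (_ : Group L) (_ : Finite L) (H : Subgroup L), Cfsg.IsFrobeniusComplement H ∧ Nonempty (H ≃* Matrix.SpecialLinearGroup (Fin 2) (ZMod 3)) := by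
  have : Fact (Nat.Prime 5) := ⟨by norm_num⟩
  have hdet : ∀ A : Matrix.SpecialLinearGroup (Fin 2) (ZMod 3),
      A 0 0 * A 1 1 - A 0 1 * A 1 0 = 1 := fun A => by
    rw [← Matrix.det_fin_two]; exact A.2
  let : DistribMulAction (Matrix.SpecialLinearGroup (Fin 2) (ZMod 3)) (ZMod 5 × ZMod 5) :=
    { smul := fun A v => ap (tbl (A 0 0) (A 0 1) (A 1 0) (A 1 1)) v
      one_smul := fun v => tbl_one v
      mul_smul := fun x y v => by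
        change ap (tbl ((x * y) 0 0) ((x * y) 0 1) ((x * y) 1 0) ((x * y) 1 1)) v =
          ap (tbl (x 0 0) (x 0 1) (x 1 0) (x 1 1)) (ap (tbl (y 0 0) (y 0 1) (y 1 0) (y 1 1)) v)
        simp only [Matrix.SpecialLinearGroup.coe_mul, Matrix.mul_apply, Fin.sum_univ_two]
        rw [tbl_mul _ _ _ _ (hdet x) _ _ _ _ (hdet y)]
        simp only [ap, mm, Prod.mk.injEq]
        constructor <;> ring
      smul_zero := fun x => by
        change ap _ 0 = 0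
        simp [ap]
      smul_add := fun x v w => by
        change ap _ (v + w) = ap _ v + ap _ w
        simp only [ap, Prod.fst_add, Prod.snd_add, Prod.mk_add_mk, Prod.mk.injEq]
        constructor <;> ring }
  have : Nontrivial (Matrix.SpecialLinearGroup (Fin 2) (ZMod 3)) :=
    ⟨1, ⟨!![1, 1; 0, 1], by simp [Matrix.det_fin_two]⟩, fun h => by
      have : (1 : Matrix.SpecialLinearGroup (Fin 2) (ZMod 3)) 0 1 = _ := congrArg (fun A => A 0 1) h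
      simp at this⟩
  obtain ⟨L, _, _, H, h1, ⟨h2⟩, -⟩ := CF.Fgs2.exists_frobenius_of_distrib.{0}
    (Matrix.SpecialLinearGroup (Fin 2) (ZMod 3)) (ZMod 5 × ZMod 5) (by
    intro c hc v hv
    refine (tbl_fix _ _ _ _ (hdet c) v hv).resolve_right fun h => hc ?_
    ext i j
    fin_cases i <;> fin_cases j <;> simp [h.1, h.2.1, h.2.2.1, h.2.2.2])
  exact ⟨L, inferInstance, inferInstance, H, h1, ⟨h2.symm⟩⟩

end Cfsg.Agent.S4298
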