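import Mathlib
import Cfsg.Agent.Fgs2.FrobComp
import Cfsg.Statements.S4299

set_option autoImplicit false
open Cfsg

namespace Cfsg.Agent.S4299

/-- Every nontrivial finite cyclic group occurs as a Frobenius complement of some finite Frobenius group. -/
theorem result {C : Type*} [Group C] [Finite C] [IsCyclic C] [Nontrivial C] :
    ∃ (L : Type) (_ : Group L) (_ : Finite L) (H : Subgroup L), Cfsg.IsFrobeniusComplement H ∧ Nonempty (C ≃* H) := by
  obtain ⟨p, hp, -, ζ, hζ⟩ := CF.Fgs2.exists_prime_primitiveRoot (Nat.card_pos (α := C)).ne' 0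
  have := Fact.mk hp
  obtain ⟨g, hg⟩ := IsCyclic.exists_generator (α := C)
  have hu : IsUnit ζ := hζ.isUnit Nat.card_pos.ne'
  have ho : orderOf hu.unit = orderOf g := by
    rw [orderOf_eq_card_of_forall_mem_zpowers hg, ← orderOf_units]
    exact hζ.eq_orderOf.symm
  let f : C →* (ZMod p)ˣ := monoidHomOfForallMemZpowers hg ho.dvd
  have hf : ∀ c, f c = 1 → c = 1 := by
    intro c hc
    obtain ⟨k, rfl⟩ := Subgroup.mem_zpowers_iff.1 (hg c)
    rw [map_zpow, monoidHomOfForallMemZpowers_apply_gen, ← orderOf_dvd_iff_zpow_eq_one, ho] at hc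
    exact orderOf_dvd_iff_zpow_eq_one.1 hc
  let := DistribMulAction.compHom (ZMod p) f
  obtain ⟨L, _, _, H, h1, h2, -⟩ := CF.Fgs2.exists_frobenius_of_distrib.{0} C (ZMod p) (by
    intro c hc v hv
    have hv : ((f c : (ZMod p)ˣ) : ZMod p) * v = v := hv
    by_contra h0
    exact hc (hf c (Units.ext ((mul_eq_right₀ h0).1 hv))))
  exact ⟨L, inferInstance, inferInstance, H, h1, h2⟩

end Cfsg.Agent.S4299
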