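import Mathlib
import Cfsg.Statements.S4300

set_option autoImplicit false
open Cfsg

namespace Cfsg.Agent.S4300

/-- Let G act faithfully and primitively on a set X, and suppose the stabilizer of some point is a simple group. Then either G is simple, or G has a normal subgroup, neither trivial nor the whole group, that acts regularly on X (transitively with trivial point stabilizers). -/
theorem result {G : Type*} [Group G] {X : Type*} [MulAction G X] [FaithfulSMul G X]
    (hprim : MulAction.IsPreprimitive G X) (x : X) (hsimple : IsSimpleGroup (MulAction.stabilizer G x)) :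
    IsSimpleGroup G ∨ ∃ N : Subgroup G, N.Normal ∧ N ≠ ⊥ ∧ N ≠ ⊤ ∧
      MulAction.IsPretransitive N X ∧ ∀ y : X, MulAction.stabilizer N y = ⊥ := by
  by_cases h : ∀ N : Subgroup G, N.Normal → N = ⊥ ∨ N = ⊤
  · left
    have : Nontrivial G := by
      obtain ⟨a, b, hab⟩ := hsimple.toNontrivial
      exact ⟨a, b, fun h => hab (Subtype.ext h)⟩
    exact ⟨h⟩
  right
  push Not at h
  obtain ⟨N, hN, h1, h2⟩ := h
  have htr : MulAction.IsPretransitive N X := by
    have := hprim.isQuasiPreprimitive
    refine MulAction.IsQuasiPreprimitive.isPretransitive_of_normal ?_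
    intro h
    apply h1
    rw [eq_bot_iff]
    intro n hn
    refine eq_of_smul_eq_smul (α := X) fun y => ?_
    have : y ∈ MulAction.fixedPoints N X := h ▸ Set.mem_univ y
    rw [one_smul]
    exact this ⟨n, hn⟩
  refine ⟨N, hN, h1, h2, htr, ?_⟩
  have hx : ∀ n ∈ N, n • x = x → n = 1 := by
    rcases hsimple.eq_bot_or_eq_top_of_normal (N.subgroupOf _) inferInstance with h | h
    · intro n hn hnx
      have : (⟨n, hnx⟩ : MulAction.stabilizer G x) ∈ N.subgroupOf _ := hn
      rw [h] at this
      exact congrArg Subtype.val (Subgroup.mem_bot.1 this)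
    · exfalso
      apply h2
      rw [eq_top_iff]
      intro g _
      obtain ⟨n, hn⟩ := htr.exists_smul_eq x (g • x)
      have h3 : (n : G)⁻¹ * g ∈ MulAction.stabilizer G x := by
        rw [MulAction.mem_stabilizer_iff, mul_smul, inv_smul_eq_iff]; exact hn.symm
      have h4 : (⟨_, h3⟩ : MulAction.stabilizer G x) ∈ N.subgroupOf _ := h ▸ Subgroup.mem_top _
      have := N.mul_mem n.2 h4
      simpa using this
  intro y
  obtain ⟨g, rfl⟩ := hprim.toIsPretransitive.exists_smul_eq x y
  rw [eq_bot_iff]
  intro n hn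
  have hn : (n : G) • g • x = g • x := hn
  have := hx (g⁻¹ * n * g⁻¹⁻¹) (hN.conj_mem _ n.2 _) (by
    rw [inv_inv, mul_smul, mul_smul, hn, inv_smul_smul])
  refine Subgroup.mem_bot.2 (Subtype.ext ?_)
  calc (n : G) = g * (g⁻¹ * n * g⁻¹⁻¹) * g⁻¹ := by group
    _ = 1 := by rw [this]; group

end Cfsg.Agent.S4300
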