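import Mathlib
import Cfsg.Statements.S4301

set_option autoImplicit false
open Cfsg

namespace Cfsg.Agent.S4301

/-- One-point extension of a multiply transitive group. Let X be a set and G a group of permutations of Option X (the set X with one extra point ∗ = none) all of whose elements fix ∗, such that G is k-transitive on the points of X for some k ≥ 2, X having at least k points. Suppose a permutation h of Option X and an element g of G satisfy: h interchanges ∗ with a point x of X and fixes a point y of X; g interchanges x and y; (g h)³ and h² lie in G; and for every f in G fixing x, the product h f h lies in G and fixes x. Then an element of the group generated by G and h fixes ∗ exactly when it lies in G, and that group acts (k+1)-transitively on Option X. -/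
theorem result {X : Type*} (G : Subgroup (Equiv.Perm (Option X))) (hfix : ∀ f ∈ G, f none = none)
    (k : ℕ) (hk : 2 ≤ k) (hkX : Nonempty (Fin k ↪ X))
    (htrans : ∀ a b : Fin k ↪ X, ∃ f ∈ G, ∀ i, f (some (a i)) = some (b i))
    (h g : Equiv.Perm (Option X)) (hg : g ∈ G) (x y : X)
    (h1 : h none = some x) (h2 : h (some x) = none) (h3 : h (some y) = some y)
    (h4 : g (some x) = some y) (h5 : g (some y) = some x)
    (h6 : (g * h) ^ 3 ∈ G) (h7 : h ^ 2 ∈ G)
    (h8 : ∀ f ∈ G, f (some x) = some x → h * f * h ∈ G ∧ (h * f * h) (some x) = some x) :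
    (∀ f ∈ Subgroup.closure ((G : Set (Equiv.Perm (Option X))) ∪ {h}), f none = none ↔ f ∈ G) ∧
      MulAction.IsMultiplyPretransitive (Subgroup.closure ((G : Set (Equiv.Perm (Option X))) ∪ {h})) (Option X) (k + 1) := by
  classical
  obtain ⟨e⟩ := hkX
  obtain ⟨k, rfl⟩ : ∃ m, k = m + 2 := ⟨k - 2, by omega⟩
  have hxy : x ≠ y := by
    rintro rfl
    rw [h2] at h3; cases h3
  have hext : ∀ u v : X, u ≠ v → ∃ a : Fin (k + 2) ↪ X, a 0 = u ∧ a 1 = v := by
    intro u v huv
    have h01 : e 0 ≠ e 1 := e.injective.ne (by simp)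
    refine ⟨e.trans ((Equiv.swap (e 0) u).trans
      (Equiv.swap (Equiv.swap (e 0) u (e 1)) v)).toEmbedding, ?_, by simp⟩
    simp only [Function.Embedding.trans_apply, Equiv.coe_toEmbedding, Equiv.trans_apply,
      Equiv.swap_apply_left]
    refine Equiv.swap_apply_of_ne_of_ne (fun h => h01 ?_) huv
    apply (Equiv.swap (e 0) u).injective
    rw [← h, Equiv.swap_apply_left]
  have h2t : ∀ u v u' v' : X, u ≠ v → u' ≠ v' →
      ∃ f ∈ G, f (some u) = some u' ∧ f (some v) = some v' := by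
    intro u v u' v' h h'
    obtain ⟨a, ha, ha'⟩ := hext u v h
    obtain ⟨b, hb, hb'⟩ := hext u' v' h'
    obtain ⟨f, hf, hf'⟩ := htrans a b
    exact ⟨f, hf, by rw [← ha, ← hb, hf'], by rw [← ha', ← hb', hf']⟩
  have hsome : ∀ f ∈ G, ∀ u, ∃ v, f (some u) = some v := by
    intro f hf u
    rw [← Option.ne_none_iff_exists']
    intro h
    have := f.injective (h.trans (hfix f hf).symm)
    cases this
  have hinv : h⁻¹ = h * (h ^ 2)⁻¹ := by group
  have hgh : ∃ a ∈ G, ∃ b ∈ G, h⁻¹ * g * h⁻¹ = a * h * b := by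
    refine ⟨(h ^ 2)⁻¹ * g⁻¹ * (g * h) ^ 3, G.mul_mem (G.mul_mem (G.inv_mem h7) (G.inv_mem hg)) h6,
      (h ^ 2)⁻¹ * g⁻¹ * (h ^ 2)⁻¹, G.mul_mem (G.mul_mem (G.inv_mem h7) (G.inv_mem hg)) (G.inv_mem h7),
      ?_⟩
    simp only [pow_succ, pow_zero, one_mul]
    group
  have hfh : ∀ f ∈ G, h * f * h ∈ G ∨ ∃ a ∈ G, ∃ b ∈ G, h * f * h = a * h * b := by
    intro f hf
    obtain ⟨z, hz⟩ := hsome f hf x
    by_cases hzx : z = x
    · exact Or.inl (h8 f hf (hzx ▸ hz)).1
    right
    obtain ⟨a, ha, ha1, ha2⟩ := h2t x y x z hxy (Ne.symm hzx)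
    have hb : g⁻¹ * a⁻¹ * f ∈ G := G.mul_mem (G.mul_mem (G.inv_mem hg) (G.inv_mem ha)) hf
    have hb1 : (g⁻¹ * a⁻¹ * f) (some x) = some x := by
      simp only [Equiv.Perm.mul_apply, hz]
      rw [← ha2, Equiv.Perm.inv_def, Equiv.Perm.inv_def, Equiv.symm_apply_apply, ← h4,
        Equiv.symm_apply_apply]
    obtain ⟨c, hc, d, hd, hcd⟩ := hgh
    refine ⟨h * a * h * c, G.mul_mem (h8 a ha ha1).1 hc, d * (h * (g⁻¹ * a⁻¹ * f) * h),
      G.mul_mem hd (h8 _ hb hb1).1, ?_⟩
    calc h * f * h = h * a * h * (h⁻¹ * g * h⁻¹) * (h * (g⁻¹ * a⁻¹ * f) * h) := by group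
      _ = _ := by rw [hcd]; group
  let S : Subgroup (Equiv.Perm (Option X)) :=
    { carrier := {f | f ∈ G ∨ ∃ a ∈ G, ∃ b ∈ G, f = a * h * b}
      one_mem' := Or.inl G.one_mem
      mul_mem' := by
        rintro _ _ (hf | ⟨a, ha, b, hb, rfl⟩) (hf' | ⟨c, hc, d, hd, rfl⟩)
        · exact Or.inl (G.mul_mem hf hf')
        · exact Or.inr ⟨_, G.mul_mem hf hc, d, hd, by group⟩
        · exact Or.inr ⟨a, ha, _, G.mul_mem hb hf', by group⟩
        · rcases hfh _ (G.mul_mem hb hc) with h' | ⟨u, hu, v, hv, h'⟩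
          · left
            convert G.mul_mem (G.mul_mem ha h') hd using 1
            group
          · refine Or.inr ⟨_, G.mul_mem ha hu, _, G.mul_mem hv hd, ?_⟩
            calc _ = a * (h * (b * c) * h) * d := by group
              _ = _ := by rw [h']; group
      inv_mem' := by
        rintro _ (hf | ⟨a, ha, b, hb, rfl⟩)
        · exact Or.inl (G.inv_mem hf)
        · exact Or.inr ⟨_, G.inv_mem hb, _, G.mul_mem (G.inv_mem h7) (G.inv_mem ha), by group⟩ }
  set C := Subgroup.closure ((G : Set (Equiv.Perm (Option X))) ∪ {h}) with hC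
  have hCS : C ≤ S := by
    rw [hC, Subgroup.closure_le]
    rintro f (hf | rfl)
    · exact Or.inl hf
    · exact Or.inr ⟨1, G.one_mem, 1, G.one_mem, by simp⟩
  have hGC : ∀ f ∈ G, f ∈ C := fun f hf => Subgroup.subset_closure (Or.inl hf)
  have hhC : h ∈ C := Subgroup.subset_closure (Or.inr rfl)
  refine ⟨fun f hf => ⟨fun hf0 => ?_, hfix f⟩, ?_⟩
  · rcases hCS hf with h' | ⟨a, ha, b, hb, rfl⟩
    · exact h'
    · simp only [Equiv.Perm.mul_apply, hfix b hb, h1] at hf0
      obtain ⟨v, hv⟩ := hsome a ha x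
      rw [hv] at hf0; cases hf0
  · have hA : ∀ a : Fin (k + 2 + 1) ↪ Option X, ∃ f : C, ∃ a' : Fin (k + 2) ↪ X,
        (f • a) 0 = none ∧ ∀ i, (f • a) i.succ = some (a' i) := by
      intro a
      have : ∃ f : C, (f • a) 0 = none := by
        rcases ha : a 0 with _ | z
        · exact ⟨1, by simpa using ha⟩
        · by_cases hz : z = x
          · exact ⟨⟨h, hhC⟩, by
              change h (a 0) = none
              rw [ha, hz, h2]⟩
          · obtain ⟨f, hf, hf1, -⟩ := h2t z x x y hz hxy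
            exact ⟨⟨h * f, C.mul_mem hhC (hGC f hf)⟩, by
              change h (f (a 0)) = none
              rw [ha, hf1, h2]⟩
      obtain ⟨f, hf⟩ := this
      have h' : ∀ i : Fin (k + 2), ∃ v, (f • a) i.succ = some v := fun i => by
        rw [← Option.ne_none_iff_exists', ← hf]
        exact (f • a).injective.ne (Fin.succ_ne_zero i)
      choose a' ha' using h'
      refine ⟨f, ⟨a', fun i j hij => ?_⟩, hf, ha'⟩
      apply Fin.succ_injective
      apply (f • a).injective
      rw [ha', ha', hij]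
    refine ⟨fun a b => ?_⟩
    obtain ⟨f, a', ha0, ha⟩ := hA a
    obtain ⟨f', b', hb0, hb⟩ := hA b
    obtain ⟨u, hu, hu'⟩ := htrans a' b'
    refine ⟨f'⁻¹ * ⟨u, hGC u hu⟩ * f, ?_⟩
    ext1 i
    apply (f' : Equiv.Perm (Option X)).injective
    change (f' : Equiv.Perm (Option X)) ((f' : Equiv.Perm (Option X))⁻¹ (u ((f • a) i))) = (f' • b) i
    rw [Equiv.Perm.inv_def, Equiv.apply_symm_apply]
    refine Fin.cases ?_ (fun i => ?_) i
    · rw [ha0, hb0, hfix u hu]
    · rw [ha, hb, hu']

end Cfsg.Agent.S4301
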