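import Cfsg.Statements.S4302
import Cfsg.Agent.Sig.OffG

set_option autoImplicit false
open Cfsg

namespace Cfsg.Agent.S4302

open CF.BG CF.Sig Subgroup in

/-- Let `X` be a finite solvable group whose Fitting subgroup is a 2-group (equivalently `F(X) = O₂(X)`), `T` a Sylow 2-subgroup of `X`, `J(T)` the subgroup generated by the abelian subgroups of `T` of largest order, `C` the largest normal subgroup of `X` centralizing the centre `Z(T)`, and `Y` the normal closure of `J(T)` in `X`. Then `X = C · Y · N_X(J(T))`, and either `Y ≤ C`, or `CY/C` is isomorphic to a direct product of at least one copy of the symmetric group of degree 3. -/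
theorem result {X : Type*} [Group X] [Finite X]
    [Group.IsSolvable X] (hF : Cfsg.fittingSubgroup X = Cfsg.pCore 2 X) (T : Sylow 2 X) :
    ((Subgroup.centralizer (((T : Subgroup X) ⊓ Subgroup.centralizer ((T : Subgroup X) : Set X) : Subgroup X) : Set X)).normalCore
        ⊔ Subgroup.normalClosure (Cfsg.thompsonSubgroupAOf (T : Subgroup X) : Set X)
        ⊔ Subgroup.normalizer (Cfsg.thompsonSubgroupAOf (T : Subgroup X) : Set X) = ⊤) ∧
    (Subgroup.normalClosure (Cfsg.thompsonSubgroupAOf (T : Subgroup X) : Set X)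
        ≤ (Subgroup.centralizer (((T : Subgroup X) ⊓ Subgroup.centralizer ((T : Subgroup X) : Set X) : Subgroup X) : Set X)).normalCore
      ∨ ∃ n : ℕ, 1 ≤ n ∧
        Nonempty (↥(Subgroup.normalClosure (Cfsg.thompsonSubgroupAOf (T : Subgroup X) : Set X)) ⧸
            ((Subgroup.centralizer (((T : Subgroup X) ⊓ Subgroup.centralizer ((T : Subgroup X) : Set X) : Subgroup X) : Set X)).normalCore).subgroupOf
              (Subgroup.normalClosure (Cfsg.thompsonSubgroupAOf (T : Subgroup X) : Set X))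
          ≃* (Fin n → Equiv.Perm (Fin 3)))) := by
  have hp := Nat.prime_two
  have s : Sol (⊤ : Subgroup X) := CF.Coprime.isSolvable_top_iff.mpr inferInstance
  have sT := syl_sylow_top T
  rw [CF.PLocal.thompsonSubgroupAOf_eq]
  generalize (T : Subgroup X) = S at sT
  have cF : ⊤ ⊓ 𝐂 (𝐎 {2} (⊤ : Subgroup X)) ≤ 𝐎 {2} ⊤ := by
    have := s.cent_F_le
    rwa [F_top, hF, pCore_eq hp] at this
  set V₀ := normalClosure ((𝐙 S : Subgroup X) : Set X) with hV₀
  have nZ : (𝐙 (𝐎 {2} (⊤ : Subgroup X))).Normal :=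
    normalIn_top.mp ((O_normal _ _).char inf_le_left (norm_center _))
  have l0 : V₀ ≤ 𝐙 (𝐎 {2} ⊤) := normalClosure_le_normal (by
    have := inf_le_right.trans (cent_anti sT.O_le) (a := 𝐙 S)
    exact le_inf ((le_inf le_top this).trans cF) this)
  have a0 : Abel V₀ := (center_abel _).mono l0
  have k0 : PiGrp {2} V₀ := (O_pi _ _).le (l0.trans inf_le_left)
  have n0 : V₀ ⊴ ⊤ := normalIn_top.mpr normalClosure_normal
  have eC : (𝐂 (𝐙 S)).normalCore = 𝐂 V₀ := by
    have : (𝐂 (𝐂 (𝐙 S)).normalCore).Normal :=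
      normalIn_top.mp ⟨le_top, norm_cent (normalIn_top.mpr inferInstance).norm⟩
    have : (𝐂 V₀).Normal := normalIn_top.mp ⟨le_top, norm_cent n0.norm⟩
    exact le_antisymm (cent_symm (normalClosure_le_normal (cent_symm (normalCore_le _))))
      (normal_le_normalCore.mpr (cent_anti le_normalClosure))
  have r0 : Red 2 V₀ ⊤ := by
    refine red_of_gen n0.norm ?_
    have : (sSup {U | ∃ S, Syl 2 S (⊤ : Subgroup X) ∧ U ≤ 𝐂 S ∧ U ≤ V₀}).Normal := by
      refine normalIn_top.mp ⟨le_top, le_norm_of_cj_le fun x _ => ?_⟩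
      rw [cj_le_iff]
      refine sSup_le fun U ⟨S, h1, h2, h3⟩ => ?_
      rw [← cj_le_iff]
      exact le_sSup ⟨cj x S, h1.cj_top x, by rw [← cj_cent]; exact cj_mono x h2,
        cj_le_of_norm (n0.norm (mem_top x)) h3⟩
    exact normalClosure_le_normal (show 𝐙 S ≤ _ from
      le_sSup ⟨S, sT, inf_le_right, le_normalClosure⟩)
  have nV := n0.Om 2
  have eC' : 𝐂 V₀ = 𝐂 (𝛀 2 V₀) := by
    refine le_antisymm (cent_anti (Om_le _ _)) (r0 _ ⟨le_top, norm_cent nV.norm⟩ fun q hq d => ?_)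
    by_contra ne
    obtain ⟨Q, hQ⟩ := exists_syl q (𝐂 (𝛀 2 V₀))
    have := a0.cent_of_Om k0 (le_top.trans n0.norm) (hQ.pi.coprime (k0.of_single_ne (Ne.symm ne)))
      hQ.le
    exact hQ.not_dvd hq (d.trans (relIndex_dvd_left _ this))
  have a := a0.abelem_Om hp
  have r : Red 2 (𝛀 2 V₀) ⊤ := fun N hN k => eC' ▸ r0 N hN (eC' ▸ k)
  have lV : 𝛀 2 V₀ ≤ S := (Om_le _ _).trans (l0.trans (inf_le_left.trans sT.O_le))
  replace eC := eC.trans eC'
  clear eC'
  generalize 𝛀 2 V₀ = V at nV a r lV eC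
  have := normalIn_top.mp nV
  have h := os_hol hp a (psol_of_sol hp s) r
  set L := normalClosure (𝐉 0 S : Set X)
  have nL : L ⊴ ⊤ := normalIn_top.mpr normalClosure_normal
  refine ⟨eq_top_iff.mpr ((frattini_J sT nL le_normalClosure).trans
    (sup_le_sup le_sup_right inf_le_right)), ?_⟩
  by_cases c : L ≤ 𝐂 V
  · exact Or.inl (c.trans eC.ge)
  right
  let 𝒮 : Set (Subgroup (Hol V)) := {T | Tv 2 (hV V V) ((⊤ : Subgroup X).map (hρ V)) T ∧
    T ≤ L.map (hρ V)}
  have nL' := nL.map (hρ V)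
  have e : L.map (hρ V) = sSup (Bk 2 ((⊤ : Subgroup X).map (hρ V)) '' 𝒮) := by
    refine le_antisymm (map_le_iff_le_comap.mpr ?_) (sSup_le ?_)
    · have n := normalIn_inf_comap (f := hρ V) (H := ⊤)
        (Y := sSup (Bk 2 ((⊤ : Subgroup X).map (hρ V)) '' 𝒮)) (le_norm_of_cj_le fun x hx => by
          rw [cj_le_iff]
          refine sSup_le ?_
          rintro _ ⟨T, t, rfl⟩
          rw [← cj_le_iff, cj_Bk (le_norm_self _ hx)]
          exact le_sSup ⟨_, ⟨h.tv_cj t.1 hx, cj_le_of_norm (nL'.norm hx) t.2⟩, rfl⟩)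
      rw [top_inf_eq] at n
      have := normalIn_top.mp n
      refine normalClosure_le_normal (CF.PLocal.thompson_le_iff.mpr fun A hA =>
        map_le_iff_le_comap.mp ?_)
      have o := bo_hol (V := V) (CF.PLocal.maxAb_best hA lV ⟨a.isEA.1, fun x _ => pow_zero x⟩)
      have a' := h.abelem_two _ (map_mono le_top) ((Abel.of_comm hA.2.1.1).map _)
        ((sT.pi.le hA.1).map _) o
      exact (h.le_sSup_tv (map_mono le_top) a' o).trans (sSup_le fun T t => (le_Bk _ _ T).trans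
        (le_sSup ⟨T, ⟨t.2, t.1.trans (map_mono ((CF.PLocal.le_thompson hA).trans
          le_normalClosure))⟩, rfl⟩))
    · rintro _ ⟨T, t, rfl⟩
      exact sup_le ((commutator_mono le_rfl t.2).trans (comm_le_right ((O_le _ _).trans nL'.norm)))
        t.2
  obtain ⟨e3⟩ := CF.Classical.SL2_two_equiv (F := ZMod 2) (Nat.card_zmod 2)
  obtain ⟨n, ⟨e1⟩⟩ := h.equiv_pi (S := 𝒮) (fun _ t => t.1) (Z := Equiv.Perm (Fin 3))
    fun T t => ⟨(h.Bk_equiv t.1).some.trans e3⟩
  obtain ⟨_, ⟨e2⟩⟩ := quot_equiv_map (D := L) (C := (𝐂 (𝐙 S)).normalCore) (hρ V)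
    (by rw [ker_hρ, eC])
  rw [← e] at e1
  refine ⟨n, Nat.pos_of_ne_zero ?_, ⟨e2.trans e1⟩⟩
  rintro rfl
  refine c (map_hρ_eq_bot.mp (card_eq_one'.mp ?_))
  rw [Nat.card_congr e1.toEquiv]
  simp

end Cfsg.Agent.S4302
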