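import Cfsg.Statements.S4303
import Cfsg.Agent.Fgs3.SylProd

set_option autoImplicit false
universe u
open Cfsg

namespace Cfsg.Agent.S4303

/-- For a finite group `G` and a prime `p`, the number of Sylow `p`-subgroups of `G` is a product of natural numbers each of which is either a prime power congruent to 1 modulo `p` or the number of Sylow `p`-subgroups of some finite simple group. -/
theorem result {G : Type u} [Group G] [Finite G]
    (p : ℕ) [Fact p.Prime] :
    ∃ l : List ℕ, l.prod = Nat.card (Sylow p G) ∧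
      ∀ m ∈ l, (IsPrimePow m ∧ m % p = 1) ∨
        ∃ (S : Type u) (_ : Group S) (_ : Finite S), IsSimpleGroup S ∧ m = Nat.card (Sylow p S) := by
  refine CF.Fgs3.sylow_prod_induction (p := p) (fun n => ∃ l : List ℕ, l.prod = n ∧
      ∀ m ∈ l, (IsPrimePow m ∧ m % p = 1) ∨
        ∃ (S : Type u) (_ : Group S) (_ : Finite S), IsSimpleGroup S ∧ m = Nat.card (Sylow p S))
    ⟨[], rfl, by simp⟩ ?_ ?_ G ?_
  · rintro a b ⟨l, rfl, hl⟩ ⟨l', rfl, hl'⟩
    refine ⟨l ++ l', List.prod_append, fun m hm => ?_⟩
    rcases List.mem_append.1 hm with h | h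
    · exact hl m h
    · exact hl' m h
  · intro m h1 h2
    refine ⟨[m], by simp, fun k hk => ?_⟩
    rw [List.mem_singleton.1 hk]
    exact Or.inl ⟨h1, h2⟩
  · intro S _ _ hS _
    refine ⟨[_], List.prod_singleton, fun k hk => ?_⟩
    rw [List.mem_singleton.1 hk]
    exact Or.inr ⟨S, inferInstance, inferInstance, hS, rfl⟩

end Cfsg.Agent.S4303
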