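import Mathlib
import Cfsg.Statements.S4305
import Cfsg.Agent.Fgs1.HHS3

set_option autoImplicit false
open Cfsg

namespace Cfsg.Agent.S4305

theorem s3 : ∀ b : Equiv.Perm (Fin 3), b ≠ 1 → ∃ s t : Equiv.Perm (Fin 3), s ^ 3 = 1 ∧ t ^ 2 = 1 ∧
    t * s * t⁻¹ = s⁻¹ ∧ (∀ g, ∃ i : Fin 3, ∃ j : Fin 2, g = s ^ (i : ℕ) * t ^ (j : ℕ)) ∧
      (b = s ∨ b = t) := by decide

open CF.BG CF.Coprime CF.Fgs1 Subgroup in

/-- Let the symmetric group of degree 3 act by automorphisms on a finite solvable group `G` of order prime to 6, so that only the identity of `G` is fixed by all of it. Then the derived subgroup of `G` is nilpotent. -/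
theorem result {G : Type*} [Group G] [Finite G] [Group.IsSolvable G]
    [MulDistribMulAction (Equiv.Perm (Fin 3)) G] (hcop : (Nat.card G).Coprime 6)
    (hfpf : ∀ g : G, (∀ a : Equiv.Perm (Fin 3), a • g = g) → g = 1) :
    Group.IsNilpotent ↥(commutator G) := by
  obtain ⟨n, f, e1, e2, -⟩ := exists_ambient' (MulDistribMulAction.toMulAut (Equiv.Perm (Fin 3)) G) hfpf
  have := der_le_F_of_s3 n (by rw [e2, Nat.card_perm]; simp [Nat.factorial]) (fun B hB pB => ?_)
    ((piNat_compl_single_iff_coprime Nat.prime_two).mpr (by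
      rw [e1]; exact hcop.coprime_dvd_right (by norm_num)))
    ((piNat_compl_single_iff_coprime Nat.prime_three).mpr (by
      rw [e1]; exact hcop.coprime_dvd_right (by norm_num)))
    ((isSolvable_sdL_iff _).mpr inferInstance) f
  · rw [commutator_sdL_sdL] at this
    exact (isNilpotent_sdL_iff _).mp (nil_of_le_F this)
  · obtain ⟨b, hb, b1⟩ := exists_mem_ne_one (ne_bot_of_prime_card pB)
    obtain ⟨b, -, rfl⟩ := hB hb
    obtain ⟨s, t, h1, h2, h3, h4, h5⟩ := s3 b fun a => b1 (by rw [a, map_one])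
    refine ⟨_, mem_map_of_mem _ (mem_top s), _, mem_map_of_mem _ (mem_top t),
      by rw [← map_pow, h1, map_one], by rw [← map_pow, h2, map_one],
      by rw [← map_inv, ← map_inv, ← map_mul, ← map_mul, h3], le_antisymm (sup_le
        (zpowers_le.mpr (mem_map_of_mem _ (mem_top s)))
        (zpowers_le.mpr (mem_map_of_mem _ (mem_top t)))) ?_, ?_⟩
    · rintro _ ⟨g, -, rfl⟩
      obtain ⟨i, j, rfl⟩ := h4 g
      rw [map_mul, map_pow, map_pow]
      exact mul_mem (mem_sup_left (pow_mem (mem_zpowers _) _)) (mem_sup_right (pow_mem (mem_zpowers _) _))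
    · rw [← zpowers_eq_of_prime pB hb b1]
      exact h5.imp (fun a => by rw [a]) fun a => by rw [a]

end Cfsg.Agent.S4305
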