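import Mathlib
import Cfsg.Statements.S4306
import Cfsg.Agent.Fgs1.HHPq

set_option autoImplicit false
open Cfsg

namespace Cfsg.Agent.S4306

open CF.BG CF.Coprime CF.Fgs1 in

/-- Let `A` be a non-abelian group of order `pq` with `p, q` distinct primes, acting by automorphisms on a finite solvable group `G` of order prime to `pq`, so that only the identity of `G` is fixed by all of `A`. Then `G` has Fitting height at most 2: there is a normal nilpotent subgroup `F` of `G` with `G/F` nilpotent. -/
theorem result {G A : Type*} [Group G] [Finite G]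
    [Group.IsSolvable G] [Group A] [Finite A] [MulDistribMulAction A G] (p q : ℕ) (hp : p.Prime) (hq : q.Prime) (hpq : p ≠ q)
    (hA : Nat.card A = p * q) (hAna : ¬ IsMulCommutative A) (hcop : (Nat.card G).Coprime (p * q))
    (hfpf : ∀ g : G, (∀ a : A, a • g = g) → g = 1) :
    ∃ F : Subgroup G, ∃ hF : F.Normal, Group.IsNilpotent ↥F ∧ Group.IsNilpotent (G ⧸ F) := by
  obtain ⟨n, f, e1, e2, h⟩ := exists_ambient' (MulDistribMulAction.toMulAut A G) hfpf
  exact (h 2 (fitT_of_FS (FS_two_of_pq n (pq_of_card hp hq (by rw [e2, hA]) fun a => absurd a hpq)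
    (by rw [e1, e2, hA]; exact hcop.symm) ((isSolvable_sdL_iff _).mpr inferInstance) f))).exists_nil

end Cfsg.Agent.S4306
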