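import Cfsg.Statements.S4314
import Cfsg.Agent.SolvStr.Cls3

set_option autoImplicit false
open Cfsg

namespace Cfsg.Agent.S4314

/-- Let `G` be a finite group every conjugacy class of which has size 1 or a prime. Then either `G` is nilpotent of class at most 2, or `G/Z(G)` is a non-abelian group of order `pq` for distinct primes `p, q` (a Frobenius group of order `pq`). -/
theorem result {G : Type*} [Group G] [Finite G]
    (h : ∀ x : G, (Subgroup.centralizer ({x} : Set G)).index = 1 ∨ ((Subgroup.centralizer ({x} : Set G)).index).Prime) :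
    Subgroup.upperCentralSeries G 2 = ⊤ ∨
      ∃ p q : ℕ, p.Prime ∧ q.Prime ∧ p ≠ q ∧ Nat.card (G ⧸ Subgroup.center G) = p * q ∧ ¬ IsMulCommutative (G ⧸ Subgroup.center G) := by
  open CF.BG CF.SolvStr in
  by_cases c : ∃ m, ∀ x : G, ind x = 1 ∨ ind x = m
  · obtain ⟨m, c⟩ := c
    refine Or.inl (Subgroup.lowerCentralSeries_eq_bot_iff_upperCentralSeries_eq_top.1 ?_)
    refine comm_eq_bot'.2 (le_center_iff.1 fun g hg => Subgroup.mem_center_iff.2 fun x => ?_)
    refine (mem_cent1.1 ((?_ : ⁅(⊤ : Subgroup G), ⊤⁆ ≤ 𝐂₁ x) hg)).symm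
    rcases h x with k | k
    · exact le_top.trans (cent1_eq_top.2 (ind_eq_one.1 k)).ge
    have l := (nil_of_two c).lt_inf_norm (lt_top_iff_ne_top.2 fun e : 𝐂₁ x = ⊤ =>
      k.ne_one (Subgroup.index_eq_one.2 e))
    rw [top_inf_eq] at l
    have n : ⊤ ≤ 𝐍 (𝐂₁ x) := (Subgroup.index_eq_one.1 (((Nat.dvd_prime k).1
      (Subgroup.index_dvd_of_le l.le)).resolve_right fun e => (Subgroup.index_strictAnti l).ne e)).ge
    exact (abel_qt_iff n).1 (cyc_of_prime (by rwa [card_qt n, Subgroup.relIndex_top_right])).abel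
  push Not at c
  obtain ⟨x, x1, -⟩ := c 1
  obtain ⟨y, y1, xy⟩ := c (ind x)
  have hp := (h x).resolve_left x1
  have hq := (h y).resolve_left y1
  obtain ⟨H, T, k⟩ := exists_qf (G := G) (π := {ind x}) (fun z => (h z).elim
    (fun e : ind z = 1 => Or.inl (e.symm ▸ piNat_one _)) fun e => by simp only [piNat_prime e]; exact em _)
    ⟨y, by rwa [piNat_prime hq]⟩ ⟨x, by rw [piNat_prime hp]; exact fun e => e rfl⟩
  obtain ⟨a, ha, a1⟩ := SetLike.not_le_iff_exists.1 fun l : H ≤ Subgroup.center G =>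
    k.nc (cent_comm.1 (l.trans (center_le_cent _)))
  obtain ⟨b, hb, b1⟩ := SetLike.not_le_iff_exists.1 fun l : T ≤ Subgroup.center G =>
    k.nc (l.trans (center_le_cent _))
  have pa := (h a).resolve_left (mt ind_eq_one.1 a1)
  have pb := (h b).resolve_left (mt ind_eq_one.1 b1)
  rw [k.cent1_left ha a1, k.index_left] at pa
  rw [k.cent1_right hb b1, k.index_right] at pb
  refine Or.inr ⟨_, _, pb, pa, fun e => pb.ne_one ?_, by rw [k.frob.sd.card, card_top'], fun e => ?_⟩
  · have := k.frob.coprime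
    rwa [← e, Nat.coprime_self] at this
  · obtain ⟨u, hu, u1⟩ := exists_mem_ne_one k.frob.ker_ne
    obtain ⟨v, hv, v1⟩ := exists_mem_ne_one k.frob.compl_ne
    exact v1 (eq_one_of_mem_bot k.frob.sd.inf ⟨k.frob.cent1_le hu u1
      ⟨trivial, mem_cent1.2 (e.is_comm.comm _ _)⟩, hv⟩)

end Cfsg.Agent.S4314
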