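import Cfsg.Statements.S4316
import Cfsg.Agent.Bfc.A

set_option autoImplicit false
universe u
open Cfsg

namespace Cfsg.Agent.S4316

/-- There is a function `f` of two natural-number arguments with the following property. Let `q` be a prime and `A` an elementary abelian group of order `q³` acting by automorphisms on a finite group `G` of order prime to `q`, and suppose that for every non-identity `a ∈ A` the derived subgroup of the fixed-point subgroup `C_G(a)` has order at most `m`. Then the derived subgroup of `G` has order at most `f(q, m)`. -/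
theorem result :
    ∃ f : ℕ → ℕ → ℕ, ∀ (q m : ℕ) (A G : Type u) [Group A] [Finite A] [Group G] [Finite G] [MulDistribMulAction A G],
      q.Prime → Nat.card A = q ^ 3 → (∀ a b : A, a * b = b * a) → (∀ a : A, a ^ q = 1) → ¬ q ∣ Nat.card G →
      (∀ a : A, a ≠ 1 → Nat.card ↥(commutator ↥(FixedPoints.subgroup (Subgroup.zpowers a) G)) ≤ m) →
      Nat.card ↥(commutator G) ≤ f q m := by
  refine ⟨fun q m => (((m ^ q ^ 3) ^ 2 ^ q ^ 3).factorial) ^ (q ^ 3 * m * ((m ^ q ^ 3) ^ 2 ^ q ^ 3).factorial) *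
    ((((m ^ q ^ 3) ^ 2 ^ q ^ 3).factorial) ^ (q ^ 3 * m * ((m ^ q ^ 3) ^ 2 ^ q ^ 3).factorial) * m.factorial) ^
    ((((m ^ q ^ 3) ^ 2 ^ q ^ 3).factorial) ^ (q ^ 3 * m * ((m ^ q ^ 3) ^ 2 ^ q ^ 3).factorial) *
      (q ^ 3 * m * ((m ^ q ^ 3) ^ 2 ^ q ^ 3).factorial)), ?_⟩
  intro q m A G _ _ _ _ _ hq hA hc he hG hm
  have : IsMulCommutative A := ⟨⟨hc⟩⟩
  have hq1 : q < q ^ 3 := by
    have := Nat.pow_lt_pow_right hq.one_lt (show 1 < 3 by norm_num)
    rwa [pow_one] at this
  have hi : ∀ C : Subgroup A, CF.Bfc.Co C → C.index ≤ q := by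
    rintro C ⟨a, ha⟩
    have h1 := CF.Solv.card_sup_dvd (Subgroup.zpowers a) C
    rw [sup_comm, ha, Subgroup.card_top, ← C.index_mul_card, Nat.card_zpowers] at h1
    exact Nat.le_of_dvd hq.pos (((Nat.mul_dvd_mul_iff_right Nat.card_pos).mp h1).trans
      (orderOf_dvd_of_pow_eq_one (he a)))
  have hne : ∃ a : A, a ≠ 1 := by
    have : Nontrivial A := Finite.one_lt_card_iff_nontrivial.mp (hA ▸ hq.one_lt.trans hq1)
    exact exists_ne 1
  have key : ∀ a : A, CF.Coprime.fixSub (MulDistribMulAction.toMulAut A G) (Subgroup.zpowers a) =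
      FixedPoints.subgroup (Subgroup.zpowers a) G := fun a => by
    ext g
    exact ⟨fun h b => h b b.2, fun h b hb => h ⟨b, hb⟩⟩
  refine CF.Bfc.main (MulDistribMulAction.toMulAut A G)
    (hA ▸ ((Nat.Prime.coprime_iff_not_dvd hq).mpr hG).pow_left 3) (fun C D hC hD e => ?_) hA
    (fun a ha => key a ▸ hm a ha) ?_
  · have h1 := (Subgroup.index_inf_le (H := C) (K := D)).trans (Nat.mul_le_mul (hi C hC) (hi D hD))
    rw [e, Subgroup.index_bot, hA, ← sq] at h1
    exact absurd h1 (not_le.mpr (Nat.pow_lt_pow_right hq.one_lt (by norm_num)))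
  · obtain ⟨a, ha⟩ := hne
    exact (Nat.card_pos.trans_le (hm a ha)).ne'

end Cfsg.Agent.S4316
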