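import Mathlib
import Cfsg.Statements.S4320

set_option autoImplicit false
open Cfsg

namespace Cfsg.Agent.S4320

open MonoidAlgebra

theorem core {G A B : Type*} [Group G] [Fintype G] [CommGroup A] [Fintype A] [AddCommGroup B]
    (π : G →* A) (hπ : Function.Surjective π) (hker : π.ker ≤ commutator G) (c : A → G → B)
    (hc : ∀ a g h, c a (g * h) = c a g + c (a * π g) h) (g : G) : ∑ a, c a g = 0 := by
  classical
  let R := MonoidAlgebra ℤ A
  let e : G → (G → R) := fun g => Pi.single g 1
  let N : Submodule R (G → R) :=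
    Submodule.span R (Set.range fun x : G × G => e (x.1 * x.2) - e x.1 - of ℤ A (π x.1) • e x.2)
  let φ1 : G → R →ₗ[ℤ] B := fun g => (MonoidAlgebra.basis A ℤ).constr ℤ fun a => c a g
  have hφ1 : ∀ g a, φ1 g (of ℤ A a) = c a g := fun g a =>
    (MonoidAlgebra.basis A ℤ).constr_basis ℤ (fun a => c a g) a
  let φ : (G → R) →ₗ[ℤ] B := ∑ g, (φ1 g).comp (LinearMap.proj g)
  have hφ : ∀ (r : R) g, φ (r • e g) = φ1 g r := by
    intro r g
    rw [LinearMap.sum_apply, Finset.sum_eq_single g]
    · simp [e]
    · intro h _ hh; simp [e, hh]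
    · simp
  have hφN : ∀ x ∈ N, ∀ r : R, φ (r • x) = 0 := by
    intro x hx
    induction hx using Submodule.span_induction with
    | mem x hx =>
      obtain ⟨⟨g, h⟩, rfl⟩ := hx
      intro r
      induction r using MonoidAlgebra.induction_on with
      | of a =>
        rw [smul_sub, smul_sub, smul_smul, map_sub, map_sub, hφ, hφ, hφ, ← map_mul, hφ1, hφ1, hφ1,
          hc]
        abel
      | add a b ha hb => rw [add_smul, map_add, ha, hb, add_zero]
      | smul n a ha => rw [smul_assoc, map_smul, ha, smul_zero]
    | zero => intro r; simp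
    | add x y _ _ hx hy => intro r; rw [smul_add, map_add, hx, hy, add_zero]
    | smul s x _ hx => intro r; rw [smul_smul, hx]
  let θ : (G → R) →ₗ[R] R := Fintype.linearCombination R fun g => of ℤ A (π g) - 1
  have hθ : ∀ g, θ (e g) = of ℤ A (π g) - 1 := fun g => by
    simp [θ, e, Fintype.linearCombination_apply_single]
  have hθN : N ≤ LinearMap.ker θ := by
    rw [Submodule.span_le]
    rintro _ ⟨⟨g, h⟩, rfl⟩
    simp only [SetLike.mem_coe, LinearMap.mem_ker, map_sub, map_smul, hθ, map_mul, smul_eq_mul]
    ring
  let ε : R →ₐ[ℤ] ℤ := MonoidAlgebra.lift ℤ ℤ A 1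
  have hε : ∀ a, ε (of ℤ A a) = 1 := fun a => MonoidAlgebra.lift_of _ a
  let J : Submodule R (G → R) := Submodule.pi Set.univ fun _ => RingHom.ker ε
  let d : G →* Multiplicative ((G → R) ⧸ (N ⊔ J)) := MonoidHom.mk'
    (fun g => Multiplicative.ofAdd ((N ⊔ J).mkQ (e g))) (by
      intro g h
      rw [← ofAdd_add, ← map_add]
      congr 1
      refine (Submodule.Quotient.eq _).2 ?_
      have : e (g * h) - (e g + e h) = (e (g * h) - e g - of ℤ A (π g) • e h) +
          (of ℤ A (π g) - 1) • e h := by rw [sub_smul, one_smul]; abel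
      rw [this]
      refine add_mem (Submodule.mem_sup_left (Submodule.subset_span ⟨(g, h), rfl⟩))
        (Submodule.mem_sup_right fun j _ => ?_)
      exact Ideal.mul_mem_right _ _ (by rw [RingHom.mem_ker, map_sub, hε, map_one, sub_self]))
  let τ := π.liftOfSurjective hπ ⟨d, hker.trans (Abelianization.commutator_subset_ker d)⟩
  have hτ : ∀ g, τ (π g) = d g := fun g => π.liftOfRightInverse_comp_apply _ _ _ g
  let σ : (G → ℤ) →ₗ[ℤ] Additive A := Fintype.linearCombination ℤ fun g => Additive.ofMul (π g)
  let K : AddSubgroup (G → ℤ) := σ.toAddMonoidHom.ker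
  have hK : K.index = Fintype.card A := by
    rw [AddSubgroup.index_ker, AddMonoidHom.range_eq_top.2, AddSubgroup.card_top,
      Nat.card_eq_fintype_card]
    · exact Fintype.card_congr Additive.toMul
    · intro a
      obtain ⟨g, hg⟩ := hπ a.toMul
      exact ⟨Pi.single g 1, by simp [σ, Fintype.linearCombination_apply_single, hg]⟩
  haveI : K.FiniteIndex := ⟨by rw [hK]; exact Fintype.card_ne_zero⟩
  haveI : Module.Free ℤ K := inferInstanceAs (Module.Free ℤ K.toIntSubmodule)
  haveI : Module.Finite ℤ K := inferInstanceAs (Module.Finite ℤ K.toIntSubmodule)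
  let b : Module.Basis G ℤ K := (Module.finBasisOfFinrankEq ℤ K (n := Fintype.card G)
    (by rw [AddSubgroup.finrank_eq_of_finiteIndex]; simp)).reindex (Fintype.equivFin G).symm
  have hdet := AddSubgroup.index_eq_natAbs_det (Pi.basisFun ℤ G) K b
  have hrow : ∀ k : K, ∃ x ∈ N, ∀ j, ε (x j) = k.1 j := by
    intro k
    have h1 : (N ⊔ J).mkQ (fun j => (k.1 j : R)) = 0 := by
      have e1 : (fun j => (k.1 j : R)) = ∑ j, k.1 j • e j := by
        ext1 j
        simp [e, Finset.sum_apply, Pi.single_apply]
      have e2 : (MonoidHom.toAdditiveLeft τ) (σ k.1) = 0 := by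
        rw [show σ k.1 = 0 from k.2, map_zero]
      rw [e1, map_sum, ← e2, Fintype.linearCombination_apply, map_sum]
      refine Finset.sum_congr rfl fun j _ => ?_
      rw [map_zsmul, map_zsmul]
      congr 1
      exact (congrArg Multiplicative.toAdd (hτ j)).symm
    obtain ⟨x, hx, t, ht, hxt⟩ := Submodule.mem_sup.1 ((Submodule.Quotient.mk_eq_zero _).1 h1)
    refine ⟨x, hx, fun j => ?_⟩
    have := congrArg ε (congrFun hxt j)
    rwa [Pi.add_apply, map_add, show ε (t j) = 0 from ht j trivial, add_zero, map_intCast] at this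
  choose X hX hXε using fun i => hrow (b i)
  let M : Matrix G G R := Matrix.of X
  have hμ : ∀ j, M.det • e j ∈ N := by
    intro j
    have : M.det • e j = ∑ i, M.adjugate j i • X i := by
      ext1 l
      have := congrFun (congrFun (Matrix.adjugate_mul M) j) l
      rw [Matrix.mul_apply] at this
      simp only [Finset.sum_apply, Pi.smul_apply, smul_eq_mul]
      rw [show ∑ i, M.adjugate j i * X i l = _ from this]
      simp [e, Matrix.one_apply, Pi.single_apply, eq_comm]
    rw [this]
    exact Submodule.sum_mem _ fun i _ => N.smul_mem _ (hX i)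
  have hεμ : (ε M.det).natAbs = Fintype.card A := by
    rw [← hK, hdet, Module.Basis.det_apply, ← Matrix.det_transpose (Module.Basis.toMatrix _ _),
      AlgHom.map_det]
    congr 2
    ext i j
    simp [M, hXε, Module.Basis.toMatrix_apply]
  have hinv : ∀ a, M.det * of ℤ A a = M.det := by
    intro a
    obtain ⟨g, rfl⟩ := hπ a
    have := hθN (hμ g)
    rwa [LinearMap.mem_ker, map_smul, hθ, smul_eq_mul, mul_sub, mul_one, sub_eq_zero] at this
  have hμ2 : M.det = M.det.coeff 1 • ∑ a, of ℤ A a := by
    ext a
    have := congrArg (fun r : R => r.coeff a) (hinv a)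
    have e2 := coeff_mul_single_apply M.det 1 a a
    rw [mul_inv_cancel, mul_one] at e2
    rw [coeff_smul, coeff_sum, Finsupp.smul_apply, Finsupp.finset_sum_apply]
    simp only [of_apply, coeff_single, Finsupp.single_apply, Finset.sum_ite_eq', Finset.mem_univ,
      if_true, smul_eq_mul, mul_one]
    exact this.symm.trans e2
  have h1 : (M.det.coeff 1).natAbs = 1 := by
    rw [hμ2, map_smul, map_sum, Finset.sum_congr rfl fun a _ => hε a] at hεμ
    simpa [Int.natAbs_mul] using hεμ
  have h2 := hφN _ (hμ g) 1
  rw [one_smul, hμ2, hφ, map_smul, map_sum, Finset.sum_congr rfl fun a _ => hφ1 g a] at h2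
  rcases Int.natAbs_eq_iff.1 h1 with h | h <;> simpa [h] using h2

/-- The Principal Ideal Theorem of class field theory in its group-theoretic form: for every finite group `G`, the transfer homomorphism from `G` into the abelianization `G'/G''` of its derived subgroup `G'` is the trivial homomorphism. -/
theorem result {G : Type*} [Group G] [Finite G] :
    MonoidHom.transfer (Abelianization.of : ↥(commutator G) →* Abelianization ↥(commutator G)) =
      (1 : G →* Abelianization ↥(commutator G)) := by
  classical
  ext g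
  haveI := Fintype.ofFinite G
  letI : Fintype (Abelianization G) := (commutator G).fintypeQuotientOfFiniteIndex
  let T : (commutator G).LeftTransversal := default
  let α : Abelianization G → G := fun q => T.2.leftQuotientEquiv q
  have hα : ∀ q, Abelianization.of (α q) = q := fun q => T.2.leftQuotientEquiv.symm_apply_apply q
  have hm : ∀ q g, (α q)⁻¹ * (g * α (q * (Abelianization.of g)⁻¹)) ∈ commutator G := by
    intro q g
    rw [← Abelianization.ker_of, MonoidHom.mem_ker, map_mul, map_mul, map_inv, hα, hα]
    rw [mul_comm q, mul_inv_cancel_left, inv_mul_cancel]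
  have := core (B := Additive (Abelianization (commutator G))) (Abelianization.of (G := G))⁻¹
    (fun a => by
      obtain ⟨x, rfl⟩ := QuotientGroup.mk_surjective a
      exact ⟨x⁻¹, by simp; rfl⟩)
    (fun x hx => by
      rw [← Abelianization.ker_of, MonoidHom.mem_ker]
      exact inv_eq_one.1 hx)
    (fun q g => Additive.ofMul (Abelianization.of ⟨_, hm q g⟩))
    (fun a g h => by
      rw [← ofMul_mul, ← map_mul]
      congr 2
      apply Subtype.ext
      simp [mul_assoc, mul_comm (Abelianization.of h)⁻¹]) g
  rw [← ofMul_prod] at this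
  rw [MonoidHom.transfer_def _ T, MonoidHom.one_apply]
  refine Eq.trans ?_ (Additive.ofMul.injective this)
  refine Finset.prod_congr rfl fun q _ => ?_
  congr 1
  apply Subtype.ext
  simp only [Subgroup.smul_apply_eq_smul_apply_inv_smul, smul_eq_mul]
  rw [mul_comm (G := Abelianization G) q]
  rfl

end Cfsg.Agent.S4320
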