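import Cfsg.Statements.S4321
import Cfsg.Agent.BG.B11
import Cfsg.Agent.SolvStr.Cls1

set_option autoImplicit false
open Cfsg

namespace Cfsg.Agent.S4321
open CF.BG Subgroup
open scoped commutatorElement Pointwise
open CF.SolvStr

theorem key0 {G : Type*} [Group G] [Finite G] {p : ℕ} (hp : p.Prime) {a b : G} {P : Subgroup G}
    (hP : Syl p P ⊤) (aP : a ∈ P) (bP : b ∈ P) (oa : orderOf a = p) (za : a ∉ center G)
    (lt : ind a < ind b) (cop : (ind a).Coprime (ind b))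
    (H : ∀ z : G, p ∣ orderOf z → (ind z).Coprime (ind a) ∨ (ind z).Coprime (ind b)) : False := by
  have sing : ∀ z : G, PiElt {p} z → z ≠ 1 → p ∣ orderOf z := fun z hz h1 => by
    have := (piGrp_zpowers.2 hz).dvd_card (by simpa using h1)
    rwa [Nat.card_zpowers] at this
  have a1 := one_lt_ind.2 za
  have le1 := ind_le_mul cop
  have ab1 : a * b ≠ 1 := fun h => by
    rw [h, ind_eq_one.2 (one_mem _)] at le1; omega
  have le2 : ind (a * b) ≤ ind b := by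
    rcases H _ (sing _ (hP.pi.elt (mul_mem aP bP)) ab1) with h | h
    · exact Nat.le_of_dvd (ind_pos _) (h.dvd_of_dvd_mul_left (ind_mul_dvd cop))
    · have := Nat.le_of_dvd (ind_pos _) (h.dvd_of_dvd_mul_right (ind_mul_dvd cop)); omega
  have pb : p ∣ ind b := by
    by_contra h
    refine za (mem_center_of_coprime (norm_stab b) (comm_mem_stab cop le2)
      (Nat.Coprime.coprime_dvd_left (card_stab_dvd b) cop.symm) ?_)
    rw [oa, Nat.Prime.coprime_iff_not_dvd hp]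
    exact fun h' => h (h'.trans (card_stab_dvd b))
  have pa : PiNat {p}ᶜ (ind a) := (piNat_compl_single hp).2 fun h =>
    not_dvd_of_coprime cop hp h pb
  have pia : PiElt {p} a := hP.pi.elt aP
  -- a Sylow subgroup of `C(a)`
  obtain ⟨Q, hQ⟩ := exists_syl p (𝐂₁ a)
  have hQt : Syl p Q ⊤ := syl_top_of_not_dvd hQ pa
  have hC : 𝐂₁ a ≤ Q ⊔ (𝐂₁ a ⊓ 𝐂 Q) := by
    refine le_of_forall_cj (sup_le hQ.le inf_le_left) fun x hx => ?_
    obtain ⟨y, z, hy, hz, py, pz, e⟩ := exists_piPart {p} x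
    have hy' : y ∈ 𝐂₁ a := zpowers_le.2 hx hy
    have hz' : z ∈ 𝐂₁ a := zpowers_le.2 hx hz
    have caz : a * z = z * a := (mem_cent1.1 hz').symm
    have co : (orderOf a).Coprime (orderOf z) := PiNat.coprime pia pz
    have d1 := ind_dvd_mul_left caz co
    have s1 : p ∣ orderOf (a * z) := oa ▸ orderOf_dvd_of_mem_zpowers (mem_zpowers_mul_left caz co)
    have n1 : PiNat {p}ᶜ (ind (a * z)) := by
      rcases H _ s1 with h | h
      · have := Nat.Coprime.eq_one_of_dvd h.symm d1; omega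
      · exact (piNat_compl_single hp).2 fun h' => not_dvd_of_coprime h hp h' pb
    have yz : y ∈ 𝐂₁ (a * z) := by
      rw [cent1_mul caz co]
      exact ⟨hy', mem_cent1.2 ((abel_zpowers x).mul_comm hy hz)⟩
    obtain ⟨R, hR, yR⟩ := exists_syl_le (zpowers_le.2 yz) (piGrp_zpowers.2 py)
    have hRt : Syl p R ⊤ := syl_top_of_not_dvd hR n1
    have hRl := hR.le
    rw [cent1_mul caz co] at hRl
    have hRa : Syl p R (𝐂₁ a) := hRt.of_le (hRl.trans inf_le_left) le_top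
    obtain ⟨g, hg, rfl⟩ := hQ.syl_conj hRa
    refine ⟨g, hg, ?_⟩
    rw [cj_sup, cj_inf, cj_cent, cj_of_mem hg, ← e]
    exact mul_mem (mem_sup_left (yR (mem_zpowers y)))
      (mem_sup_right ⟨hz', le_cent1_iff.1 (hRl.trans inf_le_right)⟩)
  have idx : ∀ d ∈ Q, p ∣ ind d → ∀ g : G, ∃ k ∈ Q, g * d * g⁻¹ = k * d * k⁻¹ := by
    intro d hd pd g
    have d1 : d ≠ 1 := fun h => by
      rw [h, ind_eq_one.2 (one_mem _)] at pd; exact hp.one_lt.ne' (Nat.dvd_one.1 pd)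
    have c1 : (ind d).Coprime (ind a) := by
      rcases H _ (sing _ (hQ.pi.elt hd) d1) with h | h
      · exact h
      · exact absurd pb (not_dvd_of_coprime h hp pd)
    have l1 : 𝐂₁ a ⊓ 𝐂 Q ≤ 𝐂₁ d := inf_le_right.trans (cent_le_cent1 hd)
    have i1 : (𝐂₁ a ⊓ 𝐂 Q).relIndex (𝐂₁ a) ∣ ♯Q := by
      have e1 : 𝐂₁ a = Q ⊔ (𝐂₁ a ⊓ 𝐂 Q) := le_antisymm hC (sup_le hQ.le inf_le_left)
      have e2 := relIndex_sup_norm (H := Q) (K := 𝐂₁ a ⊓ 𝐂 Q) (Or.inr (norm_of_cent inf_le_right))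
      rw [← e1] at e2
      rw [e2]; exact relIndex_dvd_card _ _
    have i2 : ind d ∣ ♯Q := by
      have := index_dvd_of_le l1
      rw [← relIndex_mul_index (inf_le_left : 𝐂₁ a ⊓ 𝐂 Q ≤ 𝐂₁ a)] at this
      exact (c1.dvd_of_dvd_mul_right this).trans i1
    have c2 : (𝐂₁ d).index.Coprime Q.index := by
      have := hQt.coprime
      rw [relIndex_top_right] at this
      exact Nat.Coprime.coprime_dvd_left i2 this
    obtain ⟨k, hk, c, hc, rfl⟩ := CF.Fgs2.exists_mul_of_coprime_index c2 g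
    refine ⟨k, hk, ?_⟩
    have := mem_cent1.1 hc
    calc k * c * d * (k * c)⁻¹ = k * (c * d) * c⁻¹ * k⁻¹ := by group
      _ = _ := by rw [this]; group
  obtain ⟨g0, -, hg0⟩ := hQt.syl_cj_le le_top (piGrp_zpowers.2 (hP.pi.elt bP))
  set u := g0 * b * g0⁻¹ with hu
  have uQ : u ∈ Q := hg0 (conj_mem_cj.2 (mem_zpowers b))
  have pu : p ∣ ind u := by rw [hu, ind_conj]; exact pb
  have nc : ∀ d, p ∣ ind d → d ∉ 𝐂 Q := fun d pd h =>
    (pi_ind_of_hall hQt (le_cent1_iff.2 h)).not_dvd' hp rfl pd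
  have inO : ∀ d ∈ Q, p ∣ ind d → d ∈ 𝐎 {p} (⊤ : Subgroup G) := by
    intro d hd pd
    have h1 : normalClosure {d} ≤ Q := by
      refine (closure_le _).2 fun y hy => ?_
      obtain ⟨x, hx, hc⟩ := Group.mem_conjugatesOfSet_iff.1 hy
      obtain rfl : x = d := hx
      obtain ⟨g, rfl⟩ := isConj_iff.1 hc
      obtain ⟨k, hk, e⟩ := idx x hd pd g
      rw [e]; exact mul_mem (mul_mem hk hd) (inv_mem hk)
    exact le_O (normalIn_top.2 inferInstance) (hQ.pi.le h1) (subset_normalClosure rfl)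
  have cO : ∀ d, ¬ p ∣ ind d → d ∈ 𝐂 (𝐎 {p} (⊤ : Subgroup G)) := fun d pd => by
    obtain ⟨g, hg⟩ := exists_mem_cj_cent hQt ((piNat_compl_single hp).2 pd)
    rw [cj_cent] at hg
    exact cent_anti (hQt.cj_top g).O_le hg
  have uO := inO u uQ pu
  have QO : Q ≤ 𝐎 {p} (⊤ : Subgroup G) := by
    obtain ⟨e, eQ, he⟩ : ∃ e ∈ Q, e ∉ 𝐂 (𝐎 {p} (⊤ : Subgroup G)) := by
      by_contra h
      push Not at h
      exact nc u pu (cent_symm (fun x hx => h x hx) uO)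
    have out : ∀ d ∈ Q, d ∉ 𝐂 (𝐎 {p} (⊤ : Subgroup G)) → d ∈ 𝐎 {p} (⊤ : Subgroup G) :=
      fun d hd h => inO d hd (by_contra fun h' => h (cO d h'))
    intro d hd
    by_cases h : d ∈ 𝐂 (𝐎 {p} (⊤ : Subgroup G))
    · have := mul_mem (out (d * e) (mul_mem hd eQ) fun h' => he (by simpa using mul_mem (inv_mem h) h'))
        (inv_mem (out e eQ he))
      simpa using this
    · exact out d hd h
  have Qe : 𝐎 {p} (⊤ : Subgroup G) = Q := hQt.O_eq_of_le QO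
  have Qn : ⊤ ≤ 𝐍 Q := Qe ▸ (O_normal _ _).norm
  have cm : ∀ g : G, ∀ d ∈ Q, ⁅g, d⁆ ∈ ⁅Q, Q⁆ := by
    intro g
    have out : ∀ d ∈ Q, d ∉ 𝐂 Q → ⁅g, d⁆ ∈ ⁅Q, Q⁆ := fun d hd h => by
      obtain ⟨k, hk, e⟩ := idx d hd (by_contra fun h' => h (Qe ▸ cO d h')) g
      rw [commutatorElement_def, e]
      exact commutator_mem_commutator hk hd
    intro d hd
    by_cases h : d ∈ 𝐂 Q
    · have h1 := out (d * u) (mul_mem hd uQ) fun h' => nc u pu (by simpa using mul_mem (inv_mem h) h')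
      have h2 := out u uQ (nc u pu)
      rw [comm_mul_right] at h1
      have := mul_mem h1 (inv_mem ((der_normal Q).conj_mem hd h2))
      rwa [mul_inv_cancel_right] at this
    · exact out d hd h
  refine za (ind_eq_one.1 (index_eq_one.2 (top_unique fun x _ => ?_)))
  obtain ⟨y, z, -, -, py, pz, rfl⟩ := exists_piPart {p} x
  refine mul_mem (hQ.le (hQt.mem_normal Qn (mem_top _) py)) ?_
  have : zpowers z ≤ 𝐂 Q := by
    refine cent_of_comm_le_Phi (le_top.trans Qn) (PiNat.coprime' (piGrp_zpowers.2 pz) hQ.pi) ?_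
    rw [commutator_comm]
    exact (commutator_le.2 fun g _ d hd => cm g d hd).trans hQ.pi.der_le_Phi
  exact cent_le_cent1 (hQt.mem_normal Qn (mem_top _) pia) (this (mem_zpowers z))

theorem key {G : Type*} [Group G] [Finite G] {p : ℕ} (hp : p.Prime)
    (hZ : ¬ p ∣ Nat.card ↥(Subgroup.center G)) {x y : G} (hx : p ∣ orderOf x) (hy : p ∣ orderOf y) :
    ∃ (z : G) (t u : ℕ), p ∣ orderOf z ∧ t.Prime ∧ u.Prime ∧ t ∣ ind x ∧ u ∣ ind y ∧ t ∣ ind z ∧ u ∣ ind z := by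
  obtain ⟨P, hP⟩ := exists_syl p (⊤ : Subgroup G)
  have red : ∀ x : G, p ∣ orderOf x → ∃ a ∈ P, orderOf a = p ∧ a ∉ center G ∧ ind a ∣ ind x := by
    intro x hx
    obtain ⟨a, ha, oa⟩ := exists_mem_orderOf_eq (H := zpowers x) hp (by rwa [Nat.card_zpowers])
    obtain ⟨g, -, hg⟩ := hP.syl_cj_le le_top
      (piGrp_zpowers.2 (piElt_of_pow_eq_one hp (oa ▸ pow_orderOf_eq_one a)))
    have o2 : orderOf (g * a * g⁻¹) = p := by rw [orderOf_conj', oa]
    refine ⟨_, hg (conj_mem_cj.2 (mem_zpowers a)), o2, fun h => hZ (o2 ▸ orderOf_dvd_card' h), ?_⟩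
    rw [ind_conj]
    exact ind_dvd_of_le (cent_zpowers x ▸ cent_le_cent1 ha)
  obtain ⟨a, aP, oa, za, da⟩ := red x hx
  obtain ⟨b, bP, ob, zb, db⟩ := red y hy
  by_contra h
  push Not at h
  have H : ∀ z : G, p ∣ orderOf z → (ind z).Coprime (ind a) ∨ (ind z).Coprime (ind b) := by
    intro z hz
    by_contra h'
    rw [not_or, Nat.Prime.not_coprime_iff_dvd, Nat.Prime.not_coprime_iff_dvd] at h'
    obtain ⟨⟨t, ht, t1, t2⟩, ⟨u, hu, u1, u2⟩⟩ := h'
    exact h z t u hz ht hu (t2.trans da) (u2.trans db) t1 u1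
  have a1 := one_lt_ind.2 za
  have cop : (ind a).Coprime (ind b) := by
    rcases H a (oa ▸ dvd_rfl) with h | h
    · rw [Nat.coprime_self] at h; omega
    · exact h
  rcases lt_trichotomy (ind a) (ind b) with l | l | l
  · exact key0 hp hP aP bP oa za l cop H
  · rw [← l, Nat.coprime_self] at cop; omega
  · exact key0 hp hP bP aP ob zb l cop.symm fun z hz => (H z hz).symm

/-- Let `G` be a finite group and `p` a prime not dividing the order of the centre of `G`. Consider the primes dividing the size of some conjugacy class of a `p`-singular element (an element of order divisible by `p`), two of them adjacent when their product divides such a class size. Then any two distinct such primes are joined by a path with at most 3 edges (the graph is connected of diameter at most 3). -/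
theorem result {G : Type*} [Group G] [Finite G] (p : ℕ) [Fact p.Prime]
    (hZ : ¬ p ∣ Nat.card ↥(Subgroup.center G)) (r s : ℕ) (hr : (r.Prime ∧ ∃ x : G, p ∣ orderOf x ∧ r ∣ (Subgroup.centralizer ({x} : Set G)).index)) (hs : (s.Prime ∧ ∃ x : G, p ∣ orderOf x ∧ s ∣ (Subgroup.centralizer ({x} : Set G)).index)) (hrs : r ≠ s) :
    (∃ x : G, p ∣ orderOf x ∧ r * s ∣ (Subgroup.centralizer ({x} : Set G)).index) ∨ (∃ t : ℕ, (t.Prime ∧ ∃ x : G, p ∣ orderOf x ∧ t ∣ (Subgroup.centralizer ({x} : Set G)).index) ∧ t ≠ r ∧ t ≠ s ∧ (∃ x : G, p ∣ orderOf x ∧ r * t ∣ (Subgroup.centralizer ({x} : Set G)).index) ∧ (∃ x : G, p ∣ orderOf x ∧ t * s ∣ (Subgroup.centralizer ({x} : Set G)).index)) ∨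
      (∃ t u : ℕ, (t.Prime ∧ ∃ x : G, p ∣ orderOf x ∧ t ∣ (Subgroup.centralizer ({x} : Set G)).index) ∧ (u.Prime ∧ ∃ x : G, p ∣ orderOf x ∧ u ∣ (Subgroup.centralizer ({x} : Set G)).index) ∧ t ≠ r ∧ u ≠ s ∧ t ≠ u ∧ (∃ x : G, p ∣ orderOf x ∧ r * t ∣ (Subgroup.centralizer ({x} : Set G)).index) ∧ (∃ x : G, p ∣ orderOf x ∧ t * u ∣ (Subgroup.centralizer ({x} : Set G)).index) ∧ (∃ x : G, p ∣ orderOf x ∧ u * s ∣ (Subgroup.centralizer ({x} : Set G)).index)) := by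
  obtain ⟨hr, x, hx, rx⟩ := hr
  obtain ⟨hs, y, hy, sy⟩ := hs
  obtain ⟨z, t, u, hz, ht, hu, tx, uy, tz, uz⟩ := key Fact.out hZ hx hy
  have e : ∀ {a b n : ℕ}, a.Prime → b.Prime → a ≠ b → a ∣ n → b ∣ n → a * b ∣ n :=
    fun ha hb h => ((Nat.coprime_primes ha hb).2 h).mul_dvd_of_dvd_of_dvd
  by_cases h1 : t = r
  · subst h1
    by_cases h2 : u = s
    · subst h2; exact Or.inl ⟨z, hz, e hr hs hrs tz uz⟩
    by_cases h3 : u = t
    · subst h3; exact Or.inl ⟨y, hy, e hr hs hrs uy sy⟩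
    exact Or.inr (Or.inl ⟨u, ⟨hu, z, hz, uz⟩, h3, h2, ⟨z, hz, e hr hu (Ne.symm h3) tz uz⟩,
      ⟨y, hy, e hu hs h2 uy sy⟩⟩)
  by_cases h2 : u = s
  · subst h2
    by_cases h3 : t = u
    · subst h3; exact Or.inl ⟨x, hx, e hr hs hrs rx tx⟩
    exact Or.inr (Or.inl ⟨t, ⟨ht, z, hz, tz⟩, h1, h3, ⟨x, hx, e hr ht (Ne.symm h1) rx tx⟩,
      ⟨z, hz, e ht hu h3 tz uz⟩⟩)
  by_cases h3 : t = u
  · subst h3
    exact Or.inr (Or.inl ⟨t, ⟨ht, z, hz, tz⟩, h1, h2, ⟨x, hx, e hr ht (Ne.symm h1) rx tx⟩,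
      ⟨y, hy, e ht hs h2 uy sy⟩⟩)
  exact Or.inr (Or.inr ⟨t, u, ⟨ht, z, hz, tz⟩, ⟨hu, z, hz, uz⟩, h1, h2, h3,
    ⟨x, hx, e hr ht (Ne.symm h1) rx tx⟩, ⟨z, hz, e ht hu h3 tz uz⟩, ⟨y, hy, e hu hs h2 uy sy⟩⟩)

end Cfsg.Agent.S4321
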