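import Mathlib
import Cfsg.Agent.Fgs2.Mart
import Cfsg.Statements.S4323

set_option autoImplicit false
open Cfsg

namespace Cfsg.Agent.S4323

open CF.BG CF.Coprime CF.Fgs2 in

/-- Let `q` be a prime and `A` a non-cyclic group of order `q²` acting by automorphisms on a finite group `G` of order prime to `q`, such that the fixed-point subgroup `C_G(a)` is abelian for every non-identity `a ∈ A`. Then `G` is solvable. -/
theorem result {A G : Type*} [Group A] [Finite A]
    [Group G] [Finite G] [MulDistribMulAction A G] (q : ℕ) (hq : q.Prime) (hA : Nat.card A = q ^ 2) (hnc : ¬ IsCyclic A)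
    (hcop : ¬ q ∣ Nat.card G) (h : ∀ a : A, a ≠ 1 → IsMulCommutative ↥(FixedPoints.subgroup (Subgroup.zpowers a) G)) :
    Group.IsSolvable G := by
  have := Fact.mk hq
  set φ := MulDistribMulAction.toMulAut A G
  have ab : IsMulCommutative A := IsPGroup.isMulCommutative_of_card_eq_prime_sq hA
  have pw : ∀ a : A, a ^ q = 1 := fun a => by
    have d : orderOf a ∣ q ^ 2 := hA ▸ orderOf_dvd_natCard a
    obtain ⟨k, hk, e⟩ := (Nat.dvd_prime_pow hq).1 d
    have : k ≠ 2 := fun e' => hnc (isCyclic_of_orderOf_eq_card a (by rw [e, e', hA]))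
    exact orderOf_dvd_iff_pow_eq_one.1 (e ▸ (by simpa using pow_dvd_pow q (show k ≤ 1 by omega)))
  have el : Elem q 2 (sdR φ ⊤) (sdR φ ⊤) := by
    refine elem_of_card hq le_rfl ((abelem_map_iff SemidirectProduct.inr_injective).mpr
      (Abelem.mk' hq (abel_of_forall fun x _ y _ => ab.is_comm.comm x y) fun a _ => pw a)) ?_
    rw [card_sdR, card_top', hA]
  suffices s : Group.IsSolvable (⊤ : Subgroup G) from
    solvable_of_surjective (f := (⊤ : Subgroup G).subtype) fun g => ⟨⟨g, trivial⟩, rfl⟩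
  refine (isSolvable_sdL_iff φ).mp (sol_of_abel_cent el (le_top.trans (normalIn_top.2 inferInstance).norm)
    ((piNat_compl_single hq).2 (by rwa [card_sdL, card_top'])) fun X x => ?_)
  obtain ⟨_, x1, hx, rfl⟩ := x.exists_gen
  obtain ⟨a, -, rfl⟩ := x.le hx
  rw [cent_zpowers, sdL_inf_centralizer_singleton]
  refine Abel.map (abel_of_forall fun u hu v hv => ?_) _
  have := h a (fun e => x1 (by rw [e, map_one]))
  have k : ∀ w, w ∈ ⊤ ⊓ fixSub φ (Subgroup.zpowers a) → w ∈ FixedPoints.subgroup (Subgroup.zpowers a) G :=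
    fun w hw b => hw.2 b b.2
  exact congrArg Subtype.val (this.is_comm.comm ⟨u, k u hu⟩ ⟨v, k v hv⟩)

end Cfsg.Agent.S4323
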