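import Cfsg.Statements.S4416
import Cfsg.Agent.LX.QM2

set_option autoImplicit false
open Cfsg

namespace Cfsg.Agent.S4416

open CF.LX

/-- Classification of extraspecial 2-groups in intrinsic form. An extraspecial 2-group has order 2^(2m+1) for some m ≥ 1, and the number of its elements squaring to the identity is either 2^(2m) + 2^m or 2^(2m) − 2^m; two extraspecial 2-groups of the same order with the same number of such elements are isomorphic. (The two cases are the central products of m dihedral groups of order 8, and of m − 1 dihedral groups with one quaternion group.) -/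
theorem result (E : Type*) [Group E] [Finite E] (hE : Cfsg.IsExtraspecial 2 E) :
    (∃ m : ℕ, 1 ≤ m ∧ Nat.card E = 2 ^ (2 * m + 1) ∧
      (Nat.card {x : E // x ^ 2 = 1} = 2 ^ (2 * m) + 2 ^ m ∨ Nat.card {x : E // x ^ 2 = 1} = 2 ^ (2 * m) - 2 ^ m)) ∧
    ∀ (E' : Type*) [Group E'] [Finite E'], Cfsg.IsExtraspecial 2 E' → Nat.card E' = Nat.card E →
      Nat.card {x : E' // x ^ 2 = 1} = Nat.card {x : E // x ^ 2 = 1} → Nonempty (E ≃* E') := by
  obtain ⟨n, hn, c⟩ := CF.Fgs1.card_of_extraspecial hE
  rw [add_comm] at c
  obtain ⟨a, b⟩ := card_sq_of_plusT hE hn c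
  refine ⟨⟨n, hn, c, (em (PlusT E n)).imp a fun k => by have := b k; omega⟩,
    fun E' _ _ h' c' k => equiv_of_plusT_iff hE h' c (c'.trans c) ?_⟩
  obtain ⟨a', b'⟩ := card_sq_of_plusT h' hn (c'.trans c)
  have : 0 < 2 ^ n := by positivity
  by_cases p : PlusT E n <;> by_cases p' : PlusT E' n
  · exact iff_of_true p p'
  · have := a p; have := b' p'; omega
  · have := a' p'; have := b p; omega
  · exact iff_of_false p p'

end Cfsg.Agent.S4416
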