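import Mathlib
import Cfsg.Agent.Fgs2.Zsigmondy
import Cfsg.Statements.S4423

set_option autoImplicit false
open Cfsg

namespace Cfsg.Agent.S4423

theorem aux (q e m0 : ℕ) (h0 : 0 < m0) (h1 : m0 ≤ 2 * e + 1)
    (h : (m0 * (∏ i ∈ Finset.Ico 1 e, (q ^ i - 1)) ^ 2) % (q ^ e - 1) = 0) :
    ∀ m : ℕ, m ∣ q ^ e - 1 → (∀ i : ℕ, 1 ≤ i → i < e → Nat.Coprime m (q ^ i - 1)) →
      m ≤ 2 * e + 1 := by
  intro m hm hc
  have h2 : m.Coprime ((∏ i ∈ Finset.Ico 1 e, (q ^ i - 1)) ^ 2) :=
    Nat.Coprime.pow_right _ (Nat.Coprime.prod_right fun i hi =>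
      hc i (Finset.mem_Ico.1 hi).1 (Finset.mem_Ico.1 hi).2)
  exact (Nat.le_of_dvd h0 (h2.dvd_of_dvd_mul_right
    (hm.trans (Nat.dvd_of_mod_eq_zero h)))).trans h1

/-- Size of the primitive part of `q^e - 1`. For a prime power `q` and `e ≥ 3`, call a divisor of `q^e - 1` primitive when it is coprime to `q^i - 1` for every `1 ≤ i < e`; the primitive part is the largest primitive divisor. Apart from thirteen exceptional pairs, the primitive part is at least `3e + 1`: there is a primitive divisor `m ≥ 3e + 1` unless `(q, e)` is `(2, 6)` (where every primitive divisor is 1), one of `(2,4), (2,10), (2,12), (2,18), (3,4), (3,6), (5,6)` (where the primitive part is exactly `e + 1`), or one of `(2,3), (2,8), (2,20), (4,3), (4,6)` (where it is exactly `2e + 1`). The statement asserts the existence of a primitive divisor `m ≥ 3e + 1` outside the thirteen pairs, and that every primitive divisor is at most `2e + 1` for the thirteen pairs. -/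
theorem result (q e : ℕ) (hq : IsPrimePow q) (he : 3 ≤ e) :
    ((q, e) ∉ [(2, 6), (2, 4), (2, 10), (2, 12), (2, 18), (3, 4), (3, 6), (5, 6), (2, 3), (2, 8), (2, 20), (4, 3), (4, 6)] →
      ∃ m : ℕ, m ∣ q ^ e - 1 ∧ (∀ i : ℕ, 1 ≤ i → i < e → Nat.Coprime m (q ^ i - 1)) ∧ 3 * e + 1 ≤ m) ∧
    ((q, e) ∈ [(2, 6), (2, 4), (2, 10), (2, 12), (2, 18), (3, 4), (3, 6), (5, 6), (2, 3), (2, 8), (2, 20), (4, 3), (4, 6)] →
      ∀ m : ℕ, m ∣ q ^ e - 1 → (∀ i : ℕ, 1 ≤ i → i < e → Nat.Coprime m (q ^ i - 1)) → m ≤ 2 * e + 1) := by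
  refine ⟨fun h => CF.Fgs2.exists_large_primitive_part hq.two_le he h, fun hex => ?_⟩
  simp only [List.mem_cons, Prod.mk.injEq, List.not_mem_nil, or_false] at hex
  rcases hex with h | h | h | h | h | h | h | h | h | h | h | h | h
  all_goals obtain ⟨rfl, rfl⟩ := h
  · exact aux _ _ 1 (by decide) (by decide) (by decide +kernel)
  · exact aux _ _ 5 (by decide) (by decide) (by decide +kernel)
  · exact aux _ _ 11 (by decide) (by decide) (by decide +kernel)
  · exact aux _ _ 13 (by decide) (by decide) (by decide +kernel)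
  · exact aux _ _ 19 (by decide) (by decide) (by decide +kernel)
  · exact aux _ _ 5 (by decide) (by decide) (by decide +kernel)
  · exact aux _ _ 7 (by decide) (by decide) (by decide +kernel)
  · exact aux _ _ 7 (by decide) (by decide) (by decide +kernel)
  · exact aux _ _ 7 (by decide) (by decide) (by decide +kernel)
  · exact aux _ _ 17 (by decide) (by decide) (by decide +kernel)
  · exact aux _ _ 41 (by decide) (by decide) (by decide +kernel)
  · exact aux _ _ 7 (by decide) (by decide) (by decide +kernel)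
  · exact aux _ _ 13 (by decide) (by decide) (by decide +kernel)

end Cfsg.Agent.S4423
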