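import Cfsg.Statements.S4425
import Cfsg.Agent.BlockB.Gen
-- import your own Cfsg.Agent.* helpers here

set_option autoImplicit false
open Cfsg

namespace Cfsg.Agent.S4425

/-- Let χ be an irreducible character of the finite group G, p a prime, p^a the p-part of the order of G and p^b the p-part of the degree χ(1). Let χ̃ be the class function equal to p^a · χ on p-regular elements and zero on p-singular elements. Then p^(−b) · χ̃ is a generalized character of G, while p^(−(b+1)) · χ̃ is not. -/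
theorem result {G : Type*} [Group G] [Finite G] (p : ℕ) [Fact p.Prime] (χ : Cfsg.IrrCharacter G) : Cfsg.IsGeneralizedCharacter G (fun x : G => if p ∣ orderOf x then (0 : ℂ) else ((p ^ ((Nat.card G).factorization p - (Cfsg.charDegree (χ : G → ℂ)).factorization p) : ℕ) : ℂ) * (χ : G → ℂ) x) ∧ ¬ Cfsg.IsGeneralizedCharacter G (fun x : G => if p ∣ orderOf x then (0 : ℂ) else ((p ^ (Nat.card G).factorization p : ℕ) : ℂ) / ((p ^ ((Cfsg.charDegree (χ : G → ℂ)).factorization p + 1) : ℕ) : ℂ) * (χ : G → ℂ) x) := by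
  have := Fintype.ofFinite G
  obtain ⟨M, hM⟩ := CF.BlockB.exists_isPModular (p := p) Fact.out
  have hp : (p : ℂ) ≠ 0 := Nat.cast_ne_zero.2 hM.1.ne_zero
  have hcf := CF.BlockB.reg_classFun (p := p) (CF.Char.irr_isClassFunction χ.2)
  constructor
  · have h : (fun x : G => if p ∣ orderOf x then (0 : ℂ) else ((p ^ ((Nat.card G).factorization p -
        (Cfsg.charDegree (χ : G → ℂ)).factorization p) : ℕ) : ℂ) * (χ : G → ℂ) x) =
        ((p : ℂ) ^ ((Nat.card G).factorization p -
        (Cfsg.charDegree (χ : G → ℂ)).factorization p)) • Cfsg.pRegularPart p (χ : G → ℂ) := by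
      ext x
      rw [Pi.smul_apply, CF.BlockB.reg_apply]
      split_ifs <;> simp
    rw [h]
    refine CF.Char.gen_of_inner_int (CF.Char.classFun_smul _ hcf) fun ξ hξ => ?_
    rw [CF.Char.inner_smul_left]
    exact CF.BlockB.exists_int_pow_mul_inner_reg hM (CF.Char.gen_of_irr χ.2) (CF.Char.gen_of_irr hξ)
      (CF.BlockB.factorization_charDegree_le χ)
      ((CF.BlockB.v_inner_tilde_le' hM χ ⟨ξ, hξ⟩).trans (CF.BlockB.v_irr_one hM χ).le)
  · have h : (fun x : G => if p ∣ orderOf x then (0 : ℂ) else ((p ^ (Nat.card G).factorization p : ℕ) : ℂ) /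
        ((p ^ ((Cfsg.charDegree (χ : G → ℂ)).factorization p + 1) : ℕ) : ℂ) * (χ : G → ℂ) x) =
        ((p : ℂ) ^ ((Cfsg.charDegree (χ : G → ℂ)).factorization p + 1))⁻¹ •
          CF.BlockB.tilde p (χ : G → ℂ) := by
      ext x
      rw [Pi.smul_apply, CF.BlockB.tilde_eq]
      dsimp only
      split_ifs
      · simp
      · simp only [Nat.cast_pow, smul_eq_mul]; ring
    rw [h]
    intro hg
    obtain ⟨ξ, -, hξ⟩ := CF.BlockB.exists_v_inner_tilde_eq hM
      (CF.BlockB.nrm_eSet_le_one hM (CF.BlockB.isPBlock_blockOf χ)) (CF.BlockB.mem_blockOf_self hM χ)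
    have h1 := CF.BlockB.v_inner_gen_le_one (M := M) hg (CF.Char.gen_of_irr ξ.2)
    rw [CF.Char.inner_smul_left, map_mul, hξ, CF.BlockB.v_irr_one hM, map_inv₀, map_pow,
      inv_mul_le_iff₀ (CF.BlockB.vp_pow_pos hM _), mul_one, CF.BlockB.vp_pow_le_iff hM] at h1
    omega

end Cfsg.Agent.S4425
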