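import Cfsg.Statements.S4427
import Cfsg.Agent.PReg.A

set_option autoImplicit false
open Cfsg

namespace Cfsg.Agent.S4427


/-- Let G be a finite group of order p^a · q^b · r^c with p, q, r distinct primes, and suppose that G has exactly q^b · r^c elements of order not divisible by p. Then G has a normal p-complement: a normal subgroup of order q^b · r^c. -/
theorem result {G : Type*} [Group G] [Finite G] (p q r a b c : ℕ) (hp : p.Prime) (hq : q.Prime) (hr : r.Prime) (hpq : p ≠ q) (hpr : p ≠ r) (hqr : q ≠ r) (hG : Nat.card G = p ^ a * q ^ b * r ^ c) (hcount : Nat.card {g : G // ¬ p ∣ orderOf g} = q ^ b * r ^ c) : ∃ N : Subgroup G, N.Normal ∧ Nat.card N = q ^ b * r ^ c := by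
  classical
  haveI := Fintype.ofFinite G
  haveI := Fact.mk hq
  haveI := Fact.mk hr
  obtain ⟨Q⟩ : Nonempty (Sylow q G) := inferInstance
  obtain ⟨R⟩ : Nonempty (Sylow r G) := inferInstance
  have hQ : Nat.card Q = q ^ b := by
    rw [Sylow.card_eq_multiplicity, hG, Nat.factorization_mul (by positivity [hp.pos, hq.pos]) (by positivity [hr.pos]),
      Nat.factorization_mul (by positivity [hp.pos]) (by positivity [hq.pos])]
    simp [hp.factorization_pow, hq.factorization_pow, hr.factorization_pow, hpq, hqr.symm, Finsupp.single_apply]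
  have hR : Nat.card R = r ^ c := by
    rw [Sylow.card_eq_multiplicity, hG, Nat.factorization_mul (by positivity [hp.pos, hq.pos]) (by positivity [hr.pos]),
      Nat.factorization_mul (by positivity [hp.pos]) (by positivity [hq.pos])]
    simp [hp.factorization_pow, hq.factorization_pow, hr.factorization_pow, hpr, hqr, Finsupp.single_apply]
  have h := CF.PReg.main (s := p ^ a) hp (Q : Subgroup G) (R : Subgroup G)
    (by rw [hQ]; exact fun h => hpq ((Nat.prime_dvd_prime_iff_eq hp hq).1 (hp.dvd_of_dvd_pow h)))
    (by rw [hR]; exact fun h => hpr ((Nat.prime_dvd_prime_iff_eq hp hr).1 (hp.dvd_of_dvd_pow h)))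
    (by rw [hQ, hR]; exact Nat.Coprime.pow _ _ ((Nat.coprime_primes hq hr).2 hqr))
    (by rw [hQ, hR, hG]) (by rw [hQ, hR, hcount])
  rwa [hQ, hR] at h

end Cfsg.Agent.S4427
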