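import Cfsg.Statements.S4430
import Cfsg.Agent.BlockB.Third
-- import your own Cfsg.Agent.* helpers here

set_option autoImplicit false
open Cfsg

namespace Cfsg.Agent.S4430

/-- Let H be a subgroup of the finite group G, b a block of H whose induced block B₀ in G is defined (relative to a maximal ideal M of the algebraic integers containing p), and ξ ∈ b. For a block B of G let n_B be the value at 1 of the B-part of the induced character ξ^G (a natural number: the sum over χ ∈ B of the multiplicity of χ in ξ^G times χ(1)). Then for B = B₀ the exact power of p dividing n_B equals the exact power of p dividing ξ^G(1), while for every other block B either n_B = 0 or n_B is divisible by a strictly higher power of p than ξ^G(1). -/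
theorem result {G : Type*} [Group G] [Fintype G] (p : ℕ) [Fact p.Prime] (M : Ideal Cfsg.AlgInt) (hM : Cfsg.IsPModular p M) (H : Subgroup G) [Fintype H] (b : Set (Cfsg.IrrCharacter H)) (B₀ : Set (Cfsg.IrrCharacter G)) (hind : Cfsg.IsInducedBlock M H b B₀) (ξ : Cfsg.IrrCharacter H) (hξ : ξ ∈ b) : (∃ n : ℕ, Cfsg.blockPart B₀ (Cfsg.indFun H (ξ : H → ℂ)) 1 = (n : ℂ) ∧ n ≠ 0 ∧ n.factorization p = (Cfsg.charDegree (Cfsg.indFun H (ξ : H → ℂ))).factorization p) ∧ ∀ B : Set (Cfsg.IrrCharacter G), Cfsg.IsPBlock M B → B ≠ B₀ → ∃ n : ℕ, Cfsg.blockPart B (Cfsg.indFun H (ξ : H → ℂ)) 1 = (n : ℂ) ∧ (n = 0 ∨ (Cfsg.charDegree (Cfsg.indFun H (ξ : H → ℂ))).factorization p < n.factorization p) := by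
  have hc := CF.Char.char_indFun H (CF.Char.irr_isCharacter ξ.2)
  have h0 := CF.BlockB.indFun_irr_one_ne_zero H ξ
  have hd := CF.BlockB.charDegree_eq hc
  have hd0 : Cfsg.charDegree (Cfsg.indFun H (ξ : H → ℂ)) ≠ 0 := fun h => h0 (by rw [← hd, h]; simp)
  refine ⟨?_, fun B hB hne => ?_⟩
  · obtain ⟨n, hn⟩ := CF.Char.char_one_eq_nat (CF.BlockB.blockPart_isCharacter B₀ hc)
    have h1 := CF.BlockB.v_blockPart_indFun_one_eq hM hind hξ
    rw [hn] at h1
    have hn0 : n ≠ 0 := by
      rintro rfl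
      rw [Nat.cast_zero, map_zero] at h1
      exact CF.BlockB.v_ne_zero h0 h1.symm
    rw [← hd, CF.BlockB.v_natCast_eq_iff hM hn0 hd0] at h1
    exact ⟨n, hn, hn0, h1⟩
  · obtain ⟨n, hn⟩ := CF.Char.char_one_eq_nat (CF.BlockB.blockPart_isCharacter B hc)
    have h1 := CF.BlockB.v_blockPart_indFun_one_lt hM hind (CF.BlockB.nrm_eSet_le_one hM hB)
      (CF.BlockB.disjoint_of_ne hM hB hind.2.1 hne) hξ
    refine ⟨n, hn, or_iff_not_imp_left.2 fun hn0 => ?_⟩
    rwa [hn, ← hd, CF.BlockB.v_natCast_lt_iff hM hn0 hd0] at h1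

end Cfsg.Agent.S4430
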