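import Cfsg.Statements.S4431
import Cfsg.Agent.BlockB.Third
-- import your own Cfsg.Agent.* helpers here

set_option autoImplicit false
open Cfsg

namespace Cfsg.Agent.S4431

/-- Let H be a subgroup of the finite group G and b a block of H whose induced block B₀ in G is defined (relative to a maximal ideal M of the algebraic integers containing p). Let χ be an irreducible character of G, ψ ∈ b, and let η be the class function on H equal to p^a · χ on the p-regular elements of H and zero elsewhere, p^a being the p-part of the order of H. Then (a) if χ ∉ B₀, the number [η, ψ]/ψ(1) lies in the local ideal at M; (b) if χ ∈ B₀ has height zero, it does not. -/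
theorem result {G : Type*} [Group G] [Fintype G] (p : ℕ) [Fact p.Prime] (M : Ideal Cfsg.AlgInt) (hM : Cfsg.IsPModular p M) (H : Subgroup G) [Fintype H] (b : Set (Cfsg.IrrCharacter H)) (B₀ : Set (Cfsg.IrrCharacter G)) (hind : Cfsg.IsInducedBlock M H b B₀) (χ : Cfsg.IrrCharacter G) (ψ : Cfsg.IrrCharacter H) (hψ : ψ ∈ b) : (χ ∉ B₀ → Cfsg.MemLocalIdeal M (Cfsg.classInner (fun h : H => if p ∣ orderOf h then (0 : ℂ) else ((p ^ (Nat.card H).factorization p : ℕ) : ℂ) * (χ : G → ℂ) h) (ψ : H → ℂ) / (ψ : H → ℂ) 1)) ∧ (χ ∈ B₀ → Cfsg.blockHeight p B₀ (χ : G → ℂ) = 0 → ¬ Cfsg.MemLocalIdeal M (Cfsg.classInner (fun h : H => if p ∣ orderOf h then (0 : ℂ) else ((p ^ (Nat.card H).factorization p : ℕ) : ℂ) * (χ : G → ℂ) h) (ψ : H → ℂ) / (ψ : H → ℂ) 1)) := by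
  have halg : IsAlgebraic ℤ (Cfsg.classInner (CF.BlockB.tilde p fun h : H => (χ : G → ℂ) h)
      (ψ : H → ℂ) / (ψ : H → ℂ) 1) := by
    rw [div_eq_mul_inv]
    exact (CF.BlockB.inner_tilde_isAlgebraic
      (fun h => CF.Char.char_isIntegral (CF.Char.irr_isCharacter χ.2) _)
      (CF.Char.gen_of_irr ψ.2)).mul (CF.BlockB.irr_one_isAlgebraic ψ).inv
  rw [← CF.BlockB.tilde_eq (fun h : H => (χ : G → ℂ) h),
    CF.BlockB.memLocalIdeal_iff hM halg, ← CF.BlockB.omega_dual_eq_div]
  exact ⟨fun h => CF.BlockB.v_omega_dual_tilde_restrict_lt hM hind hψ h, fun h h0 h1 =>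
    h1.ne ((CF.BlockB.v_omega_dual_tilde_restrict_eq_iff hM hind hψ h).2 h0)⟩

end Cfsg.Agent.S4431
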