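import Cfsg.Statements.S4435
import Cfsg.Agent.Block.CoverRed

set_option autoImplicit false
open Cfsg

namespace Cfsg.Agent.S4435

open CF.Block

/-- Let N be a normal subgroup of the finite group G, b a block of N (relative to a maximal ideal M of the algebraic integers containing p), and T the stabilizer of b in G (the elements g such that conjugating any member of b by g gives a member of b); N ≤ T. Say that a block of T (or of G) covers b when some member has a constituent in b on restriction to N. Then: (i) every block B′ of T covering b induces a block B of G, B covers b, every ψ ∈ B′ induces to an irreducible character of G, and B consists exactly of the characters induced from members of B′; (ii) distinct blocks of T covering b induce distinct blocks of G; (iii) every block of G covering b is induced by some block of T covering b. -/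
theorem result {G : Type*} [Group G] [Fintype G] (p : ℕ) [Fact p.Prime] (M : Ideal Cfsg.AlgInt) (hM : Cfsg.IsPModular p M) (N : Subgroup G) [hN : N.Normal] [Fintype N] (b : Set (Cfsg.IrrCharacter N)) (hb : Cfsg.IsPBlock M b) (T : Subgroup G) [Fintype T] (hT : ∀ g : G, g ∈ T ↔ ∀ θ ∈ b, ∀ θ' : Cfsg.IrrCharacter N, (∀ n : N, (θ' : N → ℂ) n = (θ : N → ℂ) ⟨g * n * g⁻¹, hN.conj_mem n n.2 g⟩) → θ' ∈ b) (hNT : N ≤ T) : (∀ B' : Set (Cfsg.IrrCharacter T), Cfsg.IsPBlock M B' → (∃ ψ ∈ B', ∃ θ ∈ b, Cfsg.classInner (fun n : N => (ψ : T → ℂ) ⟨(n : G), hNT n.2⟩) (θ : N → ℂ) ≠ 0) → ∃ B : Set (Cfsg.IrrCharacter G), Cfsg.IsInducedBlock M T B' B ∧ (∃ χ ∈ B, ∃ θ ∈ b, Cfsg.classInner (fun n : N => (χ : G → ℂ) n) (θ : N → ℂ) ≠ 0) ∧ (∀ ψ ∈ B', Cfsg.IsIrrCharacter G (Cfsg.indFun T (ψ : T → ℂ))) ∧ ∀ χ : Cfsg.IrrCharacter G, χ ∈ B ↔ ∃ ψ ∈ B', (χ : G → ℂ) = Cfsg.indFun T (ψ : T → ℂ)) ∧ (∀ B'₁ B'₂ : Set (Cfsg.IrrCharacter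 T), Cfsg.IsPBlock M B'₁ → Cfsg.IsPBlock M B'₂ → (∃ ψ ∈ B'₁, ∃ θ ∈ b, Cfsg.classInner (fun n : N => (ψ : T → ℂ) ⟨(n : G), hNT n.2⟩) (θ : N → ℂ) ≠ 0) → (∃ ψ ∈ B'₂, ∃ θ ∈ b, Cfsg.classInner (fun n : N => (ψ : T → ℂ) ⟨(n : G), hNT n.2⟩) (θ : N → ℂ) ≠ 0) → ∀ B : Set (Cfsg.IrrCharacter G), Cfsg.IsInducedBlock M T B'₁ B → Cfsg.IsInducedBlock M T B'₂ B → B'₁ = B'₂) ∧ (∀ B : Set (Cfsg.IrrCharacter G), Cfsg.IsPBlock M B → (∃ χ ∈ B, ∃ θ ∈ b, Cfsg.classInner (fun n : N => (χ : G → ℂ) n) (θ : N → ℂ) ≠ 0) → ∃ B' : Set (Cfsg.IrrCharacter T), Cfsg.IsPBlock M B' ∧ (∃ ψ ∈ B', ∃ θ ∈ b, Cfsg.classInner (fun n : N => (ψ : T → ℂ) ⟨(n : G), hNT n.2⟩) (θ : N → ℂ) ≠ 0) ∧ Cfsg.IsInducedBlock M T B' B) := by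
  have := CF.BlockB.charP_k hM
  have hT' := eq_stab_of_stabA hM hb hT
  have hb' := isBlk_ebs hM hb
  have hn := le_normalizer_of_normal' (⊤ : Subgroup G) N
  have key : ∀ {c E : MonoidAlgebra (CF.BlockB.k M) G}, Induces T ⊤ c E → c * ebs M N b ≠ 0 →
      E * ebs M N b = c := by
    subst hT'
    exact fun hc h => (hc.eq_mul_stab hb' hn le_top h).2
  have key2 : ∀ {E : MonoidAlgebra (CF.BlockB.k M) G}, IsBlk ⊤ E → E * ebs M N b ≠ 0 →
      Induces T ⊤ (E * ebs M N b) E := by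
    subst hT'
    exact fun hE h => hE.induces_mul_stab hb' hn le_top h
  have key3 : ∀ {c : MonoidAlgebra (CF.BlockB.k M) G}, IsBlk T c → c * ebs M N b ≠ 0 →
      ∃ E, IsBlk ⊤ E ∧ E * ebs M N b = c := by
    subst hT'
    exact fun hc h => ⟨_, hc.isBlk_tr_stab hb' hn le_top h⟩
  refine ⟨fun B' hB' hcov => ?_, fun B₁ B₂ h₁ h₂ c₁ c₂ B i₁ i₂ => ?_, fun B hB hcov => ?_⟩
  · rw [covers_iff_sub hM hNT hB' hb] at hcov
    obtain ⟨E, hE, h⟩ := key3 (isBlk_ebs hM hB') hcov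
    have h1 : E * ebs M N b ≠ 0 := h ▸ (isBlk_ebs hM hB').ne
    obtain ⟨B, hind, rfl⟩ := exists_isInducedBlock_of_induces hM hB' (h ▸ key2 hE h1)
    refine ⟨B, hind, (covers_iff hM hind.2.1 hb).2 h1,
      fun ψ hψ => fr_irr hM hb hT' hNT hB' hcov hψ,
      fun χ => ⟨fr_surj hM hb hT' hNT hcov hind, ?_⟩⟩
    rintro ⟨ψ, hψ, h2⟩
    have h3 := ind_mem_of_isInducedBlock hM hind hψ (fr_irr hM hb hT' hNT hB' hcov hψ)
    rwa [show χ = ⟨_, fr_irr hM hb hT' hNT hB' hcov hψ⟩ from Subtype.ext h2]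
  · rw [covers_iff_sub hM hNT h₁ hb] at c₁
    rw [covers_iff_sub hM hNT h₂ hb] at c₂
    exact ebs_inj hM h₁ h₂ ((key (IsInducedBlock.induces hM i₁) c₁).symm.trans
      (key (IsInducedBlock.induces hM i₂) c₂))
  · rw [covers_iff hM hB hb] at hcov
    obtain ⟨B', hind, h⟩ := exists_isInducedBlock_of_induces' hM hB (key2 (isBlk_eb hM hB) hcov)
    refine ⟨B', hind.1, (covers_iff_sub hM hNT hind.1 hb).2 ?_, hind⟩
    rwa [h, mul_assoc, hb'.idem]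

end Cfsg.Agent.S4435
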