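import Cfsg.Statements.S4436
import Cfsg.Agent.Block.Extra

set_option autoImplicit false
open Cfsg

namespace Cfsg.Agent.S4436

open CF.Block

/-- Let N be a normal subgroup of the finite group G, b a block of N (relative to a maximal ideal M of the algebraic integers containing p), T the stabilizer of b in G, N ≤ T, and B′ a block of T covering b (some member of B′ has a constituent in b on restriction to N) that induces the block B of G. Then every defect group of B′ is a defect group of B, and for every ψ ∈ B′ the induced character ψ^G is an irreducible character of G lying in B with the same height as ψ. -/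
theorem result {G : Type*} [Group G] [Fintype G] (p : ℕ) [Fact p.Prime] (M : Ideal Cfsg.AlgInt) (hM : Cfsg.IsPModular p M) (N : Subgroup G) [hN : N.Normal] [Fintype N] (b : Set (Cfsg.IrrCharacter N)) (hb : Cfsg.IsPBlock M b) (T : Subgroup G) [Fintype T] (hT : ∀ g : G, g ∈ T ↔ ∀ θ ∈ b, ∀ θ' : Cfsg.IrrCharacter N, (∀ n : N, (θ' : N → ℂ) n = (θ : N → ℂ) ⟨g * n * g⁻¹, hN.conj_mem n n.2 g⟩) → θ' ∈ b) (hNT : N ≤ T) (B' : Set (Cfsg.IrrCharacter T)) (hB' : Cfsg.IsPBlock M B') (hcov : (∃ ψ ∈ B', ∃ θ ∈ b, Cfsg.classInner (fun n : N => (ψ : T → ℂ) ⟨(n : G), hNT n.2⟩) (θ : N → ℂ) ≠ 0)) (B : Set (Cfsg.IrrCharacter G)) (hind : Cfsg.IsInducedBlock M T B' B) : (∀ D : Subgroup T, Cfsg.IsDefectGroup p M B' D → Cfsg.IsDefectGroup p M B (D.map T.subtype)) ∧ ∀ ψ ∈ B', ∃ χ ∈ B, (χ : G → ℂ) = Cfsg.indFun T (ψ : T → ℂ) ∧ Cfsg.blockHeight p B (χ : G → ℂ) = Cfsg.blockHeight p B' (ψ : T → ℂ) := by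
  have := CF.BlockB.charP_k hM
  have hT' := eq_stab_of_stabA hM hb hT
  have hb' := isBlk_ebs hM hb
  have hn := le_normalizer_of_normal' (⊤ : Subgroup G) N
  rw [covers_iff_sub hM hNT hB' hb] at hcov
  have key : ∀ {c E : MonoidAlgebra (CF.BlockB.k M) G} {D : Subgroup G}, Induces T ⊤ c E →
      c * ebs M N b ≠ 0 → IsDefGrp p T c D → IsDefGrp p ⊤ E D := by
    subst hT'
    intro c E D hc h hD
    have h1 := (hc.eq_mul_stab hb' hn le_top h).2
    exact IsDefGrp.of_mul_stab (h1 ▸ hD) hc.blk' hb' hn le_top (h1 ▸ hc.blk.ne)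
  have hI := IsInducedBlock.induces hM hind
  refine ⟨fun D hD => (isDefectGroup_iff hM hind.2.1 _).2
    (key hI hcov ((isDefectGroup_iff_sub hM hB' D).1 hD)), fun ψ hψ => ?_⟩
  have h1 := fr_irr hM hb hT' hNT hB' hcov hψ
  refine ⟨⟨_, h1⟩, ind_mem_of_isInducedBlock hM hind hψ h1, rfl, ?_⟩
  obtain ⟨D, hD⟩ := hI.blk.exists_isDefGrp (p := p)
  have h2 := Nat.pow_right_injective hM.1.two_le
    (((key hI hcov hD).card_eq_pow hM hind.2.1).symm.trans (hD.card_eq_pow_sub hM hB'))
  have h3 := CF.BlockB.blockDefect_add_minExp (p := p) (CF.BlockB.block_nonempty hM hB')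
  have h4 := CF.BlockB.blockDefect_add_minExp (p := p) (CF.BlockB.block_nonempty hM hind.2.1)
  have h5 : charDegree (indFun T (ψ : T → ℂ)) = T.index * charDegree (ψ : T → ℂ) :=
    CF.BlockB.charDegree_of_eq (by
      rw [CF.Char.indFun_one, Nat.cast_mul, CF.BlockB.irr_charDegree_eq])
  rw [← T.card_mul_index, Nat.factorization_mul Nat.card_pos.ne' T.index_ne_zero_of_finite,
    Finsupp.add_apply] at h4
  rw [CF.BlockB.blockHeight_eq, CF.BlockB.blockHeight_eq, h5,
    Nat.factorization_mul T.index_ne_zero_of_finite (CF.BlockB.irr_charDegree_ne_zero ψ),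
    Finsupp.add_apply]
  omega

end Cfsg.Agent.S4436
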