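import Cfsg.Statements.S4437
import Cfsg.Agent.Block.Extra

set_option autoImplicit false
open Cfsg

namespace Cfsg.Agent.S4437

open CF.Block

/-- Let P be a p-subgroup of the finite group G, H = P·C_G(P), and b a block of H (relative to a maximal ideal M of the algebraic integers containing p) having P as a defect group; let B be the block of G induced by b. Let T be the stabilizer of b in N_G(P): the elements g of N_G(P) such that the g-conjugate of every member of b is again a member of b. Then B has defect group P if and only if p does not divide the index of H in T. -/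
theorem result {G : Type*} [Group G] [Fintype G] (p : ℕ) [Fact p.Prime] (M : Ideal Cfsg.AlgInt) (hM : Cfsg.IsPModular p M) (P : Subgroup G) (hP : IsPGroup p P) (H : Subgroup G) [Fintype H] (hH : H = P ⊔ Subgroup.centralizer (P : Set G)) (b : Set (Cfsg.IrrCharacter H)) (hb : Cfsg.IsPBlock M b) (hbP : Cfsg.IsDefectGroup p M b (P.subgroupOf H)) (B : Set (Cfsg.IrrCharacter G)) (hind : Cfsg.IsInducedBlock M H b B) (T : Subgroup G) (hT : ∀ g : G, g ∈ T ↔ (g ∈ Subgroup.normalizer (P : Set G) ∧ ∀ θ ∈ b, ∀ θ' : Cfsg.IrrCharacter H, (∀ h h' : H, (h' : G) = g * h * g⁻¹ → (θ' : H → ℂ) h' = (θ : H → ℂ) h) → θ' ∈ b)) : Cfsg.IsDefectGroup p M B P ↔ ¬ p ∣ H.relIndex T := by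
  have := CF.BlockB.charP_k hM
  have hH' : H = P ⊔ Cz ⊤ P := by rw [hH, Cz_top]
  have hI := IsInducedBlock.induces hM hind
  have hBP : BPair p ⊤ (eb M B) P (ebs M H b) := Induces.bPair_of_sup (hH' ▸ hI) hP
  have hPH : P ≤ H := hH ▸ le_sup_left
  have hN : Nz ⊤ P ≤ Subgroup.normalizer (H : Set G) := hH' ▸ le_trans
    (le_inf inf_le_left (Nz_le_normalizer_Cz ⊤ P)) (normalizer_inf_le_normalizer_sup _ _)
  have hT' : T = stab (Nz ⊤ P) (ebs M H b) := by
    ext g
    rw [hT, mem_stab, Nz_top]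
    exact and_congr_right fun hg => stabB_iff hM hb (hN ((Nz_top P).ge hg))
  rw [isDefectGroup_iff hM hind.2.1, hT']
  refine ⟨fun h => hH' ▸ (hBP.maxPair h).not_dvd_relIndex, fun h => hBP.isDefGrp_of_stab ?_⟩
  have h1 := (isDefectGroup_iff_subgroupOf hM hb hPH).1 hbP
  refine isDefGrp_of_not_dvd hBP.pair.isBlk_stab hI.blk ((stab_le _ _).trans hN) ?_ hP
    hBP.pair.le_stab h1.br (by rwa [inf_eq_left.2 hPH]) (by rwa [sup_eq_right.2 hPH])
  exact hH'.le.trans (sup_le hBP.pair.le_stab hBP.pair.Cz_le_stab)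

end Cfsg.Agent.S4437
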