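import Cfsg.Statements.S4440
import Cfsg.Agent.Block.Harada

set_option autoImplicit false
open Cfsg

namespace Cfsg.Agent.S4440

open CF.Block CF Subgroup

/-- Let G be a finite p-solvable group and fix a maximal ideal M of the algebraic integers containing p. Let U be a set of irreducible characters of G such that the class function Σ_{χ ∈ U} χ(1)·χ vanishes at every p-singular element of G. Then U is a union of p-blocks: if χ ∈ U and ψ lies in the same block as χ, then ψ ∈ U. -/
theorem result {G : Type*} [Group G] [Finite G] (p : ℕ) [Fact p.Prime] (M : Ideal Cfsg.AlgInt) (hM : Cfsg.IsPModular p M) (hsolv : Cfsg.IsPSolvable p G) (U : Set (Cfsg.IrrCharacter G)) (hU : ∀ x : G, p ∣ orderOf x → ∑ᶠ χ ∈ U, (χ : G → ℂ) 1 * (χ : G → ℂ) x = 0) (χ : Cfsg.IrrCharacter G) (hχ : χ ∈ U) (ψ : Cfsg.IrrCharacter G) (hψ : Cfsg.SameBlock M (χ : G → ℂ) (ψ : G → ℂ)) : ψ ∈ U := by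
  classical
  refine BlockB.blockOf_subset_of_nrm_le_one hM (nrm_le_one_of_reg_supp hM hsolv
    (eSet_mem_fix U ⊤) (BlockB.eSet_mul_self U) (st_eSet U) fun x hx => ?_) hχ hψ
  have h1 := hU x hx
  rw [BlockB.finsum_mem_irr] at h1
  have h2 := congrArg (starRingEnd ℂ) h1
  rw [map_sum, map_zero] at h2
  show Cfsg.blockCoeff U x = 0
  rw [BlockB.blockCoeff_eq, ← mul_zero ((Nat.card G : ℂ)⁻¹), ← h2]
  congr 1
  exact Finset.sum_congr rfl fun χ _ => by rw [map_mul, Char.irr_conj_one χ.2]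

end Cfsg.Agent.S4440
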