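import Cfsg.Statements.S4442
import Cfsg.Agent.Small.Def3

set_option autoImplicit false
open Cfsg

namespace Cfsg.Agent.S4442

open CF.Small CF.PF CF.BlockB

/-- Blocks of defect one. Let p be an odd prime and G a finite group whose Sylow p-subgroup P has order p; let C = C_G(P) and N = N_G(P), and fix a maximal ideal M of the algebraic integers containing p. Let B be a block of G with defect group P, b a block of C inducing B, and θ the member of b having P in its kernel (there is exactly one). Let T be the stabilizer of θ in N (the elements g ∈ N with θ(g c g⁻¹) = θ(c) for all c ∈ C) and e the index of C in T. Then e divides p − 1 and B contains exactly e + (p − 1)/e irreducible characters. Moreover B is the disjoint union of a set X of e characters and a set Y of (p − 1)/e characters such that, with f the index of C in N: every χ ∈ X has χ(1) ≡ ±(f/e)·θ(1) (mod p), there is one sign ε with ψ(1) ≡ ε f θ(1) (mod p) for all ψ ∈ Y, and all members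 of Y agree on the p-regular elements of G. -/
theorem result {G : Type*} [Group G] [Finite G] (p : ℕ) [Fact p.Prime] (M : Ideal Cfsg.AlgInt) (hM : Cfsg.IsPModular p M) (hodd : p ≠ 2) (P : Sylow p G) (hP : Nat.card P = p) (B : Set (Cfsg.IrrCharacter G)) (hB : Cfsg.IsPBlock M B) (hBP : Cfsg.IsDefectGroup p M B P) (b : Set (Cfsg.IrrCharacter (Subgroup.centralizer ((P : Subgroup G) : Set G)))) (hind : Cfsg.IsInducedBlock M (Subgroup.centralizer ((P : Subgroup G) : Set G)) b B) (θ : Cfsg.IrrCharacter (Subgroup.centralizer ((P : Subgroup G) : Set G))) (hθ : θ ∈ b) (hθP : ∀ x : Subgroup.centralizer ((P : Subgroup G) : Set G), (x : G) ∈ (P : Subgroup G) → (θ : Subgroup.centralizer ((P : Subgroup G) : Set G) → ℂ) x = (θ : Subgroup.centralizer ((P : Subgroup G) : Set G) → ℂ) 1) (T : Subgroup G) (hT : ∀ g : G, g ∈ T ↔ (g ∈ Subgroup.normalizer ((P : Subgroup G) : Set G) ∧ ∀ c c' : Subgroup.centralizer ((P : Subgroup G) : Set G), (c' : G) = g * c * g⁻¹ → (θ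 : Subgroup.centralizer ((P : Subgroup G) : Set G) → ℂ) c' = (θ : Subgroup.centralizer ((P : Subgroup G) : Set G) → ℂ) c)) (e f : ℕ) (he : (Subgroup.centralizer ((P : Subgroup G) : Set G)).relIndex T = e) (hf : (Subgroup.centralizer ((P : Subgroup G) : Set G)).relIndex (Subgroup.normalizer ((P : Subgroup G) : Set G)) = f) : e ∣ p - 1 ∧ Nat.card B = e + (p - 1) / e ∧ ∃ X Y : Set (Cfsg.IrrCharacter G), B = X ∪ Y ∧ Disjoint X Y ∧ Nat.card X = e ∧ Nat.card Y = (p - 1) / e ∧ (∀ χ ∈ X, (Cfsg.charDegree (χ : G → ℂ) : ℤ) ≡ ((f / e * Cfsg.charDegree (θ : Subgroup.centralizer ((P : Subgroup G) : Set G) → ℂ) : ℕ) : ℤ) [ZMOD p] ∨ (Cfsg.charDegree (χ : G → ℂ) : ℤ) ≡ -((f / e * Cfsg.charDegree (θ : Subgroup.centralizer ((P : Subgroup G) : Set G) → ℂ) : ℕ) : ℤ) [ZMOD p]) ∧ (∃ ε : ℤ, (ε = 1 ∨ ε = -1) ∧ ∀ ψ ∈ Y, (Cfsg.charDegree (ψ : G → ℂ) : ℤ) ≡ ε * ((f * Cfsg.charDegree (θ : Subgroup.centralizer ((P : Subgroup G) : Set G) → ℂ) : ℕ) : ℤ) [ZMOD p]) ∧ ∀ ψ ∈ Y,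 ∀ ψ' ∈ Y, ∀ g : G, ¬ p ∣ orderOf g → (ψ : G → ℂ) g = (ψ' : G → ℂ) g := by
  obtain ⟨S, hS⟩ := exists_pset_sylow P hP
  obtain ⟨P, hP1, hP2⟩ := P
  change Subgroup.zpowers S.z = P at hS
  subst hS
  obtain ⟨θ', hθ', j, e0⟩ := PSet.exists_pr (S := S) (extendByZero_mem_irr.2 θ.2)
  have e1 : (θ : S.C → ℂ) 1 = θ' 1 := by rw [← extendByZero_coe S.C θ 1, e0]; exact S.pr_one _ _
  obtain rfl : j = 0 := by
    have := hθP ⟨S.zp 1, S.zp_mem_C 1⟩ (S.zp_mem 1)
    rw [e1, ← extendByZero_coe S.C θ, e0] at this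
    change S.pr θ' j (S.zp 1) = _ at this
    rw [← mul_one (S.zp 1), PSet.pr_apply _ _ _ S.K.one_mem, mul_right_eq_self₀, or_iff_left (irr_one_ne hθ'), mul_one, ← ec_zero (p := p)] at this
    exact ec_injective this
  obtain ⟨B'⟩ := PSet.nonempty_blk hθ'
  obtain rfl := B'.eq_of_induced hM hθ' hind hθ e0
  obtain rfl : T = inertia S.N θ' := by
    rw [← PSet.inertia_pr_zero hθ', ← e0]
    ext g
    rw [hT, mem_inertia]
    refine and_congr_right fun hg => ⟨fun h => ?_, fun h c c' e => ?_⟩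
    · funext x
      rw [cj_apply]
      by_cases hx : x ∈ S.C
      · rw [extendByZero_of_mem _ _ hx, extendByZero_of_mem _ _ (S.conj_mem_C hg hx)]
        exact h _ _ rfl
      · rw [extendByZero_of_notMem _ _ hx, extendByZero_of_notMem _ _
          (mt (conj_mem_iff_of_mem_normalizer (S.N_le_normalizer_C hg) x).1 hx)]
    · rw [← extendByZero_coe S.C θ, ← extendByZero_coe S.C θ, e]
      exact congrFun h c
  have he' : S.ei θ' = e := he
  have hf' : S.fi = f := hf
  have hm : θ' 1 = Cfsg.charDegree (θ : S.C → ℂ) := by rw [← e1, irr_charDegree_eq]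
  have ho : (orb S.N θ').card = f / e := by
    rw [← hf', ← PSet.ei_mul_card_orb hθ', he', Nat.mul_div_cancel_left _ (he' ▸ S.ei_pos θ')]
  refine ⟨he' ▸ B'.ei_dvd, by rw [card_irrSet fun _ => B'.all_irr, B'.card_all, he'],
    irrSet B'.X, irrSet B'.Y, B'.irrSet_all, B'.disjoint_irrSet,
    by rw [card_irrSet B'.X_irr, B'.card_X, he'],
    by rw [card_irrSet fun _ => B'.Y_irr, B'.card_Y', he'], fun χ h => ?_,
    ⟨B'.δ, B'.δ_sign, fun χ h => ?_⟩, fun χ h χ' h' g hg => ?_⟩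
  · have := B'.X_modEq hθ' h (exists_degree (coe_mem_irr_top χ)) hm
    rw [ho] at this
    rcases B'.ε_sign _ h with e | e
    · left; simpa [e] using this
    · right; simpa [e] using this
  · obtain ⟨j, hj, e⟩ := B'.mem_Y.1 h
    have := B'.ex_modEq hθ' hj (e ▸ exists_degree (coe_mem_irr_top χ)) hm
    rwa [e, hf'] at this
  · obtain ⟨j, hj, e⟩ := B'.mem_Y.1 h
    obtain ⟨j', hj', e'⟩ := B'.mem_Y.1 h'
    rw [← e, ← e', B'.ex_reg_eq hθ' hj hj' hg]

end Cfsg.Agent.S4442
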