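import Cfsg.Statements.S4443
import Cfsg.Agent.Block.Count

set_option autoImplicit false
open Cfsg

namespace Cfsg.Agent.S4443

open CF.Block CF

/-- Let D be a normal p-subgroup of the finite group G, of order p^d, let p^a be the p-part of the order of G, and fix a Sylow p-subgroup S and a maximal ideal M of the algebraic integers containing p. Index by a finite type ι (via an injective map K) exactly the conjugacy classes of p-regular elements x of G for which D is a Sylow p-subgroup of C_G(x). For classes K_i, K_j let ω(i, j) be the number of pairs (y, z) ∈ K_i × K_j with z y⁻¹ ∈ S; this number is divisible by p^(a−d). Then the number of p-blocks of G having D as a defect group equals the rank over ℤ/pℤ of the matrix with (i, j) entry ω(i, j)/p^(a−d) reduced modulo p. -/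
theorem result {G : Type*} [Group G] [Finite G] (p : ℕ) [Fact p.Prime] (M : Ideal Cfsg.AlgInt) (hM : Cfsg.IsPModular p M) (D : Subgroup G) [D.Normal] (hD : IsPGroup p D) (S : Sylow p G) {ι : Type*} [Fintype ι] [DecidableEq ι] (K : ι → ConjClasses G) (hKinj : Function.Injective K) (hK : ∀ C : ConjClasses G, (∃ i, K i = C) ↔ ∃ x ∈ C.carrier, ¬ p ∣ orderOf x ∧ ∃ Q : Sylow p (Subgroup.centralizer ({x} : Set G)), (Q : Subgroup (Subgroup.centralizer ({x} : Set G))).map (Subgroup.centralizer ({x} : Set G)).subtype = D) : Nat.card {B : Set (Cfsg.IrrCharacter G) // Cfsg.IsPBlock M B ∧ Cfsg.IsDefectGroup p M B D} = (Matrix.of fun i j : ι => ((Nat.card {yz : G × G // yz.1 ∈ (K i).carrier ∧ yz.2 ∈ (K j).carrier ∧ yz.2 * yz.1⁻¹ ∈ (S : Subgroup G)} / p ^ ((Nat.card G).factorization p - (Nat.card D).factorization p) : ℕ) : ZMod p)).rank := by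
  classical
  have := BlockB.charP_k hM
  set d := (Nat.card D).factorization p with hd
  let x : ι → G := fun i => (K i).out
  have hxK : ∀ i y, y ∈ (K i).carrier ↔ IsConj (x i) y := fun i y => by
    rw [ConjClasses.mem_carrier_iff_mk_eq, isConj_comm, ← ConjClasses.mk_eq_mk_iff_isConj]
    exact Iff.of_eq (congrArg _ (Quotient.out_eq (K i)).symm)
  have hx : ∀ i j, IsConj (x i) (x j) → i = j := fun i j hij =>
    hKinj ((Quotient.out_eq (K i)).symm.trans
      ((ConjClasses.mk_eq_mk_iff_isConj.2 hij).trans (Quotient.out_eq (K j))))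
  have hK' : ∀ y, (∃ i, IsConj (x i) y) ↔ ¬ p ∣ orderOf y ∧ IsSyl p D (BlockB.Cen y) := fun y => by
    simp only [← hxK, ConjClasses.mem_carrier_iff_mk_eq, eq_comm (a := ConjClasses.mk y), hK]
    constructor
    · rintro ⟨z, hz, h1, Q, hQ⟩
      obtain ⟨c, rfl⟩ := isConj_iff.1 (ConjClasses.mk_eq_mk_iff_isConj.1 hz)
      refine ⟨by rwa [BlockB.orderOf_conj'], ?_⟩
      rw [BlockB.Cen, centralizer_singleton_conj, ← cjs_eq_of_normal c D]
      exact (isSyl_iff.2 ⟨Q, hQ.symm⟩).cjs c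
    · rintro ⟨h1, h2⟩
      obtain ⟨Q, hQ⟩ := isSyl_iff.1 h2
      exact ⟨y, rfl, h1, Q, hQ.symm⟩
  have hS : ∀ i, IsSyl p D (BlockB.Cen (x i)) := fun i => ((hK' _).1 ⟨i, IsConj.refl _⟩).2
  have hcd : ∀ y, IsSyl p D (BlockB.Cen y) → cdef p y = d := fun y h => by
    rw [hd, h.card_eq, Nat.factorization_pow_self hM.1]
  let 𝓑 := fun B : Set (Cfsg.IrrCharacter G) => Cfsg.IsPBlock M B ∧ Cfsg.IsDefectGroup p M B D
  have hdef : ∀ B, 𝓑 B → Cfsg.blockDefect p B = d := fun B hB => by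
    rw [hd, BlockB.card_defectGroup hM hB.1 hB.2, Nat.factorization_pow_self hM.1]
  have := Fintype.ofFinite {B // 𝓑 B}
  have := Fintype.ofFinite
    {B : Set (Cfsg.IrrCharacter G) // Cfsg.IsPBlock M B ∧ Cfsg.blockDefect p B = d}
  have key : ∀ B B', 𝓑 B → 𝓑 B' → ∀ y, (eb M B').coeff y ≠ 0 → lc M B y ≠ 0 →
      ¬ p ∣ orderOf y ∧ IsSyl p D (BlockB.Cen y) := fun B B' hB hB' y h1 h2 => by
    refine ⟨not_dvd_of_coeff hM hB'.1 h1, ?_⟩
    obtain ⟨E, hE, h3⟩ := exists_defGrp_le_Cen hM hB.1 h2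
    obtain ⟨g, -, hg⟩ := ((isDefectGroup_iff hM hB.1 D).1 hB.2).conj hE (isBlk_eb hM hB.1)
    rw [← hg, cjs_eq_of_normal] at h3
    refine isSyl_of_card h3 ?_
    rw [BlockB.card_defectGroup hM hB.1 hB.2]
    congr 1
    exact le_antisymm (defect_le_cdef hM hB.1 h2)
      ((cdef_le_defect hM hB'.1 h1).trans ((hdef _ hB').trans (hdef _ hB).symm).le)
  have h1 := lc_mul_coeff_eq_one hM (fun B (h : 𝓑 B) => h.1) x hx
    fun B B' hB hB' y h1 h2 => (hK' y).2 (key B B' hB hB' y h1 h2)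
  have h2 := lc_mul_coeff_eq_one hM (fun B (h : 𝓑 B) => h.1) (fun i => (x i)⁻¹)
    (fun i j h => hx i j (isConj_inv_iff'.1 h)) fun B B' hB hB' y h1 h2 => by
      obtain ⟨h3, h4⟩ := key B B' hB hB' y h1 h2
      obtain ⟨i, hi⟩ := (hK' y⁻¹).2 ⟨by rwa [orderOf_inv], by
        rwa [BlockB.Cen, BlockB.centralizer_inv]⟩
      exact ⟨i, by simpa only [inv_inv] using isConj_inv_iff'.2 hi⟩
  rw [← rank_map_field (ZMod.castHom (dvd_refl p) (BlockB.k M)), Nat.card_eq_fintype_card]
  set L1 := Matrix.of fun (B : {B // 𝓑 B}) i => lc M B.1 (x i) with hL1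
  set L2 := Matrix.of fun (B : {B // 𝓑 B}) i => lc M B.1 (x i)⁻¹ with hL2
  set R1 := Matrix.of fun i (B : {B // 𝓑 B}) => (eb M B.1).coeff (x i)
  set R2 := Matrix.of fun i (B : {B // 𝓑 B}) => (eb M B.1).coeff (x i)⁻¹
  let C := Matrix.diagonal fun B : {B // 𝓑 B} => rc p M B.1
  have h3 : (L2.transpose * C * L1).rank = Fintype.card {B // 𝓑 B} := by
    refine le_antisymm ((Matrix.rank_mul_le_left _ _).trans (Matrix.rank_le_card_width _)) ?_
    have h4 : R2.transpose * (L2.transpose * C * L1) * R1 = C := by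
      rw [Matrix.mul_assoc, Matrix.mul_assoc, Matrix.mul_assoc, h1, Matrix.mul_one,
        ← Matrix.mul_assoc, ← Matrix.transpose_mul, h2, Matrix.transpose_one, Matrix.one_mul]
    have h5 : IsUnit C := by
      rw [Matrix.isUnit_diagonal, Pi.isUnit_iff]
      exact fun B => (rc_ne_zero hM B.2.1).isUnit
    rw [← Matrix.rank_of_isUnit _ h5]
    exact (congrArg Matrix.rank h4).ge.trans
      ((Matrix.rank_mul_le_left _ _).trans (Matrix.rank_mul_le_right _ _))
  rw [← h3]
  congr 1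
  ext i j
  have h6 := (robinson hM (isSyl_sylow S) (hcd _ (hS i)) (hcd _ (hS j))).2
  simp only [Matrix.map_apply, Matrix.of_apply, map_natCast, hxK]
  rw [Matrix.mul_apply]
  simp only [Matrix.mul_diagonal, C, Matrix.transpose_apply, hL1, hL2, Matrix.of_apply]
  refine Eq.trans ?_ h6.symm
  refine Finset.sum_of_injOn (fun B => ⟨B.1, B.2.1, hdef _ B.2⟩)
    (fun B _ B' _ h => Subtype.ext (Subtype.ext_iff.1 h :)) (fun _ _ => Finset.mem_univ _)
    (fun B _ hB => ?_) fun _ _ => rfl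
  by_contra h0
  refine hB ⟨⟨B.1, B.2.1, (isDefectGroup_iff hM B.2.1 D).2 (isDefGrp_of_lc hM B.2.1
    (right_ne_zero_of_mul h0) ((hcd _ (hS j)).trans B.2.2.symm).le (hS j))⟩, by simp, rfl⟩

end Cfsg.Agent.S4443
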