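import Cfsg.Statements.S4444
import Cfsg.Agent.Clifford.Glaub

set_option autoImplicit false
open Cfsg

namespace Cfsg.Agent.S4444

/-- The Glauberman correspondence for a p-group of operators. Inside a finite group Γ let S normalise G with the orders of G and S coprime, S a p-group, and let C = G ⊓ C(S) be the fixed points. Call an irreducible character χ of G S-invariant when χ(s g s⁻¹) = χ(g) for s ∈ S, g ∈ G. Then: (i) for every S-invariant χ there is exactly one irreducible character β of C whose multiplicity [χ_C, β] in the restriction of χ is not divisible by p; (ii) that multiplicity is ≡ 1 or ≡ −1 (mod p); (iii) distinct S-invariant χ give distinct β; (iv) every irreducible character of C arises in this way. So χ ↦ β is a bijection from the S-invariant irreducible characters of G onto the irreducible characters of C. -/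
theorem result {Γ : Type*} [Group Γ] [Fintype Γ] (G S : Subgroup Γ) [Fintype G] (hnorm : ∀ s ∈ S, ∀ g ∈ G, s * g * s⁻¹ ∈ G) (hcop : (Nat.card G).Coprime (Nat.card S)) (p : ℕ) (hp : p.Prime) (hS : IsPGroup p S) (C : Subgroup Γ) [Fintype C] (hC : C = G ⊓ Subgroup.centralizer (S : Set Γ)) (hCG : C ≤ G) : (∀ χ : Cfsg.IrrCharacter G, (∀ s ∈ S, ∀ g g' : G, (g' : Γ) = s * g * s⁻¹ → (χ : G → ℂ) g' = (χ : G → ℂ) g) → ∃! β : Cfsg.IrrCharacter C, ∃ m : ℕ, Cfsg.classInner (fun c : C => (χ : G → ℂ) ⟨c, hCG c.2⟩) (β : C → ℂ) = (m : ℂ) ∧ ¬ p ∣ m) ∧ (∀ χ : Cfsg.IrrCharacter G, (∀ s ∈ S, ∀ g g' : G, (g' : Γ) = s * g * s⁻¹ → (χ : G → ℂ) g' = (χ : G → ℂ) g) → ∀ β : Cfsg.IrrCharacter C, ∀ m : ℕ, Cfsg.classInner (fun c : C => (χ : G → ℂ) ⟨c, hCG c.2⟩) (β : C → ℂ) = (m : ℂ) → ¬ p ∣ m → ((m : ℤ) ≡ 1 [ZMOD p] ∨ (m : ℤ) ≡ -1 [ZMOD p])) ∧ (∀ χ χ' : Cfsg.IrrCharacter G, (∀ s ∈ S, ∀ g g'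 : G, (g' : Γ) = s * g * s⁻¹ → (χ : G → ℂ) g' = (χ : G → ℂ) g) → (∀ s ∈ S, ∀ g g' : G, (g' : Γ) = s * g * s⁻¹ → (χ' : G → ℂ) g' = (χ' : G → ℂ) g) → ∀ β : Cfsg.IrrCharacter C, ∀ m m' : ℕ, Cfsg.classInner (fun c : C => (χ : G → ℂ) ⟨c, hCG c.2⟩) (β : C → ℂ) = (m : ℂ) → ¬ p ∣ m → Cfsg.classInner (fun c : C => (χ' : G → ℂ) ⟨c, hCG c.2⟩) (β : C → ℂ) = (m' : ℂ) → ¬ p ∣ m' → χ = χ') ∧ (∀ β : Cfsg.IrrCharacter C, ∃ χ : Cfsg.IrrCharacter G, (∀ s ∈ S, ∀ g g' : G, (g' : Γ) = s * g * s⁻¹ → (χ : G → ℂ) g' = (χ : G → ℂ) g) ∧ ∃ m : ℕ, Cfsg.classInner (fun c : C => (χ : G → ℂ) ⟨c, hCG c.2⟩) (β : C → ℂ) = (m : ℂ) ∧ ¬ p ∣ m) := by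
  open CF.Clifford CF.Char in
  have B := bij_pgroup hp hS G (ambAut G S hnorm) (Subgroup.inclusion hCG) hcop.symm
    (Subgroup.inclusion_injective hCG) (fix_amb hnorm hC hCG)
  have key : ∀ (χ : IrrCharacter G) (β : C → ℂ), IsIrrCharacter C β →
      PCorr p (Subgroup.inclusion hCG) χ β → ∀ (γ : IrrCharacter C) (m : ℕ),
      classInner (fun c : C => (χ : G → ℂ) ⟨c, hCG c.2⟩) (γ : C → ℂ) = m → (¬ p ∣ m ↔ β = γ) :=
    fun χ β a b γ m e => by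
      rw [← Int.natCast_dvd_natCast]
      exact b.not_dvd_iff hp a γ.2 (m := m) (e.trans (Int.cast_natCast m).symm)
  have nat : ∀ (χ : IrrCharacter G) (γ : IrrCharacter C), ∃ m : ℕ,
      classInner (fun c : C => (χ : G → ℂ) ⟨c, hCG c.2⟩) (γ : C → ℂ) = m := fun χ γ =>
    inner_char_eq_nat (char_comp (irr_isCharacter χ.2) (Subgroup.inclusion hCG)) (irr_isCharacter γ.2)
  refine ⟨fun χ h => ?_, fun χ h β m e d => ?_, fun χ χ' h h' β m m' e d e' d' => ?_, fun β => ?_⟩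
  · obtain ⟨β, a, -, b⟩ := B.ex χ χ.2 ((invA_amb hnorm).2 h)
    obtain ⟨m, e⟩ := nat χ ⟨β, a⟩
    exact ⟨⟨β, a⟩, ⟨m, e, (key χ β a b _ m e).2 rfl⟩, fun γ ⟨n, e', d⟩ =>
      Subtype.ext ((key χ β a b γ n e').1 d).symm⟩
  · obtain ⟨γ, a, -, b⟩ := B.ex χ χ.2 ((invA_amb hnorm).2 h)
    obtain rfl := (key χ γ a b β m e).1 d
    obtain ⟨ε, hε, f⟩ := b.inner a
    obtain ⟨n, h1, h2⟩ := f _ a
    obtain rfl : n = m := by exact_mod_cast h1.symm.trans e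
    rw [if_pos rfl] at h2
    rcases hε with rfl | rfl
    exacts [.inl h2, .inr h2]
  · obtain ⟨γ, a, -, b⟩ := B.ex χ χ.2 ((invA_amb hnorm).2 h)
    obtain ⟨γ', a', -, b'⟩ := B.ex χ' χ'.2 ((invA_amb hnorm).2 h')
    obtain rfl := (key χ γ a b β m e).1 d
    obtain rfl := (key χ' γ' a' b' β m' e').1 d'
    exact Subtype.ext (B.inj _ _ _ χ.2 χ'.2 a ((invA_amb hnorm).2 h) ((invA_amb hnorm).2 h')
      trivial b b')
  · obtain ⟨χ, a, b, c⟩ := B.surj β β.2 trivial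
    obtain ⟨m, e⟩ := nat ⟨χ, a⟩ β
    exact ⟨⟨χ, a⟩, (invA_amb hnorm).1 b, m, e, (key ⟨χ, a⟩ β β.2 c β m e).2 rfl⟩

end Cfsg.Agent.S4444
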