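import Cfsg.Statements.S4445
import Cfsg.Agent.Clifford.Glaub
import Cfsg.Agent.Coprime.Glauberman

set_option autoImplicit false
open Cfsg

namespace Cfsg.Agent.S4445

/-- Inside a finite group Γ let the solvable subgroup S normalise G with the orders of G and S coprime. Then the number of S-invariant irreducible characters of G (χ(s g s⁻¹) = χ(g) for all s ∈ S, g ∈ G) equals the number of conjugacy classes of G mapped to themselves by conjugation by every element of S. -/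
theorem result {Γ : Type*} [Group Γ] [Fintype Γ] (G S : Subgroup Γ) [Fintype G] (hnorm : ∀ s ∈ S, ∀ g ∈ G, s * g * s⁻¹ ∈ G) (hcop : (Nat.card G).Coprime (Nat.card S)) (hsolv : Group.IsSolvable S) : Nat.card {χ : Cfsg.IrrCharacter G // (∀ s ∈ S, ∀ g g' : G, (g' : Γ) = s * g * s⁻¹ → (χ : G → ℂ) g' = (χ : G → ℂ) g)} = Nat.card {K : ConjClasses G // ∀ s ∈ S, ∀ g g' : G, (g' : Γ) = s * g * s⁻¹ → ConjClasses.mk g = K → ConjClasses.mk g' = K} := by
  open CF.Clifford CF.Char in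
  classical
  let C := G ⊓ Subgroup.centralizer (S : Set Γ)
  have hCG : C ≤ G := inf_le_left
  have := Fintype.ofFinite C
  obtain ⟨R, B, -⟩ := bij_solvable G (ambAut G S hnorm) (Subgroup.inclusion hCG) hcop.symm
    (Subgroup.inclusion_injective hCG) (fix_amb hnorm rfl hCG)
  have e := B.card_eq
  simp only [invA_amb] at e
  rw [e, Nat.card_congr (Equiv.subtypeUnivEquiv fun _ => trivial), card_irr]
  have n : S ≤ Subgroup.normalizer (G : Set Γ) := fun x hx =>
    Subgroup.mem_normalizer_iff.2 fun h => ⟨hnorm x hx h, fun k => by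
      simpa [mul_assoc] using hnorm x⁻¹ (S.inv_mem hx) _ k⟩
  refine Nat.card_congr (Equiv.ofBijective (fun K => ⟨K.map (Subgroup.inclusion hCG), ?_⟩)
    ⟨fun K L h => ?_, fun K => ?_⟩)
  · intro s hs g g' e h
    obtain ⟨c, rfl⟩ := ConjClasses.exists_rep K
    obtain ⟨x, hx⟩ := isConj_iff.1 (ConjClasses.mk_eq_mk_iff_isConj.1 h)
    refine ConjClasses.mk_eq_mk_iff_isConj.2 (isConj_iff.2 ⟨⟨_, hnorm s hs x x.2⟩, Subtype.ext ?_⟩)
    have h1 : (x : Γ) * g * (x : Γ)⁻¹ = c := congrArg Subtype.val hx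
    have h2 : s * c = c * s := c.2.2 s hs
    change s * x * s⁻¹ * g' * (s * x * s⁻¹)⁻¹ = c
    rw [e, ← mul_inv_cancel_right (c : Γ) s, ← h2, ← h1]; group
  · obtain ⟨c, rfl⟩ := ConjClasses.exists_rep K
    obtain ⟨d, rfl⟩ := ConjClasses.exists_rep L
    obtain ⟨x, hx⟩ := isConj_iff.1 (ConjClasses.mk_eq_mk_iff_isConj.1 (congrArg Subtype.val h))
    have h1 : (x : Γ) * c * (x : Γ)⁻¹ = d := congrArg Subtype.val hx
    have f : ∀ y : C, ∀ a ∈ S, ConjAct.toConjAct a • (y : Γ) = y := fun y a ha => by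
      rw [ConjAct.toConjAct_smul, y.2.2 a ha, mul_inv_cancel_right]
    let _ : MulAction Γ Γ := MulAction.compHom Γ (ConjAct.toConjAct (G := Γ)).toMonoidHom
    obtain ⟨y, hy, e⟩ := CF.Coprime.exists_centralizer_smul_eq (X := Γ) S G n hcop.symm (.inl hsolv)
      (c : Γ) x x.2 (f c) fun a ha => by
        change ConjAct.toConjAct a • ((x : Γ) * c * (x : Γ)⁻¹) = x * c * (x : Γ)⁻¹
        rw [h1, f d a ha]
    exact ConjClasses.mk_eq_mk_iff_isConj.2 (isConj_iff.2 ⟨⟨y, hy⟩, Subtype.ext (e.trans h1)⟩)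
  · obtain ⟨K, hK⟩ := K
    obtain ⟨g, rfl⟩ := ConjClasses.exists_rep K
    let _ : MulAction Γ Γ := MulAction.compHom Γ (ConjAct.toConjAct (G := Γ)).toMonoidHom
    obtain ⟨k, hk, e⟩ := CF.Coprime.exists_fixed_of_orbit (X := Γ) S G n hcop.symm (.inl hsolv)
      (g : Γ) fun a ha => by
        obtain ⟨x, hx⟩ := isConj_iff.1 (ConjClasses.mk_eq_mk_iff_isConj.1
          (hK a ha g ⟨_, hnorm a ha g g.2⟩ rfl rfl).symm)
        exact ⟨x, x.2, congrArg Subtype.val hx⟩
    refine ⟨ConjClasses.mk ⟨k * g * k⁻¹, G.mul_mem (G.mul_mem hk g.2) (G.inv_mem hk), fun a ha =>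
      mul_inv_eq_iff_eq_mul.1 (e a ha)⟩, Subtype.ext (ConjClasses.mk_eq_mk_iff_isConj.2
        (isConj_iff.2 ⟨(⟨k, hk⟩ : G), rfl⟩).symm)⟩

end Cfsg.Agent.S4445
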