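import Cfsg.Statements.S4447
import Cfsg.Agent.Clifford.GlaubApp

set_option autoImplicit false
open Cfsg

namespace Cfsg.Agent.S4447

/-- Inside a finite group Γ let S normalise G and also normalise a normal subgroup N of G, with the order of S coprime to the index of N in G and S or G/N solvable. Then for every S-invariant irreducible character χ of G, the restriction of χ to N has an S-invariant irreducible constituent. -/
theorem result {Γ : Type*} [Group Γ] [Fintype Γ] (G S N : Subgroup Γ) [Fintype G] [Fintype N] (hnorm : ∀ s ∈ S, ∀ g ∈ G, s * g * s⁻¹ ∈ G) (hNG : N ≤ G) [hNn : (N.subgroupOf G).Normal] (hNS : ∀ s ∈ S, ∀ n ∈ N, s * n * s⁻¹ ∈ N) (hcop : (N.relIndex G).Coprime (Nat.card S)) (hsolv : Group.IsSolvable S ∨ Group.IsSolvable (G ⧸ N.subgroupOf G)) (χ : Cfsg.IrrCharacter G) (hinv : (∀ s ∈ S, ∀ g g' : G, (g' : Γ) = s * g * s⁻¹ → (χ : G → ℂ) g' = (χ : G → ℂ) g)) : ∃ θ : Cfsg.IrrCharacter N, Cfsg.classInner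 (fun n : N => (χ : G → ℂ) ⟨n, hNG n.2⟩) (θ : N → ℂ) ≠ 0 ∧ (∀ s ∈ S, ∀ g g' : N, (g' : Γ) = s * g * s⁻¹ → (θ : N → ℂ) g' = (θ : N → ℂ) g) := by
  open CF.Clifford CF.Char in
  have le : N ≤ G ⊔ S := hNG.trans le_sup_left
  have nm : ∀ {K : Subgroup Γ}, (∀ g ∈ G, ∀ n ∈ K, g * n * g⁻¹ ∈ K) →
      (∀ g ∈ S, ∀ n ∈ K, g * n * g⁻¹ ∈ K) → ∀ g ∈ G ⊔ S, ∀ n ∈ K, g * n * g⁻¹ ∈ K :=
    fun {K} a b g hg n hn => (Subgroup.mem_normalizer_iff.1 ((sup_le
      (fun x hx => Subgroup.mem_normalizer_fintype (a x hx))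
      (fun x hx => Subgroup.mem_normalizer_fintype (b x hx)) :
      G ⊔ S ≤ Subgroup.normalizer (K : Set Γ)) hg) n).1 hn
  have nN : ∀ g ∈ G, ∀ n ∈ N, g * n * g⁻¹ ∈ N := fun g hg n hn =>
    hNn.conj_mem ⟨n, hNG hn⟩ hn ⟨g, hg⟩
  have : (G.subgroupOf (G ⊔ S)).Normal := ⟨fun x hx g =>
    nm (fun a ha b hb => G.mul_mem (G.mul_mem ha hb) (G.inv_mem ha)) hnorm g g.2 x hx⟩
  let e' := Subgroup.subgroupOfEquivOfLe (le_sup_right : S ≤ G ⊔ S)
  let E := NormalEmb.ofLe le (nm nN hNS)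
  let F := NormalEmb.ofLe hNG nN
  obtain ⟨θ, a, b⟩ := exists_irr_constituent_comp F.ι χ.2
  have r : E.ι.range = N.subgroupOf (G ⊔ S) := Subgroup.inclusion_range le
  obtain ⟨k, hk, f⟩ := exists_conj_mem_rel E.ι.range (S.subgroupOf (G ⊔ S)) (G.subgroupOf (G ⊔ S))
    (E.inertia θ) (E.range_le_inertia (irr_isClassFunction a)) Subgroup.le_normalizer_of_normal
    (by rw [Nat.card_congr e'.toEquiv, r, Subgroup.relIndex_subgroupOf le_sup_left]; exact hcop.symm)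
    (hsolv.imp (fun h => by
      have := h
      exact Group.isSolvable_of_surjective (f := e'.symm.toMonoidHom) e'.symm.surjective) fun h => by
      have := h
      have := isSolvable_map_mk E.ι.range (Subgroup.inclusion (le_sup_left : G ≤ G ⊔ S))
        (N.subgroupOf G) fun x hx => ⟨⟨_, hx⟩, rfl⟩
      rwa [Subgroup.inclusion_range] at this) fun s hs => by
      obtain ⟨g, hg⟩ := F.exists_cj_eq χ.2 a (E.cj_irr a s⁻¹) b (by
        rw [← E.inner_cj_cj _ _ s, E.cj_inv_cj]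
        exact (congrArg (classInner · θ) (funext fun n => hinv s hs _ _ rfl)).trans_ne b)
      exact ⟨(Subgroup.inclusion le_sup_left g)⁻¹, inv_mem g.2, by
        simpa using E.cj_eq_cj_iff.1 (show E.cj θ (Subgroup.inclusion le_sup_left g) = _ from hg)⟩
  refine ⟨⟨_, E.cj_irr a k⁻¹⟩, (F.inner_res_cj (irr_isClassFunction χ.2) θ ⟨k, hk⟩⁻¹).trans_ne b,
    fun s hs g g' h => ?_⟩
  have := (E.cj_eq_cj_iff (h := k⁻¹)).2 (by simpa using f ⟨s, le_sup_right (a := G) hs⟩ hs)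
  rw [E.cj_mul] at this
  exact (congrArg _ (Subtype.ext h)).trans (congrFun this g)

end Cfsg.Agent.S4447
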