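import Cfsg.Statements.S4449
import Cfsg.Agent.Clifford.GlaubApp

set_option autoImplicit false
open Cfsg

namespace Cfsg.Agent.S4449

/-- Inside a finite group Γ let the solvable subgroup S normalise G with the orders of G and S coprime, and let N be a normal subgroup of G normalised by S. Then for every S-invariant irreducible character ϑ of N, the induced character ϑ^G has an S-invariant irreducible constituent. -/
theorem result {Γ : Type*} [Group Γ] [Fintype Γ] (G S N : Subgroup Γ) [Fintype G] [Fintype N] (hnorm : ∀ s ∈ S, ∀ g ∈ G, s * g * s⁻¹ ∈ G) (hNG : N ≤ G) (hNnormal : ∀ g ∈ G, ∀ n ∈ N, g * n * g⁻¹ ∈ N) (hNS : ∀ s ∈ S, ∀ n ∈ N, s * n * s⁻¹ ∈ N) (hcop : (Nat.card G).Coprime (Nat.card S)) (hsolv : Group.IsSolvable S) (θ : Cfsg.IrrCharacter N) (hinv : (∀ s ∈ S, ∀ g g' : N, (g' : Γ) = s * g * s⁻¹ → (θ : N → ℂ) g' = (θ : N → ℂ) g)) : ∃ χ : Cfsg.IrrCharacter G, Cfsg.classInner (fun n :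 N => (χ : G → ℂ) ⟨n, hNG n.2⟩) (θ : N → ℂ) ≠ 0 ∧ (∀ s ∈ S, ∀ g g' : G, (g' : Γ) = s * g * s⁻¹ → (χ : G → ℂ) g' = (χ : G → ℂ) g) := by
  open CF.Clifford CF.Char in
  have le : N ≤ G ⊔ S := hNG.trans le_sup_left
  have nm : ∀ {K : Subgroup Γ}, (∀ g ∈ G, ∀ n ∈ K, g * n * g⁻¹ ∈ K) →
      (∀ g ∈ S, ∀ n ∈ K, g * n * g⁻¹ ∈ K) → ∀ g ∈ G ⊔ S, ∀ n ∈ K, g * n * g⁻¹ ∈ K :=
    fun {K} a b g hg n hn => (Subgroup.mem_normalizer_iff.1 ((sup_le
      (fun x hx => Subgroup.mem_normalizer_fintype (a x hx))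
      (fun x hx => Subgroup.mem_normalizer_fintype (b x hx)) :
      G ⊔ S ≤ Subgroup.normalizer (K : Set Γ)) hg) n).1 hn
  have : (G.subgroupOf (G ⊔ S)).Normal := ⟨fun x hx g =>
    nm (fun a ha b hb => G.mul_mem (G.mul_mem ha hb) (G.inv_mem ha)) hnorm g g.2 x hx⟩
  let e := Subgroup.subgroupOfEquivOfLe (le_sup_left : G ≤ G ⊔ S)
  let e' := Subgroup.subgroupOfEquivOfLe (le_sup_right : S ≤ G ⊔ S)
  have := Group.isSolvable_of_surjective (f := e'.symm.toMonoidHom) e'.symm.surjective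
  obtain ⟨χ, a, b, c⟩ := exists_inv_over_of_le_inertia (NormalEmb.ofLe le (nm hNnormal hNS))
    (G.subgroupOf (G ⊔ S)) (S.subgroupOf (G ⊔ S)) (fun n => hNG n.2)
    (by rw [← Subgroup.subgroupOf_sup le_sup_left le_sup_right, Subgroup.subgroupOf_self])
    (by rwa [Nat.card_congr e.toEquiv, Nat.card_congr e'.toEquiv]) θ.2
    fun s hs => (NormalEmb.mem_inertia' _).2 fun n => hinv s hs _ _ rfl
  refine ⟨⟨_, irr_comp_equiv a e.symm⟩, b, fun s hs g g' h => ?_⟩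
  exact (congrArg χ (Subtype.ext (Subtype.ext h))).trans (c ⟨s, le_sup_right (a := G) hs⟩ hs (e.symm g))

end Cfsg.Agent.S4449
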