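import Cfsg.Statements.S4450
import Cfsg.Agent.Clifford.GlaubApp

set_option autoImplicit false
open Cfsg

namespace Cfsg.Agent.S4450

/-- Let N ≤ G be normal subgroups of the finite group Γ with the index of G in Γ coprime to the index of N in G, and Γ/G or G/N solvable. Then for every irreducible character ϑ of N invariant under conjugation by Γ, the induced character ϑ^G has an irreducible constituent invariant under conjugation by Γ. -/
theorem result {Γ : Type*} [Group Γ] [Fintype Γ] (G N : Subgroup Γ) [hG : G.Normal] [hN : N.Normal] [Fintype G] [Fintype N] (hNG : N ≤ G) (hcop : (G.index).Coprime (N.relIndex G)) (hsolv : Group.IsSolvable (Γ ⧸ G) ∨ Group.IsSolvable (G ⧸ N.subgroupOf G)) (θ : Cfsg.IrrCharacter N) (hinv : ∀ (x : Γ) (n : N), (θ : N → ℂ) ⟨x * n * x⁻¹, hN.conj_mem n n.2 x⟩ = (θ : N → ℂ) n) : ∃ χ : Cfsg.IrrCharacter G, Cfsg.classInner (fun n : N => (χ : G → ℂ) ⟨n, hNG n.2⟩) (θ : N → ℂ) ≠ 0 ∧ ∀ (x : Γ) (g : G), (χ : G → ℂ) ⟨x * g * x⁻¹, hG.conj_mem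 g g.2 x⟩ = (χ : G → ℂ) g := by
  open CF.Clifford CF.Char in
  obtain ⟨χ, a, b, c⟩ := exists_inv_over (NormalEmb.sub N) G (fun n => hNG n.2)
    (by simpa using hcop) (hsolv.imp_right fun h => by
      have := h
      have := isSolvable_map_mk (NormalEmb.sub N).ι.range G.subtype (N.subgroupOf G)
        fun x hx => ⟨⟨_, hx⟩, rfl⟩
      rwa [G.range_subtype] at this) θ.2 hinv
  exact ⟨⟨χ, a⟩, b, c⟩

end Cfsg.Agent.S4450
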