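import Cfsg.Statements.S4451
import Cfsg.Agent.Clifford.GlaubApp

set_option autoImplicit false
open Cfsg

namespace Cfsg.Agent.S4451

/-- Let the finite group Γ be generated by a normal subgroup G and a cyclic subgroup S of coprime orders such that every non-identity element of S has the same centraliser C = G ⊓ C(S) in G. Let χ be an S-invariant irreducible character of G, χ̂ its canonical extension to Γ (determinantal order coprime to the order of S), and β the irreducible character of C with χ̂(c s) = ε₀ β(c) for c ∈ C and generators s of S (ε₀ = ±1). Then there are a sign ε = ±1, which may differ from ε₀, and a linear character μ of S with μ² = 1, such that: (a) χ̂(c x) = ε β(c) μ(x) for all c ∈ C and all x ∈ S other than 1; (b) the restriction of χ to C equals |S|·ϑ + ε β for some character ϑ of C or ϑ = 0; (c) |S| divides χ(1) − ε β(1). -/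
theorem result {Γ : Type*} [Group Γ] [Fintype Γ] (G S : Subgroup Γ) [Fintype G] (hnorm : ∀ s ∈ S, ∀ g ∈ G, s * g * s⁻¹ ∈ G) (hcop : (Nat.card G).Coprime (Nat.card S)) (htop : G ⊔ S = ⊤) (hcyc : IsCyclic S) (C : Subgroup Γ) [Fintype C] (hC : C = G ⊓ Subgroup.centralizer (S : Set Γ)) (hCG : C ≤ G) (hfpf : ∀ x ∈ S, x ≠ 1 → G ⊓ Subgroup.centralizer ({x} : Set Γ) = C) (χ : Cfsg.IrrCharacter G) (hinv : (∀ s ∈ S, ∀ g g' : G, (g' : Γ) = s * g * s⁻¹ → (χ : G → ℂ) g' = (χ : G → ℂ) g)) (χh : Cfsg.IrrCharacter Γ) (hext : (∀ g : G, (χh : Γ → ℂ) g = (χ : G → ℂ) g)) (hdet : (Cfsg.detOrder (χh : Γ → ℂ)).Coprime (Nat.card S)) (β : Cfsg.IrrCharacter C) (ε₀ : ℤ) (hε₀ : ε₀ = 1 ∨ ε₀ = -1) (hβ : ∀ c : C, ∀ s : Γ, Subgroup.zpowers s = S → (χh : Γ → ℂ) ((c : Γ) * s) = (ε₀ : ℂ) * (β : C → ℂ) c) : ∃ ε : ℤ, (ε = 1 ∨ ε = -1) ∧ (∃ μ : S → ℂ, Cfsg.IsCharacter S μ ∧ μ 1 = 1 ∧ (∀ x : S, μ x * μ x = 1) ∧ ∀ c : C, ∀ x : S, x ≠ 1 → (χh : Γ → ℂ) ((c : Γ) * x) = (ε :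 ℂ) * (β : C → ℂ) c * μ x) ∧ (∃ ϑ : C → ℂ, Cfsg.IsCharacter C ϑ ∧ (fun c : C => (χ : G → ℂ) ⟨c, hCG c.2⟩) = fun c => (Nat.card S : ℂ) * ϑ c + (ε : ℂ) * (β : C → ℂ) c) ∧ (Nat.card S : ℤ) ∣ (Cfsg.charDegree (χ : G → ℂ) : ℤ) - ε * (Cfsg.charDegree (β : C → ℂ) : ℤ) := by
  open CF.Clifford CF.Char in
  classical
  have n := normal_amb hnorm htop
  obtain ⟨s, rfl⟩ := (Subgroup.isCyclic_iff_exists_zpowers_eq_top S).1 hcyc
  obtain ⟨b, -, hb⟩ := irr_one_eq_nat β.2
  obtain ⟨d, -, hd⟩ := irr_one_eq_nat χ.2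
  have db : charDegree (β : C → ℂ) = b := by simp [charDegree, hb]
  have dd : charDegree (χ : G → ℂ) = d := by simp [charDegree, hd]
  rcases (Subgroup.zpowers s).bot_or_nontrivial with h1 | h1
  · have : ∀ x : Subgroup.zpowers s, x = 1 := fun x => Subtype.ext (Subgroup.mem_bot.1 (h1 ▸ x.2))
    refine ⟨ε₀, hε₀, ⟨fun _ => 1, char_const_one, rfl, fun _ => one_mul 1,
      fun c x h => (h (this x)).elim⟩, ⟨0, isCharacter_zero, funext fun c => ?_⟩, by simp [h1]⟩
    simpa [← hext] using hβ c 1 (by simp [h1])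
  let E := NormalEmb.sub G
  have hi : E.index = Nat.card (Subgroup.zpowers s) := index_amb hcop htop
  have hI : E.index.Coprime (Nat.card G) := hi ▸ hcop.symm
  have h : ∀ x ∈ Subgroup.zpowers s, x ≠ 1 → CycSetup E x (Subgroup.inclusion hCG) := fun x hx x1 =>
    cyc_amb (hcop.symm.coprime_dvd_left (Subgroup.orderOf_dvd_natCard _ hx)) (hfpf x hx x1) hCG
  have s1 : s ≠ 1 := by rintro rfl; simp at h1; exact not_nontrivial _ h1
  have can : E.Canon χh :=
    ⟨χh.2, by rw [show (fun g => (χh : Γ → ℂ) (E.ι g)) = χ from funext hext]; exact χ.2, hi ▸ hdet.symm⟩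
  have z := fun γ (hγ : IsIrrCharacter C γ) => (h s (Subgroup.mem_zpowers s) s1).char_zeta
    (irr_isCharacter χh.2) (irr_isCharacter hγ)
  have val : ∀ {x : Γ} {ε : ℤ} {γ}, (∀ c : C, (χh : Γ → ℂ) (c * x) = ε * γ c) → ∀ δ,
      classInner (fun c => (χh : Γ → ℂ) (E.ι (Subgroup.inclusion hCG c) * x)) δ =
        ε * classInner γ δ := fun e δ => by
    rw [← CF.Char.inner_smul_left]; exact congrArg (classInner · δ) (funext e)
  have key : ∀ k : ℕ, s ^ k ≠ 1 → ∃ ε : ℤ, (ε = 1 ∨ ε = -1) ∧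
      ∀ c : C, (χh : Γ → ℂ) (c * s ^ k) = ε * (β : C → ℂ) c := fun k => by
    induction k using induction_on_primes with
    | zero => simp
    | one => exact fun _ => ⟨ε₀, hε₀, fun c => by rw [pow_one]; exact hβ c s rfl⟩
    | prime_mul p a hp ih =>
      intro k
      obtain ⟨ε, h1, h2⟩ := ih fun e => k (by rw [pow_mul', e, one_pow])
      obtain ⟨γ, δ, h3, h4, h5⟩ := (h _ (pow_mem (Subgroup.mem_zpowers s) _) k).exists_sign hI can
      by_cases e : γ = β
      · exact ⟨δ, h4, e ▸ h5⟩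
      obtain ⟨c, c1, c2⟩ := char_pow_prime_pow (z β β.2) hp 1 ⟨_, pow_mem (Subgroup.mem_zpowers s) a⟩
      simp only [pow_one, SubgroupClass.coe_pow, ← pow_mul', val h2, val h5, inner_irr_self β.2,
        inner_irr_ne h3 β.2 e, mul_one, mul_zero, zero_add] at c2
      have p0 : (p : ℂ) ≠ 0 := by exact_mod_cast hp.ne_zero
      have := int_dvd_of_isIntegral_div (a := ε ^ p) (b := p) (by exact_mod_cast hp.ne_zero) (by
        push_cast; rwa [c2, mul_div_cancel_left₀ _ p0])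
      have := (Nat.prime_iff_prime_int.1 hp).dvd_of_dvd_pow this
      exact absurd (isUnit_of_dvd_unit this (by rcases h1 with rfl | rfl <;> simp))
        (Nat.prime_iff_prime_int.1 hp).not_isUnit
  have key' : ∀ x : Subgroup.zpowers s, x ≠ 1 → ∃ ε : ℤ, (ε = 1 ∨ ε = -1) ∧
      ∀ c : C, (χh : Γ → ℂ) (c * x) = ε * (β : C → ℂ) c := fun x x1 => by
    obtain ⟨k, hk⟩ := (mem_powers_iff_mem_zpowers (x := s) (y := x)).2 x.2
    rw [← hk]
    exact key k fun e => x1 (Subtype.ext (hk.symm.trans e))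
  have hc : ∀ a b : Subgroup.zpowers s, a * b = b * a := fun a b => mul_comm' a b
  obtain ⟨m, ε, μ, h1, h2, h3, h4⟩ := exists_reg_add_sign hc (z β β.2) fun x x1 => by
    obtain ⟨ε, a, b⟩ := key' x x1
    rw [val b, inner_irr_self β.2]
    rcases a with rfl | rfl <;> simp
  have μ1 := irr_one_eq_one_of_comm hc h2
  have e : ∀ x, x ≠ 1 → ∀ δ : ℤ, (∀ c : C, (χh : Γ → ℂ) (c * x.1) = δ * (β : C → ℂ) c) →
      (δ : ℂ) = ε * μ x := fun x x1 δ f => by
    rw [← h4 x x1, val f, inner_irr_self β.2, mul_one]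
  have N0 := card_ne_zero_complex (G := Subgroup.zpowers s)
  have cr := char_comp (irr_isCharacter χ.2) (Subgroup.inclusion hCG)
  have := Fintype.ofFinite (Subgroup.zpowers s)
  have t : IsCharacter C ((Nat.card (Subgroup.zpowers s) : ℂ)⁻¹ •
      ((fun c => (χ : G → ℂ) (Subgroup.inclusion hCG c)) - (ε : ℂ) • (β : C → ℂ))) :=
    char_of_inner_nat (classFun_smul _ (classFun_sub (char_isClassFunction cr) (classFun_smul _
      (irr_isClassFunction β.2)))) fun γ hγ => by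
      rw [CF.Char.inner_smul_left, CF.Char.inner_sub_left, CF.Char.inner_smul_left]
      simp only [← hext]
      by_cases f : β = γ
      · subst f
        simp only [OneMemClass.coe_one, mul_one] at h3
        exact ⟨m, by rw [inner_irr_self β.2, show classInner (fun c =>
          (χh : Γ → ℂ) (Subgroup.inclusion hCG c)) _ = _ from h3]; field_simp; ring⟩
      · obtain ⟨n, hn⟩ := inner_char_eq_nat (z γ hγ) char_const_one
        rw [inner_one_right, Finset.sum_eq_single 1 (fun x _ x1 => by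
          obtain ⟨δ, -, b⟩ := key' x x1
          rw [val b, inner_irr_ne β.2 hγ f, mul_zero]) (by simp)] at hn
        simp only [OneMemClass.coe_one, mul_one] at hn
        exact ⟨n, by rw [inner_irr_ne β.2 hγ f, mul_zero, sub_zero]; exact hn⟩
  refine ⟨ε, h1, ⟨μ, irr_isCharacter h2, μ1, fun x => ?_, fun c x x1 => ?_⟩,
    ⟨_, t, funext fun c => by
      rw [Pi.smul_apply, smul_eq_mul, mul_inv_cancel_left₀ N0]; exact (sub_add_cancel _ _).symm⟩, ?_⟩
  · by_cases x1 : x = 1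
    · rw [x1, μ1, one_mul]
    obtain ⟨δ, a, b⟩ := key' x x1
    have := congrArg (· ^ 2) (e x x1 δ b)
    rcases a with rfl | rfl <;> rcases h1 with rfl | rfl <;> simpa [sq] using this.symm
  · obtain ⟨δ, a, b⟩ := key' x x1
    rw [b, e x x1 δ b]; ring
  · obtain ⟨k, hk⟩ := char_one_eq_nat t
    simp only [Pi.smul_apply, Pi.sub_apply, map_one, hd, hb, smul_eq_mul, inv_mul_eq_iff_eq_mul₀ N0] at hk
    rw [db, dd]
    exact ⟨k, by exact_mod_cast hk⟩

end Cfsg.Agent.S4451
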