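import Cfsg.Statements.S4452
import Cfsg.Agent.Clifford.GlaubApp

set_option autoImplicit false
open Cfsg

namespace Cfsg.Agent.S4452

open CF.Clifford CF.Char in
theorem count {N G H : Type*} [Group N] [Group G] [Group H] [Finite N] [Finite G] [Finite H]
    (E : NormalEmb N G) (i : H →* G) (sup : ∀ x, ∃ y, ∃ r ∈ E.ι.range, x = i y * r)
    (inf : ∀ y, i y ∈ E.ι.range → y = 1) (cop : (Nat.card N).Coprime (Nat.card H)) :
    Nat.card {χ : IrrCharacter G // (charDegree (χ : G → ℂ)).Coprime (Nat.card H)} =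
      Nat.card {θ : IrrCharacter N // ∀ y n, (θ : N → ℂ) (E.c (i y) n) = (θ : N → ℂ) n} *
        Nat.card (H →* ℂˣ) := by
  have := Fintype.ofFinite N
  have := Fintype.ofFinite G
  have hi : E.index = Nat.card H := (Nat.card_congr (Equiv.ofBijective
    ((QuotientGroup.mk' E.ι.range).comp i) ⟨(injective_iff_map_eq_one _).2 fun y hy =>
      inf y ((QuotientGroup.eq_one_iff _).1 hy), fun x => by
        obtain ⟨x, rfl⟩ := QuotientGroup.mk_surjective x
        obtain ⟨y, r, hr, rfl⟩ := sup x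
        exact ⟨y, QuotientGroup.eq.2 (by simpa using hr)⟩⟩)).symm
  have inv : ∀ θ : IrrCharacter N, (∀ y n, (θ : N → ℂ) (E.c (i y) n) = (θ : N → ℂ) n) →
      E.Invariant θ := fun θ h x n => by
    obtain ⟨y, _, ⟨m, rfl⟩, rfl⟩ := sup x
    rw [E.c_mul, h, E.c_ι, irr_isClassFunction θ.2]
  choose f a b using fun θ : {θ : IrrCharacter N // ∀ y n, (θ : N → ℂ) (E.c (i y) n) = (θ : N → ℂ) n} =>
    E.exists_ext_of_coprime_card θ.1.2 (inv θ.1 θ.2) (hi ▸ cop.symm)
  choose l c d using fun μ : H →* ℂˣ => exists_hom_of_sup i E.ι.range sup μ fun y hy => by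
    rw [inf y hy, map_one]
  have k : ∀ θ μ, (charDegree fun g => (l μ g : ℂ) * f θ g).Coprime (Nat.card H) := fun θ μ => by
    obtain ⟨n, -, hn⟩ := irr_one_eq_nat θ.1.2
    have := b θ 1
    rw [map_one, hn] at this
    simpa [charDegree, this] using cop.coprime_dvd_left (irr_one_dvd_card θ.1.2 hn)
  rw [← Nat.card_prod]
  refine (Nat.card_congr (Equiv.ofBijective
    (fun x => ⟨⟨_, irr_linear_mul (l x.2) (a x.1)⟩, k x.1 x.2⟩) ⟨?_, ?_⟩)).symm
  · rintro ⟨θ, μ⟩ ⟨φ, ν⟩ h
    have h : (fun g => (l μ g : ℂ) * f θ g) = fun g => (l ν g : ℂ) * f φ g := congrArg (·.1.1) h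
    obtain rfl : θ = φ := Subtype.ext (Subtype.ext (funext fun n => by
      simpa [c _ _ ⟨n, rfl⟩, b] using congrFun h (E.ι n)))
    have := linear_injective (E.eq_of_mul_ext θ.1.2 (irr_isCharacter (a θ)) (b θ) (irr_linear (l μ))
      (irr_linear (l ν)) (fun n => by simp [c _ _ ⟨n, rfl⟩]) (fun n => by simp [c _ _ ⟨n, rfl⟩]) h)
    exact Prod.ext rfl (MonoidHom.ext fun y => by rw [← d, this, d])
  · rintro ⟨χ, h⟩
    obtain ⟨θ, hθ, h1⟩ := exists_irr_constituent_comp E.ι χ.2
    obtain ⟨k, h2, h3⟩ := E.exists_deg_eq_mul hθ χ.2 h1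
    obtain ⟨n, -, hn⟩ := irr_one_eq_nat hθ
    have : charDegree (χ : G → ℂ) = k * n := by
      rw [charDegree, h3, hn, ← Nat.cast_mul]; exact Nat.floor_natCast _
    obtain rfl : k = 1 := Nat.eq_one_of_dvd_coprimes h (this ▸ dvd_mul_right _ _) (hi ▸ h2)
    have e := CF.Clifford.eq_of_inner_ne_zero_of_one_eq (char_comp (irr_isCharacter χ.2) E.ι) hθ h1
      (by simpa using h3)
    let t : {θ : IrrCharacter N // ∀ y n, (θ : N → ℂ) (E.c (i y) n) = (θ : N → ℂ) n} :=
      ⟨⟨θ, hθ⟩, fun y => e ▸ E.invariant_res (irr_isClassFunction χ.2) (i y)⟩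
    obtain ⟨lam, p, q⟩ := E.exists_linear_of_ext hθ (irr_isCharacter (a t)) (irr_isCharacter χ.2)
      (b t) (congrFun e)
    have : l (lam.comp i) = lam := MonoidHom.ext fun x => by
      obtain ⟨y, _, ⟨m, rfl⟩, rfl⟩ := sup x
      rw [map_mul, map_mul, d, c _ _ ⟨m, rfl⟩, p]; rfl
    exact ⟨(t, lam.comp i), Subtype.ext (Subtype.ext (by simp only [this, q]))⟩

/-- Let the finite group G be the product of a normal subgroup K and a solvable subgroup H of coprime orders, and let N = N_G(H). Then the number of irreducible characters of G of degree coprime to the order of H equals the number of irreducible characters of N of degree coprime to the order of H. (The two sets are in fact in a canonical bijection; only the equality of their sizes is stated here.) -/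
theorem result {G : Type*} [Group G] [Finite G] (K H : Subgroup G) [K.Normal] (hKH : K ⊔ H = ⊤) (hcop : (Nat.card K).Coprime (Nat.card H)) (hsolv : Group.IsSolvable H) : Nat.card {χ : Cfsg.IrrCharacter G // (Cfsg.charDegree (χ : G → ℂ)).Coprime (Nat.card H)} = Nat.card {η : Cfsg.IrrCharacter (Subgroup.normalizer (H : Set G)) // (Cfsg.charDegree (η : Subgroup.normalizer (H : Set G) → ℂ)).Coprime (Nat.card H)} := by
  open CF.Clifford CF.Char in
  have hn : ∀ s ∈ H, ∀ g ∈ K, s * g * s⁻¹ ∈ K := fun s _ g hg => Subgroup.Normal.conj_mem ‹_› g hg s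
  have dj : ∀ {x : G}, x ∈ K → x ∈ H → x = 1 := Subgroup.disjoint_def.1 (Subgroup.disjoint_of_coprime_natCard hcop)
  let C := K ⊓ Subgroup.centralizer (H : Set G)
  have := Fintype.ofFinite C
  obtain ⟨R, B, -⟩ := bij_solvable K (ambAut K H hn) (Subgroup.inclusion (inf_le_left : C ≤ K))
    hcop.symm (Subgroup.inclusion_injective _) (fix_amb hn rfl _)
  have e := B.card_eq
  simp only [invA_range] at e
  have cm : ∀ x ∈ Subgroup.normalizer (H : Set G), x ∈ K → x ∈ C := fun x a b => ⟨b, fun y hy => by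
    have := dj (K.mul_mem (hn y hy x b) (K.inv_mem b)) (by
      rw [mul_assoc, mul_assoc, ← mul_assoc x]
      exact H.mul_mem hy ((Subgroup.mem_normalizer_iff.1 a _).1 (H.inv_mem hy)))
    rwa [mul_inv_eq_one, mul_inv_eq_iff_eq_mul] at this⟩
  have le : C ≤ Subgroup.normalizer (H : Set G) :=
    inf_le_right.trans (Subgroup.centralizer_le_normalizer _)
  let F := NormalEmb.ofLe le fun t ht n hn => cm _ (mul_mem (mul_mem ht (le hn)) (inv_mem ht))
    (Subgroup.Normal.conj_mem ‹_› n hn.1 t)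
  rw [count (NormalEmb.sub K) H.subtype (fun x => by
      obtain ⟨y, hy, r, hr, h⟩ := Subgroup.mem_sup_of_normal_right.1
        (sup_comm K H ▸ hKH ▸ Subgroup.mem_top x : x ∈ H ⊔ K)
      exact ⟨⟨y, hy⟩, r, ⟨⟨r, hr⟩, rfl⟩, h.symm⟩)
    (fun y ⟨n, h⟩ => Subtype.ext (dj ((show (n : G) = y from h) ▸ n.2) y.2)) hcop,
    count F (Subgroup.inclusion Subgroup.le_normalizer) (fun x => by
      obtain ⟨y, hy, r, hr, h⟩ := Subgroup.mem_sup_of_normal_right.1
        (sup_comm K H ▸ hKH ▸ Subgroup.mem_top x.1 : x.1 ∈ H ⊔ K)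
      have : r ∈ C := cm r ((Subgroup.mul_mem_cancel_left _ (Subgroup.le_normalizer hy)).1
        (h ▸ x.2)) hr
      exact ⟨⟨y, hy⟩, _, ⟨⟨r, this⟩, rfl⟩, Subtype.ext h.symm⟩)
    (fun y ⟨n, h⟩ => Subtype.ext (dj ((show (n : G) = y from congrArg Subtype.val h) ▸ n.2.1) y.2))
    (hcop.coprime_dvd_left (Subgroup.card_dvd_of_le inf_le_left))]
  refine congrArg (· * _) (e.trans (Nat.card_congr (Equiv.subtypeEquivRight fun θ => ?_)))
  exact ⟨fun _ y n => congrArg _ (Subtype.ext (mul_inv_eq_iff_eq_mul.2 (n.2.2 y y.2))),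
    fun _ => trivial⟩

end Cfsg.Agent.S4452
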