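import Cfsg.Statements.S4453
import Cfsg.Agent.Known.Isaacs3

set_option autoImplicit false
open Cfsg

namespace Cfsg.Agent.S4453

/-- Inside a finite group Γ let S normalise the solvable subgroup G of odd order with the orders of G and S coprime, let C = G ⊓ C(S), and let L ≤ K be S-invariant normal subgroups of G with K/L abelian, G = KC and H = LC (so C ≤ H ≤ G). Then for each S-invariant irreducible character χ of G there is exactly one S-invariant irreducible character ψ of H whose multiplicity in the restriction of χ to H is odd, and χ ↦ ψ is a bijection from the S-invariant irreducible characters of G onto those of H (distinct χ give distinct ψ, and every S-invariant ψ arises). -/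
theorem result {Γ : Type*} [Group Γ] [Fintype Γ] (G S : Subgroup Γ) [Fintype G] (hnorm : ∀ s ∈ S, ∀ g ∈ G, s * g * s⁻¹ ∈ G) (hcop : (Nat.card G).Coprime (Nat.card S)) (hGsolv : Group.IsSolvable G) (hodd : Odd (Nat.card G)) (C : Subgroup Γ) [Fintype C] (hC : C = G ⊓ Subgroup.centralizer (S : Set Γ)) (hCG : C ≤ G) (K L H : Subgroup Γ) [Fintype H] (hLK : L ≤ K) (hKG : K ≤ G) (hKn : ∀ g ∈ G, ∀ k ∈ K, g * k * g⁻¹ ∈ K) (hLn : ∀ g ∈ G, ∀ l ∈ L, g * l * g⁻¹ ∈ L) (hKS : ∀ s ∈ S, ∀ k ∈ K, s * k * s⁻¹ ∈ K) (hLS : ∀ s ∈ S, ∀ l ∈ L, s * l * s⁻¹ ∈ L) (hab : ∀ a ∈ K, ∀ b ∈ K, a * b * a⁻¹ * b⁻¹ ∈ L) (hGKC : K ⊔ C = G) (hH : H = L ⊔ C) (hHG : H ≤ G) : (∀ χ : Cfsg.IrrCharacter G, (∀ s ∈ S, ∀ g g' : G, (g' : Γ) = s * g * s⁻¹ → (χ : G → ℂ) g' = (χ : G → ℂ) g) → ∃! ψ : Cfsg.IrrCharacter H, (∀ s ∈ S, ∀ g g' : H, (g' : Γ) = s * g * s⁻¹ → (ψ : H → ℂ) g' = (ψ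 : H → ℂ) g) ∧ ∃ m : ℕ, Cfsg.classInner (fun h : H => (χ : G → ℂ) ⟨h, hHG h.2⟩) (ψ : H → ℂ) = (m : ℂ) ∧ Odd m) ∧ (∀ χ χ' : Cfsg.IrrCharacter G, (∀ s ∈ S, ∀ g g' : G, (g' : Γ) = s * g * s⁻¹ → (χ : G → ℂ) g' = (χ : G → ℂ) g) → (∀ s ∈ S, ∀ g g' : G, (g' : Γ) = s * g * s⁻¹ → (χ' : G → ℂ) g' = (χ' : G → ℂ) g) → ∀ ψ : Cfsg.IrrCharacter H, (∀ s ∈ S, ∀ g g' : H, (g' : Γ) = s * g * s⁻¹ → (ψ : H → ℂ) g' = (ψ : H → ℂ) g) → ∀ m m' : ℕ, Cfsg.classInner (fun h : H => (χ : G → ℂ) ⟨h, hHG h.2⟩) (ψ : H → ℂ) = (m : ℂ) → Odd m → Cfsg.classInner (fun h : H => (χ' : G → ℂ) ⟨h, hHG h.2⟩) (ψ : H → ℂ) = (m' : ℂ) → Odd m' → χ = χ') ∧ (∀ ψ : Cfsg.IrrCharacter H, (∀ s ∈ S, ∀ g g' : H, (g' : Γ) = s * g * s⁻¹ → (ψ : H → ℂ) g' = (ψ : H → ℂ) g) → ∃ χ : Cfsg.IrrCharacter G, (∀ s ∈ S, ∀ g g' : G, (g' : Γ) = s * g * s⁻¹ → (χ : G → ℂ) g' = (χ : G → ℂ) g) ∧ ∃ m : ℕ, Cfsg.classInner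 (fun h : H => (χ : G → ℂ) ⟨h, hHG h.2⟩) (ψ : H → ℂ) = (m : ℂ) ∧ Odd m) := by
  have hL : L ≤ K ⊓ H := le_inf hLK (hH ▸ le_sup_left)
  have hCH : C ≤ H := hH ▸ le_sup_right
  have cs : ∀ c ∈ C, ∀ s ∈ S, s * c = c * s := fun c hc s hs => (hC.le hc).2 s hs
  have dec : ∀ U : Subgroup Γ, (∀ g ∈ G, ∀ k ∈ U, g * k * g⁻¹ ∈ U) → (∀ s ∈ S, ∀ k ∈ U, s * k * s⁻¹ ∈ U) →
      ∀ g ∈ U ⊔ C, ∀ s ∈ S, g⁻¹ * (s * g * s⁻¹) ∈ U := fun U a b g hg s hs => by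
    obtain ⟨u, hu, c, hc, rfl⟩ := (Subgroup.coe_mul_of_right_le_normalizer_left U C
      fun c hc => Subgroup.mem_normalizer_fintype (a c (hCG hc))).le hg
    convert a _ (inv_mem (hCG hc)) _ (mul_mem (inv_mem hu) (b s hs u hu)) using 1
    simp [mul_assoc, ← cs c hc _ (inv_mem hs)]
  have hHS : ∀ s ∈ S, ∀ k ∈ H, s * k * s⁻¹ ∈ H := fun s hs k hk =>
    (mul_mem_cancel_left (inv_mem hk)).1 (hL (dec L hLn hLS k (hH ▸ hk) s hs)).2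
  have hNS : ∀ s ∈ S, ∀ k ∈ K ⊓ H, s * k * s⁻¹ ∈ K ⊓ H := fun s hs k hk =>
    ⟨hKS s hs k hk.1, hHS s hs k hk.2⟩
  have hNH : ∀ s ∈ H, ∀ k ∈ K ⊓ H, s * k * s⁻¹ ∈ K ⊓ H := fun s hs k hk =>
    ⟨hKn s (hHG hs) k hk.1, H.mul_mem (H.mul_mem hs hk.2) (H.inv_mem hs)⟩
  have hNG : ∀ s ∈ G, ∀ k ∈ K ⊓ H, s * k * s⁻¹ ∈ K ⊓ H := fun s hs =>
    (Subgroup.mem_normalizer_iff.1 ((hGKC.ge.trans (sup_le (fun x hx => Subgroup.mem_normalizer_fintype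
      fun k hk => (mul_mem_cancel_right (inv_mem hk)).1 (hL (hab x hx k hk.1)))
        fun x hx => Subgroup.mem_normalizer_fintype (hNH x (hCH hx)))) hs) · |>.1)
  have r := Subgroup.inclusion_range (inf_le_left.trans hKG : K ⊓ H ≤ G)
  have d := ((K ⊓ H).subgroupOf G).index_dvd_card
  have h : CF.Known.JSet (.ofLe (inf_le_left.trans hKG) hNG) (.ofLe inf_le_right hNH)
      (Subgroup.inclusion hHG) (CF.Clifford.ambAut G S hnorm) (CF.Clifford.ambAut _ S hNS)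
      (CF.Clifford.ambAut H S hHS) (K.subgroupOf G) := ⟨r.symm ▸ (Subgroup.inclusion_range hHG).symm ▸
    { nN := ⟨fun n hn g => hNG g g.2 n hn⟩
      nA := ⟨fun n hn g => hKn g g.2 n hn⟩
      NA := fun x hx => hx.1
      comm := fun a b c d => hL (hab a b c d)
      iN := fun s n hn => hNS s s.2 n hn
      cA := fun s x => dec K hKn hKS x (hGKC.ge x.2) s s.2
      fix := fun x => ⟨fun hx s => hL (dec L hLn hLS x (hH.le hx) s s.2), fun hx => by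
        obtain ⟨u, hu, k⟩ := CF.Coprime.exists_mul_mem_centralizer' S (K ⊓ H)
          (fun s hs => Subgroup.mem_normalizer_fintype (hNS s hs))
          (hcop.symm.coprime_dvd_right (Subgroup.card_dvd_of_le (inf_le_left.trans hKG)))
          (.inr (CF.Coprime.isSolvable_of_le (inf_le_left.trans hKG))) x fun s hs => hx ⟨s, hs⟩
        exact (H.mul_mem_cancel_right hu.2).1 (hCH (hC.ge ⟨mul_mem x.2 (hKG hu.1), k⟩))⟩
      HA := fun x a b => ⟨b, a⟩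
      odd := hodd.of_dvd_nat d
      cop := hcop.coprime_dvd_left d
      solv := hGsolv }, Subgroup.inclusion_injective _, fun _ => rfl, fun _ _ => rfl, fun _ _ => rfl⟩
  have b := h.bij
  simp only [← CF.Clifford.invA_amb hnorm, ← CF.Clifford.invA_amb hHS]
  refine ⟨fun χ a => ?_, fun χ χ' a c ψ e m m' f g i k => Subtype.ext
    (b.inj _ _ _ χ.2 χ'.2 ψ.2 a c e ⟨m, f, g⟩ ⟨m', i, k⟩), fun ψ a => ?_⟩
  · obtain ⟨β, c, e, f⟩ := b.ex _ χ.2 a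
    exact ⟨⟨β, c⟩, ⟨e, f⟩, fun γ g => Subtype.ext (b.uniq _ _ _ χ.2 γ.2 c a g.1 e g.2 f)⟩
  · obtain ⟨χ, c, e, f⟩ := b.surj _ ψ.2 a
    exact ⟨⟨χ, c⟩, e, f⟩

end Cfsg.Agent.S4453
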