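import Cfsg.Statements.S4454
import Cfsg.Agent.Clifford.GlaubApp

set_option autoImplicit false
open Cfsg

namespace Cfsg.Agent.S4454

/-- Let N ≤ G be normal subgroups of the finite group Γ with Γ/G cyclic and Γ/N a Frobenius group with kernel G/N: G ≠ Γ, N ≠ G, and no element of Γ outside G fixes a non-identity coset of N in G under conjugation. Let ϑ be an irreducible character of N invariant under conjugation by Γ and suppose ϑ is fully ramified in G: the character of G induced from ϑ equals e·χ for an irreducible character χ of G and a natural number e. Then the index of G in Γ divides e − 1 or e + 1. -/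
theorem result {Γ : Type*} [Group Γ] [Fintype Γ] (G N : Subgroup Γ) [hG : G.Normal] [hN : N.Normal] [Fintype G] [Fintype N] (hNG : N ≤ G) (hGlt : G ≠ ⊤) (hNlt : N ≠ G) (hcyc : IsCyclic (Γ ⧸ G)) (hfrob : ∀ x : Γ, x ∉ G → ∀ g : Γ, g ∈ G → x * g * x⁻¹ * g⁻¹ ∈ N → g ∈ N) (θ : Cfsg.IrrCharacter N) (hinv : ∀ (x : Γ) (n : N), (θ : N → ℂ) ⟨x * n * x⁻¹, hN.conj_mem n n.2 x⟩ = (θ : N → ℂ) n) (χ : Cfsg.IrrCharacter G) (e : ℕ) (hram : Cfsg.indFun (N.subgroupOf G) (fun n : N.subgroupOf G => (θ : N → ℂ) ⟨(n : G), n.2⟩) = fun g => (e : ℂ) * (χ : G → ℂ) g) : (G.index : ℤ) ∣ (e : ℤ) - 1 ∨ (G.index : ℤ) ∣ (e : ℤ) + 1 := by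
  open CF.Clifford CF.Char ComplexConjugate in
  classical
  let E := NormalEmb.sub G
  let F := NormalEmb.ofLe hNG fun t _ x hx => hN.conj_mem x hx t
  have := Fintype.ofFinite (N.subgroupOf G)
  have hind : ind F.ι θ = (e : ℂ) • (χ : G → ℂ) :=
    (ind_comp_equiv F.ι (Subgroup.subgroupOfEquivOfLe hNG) θ).symm.trans
      ((ind_subtype (N.subgroupOf G) _).trans hram)
  have e0 : (e : ℂ) ≠ 0 := fun h => by
    have := F.ind_one θ
    rw [hind, h, zero_smul] at this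
    exact mul_ne_zero (by exact_mod_cast F.index_pos.ne') (irr_one_ne_zero θ.2) this.symm
  have r : (fun n => (χ : G → ℂ) (F.ι n)) = (e : ℂ) • (θ : N → ℂ) := by
    have : classInner (fun n => (χ : G → ℂ) (F.ι n)) θ = e := by
      rw [← inner_ind_right _ _ (irr_isClassFunction χ.2), hind, CF.Char.inner_smul_right,
        inner_irr_self χ.2, mul_one, map_natCast]
    rw [← this]
    exact F.res_eq_smul_of_invariant χ.2 θ.2 (fun g => hinv g) (this ▸ e0)
  obtain ⟨η, hη, ext⟩ := E.exists_ext_of_isCyclic χ.2 (fun x g => mul_left_cancel₀ e0 (by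
    have := ind_comp_aut F.ι (E.c x) ((NormalEmb.sub N).c x) (fun _ => rfl) θ g
    rwa [show (fun h => (θ : N → ℂ) ((NormalEmb.sub N).c x h)) = θ from funext (hinv x), hind] at this))
    (isCyclic_of_surjective _ (QuotientGroup.quotientMulEquivOfEq (M := G) (N := E.ι.range)
      G.range_subtype.symm).surjective)
  obtain ⟨y, hy⟩ := hcyc.exists_generator
  obtain ⟨x, rfl⟩ := QuotientGroup.mk_surjective y
  have : Nontrivial (Γ ⧸ G) := QuotientGroup.nontrivial_iff.2 hGlt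
  have hx : x ∉ G := fun h => by
    obtain ⟨z, hz⟩ := exists_ne (1 : Γ ⧸ G)
    obtain ⟨k, rfl⟩ := hy z
    simp [(QuotientGroup.eq_one_iff x).2 h] at hz
  let U := N ⊔ Subgroup.zpowers x
  have := Fintype.ofFinite U
  let E' := (NormalEmb.sub N).restrict U fun n => Subgroup.mem_sup_left n.2
  obtain ⟨φ, hφ, ext'⟩ := E'.exists_ext_of_isCyclic θ.2 (fun g => hinv g) (isCyclic_of_surjective
    ((QuotientGroup.mk' _).comp (Subgroup.inclusion (le_sup_right : _ ≤ U))) fun u => by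
      obtain ⟨u, rfl⟩ := QuotientGroup.mk_surjective u
      obtain ⟨n, hn, z, hz, h⟩ := Subgroup.mem_sup_of_normal_left.1 u.2
      exact ⟨⟨z, hz⟩, QuotientGroup.eq.2 ⟨⟨_, hN.conj_mem' n hn z⟩, Subtype.ext (by
        change z⁻¹ * n * z = z⁻¹ * u; rw [← h, mul_assoc])⟩⟩)
  have r' : (fun n => η (E'.ι n)) = (e : ℂ) • (θ : N → ℂ) := r ▸ funext fun n => ext (F.ι n)
  obtain ⟨β, hβ, b1, b2⟩ := E'.exists_char_mul_ext θ.2 (irr_isCharacter hφ) ext'
    (char_restrict (irr_isCharacter hη) U) fun ψ a b =>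
      (eq_of_inner_smul_ne_zero θ.2 a (r' ▸ b)).symm
  have b3 : β 1 = e := mul_right_cancel₀ (irr_one_ne_zero θ.2) (by
    have := congrFun b2 1
    rw [Pi.mul_apply, ← map_one E'.ι, ext', congrFun r' 1, map_one] at this
    exact this)
  obtain ⟨ζ, hζ, rfl⟩ := exists_char_of_ker_le hβ ((QuotientGroup.mk' G).comp U.subtype) (fun z => by
    obtain ⟨k, rfl⟩ := hy z
    exact ⟨⟨x ^ k, Subgroup.mem_sup_right ⟨k, rfl⟩⟩, rfl⟩) (le_trans (fun u hu => by
      obtain ⟨n, hn, _, ⟨k, rfl⟩, h⟩ := Subgroup.mem_sup_of_normal_left.1 u.2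
      have : u.1 ∈ G := (QuotientGroup.eq_one_iff u.1).1 hu
      rw [← h, G.mul_mem_cancel_left (hNG hn)] at this
      exact ⟨⟨_, N.mul_mem hn (hfrob x hx _ this (by
        rw [show x * x ^ k * x⁻¹ * (x ^ k)⁻¹ = 1 by group]; exact N.one_mem))⟩, Subtype.ext h⟩)
    ((E'.range_le_charKer_iff hβ).2 b1))
  obtain ⟨m, ε, -, a, -, b, -⟩ := exists_reg_add_sign (fun a b : Γ ⧸ G => mul_comm' a b) hζ
    fun z z1 => by
    obtain ⟨k, rfl⟩ := hy z
    let u : U := ⟨x ^ k, Subgroup.mem_sup_right ⟨k, rfl⟩⟩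
    have hu : u.1 ∉ G := fun h => z1 ((QuotientGroup.eq_one_iff u.1).2 h)
    let P : G × N → G := fun w => w.1 * F.ι w.2 * (E.c u w.1)⁻¹
    have hP : ∀ w, (P w : Γ) * u = w.1 * (w.2 * u) * (w.1 : Γ)⁻¹ := fun w => by
      change (w.1 : Γ) * w.2 * ((u : Γ) * w.1 * (u : Γ)⁻¹)⁻¹ * u = _; group
    have s1 := sum_eq_of_fiber P (fun w => ⟨fun d => (w.1 * F.ι d, ⟨(d : Γ)⁻¹ * w.2 * (u * d * (u : Γ)⁻¹),
      N.mul_mem (N.mul_mem (N.inv_mem d.2) w.2.2) (hN.conj_mem _ d.2 _)⟩), fun v h => by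
      have h := (hP v).symm.trans (h ▸ hP w)
      have h2 : (v.2 : Γ) = ((w.1 : Γ)⁻¹ * v.1)⁻¹ * w.2 * (u * ((w.1 : Γ)⁻¹ * v.1) * (u : Γ)⁻¹) := by
        calc _ = (v.1 : Γ)⁻¹ * (v.1 * (v.2 * u) * (v.1 : Γ)⁻¹) * v.1 * (u : Γ)⁻¹ := by group
          _ = _ := by rw [h]; group
      refine ⟨⟨(w.1 : Γ)⁻¹ * v.1, hfrob u hu _ (G.mul_mem (G.inv_mem w.1.2) v.1.2) ?_⟩,
        Prod.ext (Subtype.ext (mul_inv_cancel_left _ _)) (Subtype.ext h2.symm)⟩
      generalize (w.1 : Γ)⁻¹ * v.1 = d at h2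
      have := N.mul_mem (N.inv_mem w.2.2) (hN.conj_mem _ v.2.2 d)
      rwa [h2, show ∀ a : Γ, a⁻¹ * (d * (d⁻¹ * a * (u * d * (u : Γ)⁻¹)) * d⁻¹) =
        u * d * (u : Γ)⁻¹ * d⁻¹ from fun a => by group] at this⟩)
      fun g => η (g * u) * conj (η (g * u))
    have s2 := congrFun (E.avg_mul_conj_self (irr_isCharacter hη) (by rw [funext ext]; exact χ.2)) u
    have s3 := congrFun (E'.avg_mul_conj_self (irr_isCharacter hφ) (by rw [funext ext']; exact θ.2)) u
    rw [NormalEmb.avg, inv_mul_eq_one₀ card_ne_zero_complex] at s2 s3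
    have s4 : ∀ n : N, η (n * u) = ζ ((x : Γ ⧸ G) ^ k) * φ (E'.ι n * u) := fun n => by
      have := congrFun b2 (E'.ι n * u)
      rw [Pi.mul_apply, char_mul_of_eq_one hβ (b1 n)] at this
      exact this.symm
    simp only [hP, irr_isClassFunction hη _ _, Fintype.sum_prod_type, Finset.sum_const, s4, map_mul,
      mul_mul_mul_comm (ζ _), ← Finset.mul_sum, ← s3, Finset.card_univ, nsmul_eq_mul,
      ← Nat.card_eq_fintype_card] at s1
    rw [show ∑ g : G, η (g * u) * conj (η (g * u)) = _ from s2.symm] at s1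
    have s5 : ((‖ζ ((x : Γ ⧸ G) ^ k)‖ : ℂ)) ^ 2 = 1 := by
      have := card_ne_zero_complex (G := G)
      have := card_ne_zero_complex (G := N)
      rw [← Complex.mul_conj']
      field_simp at s1
      exact s1.symm
    have s6 : ‖ζ ((x : Γ ⧸ G) ^ k)‖ ^ 2 = 1 := by exact_mod_cast s5
    exact (pow_eq_one_iff_of_nonneg (norm_nonneg _) two_ne_zero).1 s6
  simp only [map_one, b] at b3
  have : (e : ℤ) = m * G.index + ε := by exact_mod_cast b3.symm
  rcases a with rfl | rfl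
  exacts [.inl ⟨m, by rw [this]; ring⟩, .inr ⟨m, by rw [this]; ring⟩]

end Cfsg.Agent.S4454
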