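import Cfsg.Statements.S4457
import Cfsg.Agent.Char.Deg3

set_option autoImplicit false
open Cfsg

namespace Cfsg.Agent.S4457

open CF.Char CF.BG Subgroup in
/-- Let G be a finite group whose irreducible character degrees are exactly 1 and m (m ≠ 1). Then either G has an abelian normal subgroup of index m, or m is a power of a prime p and G is the direct product of a p-group and an abelian group: there are normal subgroups P and A with P a p-group, A abelian, P ⊓ A = 1 and P ⊔ A = G. -/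
theorem result {G : Type*} [Group G] [Finite G] (m : ℕ) (hcd : ∀ χ : Cfsg.IrrCharacter G, Cfsg.charDegree (χ : G → ℂ) = 1 ∨ Cfsg.charDegree (χ : G → ℂ) = m) (hm : ∃ χ : Cfsg.IrrCharacter G, Cfsg.charDegree (χ : G → ℂ) = m) (hm1 : m ≠ 1) : (∃ A : Subgroup G, A.Normal ∧ (∀ a ∈ A, ∀ b ∈ A, a * b = b * a) ∧ A.index = m) ∨ ∃ p e : ℕ, p.Prime ∧ m = p ^ e ∧ ∃ P A : Subgroup G, P.Normal ∧ A.Normal ∧ IsPGroup p P ∧ (∀ a ∈ A, ∀ b ∈ A, a * b = b * a) ∧ P ⊓ A = ⊥ ∧ P ⊔ A = ⊤ := by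
  obtain ⟨N, a, b, c⟩ | ⟨p, e, k, hp, a, A, b, c, i⟩ := two_cases (G := G) (m := m)
    (fun _ ⟨χ, h⟩ => h ▸ hcd χ) hm hm1
  · exact .inl ⟨N, normal_of_der_le a, fun _ x _ y => c.mul_comm x y, b⟩
  obtain ⟨P, hP⟩ := exists_syl p (⊤ : Subgroup G)
  have s : P ⊔ A = ⊤ := index_eq_one.1 (PiNat.eq_one ((piNat_pow_self hp k).dvd
    (i ▸ index_dvd_of_le le_sup_right)) (relIndex_top_right (P ⊔ A) ▸ hP.idx_of_le le_sup_left))
  exact .inr ⟨p, e, hp, a, P, A, normalIn_top.1 ⟨le_top, s ▸ sup_le le_normalizer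
    (b.trans (center_le_normalizer _))⟩, CF.Clifford.normal_of_le_center b, hP.pi.isPGroup, fun _ x _ _ =>
      (mem_center_iff.1 (b x) _).symm, hP.pi.inf_eq_bot ((piNat_compl_single hp).2 c), s⟩

end Cfsg.Agent.S4457
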