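import Mathlib
import Cfsg.Agent.Fgs2.Isa3
import Cfsg.Statements.S4459

set_option autoImplicit false
open Cfsg

namespace Cfsg.Agent.S4459

open CF.Char CF.BG CF.Clifford Subgroup in

/-- Let G be a non-abelian finite group and p a prime. Then the irreducible character degrees of G are exactly 1 and p if and only if either G has an abelian normal subgroup of index p or the centre of G has index p³. -/
theorem result {G : Type*} [Group G] [Finite G] (hG : ∃ a b : G, a * b ≠ b * a) (p : ℕ) (hp : p.Prime) : ((∀ χ : Cfsg.IrrCharacter G, Cfsg.charDegree (χ : G → ℂ) = 1 ∨ Cfsg.charDegree (χ : G → ℂ) = p) ∧ ∃ χ : Cfsg.IrrCharacter G, Cfsg.charDegree (χ : G → ℂ) = p) ↔ ((∃ A : Subgroup G, A.Normal ∧ (∀ a ∈ A, ∀ b ∈ A, a * b = b * a) ∧ A.index = p) ∨ (Subgroup.center G).index = p ^ 3) := by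
  refine ⟨fun ⟨h, hm⟩ => (CF.Fgs2.Isa.cd_prime (G := G) hp (fun d ⟨χ, e⟩ => e ▸ h χ) hm).imp_left
    fun ⟨A, x, y, z⟩ => ⟨A, x, fun _ u _ v => y.mul_comm u v, z⟩, fun h => ?_⟩
  have k : ∀ χ : Cfsg.IrrCharacter G, Cfsg.charDegree (χ : G → ℂ) = 1 ∨
      Cfsg.charDegree (χ : G → ℂ) = p := fun χ => by
    obtain ⟨A, _, x, y⟩ | h := h
    · exact (Nat.dvd_prime hp).1 (y ▸ cd_dvd_index (abel_of_forall x) ⟨χ, rfl⟩)
    · have e := (CF.BlockB.irr_charDegree_eq χ).symm
      obtain ⟨i, -, x⟩ := (Nat.dvd_prime_pow hp).1 (h ▸ irr_one_dvd_index_center χ.2 e)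
      have := (irr_one_sq_le_index χ.2 e).trans (Nat.le_of_dvd (Nat.pos_of_ne_zero
        index_ne_zero_of_finite) (index_dvd_of_le (center_le_charCenter χ.2)))
      rw [h, x, ← pow_mul, Nat.pow_le_pow_iff_right hp.one_lt] at this
      obtain rfl | rfl : i = 0 ∨ i = 1 := by omega
      · exact Or.inl x
      · exact Or.inr (by simpa using x)
  refine ⟨k, ?_⟩
  by_contra! w
  obtain ⟨a, b, e⟩ := hG
  exact e (comm_iff_cd.2 (fun d ⟨χ, e⟩ => e ▸ (k χ).resolve_right (w χ)) a b)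

end Cfsg.Agent.S4459
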