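import Cfsg.Statements.S4460
import Cfsg.Agent.Char.Deg3

set_option autoImplicit false
open Cfsg

namespace Cfsg.Agent.S4460

open CF.Char in
/-- A finite group with exactly three distinct irreducible character degrees is solvable of derived length at most 3: its third derived subgroup is trivial. -/
theorem result {G : Type*} [Group G] [Finite G] (hcd : Nat.card {n : ℕ // ∃ χ : Cfsg.IrrCharacter G, Cfsg.charDegree (χ : G → ℂ) = n} = 3) : derivedSeries G 3 = ⊥ := by
  obtain ⟨a, b, c, -, -, -, h⟩ := Set.ncard_eq_three.1 (show (𝐜𝐝 G).ncard = 3 from hcd)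
  obtain e | e | e : 1 ∈ ({a, b, c} : Set ℕ) := h ▸ one_mem_cd
  · exact der3_of_three (e ▸ h.le)
  · exact der3_of_three (e ▸ (h.trans (Set.insert_comm _ _ _)).le)
  · exact der3_of_three (m := a) (n := b) ((show 1 = c from e) ▸ h.le.trans (by grind))

end Cfsg.Agent.S4460
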