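import Mathlib
import Cfsg.Agent.Fgs2.Isa9
import Cfsg.Statements.S4467

set_option autoImplicit false
open Cfsg

namespace Cfsg.Agent.S4467

open CF.Char CF.BG CF.Clifford CF.Fgs2.Isa Subgroup in

/-- Let the finite solvable group G have a faithful irreducible character of degree n, and suppose that for the prime p a Sylow p-subgroup of G is not normal. Then n is divisible by a prime power q > 1 with q congruent to −1, 0 or 1 modulo p. -/
theorem result {G : Type*} [Group G] [Finite G] (χ : Cfsg.IrrCharacter G) (hfaith : ∀ g : G, (χ : G → ℂ) g = (χ : G → ℂ) 1 → g = 1) (n : ℕ) (hn : Cfsg.charDegree (χ : G → ℂ) = n) (hsolv : Group.IsSolvable G) (p : ℕ) (hp : p.Prime) (P : Sylow p G) (hP : ¬ (P : Subgroup G).Normal) : ∃ q : ℕ, IsPrimePow q ∧ q ∣ n ∧ ((q : ℤ) ≡ -1 [ZMOD p] ∨ (q : ℤ) ≡ 0 [ZMOD p] ∨ (q : ℤ) ≡ 1 [ZMOD p]) := by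
  have := Fact.mk hp
  have c := irr_isCharacter χ.2
  have e : (χ : G → ℂ) 1 = n := by rw [← hn, CF.BlockB.irr_charDegree_eq]
  have f : charKer (χ : G → ℂ) = ⊥ := eq_bot_iff.2 fun g h => hfaith g ((mem_charKer_iff c).1 h)
  by_contra h
  have s := syl_sylow_top P
  refine hP (normalIn_top.1 (s.O_eq_of_le (le_O_of_le_F (fun x hx => winter hsolv hp χ.2 e f
    (fun w => h ⟨p, hp.isPrimePow, w, .inr (.inl (by simp [Int.ModEq]))⟩)
    (fun q w => h ⟨q, w.1, w.2.1, w.2.2.imp_right .inr⟩) (s.pi.elt hx)) s.pi) ▸ O_normal _ _))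

end Cfsg.Agent.S4467
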