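import Mathlib
import Cfsg.Agent.Fgs2.Isa8
import Cfsg.Statements.S4471

set_option autoImplicit false
open Cfsg

namespace Cfsg.Agent.S4471

open CF.Char CF.BG CF.Clifford CF.Fgs2.Isa Subgroup in

/-- Let p ≥ 7 be a prime and let the finite group G have a faithful irreducible character of degree n with n < 2p and n ≠ p. If the Sylow p-subgroups of G are non-abelian then p² does not divide the index of O_p(G) in G; consequently, in every case G/O_p(G) has abelian Sylow p-subgroups. -/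
theorem result {G : Type*} [Group G] [Finite G] (χ : Cfsg.IrrCharacter G) (hfaith : ∀ g : G, (χ : G → ℂ) g = (χ : G → ℂ) 1 → g = 1) (n : ℕ) (hn : Cfsg.charDegree (χ : G → ℂ) = n) (p : ℕ) (hp : p.Prime) (h7 : 7 ≤ p) (hn2 : n < 2 * p) (hnp : n ≠ p) : ((∃ P : Sylow p G, ∃ x ∈ (P : Subgroup G), ∃ y ∈ (P : Subgroup G), x * y ≠ y * x) → ¬ p ^ 2 ∣ (Cfsg.pCore p G).index) ∧ ∀ Q : Sylow p (G ⧸ Cfsg.pCore p G), ∀ x ∈ (Q : Subgroup (G ⧸ Cfsg.pCore p G)), ∀ y ∈ (Q : Subgroup (G ⧸ Cfsg.pCore p G)), x * y = y * x := by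
  have := Fact.mk hp
  have c := irr_isCharacter χ.2
  have e : (χ : G → ℂ) 1 = n := by rw [← hn, CF.BlockB.irr_charDegree_eq]
  have f : charKer (χ : G → ℂ) = ⊥ := eq_bot_iff.2 fun g h => hfaith g ((mem_charKer_iff c).1 h)
  have main : (∃ P : Sylow p G, ∃ x ∈ (P : Subgroup G), ∃ y ∈ (P : Subgroup G), x * y ≠ y * x) →
      ¬ p ^ 2 ∣ (Cfsg.pCore p G).index := by
    rintro ⟨P, x, hx, y, hy, h⟩ d
    obtain ⟨z, m, rfl, zp, hz⟩ := exists_two_eigen hp P.isPGroup' (char_restrict c _) (n := n) e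
      (by rw [charKer_restrict c, f, bot_subgroupOf]) hn2 fun w =>
        h (congrArg Subtype.val (comm_iff_cd.2 (der_eq_bot_iff_cd.1 w) ⟨x, hx⟩ ⟨y, hy⟩))
    obtain ⟨K, n, a, i⟩ := exists_abel_of_two hp h7 χ.2 f (z := z) (m := m) (by omega) (by omega)
      (congrArg Subtype.val zp) hz
    have s := a.nil.hall_O {p}
    have := d.trans (index_dvd_of_le (pCore_eq (G := G) hp ▸ O_le_O_of_normal (normalIn_top.2 n) {p}))
    rw [← relIndex_mul_index s.le] at this
    have := (((hp.coprime_iff_not_dvd.2 (s.not_dvd hp)).pow_left 2).dvd_of_dvd_mul_left this).trans i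
    rw [hp.pow_dvd_factorial_iff (b := 2) ((Nat.log_lt_iff_lt_pow hp.one_lt (by omega)).2 (by nlinarith))] at this
    simp only [Nat.Ico_succ_singleton, Finset.sum_singleton, pow_one, Nat.le_div_iff_mul_le hp.pos] at this
    omega
  refine ⟨main, fun Q x hx y hy => ?_⟩
  by_cases h : ∃ P : Sylow p G, ∃ x ∈ (P : Subgroup G), ∃ y ∈ (P : Subgroup G), x * y ≠ y * x
  · have := isCyclic_of_card_dvd_prime (p := p) (α := Q) (by
      obtain ⟨k, hk⟩ := IsPGroup.iff_card.1 Q.isPGroup'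
      have : k < 2 := by
        by_contra! w
        exact main h ((pow_dvd_pow p w).trans (hk ▸ card_subgroup_dvd_card _))
      rw [show Nat.card Q = p ^ k from hk]
      simpa using pow_dvd_pow p (Nat.le_of_lt_succ this))
    exact (Cyc.abel this).mul_comm hx hy
  · push Not at h
    obtain ⟨P, rfl⟩ := Sylow.mapSurjective_surjective (QuotientGroup.mk'_surjective _) p Q
    exact ((abel_of_forall (h P)).map _).mul_comm hx hy

end Cfsg.Agent.S4471
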