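import Mathlib
import Cfsg.Agent.Fgs2.Isa7
import Cfsg.Statements.S4473

set_option autoImplicit false
open Cfsg

namespace Cfsg.Agent.S4473

open CF.Char CF.Clifford CF.Fgs2.Isa Subgroup in

/-- Let the finite group G have a faithful irreducible character χ of degree 2 that is primitive: χ is not induced from a character of any proper subgroup. Then the centre of G has index 12, 24 or 60. -/
theorem result {G : Type*} [Group G] [Fintype G] (χ : Cfsg.IrrCharacter G) (hfaith : ∀ g : G, (χ : G → ℂ) g = (χ : G → ℂ) 1 → g = 1) (h2 : Cfsg.charDegree (χ : G → ℂ) = 2) (hprim : ∀ H : Subgroup G, H ≠ ⊤ → ∀ θ : H → ℂ, Cfsg.IsCharacter H θ → (χ : G → ℂ) ≠ Cfsg.indFun H θ) : (Subgroup.center G).index = 12 ∨ (Subgroup.center G).index = 24 ∨ (Subgroup.center G).index = 60 := by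
  classical
  have e : (χ : G → ℂ) 1 = 2 := by rw [← CF.BlockB.irr_charDegree_eq, h2]; rfl
  refine (deg_two χ.2 e hfaith).resolve_left ?_
  rintro ⟨A, a, i⟩
  obtain ⟨θ, hθ, h⟩ := exists_irr_under A χ.2
  have t := irr_one_eq_one_of_comm (fun x y : A => Subtype.ext (a y.2 x x.2)) hθ
  rw [← inner_indFun_right A θ (irr_isClassFunction χ.2), inner_irr_ne_zero_comm] at h
  have c := char_indFun A (irr_isCharacter hθ)
  have := one_le_of_inner_ne_zero c χ.2 h (a := A.index) (b := 2) (by rw [indFun_one, t, mul_one]) e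
  refine hprim A (fun w => by simp [w] at this) θ (irr_isCharacter hθ)
    (CF.Clifford.eq_of_inner_ne_zero_of_one_eq c χ.2 h ?_).symm
  rw [indFun_one, t, mul_one, e, le_antisymm i this]; rfl

end Cfsg.Agent.S4473
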