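import Cfsg.Statements.S4476
import Cfsg.Agent.BlockB.Ord2
-- import your own Cfsg.Agent.* helpers here

set_option autoImplicit false
open Cfsg

namespace Cfsg.Agent.S4476

/-- Let G be a finite group of even order g with exactly t involutions, and put α = (g − 1)/t (a rational number). Then (a) some non-identity element x of G has at most α² conjugates; and (b) some non-principal real-valued irreducible character of G has degree at most α. -/
theorem result {G : Type*} [Group G] [Fintype G] (heven : Even (Nat.card G)) (t : ℕ) (ht : Nat.card {x : G // orderOf x = 2} = t) : (∃ x : G, x ≠ 1 ∧ ((Subgroup.centralizer ({x} : Set G)).index : ℚ) ≤ (((Nat.card G : ℚ) - 1) / t) ^ 2) ∧ ∃ χ : Cfsg.IrrCharacter G, (χ : G → ℂ) ≠ (fun _ => 1) ∧ (∀ g : G, ((χ : G → ℂ) g).im = 0) ∧ (Cfsg.charDegree (χ : G → ℂ) : ℚ) ≤ ((Nat.card G : ℚ) - 1) / t := by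
  classical
  have h1 := CF.BlockB.Ord.card_invol_le (G := G)
  have h2 := CF.BlockB.Ord.sum_deg_sq_erase (G := G)
  obtain ⟨u, hu⟩ := exists_prime_orderOf_dvd_card' (G := G) 2 heven.two_dvd
  have ht0 : 0 < t := by
    have : Nonempty {x : G // orderOf x = 2} := ⟨⟨u, hu⟩⟩
    rw [← ht]; exact Nat.card_pos
  rw [ht] at h1
  set S := (Finset.univ.erase (CF.Char.oneIrr G)).filter
      (fun χ : IrrCharacter G => ∀ g, ((χ : G → ℂ) g).im = 0)
  have h3 : ∑ χ ∈ S, (charDegree (χ : G → ℂ) : ℚ) ^ 2 ≤ Nat.card G - 1 := by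
    rw [← h2]
    push_cast
    rw [add_sub_cancel_right]
    exact Finset.sum_le_sum_of_subset_of_nonneg (Finset.filter_subset _ _) fun _ _ _ => by positivity
  have h4 : (t : ℚ) ≤ ∑ χ ∈ S, (charDegree (χ : G → ℂ) : ℚ) := by exact_mod_cast h1
  have ht' : (0 : ℚ) < t := by exact_mod_cast ht0
  have hu1 : u ≠ 1 := by rintro rfl; simp at hu
  have hg : (0 : ℚ) < Nat.card G - 1 := by
    have : Nontrivial G := ⟨u, 1, hu1⟩
    have : 1 < Nat.card G := Finite.one_lt_card
    rw [sub_pos]; exact_mod_cast this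
  constructor
  · by_contra! hc
    have h5 := CF.Char.sum_card_centralizer (G := G)
    rw [← Finset.add_sum_erase _ _ (Finset.mem_univ 1), ← CF.Char.card_irr,
      show Subgroup.centralizer ({1} : Set G) = ⊤ by ext; simp [Subgroup.mem_centralizer_iff],
      Subgroup.card_top] at h5
    have h6 : ∑ x ∈ Finset.univ.erase (1 : G), (Nat.card (Subgroup.centralizer ({x} : Set G)) : ℚ) *
        ((Nat.card G - 1) / t) ^ 2 < ∑ x ∈ Finset.univ.erase (1 : G), (Nat.card G : ℚ) :=
      Finset.sum_lt_sum_of_nonempty ⟨u, by simpa using hu1⟩ fun x hx => by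
        conv_rhs => rw [← (Subgroup.centralizer ({x} : Set G)).card_mul_index, Nat.cast_mul]
        exact mul_lt_mul_of_pos_left (hc x (Finset.mem_erase.1 hx).1)
          (by exact_mod_cast Nat.card_pos)
    rw [← Finset.sum_mul, Finset.sum_const, Finset.card_erase_of_mem (Finset.mem_univ _),
      Finset.card_univ, ← Nat.card_eq_fintype_card, nsmul_eq_mul, ← Nat.cast_sum,
      Nat.cast_sub Nat.card_pos] at h6
    have h7 : (S.card : ℚ) + 1 ≤ Nat.card (IrrCharacter G) := by
      have : S.card ≤ _ := Finset.card_filter_le (Finset.univ.erase (CF.Char.oneIrr G))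
        (fun χ : IrrCharacter G => ∀ g, ((χ : G → ℂ) g).im = 0)
      rw [Finset.card_erase_of_mem (Finset.mem_univ _), Finset.card_univ,
        ← Nat.card_eq_fintype_card] at this
      have h0 : 0 < Nat.card (IrrCharacter G) := Nat.card_pos
      exact_mod_cast (show S.card + 1 ≤ _ by omega)
    have h8 := sq_sum_le_card_mul_sum_sq (s := S) (f := fun χ => (charDegree (χ : G → ℂ) : ℚ))
    have h9 : (t : ℚ) ^ 2 ≤ S.card * (Nat.card G - 1) :=
      (pow_le_pow_left₀ ht'.le h4 2).trans (h8.trans (mul_le_mul_of_nonneg_left h3 (by positivity)))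
    have h10 : ((∑ x ∈ Finset.univ.erase (1 : G), Nat.card (Subgroup.centralizer ({x} : Set G)) : ℕ)
        : ℚ) = Nat.card G * (Nat.card (IrrCharacter G) - 1) := by
      rw [mul_sub, ← Nat.cast_mul, ← h5]; push_cast; ring
    rw [h10, div_pow, ← mul_div_assoc, div_lt_iff₀ (by positivity)] at h6
    have hg0 : (0 : ℚ) < Nat.card G := by linarith
    push_cast at h6
    have h11 : ((Nat.card (IrrCharacter G) : ℚ) - 1) * (Nat.card G - 1) < t ^ 2 := by
      by_contra! h
      have := mul_le_mul_of_nonneg_left h (mul_pos hg hg0).le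
      nlinarith
    nlinarith
  · by_contra! hc
    have h5 : ∑ χ ∈ S, (charDegree (χ : G → ℂ) : ℚ) * ((Nat.card G - 1) / t) <
        ∑ χ ∈ S, (charDegree (χ : G → ℂ) : ℚ) ^ 2 :=
      Finset.sum_lt_sum_of_nonempty (by
        rw [Finset.nonempty_iff_ne_empty]
        rintro h
        simp [h, ht0.ne'] at h1) fun χ hχ => by
          rw [sq]
          refine mul_lt_mul_of_pos_left (hc χ (fun e => (Finset.mem_erase.1
            (Finset.mem_filter.1 hχ).1).1 (Subtype.ext e)) (Finset.mem_filter.1 hχ).2) ?_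
          exact_mod_cast CF.BlockB.Ord.irr_deg_pos χ.2
    rw [← Finset.sum_mul] at h5
    have := mul_le_mul_of_nonneg_right h4 (div_pos hg ht').le
    rw [mul_div_cancel₀ _ ht'.ne'] at this
    linarith

end Cfsg.Agent.S4476
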