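import Mathlib
import Cfsg.Agent.BlockB.Height
import Cfsg.Agent.Char.FrobSchur
import Cfsg.Agent.Char.Integral
import Cfsg.Statements.S4478

set_option autoImplicit false
open Cfsg

namespace Cfsg.Agent.S4478

open CF.Char Subgroup in

/-- Let G be a finite group of even order and χ an irreducible character of G whose degree x is divisible by the full power of 2 dividing the order of G and, for every odd prime p such that G has an element of order 2p, by the full power of p dividing the order of G. Then all involutions of G are conjugate, the centralizer of every involution has order exactly x with x coprime to its index, and the Frobenius–Schur indicator of χ equals 1. -/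
theorem result {G : Type*} [Group G] [Fintype G] (heven : Even (Nat.card G)) (χ : Cfsg.IrrCharacter G) (h2 : 2 ^ (Nat.card G).factorization 2 ∣ Cfsg.charDegree (χ : G → ℂ)) (hp : ∀ p : ℕ, p.Prime → p ≠ 2 → (∃ g : G, orderOf g = 2 * p) → p ^ (Nat.card G).factorization p ∣ Cfsg.charDegree (χ : G → ℂ)) : (∀ s t : G, orderOf s = 2 → orderOf t = 2 → IsConj s t) ∧ (∀ s : G, orderOf s = 2 → Nat.card (Subgroup.centralizer ({s} : Set G)) = Cfsg.charDegree (χ : G → ℂ) ∧ (Nat.card (Subgroup.centralizer ({s} : Set G))).Coprime (Subgroup.centralizer ({s} : Set G)).index) ∧ (Nat.card G : ℂ)⁻¹ * ∑ g : G, (χ : G → ℂ) (g * g) = 1 := by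
  classical
  set x := Cfsg.charDegree (χ : G → ℂ) with hx
  have x1 : (χ : G → ℂ) 1 = x := (CF.BlockB.irr_charDegree_eq χ).symm
  have x0 : x ≠ 0 := CF.BlockB.irr_charDegree_ne_zero χ
  have G0 : Nat.card G ≠ 0 := Nat.card_pos.ne'
  have xd : x ∣ Nat.card G := irr_one_dvd_card χ.2 x1
  have fe : ∀ p : ℕ, p.Prime → p ^ (Nat.card G).factorization p ∣ x →
      x.factorization p = (Nat.card G).factorization p := fun p pp h =>
    le_antisymm ((Nat.factorization_prime_le_iff_dvd x0 G0).2 xd p pp)
      ((pp.pow_dvd_iff_le_factorization x0).1 h)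
  have gd : ∀ p : ℕ, p.Prime → ∀ g : G, 2 ∣ orderOf g → p ∣ orderOf g →
      x.factorization p = (Nat.card G).factorization p := fun p pp g a b => by
    by_cases e : p = 2
    · subst e; exact fe 2 pp h2
    · refine fe p pp (hp p pp e ⟨g ^ (orderOf g / (2 * p)), orderOf_pow_orderOf_div (orderOf_pos g).ne' ?_⟩)
      exact Nat.Coprime.mul_dvd_of_dvd_of_dvd ((Nat.coprime_primes Nat.prime_two pp).2 (Ne.symm e)) a b
  have v2 : ∀ g : G, 2 ∣ orderOf g → (χ : G → ℂ) g = 0 := fun g a =>
    CF.BlockB.irr_eq_zero_of_defect_zero Nat.prime_two (fe 2 Nat.prime_two h2) a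
  have ne1 : (χ : G → ℂ) ≠ fun _ => 1 := fun e => by
    have : Fact (Nat.Prime 2) := ⟨Nat.prime_two⟩
    obtain ⟨s, hs⟩ := exists_prime_orderOf_dvd_card' (G := G) 2 heven.two_dvd
    have := v2 s (hs ▸ dvd_rfl)
    rw [e] at this
    exact one_ne_zero this
  have ev : ∀ g : G, 2 ∣ orderOf g → (χ : G → ℂ) (g * g) = if orderOf g = 2 then (x : ℂ) else 0 := by
    intro g a
    split_ifs with e
    · rw [← x1, ← pow_two, ← e, pow_orderOf_eq_one]
    · have o : orderOf (g * g) = orderOf g / 2 := by
        rw [← pow_two, orderOf_pow_of_dvd two_ne_zero a]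
      obtain ⟨m, hm⟩ := a
      have m1 : m ≠ 1 := fun w => e (by rw [hm, w])
      rw [hm, Nat.mul_div_cancel_left _ two_pos] at o
      exact CF.BlockB.irr_eq_zero_of_defect_zero (Nat.minFac_prime m1)
        (gd _ (Nat.minFac_prime m1) g ⟨m, hm⟩ (hm ▸ (Nat.minFac_dvd m).mul_left 2))
        (o ▸ Nat.minFac_dvd m)
  obtain ⟨k, hk⟩ : Odd (ordCompl[2] (Nat.card G)) :=
    Nat.odd_iff.2 (Nat.two_dvd_ne_zero.1 (Nat.not_dvd_ordCompl Nat.prime_two G0))
  have pw : ∀ g : G, ¬ 2 ∣ orderOf g → g ^ (2 * k + 1) = 1 := fun g a => by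
    rw [← hk, ← orderOf_dvd_iff_pow_eq_one]
    exact Nat.Coprime.dvd_of_dvd_mul_left
      (((Nat.prime_two.coprime_iff_not_dvd.2 a).pow_left _).symm)
      ((orderOf_dvd_natCard g).trans (Nat.ordProj_mul_ordCompl_eq_self _ 2).symm.dvd)
  have od : ∑ g ∈ Finset.univ.filter (fun g : G => ¬ 2 ∣ orderOf g), (χ : G → ℂ) (g * g) = 0 := by
    have : ∑ g ∈ Finset.univ.filter (fun g : G => ¬ 2 ∣ orderOf g), (χ : G → ℂ) (g * g) =
        ∑ g ∈ Finset.univ.filter (fun g : G => ¬ 2 ∣ orderOf g), (χ : G → ℂ) g := by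
      refine Finset.sum_nbij' (fun g => g * g) (fun g => g ^ (k + 1)) (fun g a => ?_) (fun g a => ?_)
        (fun g a => ?_) (fun g a => ?_) (fun _ _ => rfl)
      · simp only [Finset.mem_filter, Finset.mem_univ, true_and] at a ⊢
        exact fun w => a (w.trans (pow_two g ▸ orderOf_pow_dvd 2))
      · simp only [Finset.mem_filter, Finset.mem_univ, true_and] at a ⊢
        exact fun w => a (w.trans (orderOf_pow_dvd _))
      · simp only [Finset.mem_filter, Finset.mem_univ, true_and] at a
        rw [← pow_two, ← pow_mul, show 2 * (k + 1) = 2 * k + 1 + 1 by ring, pow_succ, pw g a, one_mul]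
      · simp only [Finset.mem_filter, Finset.mem_univ, true_and] at a
        rw [← pow_add, show k + 1 + (k + 1) = 2 * k + 1 + 1 by ring, pow_succ, pw g a, one_mul]
    rw [this, ← sum_irr_eq_zero χ.2 ne1, ← Finset.sum_filter_add_sum_filter_not Finset.univ
      (fun g : G => 2 ∣ orderOf g), Finset.sum_eq_zero (s := Finset.univ.filter
        (fun g : G => 2 ∣ orderOf g)) fun g a => v2 g (Finset.mem_filter.1 a).2, zero_add]
  set T := Finset.univ.filter (fun g : G => orderOf g = 2) with hT
  have sm : ∑ g : G, (χ : G → ℂ) (g * g) = (T.card * x : ℕ) := by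
    rw [← Finset.sum_filter_add_sum_filter_not Finset.univ (fun g : G => 2 ∣ orderOf g), od, add_zero,
      Finset.sum_congr rfl fun g a => ev g (Finset.mem_filter.1 a).2, ← Finset.sum_filter,
      Finset.filter_filter, Finset.sum_const, nsmul_eq_mul, Nat.cast_mul]
    congr 3
    ext g
    simp only [hT, Finset.mem_filter, Finset.mem_univ, true_and]
    exact ⟨And.right, fun a => ⟨a ▸ dvd_rfl, a⟩⟩
  have T0 : T.card ≠ 0 := by
    have : Fact (Nat.Prime 2) := ⟨Nat.prime_two⟩
    obtain ⟨s, hs⟩ := exists_prime_orderOf_dvd_card' (G := G) 2 heven.two_dvd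
    exact Finset.card_ne_zero.2 ⟨s, by simp [hT, hs]⟩
  have Gc : (Nat.card G : ℂ) ≠ 0 := Nat.cast_ne_zero.2 G0
  have fs : fsInd (χ : G → ℂ) = 1 := by
    have e := fsInd_def (χ : G → ℂ)
    rw [sm] at e
    obtain a | a | a := fsInd_cases χ.2
    · rw [a] at e
      exact absurd e.symm (mul_ne_zero (inv_ne_zero Gc) (Nat.cast_ne_zero.2 (mul_ne_zero T0 x0)))
    · exact a
    · rw [a, eq_comm, inv_mul_eq_iff_eq_mul₀ Gc, mul_neg_one, eq_neg_iff_add_eq_zero] at e
      norm_cast at e
      omega
  have tx : T.card * x = Nat.card G := by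
    have e := fsInd_def (χ : G → ℂ)
    rw [sm, fs, eq_comm, inv_mul_eq_iff_eq_mul₀ Gc, mul_one] at e
    exact_mod_cast e
  have cg : ∀ s : G, orderOf s = 2 → ∀ p : ℕ, p.Prime → p ∣ Nat.card (centralizer ({s} : Set G)) →
      x.factorization p = (Nat.card G).factorization p := fun s hs p pp d => by
    by_cases e : p = 2
    · subst e; exact fe 2 pp h2
    have := Fact.mk pp
    obtain ⟨y, hy⟩ := exists_prime_orderOf_dvd_card' (G := centralizer ({s} : Set G)) p d
    rw [← orderOf_coe] at hy
    have c : Commute s y := y.2 s rfl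
    have o := c.orderOf_mul_eq_mul_orderOf_of_coprime (by
      rw [hs, hy]; exact (Nat.coprime_primes Nat.prime_two pp).2 (Ne.symm e))
    exact fe p pp (hp p pp e ⟨_, by rw [o, hs, hy]⟩)
  have key : ∀ s : G, orderOf s = 2 → Nat.card (centralizer ({s} : Set G)) = x ∧
      Finset.univ.filter (fun h => IsConj s h) = T := fun s hs => by
    have C0 : Nat.card (centralizer ({s} : Set G)) ≠ 0 := Nat.card_pos.ne'
    have d : Nat.card (centralizer ({s} : Set G)) ∣ x := by
      refine (Nat.factorization_prime_le_iff_dvd C0 x0).1 fun p pp => ?_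
      by_cases w : p ∣ Nat.card (centralizer ({s} : Set G))
      · rw [cg s hs p pp w]
        exact (Nat.factorization_prime_le_iff_dvd C0 G0).2 (card_subgroup_dvd_card _) p pp
      · rw [Nat.factorization_eq_zero_of_not_dvd w]; exact Nat.zero_le _
    have sub : Finset.univ.filter (fun h => IsConj s h) ⊆ T := fun h a => by
      obtain ⟨c, rfl⟩ := isConj_iff.1 (Finset.mem_filter.1 a).2
      simp only [hT, Finset.mem_filter, Finset.mem_univ, true_and]
      rw [← hs]; exact (MulAut.conj c).orderOf_eq s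
    have l1 := Nat.le_of_dvd (Nat.pos_of_ne_zero x0) d
    have l2 := Finset.card_le_card sub
    have e := (centralizer ({s} : Set G)).card_mul_index
    rw [← card_filter_isConj, ← tx] at e
    have p1 := Nat.pos_of_ne_zero x0
    have p2 := Nat.pos_of_ne_zero T0
    refine ⟨by nlinarith, Finset.eq_of_subset_of_card_le sub (by nlinarith)⟩
  refine ⟨fun s t hs ht => ?_, fun s hs => ⟨(key s hs).1, ?_⟩, (fsInd_def _).symm.trans fs⟩
  · have : t ∈ T := by simp [hT, ht]
    rw [← (key s hs).2] at this
    exact (Finset.mem_filter.1 this).2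
  · refine Nat.coprime_of_dvd fun p pp a b => ?_
    have e := congrArg (fun n => Nat.factorization n p) (centralizer ({s} : Set G)).card_mul_index
    have i0 : (centralizer ({s} : Set G)).index ≠ 0 := index_ne_zero_of_finite
    simp only [Nat.factorization_mul Nat.card_pos.ne' i0, Finsupp.add_apply] at e
    rw [← cg s hs p pp a, (key s hs).1] at e
    have := (pp.dvd_iff_one_le_factorization i0).1 b
    omega

end Cfsg.Agent.S4478
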