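import Cfsg.Statements.S4479
import Cfsg.Agent.BlockB.KleinOrd
-- import your own Cfsg.Agent.* helpers here

set_option autoImplicit false
open Cfsg

namespace Cfsg.Agent.S4479

/-- An order formula from the principal 2-block. Let G be a finite group of order 4·g₀ with g₀ odd having no normal 2-complement (no normal subgroup of order g₀); let P be a Sylow 2-subgroup, J an involution of P, and fix a maximal ideal M of the algebraic integers containing 2. Suppose the principal 2-block consists of the principal character and three further distinct characters χ₁, χ₂, χ₃ of degrees x₁, x₂, x₃, with χ_i(J) = ε_i = ±1. Then, writing c(J) and c(P) for the orders of the centralizers of J and of P, the order of G equals 8·α·c(J)³/c(P)² with α = x₁x₂x₃ / ((x₁ + ε₁)(x₂ + ε₂)(x₃ + ε₃)). -/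
theorem result {G : Type*} [Group G] [Finite G] (M : Ideal Cfsg.AlgInt) (hM : Cfsg.IsPModular 2 M) (g₀ : ℕ) (hg₀ : Odd g₀) (hG : Nat.card G = 4 * g₀) (hnc : ¬ ∃ N : Subgroup G, N.Normal ∧ Nat.card N = g₀) (P : Sylow 2 G) (J : G) (hJ : J ∈ (P : Subgroup G)) (hJ2 : orderOf J = 2) (χ₁ χ₂ χ₃ : Cfsg.IrrCharacter G) (ε₁ ε₂ ε₃ : ℤ) (hB : Cfsg.principalBlock M G = {χ : Cfsg.IrrCharacter G | (χ : G → ℂ) = (fun _ => 1) ∨ χ = χ₁ ∨ χ = χ₂ ∨ χ = χ₃}) (hdist : (χ₁ : G → ℂ) ≠ (fun _ => 1) ∧ (χ₂ : G → ℂ) ≠ (fun _ => 1) ∧ (χ₃ : G → ℂ) ≠ (fun _ => 1) ∧ χ₁ ≠ χ₂ ∧ χ₁ ≠ χ₃ ∧ χ₂ ≠ χ₃) (hε : (ε₁ = 1 ∨ ε₁ = -1) ∧ (ε₂ = 1 ∨ ε₂ = -1) ∧ (ε₃ = 1 ∨ ε₃ = -1)) (hval : (χ₁ : G → ℂ) J = ε₁ ∧ (χ₂ : G → ℂ) J = ε₂ ∧ (χ₃ : G → ℂ) J = ε₃) : (Nat.card G : ℚ) = 8 * (((Cfsg.charDegree (χ₁ : G → ℂ) : ℚ) * Cfsg.charDegree (χ₂ : G → ℂ) * Cfsg.charDegree (χ₃ : G → ℂ)) / ((Cfsg.charDegree (χ₁ : G → ℂ) + ε₁) * (Cfsg.charDegree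 (χ₂ : G → ℂ) + ε₂) * (Cfsg.charDegree (χ₃ : G → ℂ) + ε₃))) * (Nat.card (Subgroup.centralizer ({J} : Set G)) : ℚ) ^ 3 / (Nat.card (Subgroup.centralizer ((P : Subgroup G) : Set G)) : ℚ) ^ 2 := by
  classical
  have hP4 : Nat.card (P : Subgroup G) = 4 := by
    rw [P.card_eq_multiplicity, hG, Nat.factorization_mul (by norm_num) hg₀.pos.ne', Finsupp.add_apply,
      Nat.factorization_eq_zero_of_not_dvd (n := g₀) (by obtain ⟨k, rfl⟩ := hg₀; omega),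
      show (4 : ℕ) = 2 ^ 2 from rfl, Nat.prime_two.factorization_pow, Finsupp.single_eq_same]
  have hN : ¬ Subgroup.normalizer ((P : Subgroup G) : Set G) ≤
      Subgroup.centralizer ((P : Subgroup G) : Set G) := fun h => by
    refine hnc ⟨(MonoidHom.transferSylow P h).ker, inferInstance, ?_⟩
    have := (MonoidHom.ker_transferSylow_isComplement' P h).card_mul_card
    rw [hP4, hG] at this
    omega
  have hK : IsKleinFour (P : Subgroup G) := by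
    refine CF.Invol.isKleinFour_iff.2 ⟨hP4, fun x hx => ?_⟩
    by_contra hx2
    refine hN (IsCyclic.normalizer_le_centralizer ?_ (isCyclic_of_orderOf_eq_card
      (⟨x, hx⟩ : (P : Subgroup G)) ?_))
    · rw [hG]; exact (Nat.minFac_eq_two_iff _).2 (by omega)
    · have h1 := orderOf_dvd_natCard (⟨x, hx⟩ : (P : Subgroup G))
      rw [hP4] at h1 ⊢
      obtain ⟨i, hi, h2⟩ := (Nat.dvd_prime_pow Nat.prime_two (m := 2)).1 h1
      have h3 : i = 2 := by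
        by_contra h4
        refine hx2 (congrArg Subtype.val (show (⟨x, hx⟩ : (P : Subgroup G)) * ⟨x, hx⟩ = 1 from ?_))
        rw [← pow_two, ← orderOf_dvd_iff_pow_eq_one, h2]
        exact (Nat.pow_dvd_pow 2 (by omega : i ≤ 1))
      rw [h2, h3]; rfl
  have hJ1 : J ≠ 1 := fun h => by rw [h, orderOf_one] at hJ2; omega
  have h1 := CF.BlockB.klein_order hM P hK
    (fun s t => CF.BlockB.klein_isConj_of_not_le P hK hN) hJ hJ1
  have h2 := CF.Char.pb_orth hM (g := J) (h := 1) (by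
    rw [CF.BlockB.pPart_of_pRegular hM.1 (y := 1) (by simp),
      CF.BlockB.pPart_of_pElement hM.1 ⟨1, hJ2⟩, isConj_one_left]
    exact hJ1)
  obtain ⟨d1, d2, d3, d4, d5, d6⟩ := hdist
  have hpb : CF.Char.pb M G = {CF.Char.oneIrr G, χ₁, χ₂, χ₃} := by
    ext χ
    simp only [CF.Char.mem_pb, hB, Set.mem_ofPred_eq, Finset.mem_insert, Finset.mem_singleton]
    exact or_congr_left (Subtype.ext_iff (a2 := CF.Char.oneIrr G)).symm
  have hsum : ∀ F : IrrCharacter G → ℂ, ∑ χ ∈ CF.Char.pb M G, F χ =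
      F (CF.Char.oneIrr G) + (F χ₁ + (F χ₂ + F χ₃)) := fun F => by
    rw [hpb, Finset.sum_insert, Finset.sum_insert (by simp [d4, d5]), Finset.sum_pair d6]
    simp only [Finset.mem_insert, Finset.mem_singleton, not_or]
    exact ⟨fun h => d1 (h ▸ rfl), fun h => d2 (h ▸ rfl), fun h => d3 (h ▸ rfl)⟩
  rw [hsum] at h1 h2
  simp only [CF.Char.oneIrr_apply, hval.1, hval.2.1, hval.2.2, ← CF.BlockB.irr_charDegree_eq,
    map_natCast, map_one] at h1 h2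
  have n1 : (charDegree (χ₁ : G → ℂ) : ℚ) ≠ 0 := Nat.cast_ne_zero.2 (CF.BlockB.irr_charDegree_ne_zero _)
  have n2 : (charDegree (χ₂ : G → ℂ) : ℚ) ≠ 0 := Nat.cast_ne_zero.2 (CF.BlockB.irr_charDegree_ne_zero _)
  have n3 : (charDegree (χ₃ : G → ℂ) : ℚ) ≠ 0 := Nat.cast_ne_zero.2 (CF.BlockB.irr_charDegree_ne_zero _)
  have n4 : (Nat.card (Subgroup.centralizer ({J} : Set G)) : ℚ) ≠ 0 := Nat.cast_ne_zero.2 Nat.card_pos.ne'
  have n5 : (Nat.card (Subgroup.centralizer ((P : Subgroup G) : Set G)) : ℚ) ≠ 0 :=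
    Nat.cast_ne_zero.2 Nat.card_pos.ne'
  generalize charDegree (χ₁ : G → ℂ) = x₁ at *
  generalize charDegree (χ₂ : G → ℂ) = x₂ at *
  generalize charDegree (χ₃ : G → ℂ) = x₃ at *
  have h3 : (Nat.card G : ℚ) * (1 + (ε₁ ^ 3 / x₁ + (ε₂ ^ 3 / x₂ + ε₃ ^ 3 / x₃))) *
      (Nat.card (Subgroup.centralizer ((P : Subgroup G) : Set G)) : ℚ) ^ 2 =
      8 * (Nat.card (Subgroup.centralizer ({J} : Set G)) : ℚ) ^ 3 := by
    rw [← Rat.cast_inj (α := ℂ)]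
    push_cast
    simpa using h1
  have h4 : (1 : ℚ) + (ε₁ * x₁ + (ε₂ * x₂ + ε₃ * x₃)) = 0 := by
    rw [← Rat.cast_inj (α := ℂ)]
    push_cast
    simpa using h2
  have h5 : ((x₁ : ℚ) + ε₁) * (x₂ + ε₂) * (x₃ + ε₃) =
      x₁ * x₂ * x₃ * (1 + (ε₁ ^ 3 / x₁ + (ε₂ ^ 3 / x₂ + ε₃ ^ 3 / x₃))) := by
    field_simp
    obtain ⟨rfl | rfl, rfl | rfl, rfl | rfl⟩ := hε <;> push_cast at h4 ⊢ <;>
      first | linear_combination h4 | linear_combination -h4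
  have h6 : (1 + (ε₁ ^ 3 / x₁ + (ε₂ ^ 3 / x₂ + ε₃ ^ 3 / x₃)) : ℚ) ≠ 0 := fun h => by
    rw [h, mul_zero, zero_mul] at h3
    exact (mul_ne_zero (by norm_num) (pow_ne_zero _ n4)) h3.symm
  rw [h5]
  generalize (1 + (ε₁ ^ 3 / x₁ + (ε₂ ^ 3 / x₂ + ε₃ ^ 3 / x₃)) : ℚ) = s at *
  field_simp
  linear_combination h3

end Cfsg.Agent.S4479
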