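import Cfsg.Statements.S4480
import Cfsg.Agent.GW.K4

set_option autoImplicit false
open Cfsg

namespace Cfsg.Agent.S4480

open CF.GW CF.Char CF.BlockB Subgroup

/-- Same setting as the Klein-four order formula: G of order 4·g₀ (g₀ odd) with no normal 2-complement, P a Sylow 2-subgroup, J an involution of P, M over 2, principal 2-block {1, χ₁, χ₂, χ₃} with χ_i(J) = ε_i = ±1. Suppose ε₁ε₂ε₃ = −1 and ε₃ = −1, and put q = x₃ = χ₃(1). Then there is a natural number m with 4·c(J) = m·c(P)·(q + 1), and the order of G equals (m³·c(P)/4)·(q³ − q)/2, that is 8·#G = m³·c(P)·(q³ − q). -/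
theorem result {G : Type*} [Group G] [Finite G] (M : Ideal Cfsg.AlgInt) (hM : Cfsg.IsPModular 2 M) (g₀ : ℕ) (hg₀ : Odd g₀) (hG : Nat.card G = 4 * g₀) (hnc : ¬ ∃ N : Subgroup G, N.Normal ∧ Nat.card N = g₀) (P : Sylow 2 G) (J : G) (hJ : J ∈ (P : Subgroup G)) (hJ2 : orderOf J = 2) (χ₁ χ₂ χ₃ : Cfsg.IrrCharacter G) (ε₁ ε₂ ε₃ : ℤ) (hB : Cfsg.principalBlock M G = {χ : Cfsg.IrrCharacter G | (χ : G → ℂ) = (fun _ => 1) ∨ χ = χ₁ ∨ χ = χ₂ ∨ χ = χ₃}) (hdist : (χ₁ : G → ℂ) ≠ (fun _ => 1) ∧ (χ₂ : G → ℂ) ≠ (fun _ => 1) ∧ (χ₃ : G → ℂ) ≠ (fun _ => 1) ∧ χ₁ ≠ χ₂ ∧ χ₁ ≠ χ₃ ∧ χ₂ ≠ χ₃) (hε : (ε₁ = 1 ∨ ε₁ = -1) ∧ (ε₂ = 1 ∨ ε₂ = -1) ∧ (ε₃ = 1 ∨ ε₃ = -1)) (hval : (χ₁ : G → ℂ) J = ε₁ ∧ (χ₂ : G → ℂ) J = ε₂ ∧ (χ₃ : G → ℂ) J = ε₃) (hprod : ε₁ * ε₂ * ε₃ = -1) (hε₃ : ε₃ = -1) : ∃ m : ℕ, 4 * Nat.card (Subgroup.centralizer ({J} : Set G)) = m * Nat.card (Subgroup.centralizer ((P : Subgroup G) : Set G))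 * (Cfsg.charDegree (χ₃ : G → ℂ) + 1) ∧ 8 * Nat.card G = m ^ 3 * Nat.card (Subgroup.centralizer ((P : Subgroup G) : Set G)) * (Cfsg.charDegree (χ₃ : G → ℂ) ^ 3 - Cfsg.charDegree (χ₃ : G → ℂ)) := by
  classical
  have := Fintype.ofFinite G
  have ne : ∀ {χ : IrrCharacter G}, (χ : G → ℂ) ≠ (fun _ => 1) → χ ≠ oneIrr G :=
    fun h e => h (e ▸ rfl)
  obtain ⟨n₁, n₂, n₃, n₁₂, n₁₃, n₂₃⟩ := hdist
  obtain ⟨v₁, v₂, v₃⟩ := hval
  have m₁ : χ₁ ∈ principalBlock M G := by simp [hB]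
  have m₂ : χ₂ ∈ principalBlock M G := by simp [hB]
  have m₃ : χ₃ ∈ principalBlock M G := by simp [hB]
  obtain ⟨h0, h4, hno, r, h1, h2⟩ := k4_formula hM hg₀ hG hnc P hJ hJ2 m₁ m₂ m₃ (ne n₁) (ne n₂)
    (ne n₃) n₁₂ n₁₃ n₂₃ hε.1 hε.2.1 hε.2.2 v₁ v₂ v₃
  have d₁ := irr_charDegree_ne_zero χ₁
  have d₂ := irr_charDegree_ne_zero χ₂
  have d₃ := irr_charDegree_ne_zero χ₃
  subst hε₃
  obtain ⟨rfl, rfl⟩ : ε₁ = 1 ∧ ε₂ = 1 := by
    obtain ⟨rfl | rfl, rfl | rfl, -⟩ := hε <;> omega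
  have fs : ∀ χ ∈ principalBlock M G, ∀ ε : ℤ, Odd ε → (χ : G → ℂ) J = ε →
      fsInd (χ : G → ℂ) = 0 ∨ fsInd (χ : G → ℂ) = 1 := fun χ m ε hε v => by
    refine or_iff_not_imp_left.2 fun p => fsInd_eq_one_of_odd χ.2 (fun s => ?_)
      (irr_charDegree_eq χ).symm ?_
    · by_contra q
      exact p ((fsInd_eq_zero_iff χ.2).2 ⟨s, q⟩)
    · have := h4 χ m ε v
      rw [Int.odd_iff] at hε
      rw [Nat.odd_iff]; omega
  have h5 := sum_pb_inner_mul_eq_zero hM (u := J)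
    (θ := fun c => (Nat.card {s : G // s * s = c} : ℂ)) fun g hg => by
      rw [Nat.cast_eq_zero, Nat.card_eq_zero]
      refine Or.inl ⟨fun ⟨s, hs⟩ => hno _ (orderOf_pow_orderOf_div (orderOf_pos s).ne' ?_)⟩
      have h6 : 2 ∣ orderOf (s ^ 2) := by
        by_contra h6
        rw [pow_two, hs] at h6
        rw [pPart_of_pElement Nat.prime_two ⟨1, hJ2⟩, pPart_of_pRegular Nat.prime_two h6,
          isConj_one_left] at hg
        simp [hg] at hJ2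
      have h7 : 2 ∣ orderOf s := h6.trans (orderOf_pow_dvd 2)
      rw [orderOf_pow_of_dvd two_ne_zero h7] at h6
      omega
  rw [show pb M G = {oneIrr G, χ₁, χ₂, χ₃} by
      ext χ; simp [mem_pb, hB, Subtype.ext_iff (a1 := χ) (a2 := oneIrr G), coe_oneIrr],
    Finset.sum_insert (by simp [(ne n₁).symm, (ne n₂).symm, (ne n₃).symm]),
    Finset.sum_insert (by simp [n₁₂, n₁₃]), Finset.sum_pair n₂₃] at h5
  simp only [inner_card_sqrt] at h5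
  simp only [coe_oneIrr, fsInd_one, v₁, v₂, v₃] at h5
  have f1 : fsInd (χ₁ : G → ℂ) = 0 := by
    rcases fs χ₁ m₁ 1 odd_one v₁ with p | p
    · exact p
    rcases fs χ₂ m₂ 1 odd_one v₂ with q | q <;> rcases fs χ₃ m₃ (-1) (by decide) v₃ with s | s <;>
      rw [p, q, s] at h5 <;> norm_num at h5
  have e12 : charDegree (χ₁ : G → ℂ) = charDegree (χ₂ : G → ℂ) := by
    have p := conj_mem_pb hM m₁
    rw [hB] at p
    rcases p with p | p | p | p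
    · refine absurd (funext fun g => ?_) n₁
      simpa using congrArg (starRingEnd ℂ) (congrFun p g)
    · obtain ⟨s, hs⟩ := (fsInd_eq_zero_iff χ₁.2).1 f1
      exact absurd (Complex.conj_eq_iff_im.1 (congrFun (congrArg Subtype.val p) s)) hs
    · rw [← p]; simp [charDegree]
    · have := congrFun (congrArg Subtype.val p) J
      simp only [v₁, v₃] at this
      norm_num at this
  rw [← e12] at h0 h2
  set x := charDegree (χ₁ : G → ℂ)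
  rw [show charDegree (χ₃ : G → ℂ) = 2 * x + 1 by omega] at h2 ⊢
  set N := (centralizer ({J} : Set G)).index
  have h6 : N * (x + 1) ^ 2 = (2 * r) ^ 2 * (x * (2 * x + 1)) := by
    have : (2 * x : ℤ) ≠ 0 := by omega
    zify
    push_cast at h2
    refine mul_left_cancel₀ this ?_
    linear_combination h2
  obtain ⟨m, hm⟩ : x + 1 ∣ 2 * r := by
    rw [← Nat.pow_dvd_pow_iff two_ne_zero]
    refine Nat.Coprime.dvd_of_dvd_mul_right (Nat.Coprime.pow_left 2 ?_) ⟨N, by rw [← h6, mul_comm]⟩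
    exact Nat.isCoprime_iff_coprime.1 ⟨1 - 2 * x, 1, by push_cast; ring⟩
  have h7 : N = m ^ 2 * (x * (2 * x + 1)) := by
    rw [hm] at h6
    exact Nat.eq_of_mul_eq_mul_right (show 0 < (x + 1) ^ 2 by positivity) (by rw [h6]; ring)
  refine ⟨m, by rw [h1]; nlinarith, ?_⟩
  rw [← (centralizer ({J} : Set G)).index_mul_card, h1,
    show (2 * x + 1) ^ 3 - (2 * x + 1) = 4 * x * (x + 1) * (2 * x + 1) from
      Nat.sub_eq_of_eq_add (by ring)]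
  change 8 * (N * _) = _
  rw [h7]
  linear_combination 4 * m ^ 2 * x * (2 * x + 1) * Nat.card (centralizer ((P : Subgroup G) : Set G)) * hm

end Cfsg.Agent.S4480
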