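import Cfsg.Statements.S4481
import Cfsg.Agent.GW.DForm

set_option autoImplicit false
open Cfsg

namespace Cfsg.Agent.S4481

open CF.GW CF.Char CF.Invol CF.Transfer CF.BlockB Subgroup

/-- The principal 2-block of a group with dihedral Sylow 2-subgroups. Let G be a finite group whose Sylow 2-subgroup P is dihedral of order 2^n ≥ 8, let σ be an element of P of order 2^(n−1), ζ a primitive 2^(n−1)-th root of unity, and M a maximal ideal of the algebraic integers containing 2. Then the principal 2-block consists of exactly 3 + 2^(n−2) irreducible characters, which can be labelled 1, χ₁, χ₂, χ₃ and χ^(j) for 1 ≤ j ≤ 2^(n−2) − 1 (all distinct), with signs δ₁, δ₂, δ₃ such that for 0 < λ < 2^(n−1): χ₁(σ^λ) = δ₁, χ₂(σ^λ) = δ₂(−1)^(λ+1), χ₃(σ^λ) = δ₃(−1)^(λ+1) and χ^(j)(σ^λ) = δ₁(ζ^(jλ) + ζ^(−jλ)); and for every element ρ of odd order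 and every j: 1 + δ₁χ₁(ρ) = −δ₂χ₂(ρ) − δ₃χ₃(ρ) = δ₁χ^(j)(ρ). -/
theorem result {G : Type*} [Group G] [Finite G] (M : Ideal Cfsg.AlgInt) (hM : Cfsg.IsPModular 2 M) (n : ℕ) (hn : 3 ≤ n) (P : Sylow 2 G) (hP : Nonempty ((P : Subgroup G) ≃* DihedralGroup (2 ^ (n - 1)))) (σ : G) (hσ : σ ∈ (P : Subgroup G)) (hσo : orderOf σ = 2 ^ (n - 1)) (ζ : ℂ) (hζ : IsPrimitiveRoot ζ (2 ^ (n - 1))) : Nat.card (Cfsg.principalBlock M G) = 3 + 2 ^ (n - 2) ∧ ∃ (χ₁ χ₂ χ₃ : Cfsg.IrrCharacter G) (χ' : Fin (2 ^ (n - 2) - 1) → Cfsg.IrrCharacter G) (δ₁ δ₂ δ₃ : ℤ), (δ₁ = 1 ∨ δ₁ = -1) ∧ (δ₂ = 1 ∨ δ₂ = -1) ∧ (δ₃ = 1 ∨ δ₃ = -1) ∧ Function.Injective χ' ∧ (χ₁ : G → ℂ) ≠ (fun _ => 1) ∧ (χ₂ : G → ℂ) ≠ (fun _ => 1) ∧ (χ₃ : G → ℂ) ≠ (fun _ => 1) ∧ χ₁ ≠ χ₂ ∧ χ₁ ≠ χ₃ ∧ χ₂ ≠ χ₃ ∧ (∀ j, χ' j ≠ χ₁ ∧ χ' j ≠ χ₂ ∧ χ' j ≠ χ₃ ∧ (χ' j : G → ℂ) ≠ (fun _ => 1)) ∧ Cfsg.principalBlock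 M G = {χ : Cfsg.IrrCharacter G | (χ : G → ℂ) = (fun _ => 1) ∨ χ = χ₁ ∨ χ = χ₂ ∨ χ = χ₃ ∨ ∃ j, χ = χ' j} ∧ (∀ l : ℕ, 0 < l → l < 2 ^ (n - 1) → (χ₁ : G → ℂ) (σ ^ l) = δ₁ ∧ (χ₂ : G → ℂ) (σ ^ l) = δ₂ * (-1) ^ (l + 1) ∧ (χ₃ : G → ℂ) (σ ^ l) = δ₃ * (-1) ^ (l + 1) ∧ ∀ j : Fin (2 ^ (n - 2) - 1), (χ' j : G → ℂ) (σ ^ l) = δ₁ * (ζ ^ (((j : ℕ) + 1) * l) + (ζ ^ (((j : ℕ) + 1) * l))⁻¹)) ∧ ∀ ρ : G, Odd (orderOf ρ) → ∀ j : Fin (2 ^ (n - 2) - 1), 1 + δ₁ * (χ₁ : G → ℂ) ρ = -δ₂ * (χ₂ : G → ℂ) ρ - δ₃ * (χ₃ : G → ℂ) ρ ∧ 1 + δ₁ * (χ₁ : G → ℂ) ρ = δ₁ * (χ' j : G → ℂ) ρ := by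
  classical
  have := Fintype.ofFinite G
  obtain ⟨m, rfl⟩ : ∃ m, n = m + 3 := ⟨n - 3, by omega⟩
  simp only [show m + 3 - 1 = m + 2 from rfl, show m + 3 - 2 = m + 1 from rfl] at *
  obtain ⟨e0⟩ := hP
  obtain ⟨n', a0, b0, hn', h0⟩ := exists_dh P.isPGroup' (Nat.one_lt_two_pow (by omega)) e0
  obtain rfl : m + 2 = n' := Nat.pow_right_injective le_rfl hn'
  obtain ⟨H, U, K, π, h⟩ := exists_DS (dh_regen h0 (by omega) hσ hσo) (isSylowIn_top P)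
  obtain ⟨μ, u, v, w, e, c⟩ := h.exists_coh
  obtain ⟨ω, hω, ho, hall⟩ := exists_dl_gen hζ
  have hσ1 : σ ^ 2 ^ (m + 2) = 1 := by rw [← hσo, pow_orderOf_eq_one]
  have hN : 2 ^ (m + 2) = 2 * 2 ^ (m + 1) := pow_succ' _ _
  have hpos : 0 < 2 ^ (m + 1) := by positivity
  have hsq : ∀ j, (ω ^ j * ω ^ j = 1) ↔ 2 ^ (m + 1) ∣ j := fun j => by
    rw [← pow_add, ← orderOf_dvd_iff_pow_eq_one, ho, ← two_mul, hN,
      Nat.mul_dvd_mul_iff_left two_pos]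
  have hj : ∀ j : Fin (2 ^ (m + 1) - 1), ω ^ ((j : ℕ) + 1) * ω ^ ((j : ℕ) + 1) ≠ 1 := fun j hj => by
    have h1 := Nat.le_of_dvd (Nat.succ_pos _) ((hsq _).1 hj)
    have := j.2
    omega
  have hμ : μ = ω ^ 2 ^ (m + 1) := by
    refine ((c.uniq _ ((hsq _).2 dvd_rfl)).resolve_left fun h1 => ?_).symm
    rw [← orderOf_dvd_iff_pow_eq_one, ho] at h1
    have := Nat.le_of_dvd hpos h1
    omega
  have hζ2 : ζ ^ 2 ^ (m + 1) = -1 := by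
    have := hζ.pow (by positivity) (show 2 ^ (m + 2) = 2 ^ (m + 1) * 2 from pow_succ _ _)
    exact this.eq_neg_one_of_two_right
  obtain ⟨hu, hv, hw⟩ := h.inPB_of_two_le hM c (by omega)
  have he := fun l hl => (h.inPB_e hM c (l := l) hl).2
  obtain ⟨χ₁, p₁, δ₁, hδ₁, rfl⟩ := id hu
  obtain ⟨χ₂, p₂, δ₂, hδ₂, rfl⟩ := id hv
  obtain ⟨χ₃, p₃, δ₃, hδ₃, rfl⟩ := id hw
  have hδ₁' : -δ₁ = 1 ∨ -δ₁ = -1 := by omega
  have he' : ∀ l, l * l ≠ 1 → ∃ χ ∈ principalBlock M G, e l = ((-δ₁ : ℤ) : ℂ) • (χ : G → ℂ) := by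
    intro l hl
    obtain ⟨χ, p, ε, hε, q⟩ := he l hl
    refine ⟨χ, p, ?_⟩
    have h1 := TT_one (π := π) l
    rw [c.Tl l hl, q] at h1
    simp only [Pi.add_apply, Pi.smul_apply, smul_eq_mul, ← irr_charDegree_eq] at h1
    have h2 : 1 + δ₁ * charDegree (χ₁ : G → ℂ) + ε * charDegree (χ : G → ℂ) = 0 := by
      exact_mod_cast h1
    have h3 := irr_charDegree_ne_zero χ
    have h4 := irr_charDegree_ne_zero χ₁
    rw [q, show ε = -δ₁ by rcases hδ₁ with rfl | rfl <;> rcases hε with rfl | rfl <;> omega]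
  choose! ξ pξ hξ using he'
  have hinj : Function.Injective fun j : Fin (2 ^ (m + 1) - 1) => ξ (ω ^ ((j : ℕ) + 1)) := by
    intro i j hij
    by_contra hne
    have hi := i.2
    have hj' := j.2
    refine irr_ne_of_orth hδ₁' hδ₁' ?_ hij
    rw [← hξ _ (hj i), ← hξ _ (hj j)]
    refine c.ee _ _ (hj i) (hj j) (fun h1 => hne (Fin.ext ?_)) fun h1 => ?_
    · have := pow_injOn_Iio_orderOf (by rw [Set.mem_Iio, ho]; omega)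
        (by rw [Set.mem_Iio, ho]; omega) h1
      omega
    · rw [inv_eq_iff_mul_eq_one, ← pow_add, ← orderOf_dvd_iff_pow_eq_one, ho] at h1
      have := Nat.le_of_dvd (by omega) h1
      omega
  have n1 := irr_ne_one_of_orth hδ₁ c.u1
  have n2 := irr_ne_one_of_orth hδ₂ c.v1
  have n3 := irr_ne_one_of_orth hδ₃ c.w1
  have n12 := irr_ne_of_orth hδ₁ hδ₂ c.tri.uv
  have n13 := irr_ne_of_orth hδ₁ hδ₃ c.tri.uw
  have n23 := irr_ne_of_orth hδ₂ hδ₃ c.tri.vw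
  have nj : ∀ j : Fin (2 ^ (m + 1) - 1), ξ (ω ^ ((j : ℕ) + 1)) ≠ χ₁ ∧ ξ (ω ^ ((j : ℕ) + 1)) ≠ χ₂ ∧
      ξ (ω ^ ((j : ℕ) + 1)) ≠ χ₃ ∧ (ξ (ω ^ ((j : ℕ) + 1)) : G → ℂ) ≠ fun _ => 1 := fun j =>
    ⟨irr_ne_of_orth hδ₁' hδ₁ (hξ _ (hj j) ▸ c.eu _ (hj j)),
      irr_ne_of_orth hδ₁' hδ₂ (hξ _ (hj j) ▸ c.ev _ (hj j)),
      irr_ne_of_orth hδ₁' hδ₃ (hξ _ (hj j) ▸ c.ew _ (hj j)),
      irr_ne_one_of_orth hδ₁' (hξ _ (hj j) ▸ c.e1 _ (hj j))⟩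
  have hB : principalBlock M G = {χ : IrrCharacter G | (χ : G → ℂ) = (fun _ => 1) ∨ χ = χ₁ ∨
      χ = χ₂ ∨ χ = χ₃ ∨ ∃ j : Fin (2 ^ (m + 1) - 1), χ = ξ (ω ^ ((j : ℕ) + 1))} := by
    ext χ
    constructor
    · intro hχ
      obtain ⟨δ, -, q⟩ := h.si_cases_of_inPB hM c (x := ((1 : ℤ) : ℂ) • (χ : G → ℂ))
        ⟨χ, hχ, 1, Or.inl rfl, rfl⟩
      rcases q with q | q | q | q | ⟨l, hl, q⟩
      · exact Or.inl (by rw [irr_eq_of_smul (χ := χ) (ξ := oneIrr G) (η := δ) (ε := 1) (Or.inl rfl)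
          (by rw [q]; simp [coe_oneIrr])]; rfl)
      · exact Or.inr (Or.inl (irr_eq_of_smul (Or.inl rfl) q))
      · exact Or.inr (Or.inr (Or.inl (irr_eq_of_smul (Or.inl rfl) q)))
      · exact Or.inr (Or.inr (Or.inr (Or.inl (irr_eq_of_smul (Or.inl rfl) q))))
      refine Or.inr (Or.inr (Or.inr (Or.inr ?_)))
      obtain ⟨j, hjN, rfl⟩ := hall l
      have h1 : ¬ 2 ^ (m + 1) ∣ j := fun h1 => hl ((hsq j).2 h1)
      have h2 : j ≠ 0 := fun h2 => h1 (h2 ▸ dvd_zero _)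
      have h3 : j ≠ 2 ^ (m + 1) := fun h2 => h1 (h2 ▸ dvd_rfl)
      rcases lt_or_gt_of_ne h3 with h4 | h4
      · refine ⟨⟨j - 1, by omega⟩, irr_eq_of_smul (η := δ) (ε := -δ₁) (Or.inl rfl) ?_⟩
        rw [q, ← hξ _ (hj _)]
        simp only [show j - 1 + 1 = j by omega]
      · refine ⟨⟨2 ^ (m + 2) - j - 1, by omega⟩,
          irr_eq_of_smul (η := δ) (ε := -δ₁) (Or.inl rfl) ?_⟩
        rw [q, ← hξ _ (hj _), ← c.einv _ hl]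
        congr 2
        rw [inv_eq_iff_mul_eq_one, ← pow_add, ← orderOf_dvd_iff_pow_eq_one, ho]
        exact ⟨1, by simp only; omega⟩
    · rintro (q | rfl | rfl | rfl | ⟨j, rfl⟩)
      · rw [show χ = oneIrr G from Subtype.ext q]
        exact oneIrr_mem_principalBlock hM
      exacts [p₁, p₂, p₃, pξ _ (hj j)]
  refine ⟨?_, χ₁, χ₂, χ₃, fun j => ξ (ω ^ ((j : ℕ) + 1)), δ₁, δ₂, δ₃, hδ₁, hδ₂, hδ₃, hinj, n1, n2,
    n3, n12, n13, n23, nj, hB, fun l hl0 hl => ?_, fun ρ hρ j => ?_⟩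
  · have m1 : ∀ {χ : IrrCharacter G}, (χ : G → ℂ) ≠ (fun _ => 1) → oneIrr G ≠ χ :=
      fun h e => h (e ▸ rfl)
    rw [show principalBlock M G = insert (oneIrr G) (insert χ₁ (insert χ₂ (insert χ₃
      (Set.range fun j : Fin (2 ^ (m + 1) - 1) => ξ (ω ^ ((j : ℕ) + 1)))))) by
        rw [hB]; ext χ
        simp only [Set.mem_setOf_eq, Set.mem_insert_iff, Set.mem_range, eq_comm (a := χ)]
        rw [eq_comm, Subtype.ext_iff (a1 := oneIrr G)]; rfl,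
      Nat.card_coe_set_eq, Set.ncard_insert_of_notMem, Set.ncard_insert_of_notMem,
      Set.ncard_insert_of_notMem, Set.ncard_insert_of_notMem, Set.ncard_range_of_injective hinj,
      Nat.card_eq_fintype_card, Fintype.card_fin]
    · omega
    · rintro ⟨j, q⟩; exact (nj j).2.2.1 q
    · rintro (q | ⟨j, q⟩); exacts [n23 q, (nj j).2.1 q]
    · rintro (q | q | ⟨j, q⟩); exacts [n12 q, n13 q, (nj j).1 q]
    · rintro (q | q | q | ⟨j, q⟩)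
      exacts [m1 n1 q, m1 n2 q, m1 n3 q, m1 (nj j).2.2.2 q.symm]
  · have hx : π ⟨_, h.a_mem_K l⟩ ≠ 1 := by
      rw [h.pi_a, Ne, ofAdd_eq_one, ZMod.natCast_eq_zero_iff]
      exact Nat.not_dvd_of_pos_of_lt hl0 hl
    have q1 := c.u_apply h.surj (h.pc_of_inPB hM hu) _ hx
    have q2 := c.v_apply h.surj (h.pc_of_inPB hM hv) _ hx
    have q3 := c.w_apply h.surj (h.pc_of_inPB hM hw) _ hx
    have q4 := fun j => c.e_apply h.surj (hj j) (h.pc_of_inPB hM (he _ (hj j))) _ hx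
    simp only [h.pi_a, hμ, Dl.pow_ev, hω] at q2 q3 q4
    simp only [zmodPow_natCast hσ1] at q1 q2 q3 q4
    rw [← pow_mul, mul_comm, pow_mul, hζ2] at q2 q3
    refine ⟨by rw [smul_apply_eq hδ₁ q1, mul_one], by rw [smul_apply_eq hδ₂ q2]; ring,
      by rw [smul_apply_eq hδ₃ q3]; ring, fun j => ?_⟩
    have q5 := q4 j
    rw [hξ _ (hj j)] at q5
    rw [smul_apply_eq hδ₁' q5, ← pow_mul, mul_comm l]
    push_cast; ring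
  · have q1 := h.TT_odd μ hρ
    have q2 := h.TT_odd (ω ^ ((j : ℕ) + 1)) hρ
    rw [c.Tmu] at q1
    rw [c.Tl _ (hj j), hξ _ (hj j)] at q2
    simp only [Pi.add_apply, Pi.smul_apply, smul_eq_mul, Int.cast_neg] at q1 q2
    exact ⟨by linear_combination q1, by linear_combination q2⟩

end Cfsg.Agent.S4481
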