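import Cfsg.Statements.S4482
import Cfsg.Agent.GW.DForm

set_option autoImplicit false
open Cfsg

namespace Cfsg.Agent.S4482

open CF.GW CF.Char CF.Invol CF.Transfer CF.BlockB Subgroup

/-- An order formula for groups with dihedral Sylow 2-subgroups and one class of involutions. Let G be a finite group whose Sylow 2-subgroup P = ⟨σ, τ⟩ is dihedral of order 2^n ≥ 8 (σ of order 2^(n−1), τ an involution inverting σ), let J be the central involution σ^(2^(n−2)), and suppose J, τ and στ are conjugate in G. Fix M over 2 and let χ₁ be an irreducible character in the principal 2-block taking one constant value δ₁ = ±1 at every non-identity power of σ, with χ₁ ≠ 1. Then, with x₁ = χ₁(1) and c(·) denoting orders of centralizers, x₁ ≠ δ₁ and #G · (x₁ − δ₁)² = 2·x₁(x₁ + δ₁)·c(J)³·(1/c(J, τ) + 1/c(J, στ))², where c(J, y) is the order of the joint centralizer of J and y. -/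
theorem result {G : Type*} [Group G] [Finite G] (M : Ideal Cfsg.AlgInt) (hM : Cfsg.IsPModular 2 M) (n : ℕ) (hn : 3 ≤ n) (P : Sylow 2 G) (σ τ : G) (hσ : σ ∈ (P : Subgroup G)) (hτ : τ ∈ (P : Subgroup G)) (hσo : orderOf σ = 2 ^ (n - 1)) (hτo : orderOf τ = 2) (hrel : τ * σ * τ⁻¹ = σ⁻¹) (hgen : Subgroup.closure ({σ, τ} : Set G) = (P : Subgroup G)) (hconj : IsConj (σ ^ (2 ^ (n - 2))) τ ∧ IsConj (σ ^ (2 ^ (n - 2))) (σ * τ)) (χ₁ : Cfsg.IrrCharacter G) (hχ₁ : χ₁ ∈ Cfsg.principalBlock M G) (h1 : (χ₁ : G → ℂ) ≠ (fun _ => 1)) (δ₁ : ℤ) (hδ₁ : δ₁ = 1 ∨ δ₁ = -1) (hval : ∀ l : ℕ, 0 < l → l < 2 ^ (n - 1) → (χ₁ : G → ℂ) (σ ^ l) = δ₁) : (Cfsg.charDegree (χ₁ : G → ℂ) : ℤ) ≠ δ₁ ∧ (Nat.card G : ℚ) * ((Cfsg.charDegree (χ₁ : G → ℂ) : ℚ) - δ₁) ^ 2 = 2 * (Cfsg.charDegree (χ₁ : G → ℂ) : ℚ) * ((Cfsg.charDegree (χ₁ : G → ℂ) : ℚ) + δ₁) * (Nat.card (Subgroup.centralizer ({σ ^ (2 ^ (n - 2))} : Set G)) : ℚ) ^ 3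 * (1 / (Nat.card (Subgroup.centralizer ({σ ^ (2 ^ (n - 2)), τ} : Set G)) : ℚ) + 1 / (Nat.card (Subgroup.centralizer ({σ ^ (2 ^ (n - 2)), σ * τ} : Set G)) : ℚ)) ^ 2 := by
  classical
  have := Fintype.ofFinite G
  obtain ⟨m, rfl⟩ : ∃ m, n = m + 3 := ⟨n - 3, by omega⟩
  simp only [show m + 3 - 1 = m + 2 from rfl, show m + 3 - 2 = m + 1 from rfl] at *
  have hσ1 : σ ^ 2 ^ (m + 2) = 1 := by rw [← hσo, pow_orderOf_eq_one]
  have hτ2 := mul_self_of_orderOf hτo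
  have hτσ : τ ∉ zpowers σ := by
    rintro ⟨k, rfl⟩
    have h1 : σ ^ 2 = 1 := by
      simp only at hrel
      rw [pow_two, ← eq_inv_iff_mul_eq_one, ← hrel]; group
    have h2 := Nat.le_of_dvd two_pos (orderOf_dvd_of_pow_eq_one h1)
    have : 2 ^ 2 ≤ 2 ^ (m + 2) := Nat.pow_le_pow_right (by norm_num) (by omega)
    omega
  have hc : Nat.card P = 2 ^ (m + 2 + 1) := by
    have h1 : τ ∈ normalizer (zpowers σ : Set G) := mem_normalizer_of_cj_le (by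
      rw [cj_zpowers, hrel]; exact zpowers_le_of_mem (inv_mem (mem_zpowers σ)))
    have h2 := card_sup_zpowers h1 (hτ2 ▸ one_mem _) hτσ
    rw [zpowers_eq_closure, zpowers_eq_closure τ, ← Subgroup.closure_union, Set.singleton_union, hgen,
      ← zpowers_eq_closure, Nat.card_zpowers, hσo] at h2
    rw [pow_succ', ← h2]
  obtain ⟨H, U, K, π, h⟩ := exists_DS (dh_of_gen (by omega) hσ hτ hc hσo hrel hτ2 hτσ)
    (isSylowIn_top P)
  have a0 : zmodPow σ (0 : ZMod (2 ^ (m + 2))) * τ = τ := by rw [h.dh.a_zero, one_mul]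
  have a1 : zmodPow σ (1 : ZMod (2 ^ (m + 2))) = σ := by simpa using zmodPow_natCast hσ1 1
  have az : zmodPow σ (zh (m + 2)) = σ ^ 2 ^ (m + 1) := zmodPow_natCast hσ1 _
  have hone := h.one_class (by rw [az, a0]; exact hconj.1) (by rw [az, a1]; exact hconj.2)
  have hJ := h.card_JJ_eq
  have hH := h.H_eq
  simp only [az, a0, a1] at hJ hH
  obtain ⟨μ, u, v, w, e, c⟩ := h.exists_coh
  obtain ⟨l, hl⟩ := h.exists_sq_ne (by omega)
  have hx : InPB M ((δ₁ : ℂ) • (χ₁ : G → ℂ)) := ⟨χ₁, hχ₁, δ₁, hδ₁, rfl⟩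
  have hx1 : ∀ x : K, π x ≠ 1 → ((δ₁ : ℂ) • (χ₁ : G → ℂ)) x = (fun _ => 1) (π x) := fun x hx => by
    obtain ⟨i, hi⟩ := Multiplicative.ofAdd.surjective (π x)
    have hi0 : i ≠ 0 := by rintro rfl; exact hx hi.symm
    rw [Pi.smul_apply, h.pb_apply hM hχ₁ hi0 hi.symm, ← ZMod.natCast_zmod_val i,
      zmodPow_natCast hσ1, hval _ (ZMod.val_pos.2 hi0) (ZMod.val_lt i)]
    rcases hδ₁ with rfl | rfl <;> simp
  have hx2 : ∀ l, l ≠ 1 → classInner ((δ₁ : ℂ) • (χ₁ : G → ℂ)) (TT π l) = 1 := fun l hl => by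
    rw [inner_TT h.surj (h.pc_of_inPB hM hx).cls (f := fun _ => 1) hx1, ← inner_TT (π := π) h.surj
      (χ := fun _ => 1) si_one.cls (f := fun _ => 1) (fun _ _ => rfl), inner_one_TT h.surj, if_neg hl]
  have hu : (δ₁ : ℂ) • (χ₁ : G → ℂ) = u := by
    obtain ⟨δ, -, q⟩ := h.si_cases_of_inPB hM c hx
    have p1 := hx2 l (c.ne_one hl)
    have p2 := hx2 μ c.mu_ne
    rcases q with q | q | q | q | ⟨k, hk, q⟩
    · exact absurd (congrArg Subtype.val (irr_eq_of_smul (ξ := oneIrr G) (η := δ) (ε := 1) hδ₁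
        (by rw [q]; simp [coe_oneIrr]))) h1
    · rw [q, CF.GW.inner_smul_left, c.inner_u, if_neg c.mu_ne, mul_one] at p2
      rw [q, p2, one_smul]
    · rw [q, CF.GW.inner_smul_left, c.inner_v, if_neg (c.ne_mu hl)] at p1
      simp at p1
    · rw [q, CF.GW.inner_smul_left, c.inner_w, if_neg (c.ne_mu hl)] at p1
      simp at p1
    · rw [q, CF.GW.inner_smul_left, c.inner_e hk, if_neg (c.ne_mu hk).symm,
        if_neg (c.ne_mu (c.inv_sq hk)).symm] at p2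
      simp at p2
  have hz : π ⟨_, h.a_mem_K (zh (m + 2))⟩ ≠ 1 := by
    rw [h.pi_a, Ne, ofAdd_eq_one]; exact zh_ne_zero h.dh.one_le
  obtain ⟨p1, p2⟩ := h.inPB_e hM c hl
  obtain ⟨q1, q2, q3⟩ := c.order_formula (h.sec 0) (dh_b_mul_self h.dh 0) h.invol_unique hone
    h.dh.orderOf_zh hz h.H_eq hl (h.pc_of_inPB hM p1) (h.pc_of_inPB hM p2)
    (d := δ₁ * charDegree (χ₁ : G → ℂ)) (by rw [← hu]; simp [irr_charDegree_eq])
  have hJ0 : ((JJ K τ).card : ℤ) ≠ 0 := Nat.cast_ne_zero.2 (Finset.card_ne_zero.2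
    ⟨1, mem_JJ.2 (by simpa using hτ2)⟩)
  rw [← hH, ← H.index_mul_card]
  simp only [a0] at q3
  refine ⟨fun h0 => ?_, ?_⟩
  · rw [h0, show δ₁ * δ₁ = 1 by rcases hδ₁ with rfl | rfl <;> rfl] at q3
    exact pow_ne_zero 2 hJ0 (by linarith)
  · have q4 := congrArg (Int.cast : ℤ → ℚ) q3
    push_cast at q4 ⊢
    rw [hJ] at q4
    rcases hδ₁ with rfl | rfl <;> push_cast at q4 ⊢ <;> linear_combination (Nat.card H : ℚ) * q4

end Cfsg.Agent.S4482
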