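import Cfsg.Statements.S4484
import Cfsg.Agent.Char.Unitary
import Cfsg.Agent.Char.PB

set_option autoImplicit false
open Cfsg

namespace Cfsg.Agent.S4484
open CF.BG Subgroup
open scoped commutatorElement Pointwise
open CF CF.Char CF.BlockB Module
open scoped ComplexConjugate

section
variable {G : Type*} [Group G] {V : Type*} [NormedAddCommGroup V] [InnerProductSpace ℂ V]
  {ι : Type*} [Fintype ι]

open Classical in
/-- Squared distance from the `a`-eigenspace. -/
noncomputable def dd (b : OrthonormalBasis ι ℂ V) (ω : ι → ℂ) (a : ℂ) (v : V) : ℝ :=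
  ∑ j, if ω j = a then 0 else ‖inner ℂ (b j) v‖ ^ 2

open Classical in
noncomputable def ff (ρ : Representation ℂ G V) (b : OrthonormalBasis ι ℂ V) (ω : ι → ℂ) (a : ℂ)
    (g : G) : ℝ := ∑ i, if ω i = a then dd b ω a (ρ g (b i)) else 0

variable {ρ : Representation ℂ G V} (hU : ∀ g v w, inner ℂ (ρ g v) (ρ g w) = inner ℂ v w)
  {b : OrthonormalBasis ι ℂ V} {ω : ι → ℂ} {x : G} (n : ∀ i, ‖ω i‖ = 1)
  (e : ∀ i, ρ x (b i) = ω i • b i) {a : ℂ} (h : ∀ i, ‖ω i - a‖ ^ 2 < 1)

theorem dd_nonneg (v : V) : 0 ≤ dd b ω a v :=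
  Finset.sum_nonneg fun j _ => by split_ifs <;> positivity

theorem dd_eq_zero {v : V} : dd b ω a v = 0 ↔ ∀ j, ω j ≠ a → inner ℂ (b j) v = 0 := by
  rw [dd, Finset.sum_eq_zero_iff_of_nonneg fun j _ => by split_ifs <;> positivity]
  refine ⟨fun k j hj => ?_, fun k j _ => ?_⟩
  · simpa [hj] using k j (Finset.mem_univ _)
  · split_ifs with c
    · rfl
    · simp [k j c]

include hU n e

theorem norm_sub_eq (v : V) :
    ‖ρ x v - a • v‖ ^ 2 = ∑ j, ‖ω j - a‖ ^ 2 * ‖inner ℂ (b j) v‖ ^ 2 := by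
  rw [← b.sum_sq_norm_inner_right]
  simp only [_root_.inner_sub_right, inner_rep_of_eigen hU (n _) (e _), _root_.inner_smul_right,
    ← sub_mul, norm_mul, mul_pow]

theorem dd_iff {v : V} : dd b ω a v = 0 ↔ ρ x v = a • v := by
  rw [dd_eq_zero, ← sub_eq_zero, ← norm_eq_zero, ← pow_eq_zero_iff two_ne_zero, norm_sub_eq hU n e,
    Finset.sum_eq_zero_iff_of_nonneg fun j _ => by positivity]
  refine ⟨fun k j _ => ?_, fun k j hj => ?_⟩
  · by_cases c : ω j = a
    · simp [c]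
    · simp [k j c]
  · simpa [sub_eq_zero, hj] using k j (Finset.mem_univ _)

theorem dd_le {v w : V} (hw : ρ x w = a • w) : dd b ω a v ≤ ‖v - a • w‖ ^ 2 := by
  rw [← b.sum_sq_norm_inner_right]
  refine Finset.sum_le_sum fun j _ => ?_
  split_ifs with c
  · positivity
  · rw [_root_.inner_sub_right, _root_.inner_smul_right, dd_eq_zero.1 ((dd_iff hU n e).2 hw) j c]
    simp

theorem ff_iff {g : G} : ff ρ b ω a g = 0 ↔ ∀ v, ρ x v = a • v → ρ x (ρ g v) = a • ρ g v := by
  rw [ff, Finset.sum_eq_zero_iff_of_nonneg fun j _ => by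
    split_ifs; exacts [dd_nonneg _, le_rfl]]
  refine ⟨fun k v hv => ?_, fun k i _ => ?_⟩
  · rw [← b.sum_repr' v]
    simp only [map_sum, map_smul, Finset.smul_sum]
    refine Finset.sum_congr rfl fun i _ => ?_
    by_cases c : ω i = a
    · have := k i (Finset.mem_univ _)
      rw [if_pos c, dd_iff hU n e] at this
      rw [this, smul_comm]
    · rw [dd_eq_zero.1 ((dd_iff hU n e).2 hv) i c]; simp
  · split_ifs with c
    · exact (dd_iff hU n e).2 (k _ (by rw [e, c]))
    · rfl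

omit n e in
theorem ff_inv (g : G) : ff ρ b ω a g⁻¹ = ff ρ b ω a g := by
  classical
  have k : ∀ g, ff ρ b ω a g = ∑ i, (if ω i = a then 1 else 0) - ∑ i, ∑ j,
      if ω i = a ∧ ω j = a then ‖inner ℂ (b j) (ρ g (b i))‖ ^ 2 else 0 := fun g => by
    rw [ff, ← Finset.sum_sub_distrib]
    refine Finset.sum_congr rfl fun i _ => ?_
    split_ifs with c
    · have : ∑ j, ‖inner ℂ (b j) (ρ g (b i))‖ ^ 2 = 1 := by
        rw [b.sum_sq_norm_inner_right, norm_rep hU, b.orthonormal.1, one_pow]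
      rw [← this, dd, ← Finset.sum_sub_distrib]
      refine Finset.sum_congr rfl fun j _ => ?_
      by_cases d : ω j = a <;> simp [c, d]
    · simp [c]
  rw [k, k, Finset.sum_comm]
  congr 1
  refine Finset.sum_congr rfl fun i _ => Finset.sum_congr rfl fun j _ => ?_
  rw [← hU g, ← End.mul_apply (ρ g) (ρ g⁻¹), ← map_mul, mul_inv_cancel, map_one, End.one_apply,
    norm_inner_symm]
  simp only [and_comm]

include h

theorem norm_sub_lt_dd {v : V} (hv : dd b ω a v ≠ 0) : ‖ρ x v - a • v‖ ^ 2 < dd b ω a v := by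
  rw [norm_sub_eq hU n e]
  obtain ⟨j, c, d⟩ : ∃ j, ω j ≠ a ∧ inner ℂ (b j) v ≠ 0 := by
    by_contra! k
    exact hv (dd_eq_zero.2 k)
  refine Finset.sum_lt_sum (fun i _ => ?_) ⟨j, Finset.mem_univ _, ?_⟩
  · split_ifs with c
    · simp [c]
    · exact mul_le_of_le_one_left (by positivity) (h i).le
  · rw [if_neg c]
    exact mul_lt_of_lt_one_left (by positivity) (h j)

theorem ff_lt {g : G} (hg : ff ρ b ω a g ≠ 0) : ff ρ b ω a (g * x * g⁻¹) < ff ρ b ω a g := by
  rw [← ff_inv hU g] at hg ⊢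
  have k : ∀ i, ω i = a → dd b ω a (ρ (g * x * g⁻¹) (b i)) ≤
      ‖ρ x (ρ g⁻¹ (b i)) - a • ρ g⁻¹ (b i)‖ ^ 2 := fun i c => by
    refine (dd_le hU n e (w := b i) (by rw [e, c])).trans_eq ?_
    rw [← norm_rep hU g⁻¹, map_sub, map_smul, ← End.mul_apply, ← map_mul, ← End.mul_apply (ρ x),
      ← map_mul, show g⁻¹ * (g * x * g⁻¹) = x * g⁻¹ by group]
  obtain ⟨i, -, hi⟩ := Finset.exists_ne_zero_of_sum_ne_zero hg
  refine Finset.sum_lt_sum (fun j _ => ?_) ⟨i, Finset.mem_univ _, ?_⟩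
  · split_ifs with c
    · refine (k j c).trans ?_
      by_cases z : dd b ω a (ρ g⁻¹ (b j)) = 0
      · rw [(dd_iff hU n e).1 z, z]; simp
      · exact (norm_sub_lt_dd hU n e h z).le
    · rfl
  · split_ifs at hi ⊢ with c
    · exact (k i c).trans_lt (norm_sub_lt_dd hU n e h hi)
    · exact absurd rfl hi

theorem ff_down [FiniteDimensional ℂ V] (ha : ‖a‖ = 1) (g : G)
    (k : ff ρ b ω a (g * x * g⁻¹ * x * (g * x * g⁻¹)⁻¹) = 0) : ff ρ b ω a (g * x * g⁻¹) = 0 := by
  set y := g * x * g⁻¹ with hy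
  have m : ∀ g h w, ρ (g * h) w = ρ g (ρ h w) := fun g h w => by rw [map_mul, End.mul_apply]
  have k' := k
  rw [← ff_inv hU, ff_iff hU n e] at k'
  rw [ff_iff hU n e] at k ⊢
  intro v hv
  let W : Submodule ℂ V := End.eigenspace (ρ x) a
  have mW : ∀ {w}, w ∈ W ↔ ρ x w = a • w := End.mem_eigenspace_iff
  obtain ⟨w₁, h₁, w₂, h₂, hw⟩ := W.exists_add_mem_mem_orthogonal (ρ y v)
  have c₁ : ρ (y * x * y⁻¹) w₁ ∈ W := mW.2 (k _ (mW.1 h₁))
  have c₂ : ρ (y * x * y⁻¹) w₂ ∈ Wᗮ := fun u hu => by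
    rw [← hU (y * x * y⁻¹)⁻¹, ← m, inv_mul_cancel, map_one, End.one_apply]
    exact h₂ _ (mW.2 (k' _ (mW.1 hu)))
  have c₃ : ρ (y * x * y⁻¹) w₂ = a • w₂ := by
    have : ρ (y * x * y⁻¹) (w₁ + w₂) = a • (w₁ + w₂) := by
      rw [← hw, ← m, inv_mul_cancel_right, m, hv, map_smul]
    rw [map_add, smul_add] at this
    have t : ρ (y * x * y⁻¹) w₂ - a • w₂ ∈ W ⊓ Wᗮ := ⟨by
      rw [show ρ (y * x * y⁻¹) w₂ - a • w₂ = a • w₁ - ρ (y * x * y⁻¹) w₁ by
        rw [sub_eq_sub_iff_add_eq_add, add_comm, this]]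
      exact W.sub_mem (W.smul_mem _ h₁) c₁, Wᗮ.sub_mem c₂ (Wᗮ.smul_mem _ h₂)⟩
    rw [W.inf_orthogonal_eq_bot, Submodule.mem_bot] at t
    exact sub_eq_zero.1 t
  have c₄ : ρ y⁻¹ w₂ ∈ W := mW.2 (by
    rw [← m, show x * y⁻¹ = y⁻¹ * (y * x * y⁻¹) by group, m, c₃, map_smul])
  suffices w₂ = 0 by rw [hw, this, add_zero]; exact mW.1 h₁
  by_contra z
  have z' : ρ g⁻¹ (ρ y⁻¹ w₂) ≠ 0 := by
    rw [← norm_ne_zero_iff, norm_rep hU, norm_rep hU, norm_ne_zero_iff]; exact z
  have t := norm_rep_sub_lt hU n e h z'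
  rw [← norm_rep hU g, map_sub, map_smul, ← m, ← m, ← hy, ← m g, mul_inv_cancel, map_one,
    End.one_apply, ← m, mul_inv_cancel, map_one, End.one_apply, @norm_sub_sq ℂ,
    _root_.inner_smul_right, Submodule.inner_left_of_mem_orthogonal c₄ h₂, norm_smul, ha,
    norm_rep hU, norm_rep hU, norm_rep hU] at t
  simp only [mul_zero, map_zero] at t
  nlinarith [sq_nonneg ‖w₂‖]

theorem ff_conj [Finite G] [FiniteDimensional ℂ V] (ha : ‖a‖ = 1) (g : G) :
    ff ρ b ω a (g * x * g⁻¹) = 0 := by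
  by_contra z
  obtain ⟨g, hg, mn⟩ := Set.exists_min_image {g | ff ρ b ω a (g * x * g⁻¹) ≠ 0}
    (fun g => ff ρ b ω a (g * x * g⁻¹)) (Set.toFinite _) ⟨g, z⟩
  exact (mn (g * x * g⁻¹) fun k => hg (ff_down hU n e h ha g k)).not_gt (ff_lt hU n e h hg)

/-- Blichfeldt's theorem for simple groups. -/
theorem blich [Finite G] [IsSimpleGroup G] [FiniteDimensional ℂ V] [ρ.IsIrreducible] (i : ι)
    (hi : ω i = a) (hx : x ≠ 1) : x ∈ charCenter ρ.character := by
  let S : Subgroup G :=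
    { carrier := {g | ff ρ b ω a g = 0}
      one_mem' := (ff_iff hU n e).2 fun v hv => by simpa using hv
      mul_mem' := fun {g k} hg hk => (ff_iff hU n e).2 fun v hv => by
        rw [map_mul, End.mul_apply]
        exact (ff_iff hU n e).1 hg _ ((ff_iff hU n e).1 hk _ hv)
      inv_mem' := fun {g} hg => (ff_inv hU g).trans hg }
  have t : normalClosure {x} ≤ S := (closure_le _).2 fun y hy => by
    obtain ⟨z, rfl, c⟩ := Group.mem_conjugatesOfSet_iff.1 hy
    obtain ⟨g, rfl⟩ := isConj_iff.1 c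
    exact ff_conj hU n e h (hi ▸ n i) g
  have u : normalClosure {x} = ⊤ := (IsSimpleGroup.eq_bot_or_eq_top_of_normal _ inferInstance).resolve_left
    fun k => hx (mem_bot.1 (k ▸ subset_normalClosure rfl))
  rcases ((isIrreducible_iff ρ).1 inferInstance).2 (End.eigenspace (ρ x) a) (fun g v hv =>
    End.mem_eigenspace_iff.2 ((ff_iff hU n e).1 (t (u ▸ mem_top g)) v (End.mem_eigenspace_iff.1 hv)))
    with k | k
  · have : b i ∈ End.eigenspace (ρ x) a := End.mem_eigenspace_iff.2 (by rw [e, hi])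
    rw [k, Submodule.mem_bot] at this
    exact absurd this (b.toBasis.ne_zero i)
  · exact (mem_charCenter_character ρ).2 ⟨a, LinearMap.ext fun v =>
      End.mem_eigenspace_iff.1 (k ▸ Submodule.mem_top)⟩

end

theorem lt_one_of_ceil_eq {x y : ℂ} (hx : ‖x‖ = 1) (hy : ‖y‖ = 1)
    (h : ⌈x.arg * 3 / Real.pi⌉ = ⌈y.arg * 3 / Real.pi⌉) : ‖y - x‖ ^ 2 < 1 := by
  have := Real.pi_pos
  have a : |y.arg - x.arg| < Real.pi / 3 := by
    have : |y.arg * 3 / Real.pi - x.arg * 3 / Real.pi| < 1 := by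
      have a := Int.le_ceil (x.arg * 3 / Real.pi)
      have b := Int.ceil_lt_add_one (x.arg * 3 / Real.pi)
      have c := Int.le_ceil (y.arg * 3 / Real.pi)
      have d := Int.ceil_lt_add_one (y.arg * 3 / Real.pi)
      rw [← h] at c d
      exact abs_lt.2 ⟨by linarith, by linarith⟩
    rw [← sub_div, ← sub_mul, abs_div, abs_mul, abs_of_pos Real.pi_pos, div_lt_one Real.pi_pos] at this
    norm_num at this
    linarith
  have : 1 / 2 < (conj x * y).re := by
    rw [← Complex.norm_mul_exp_arg_mul_I x, ← Complex.norm_mul_exp_arg_mul_I y, hx, hy,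
      Complex.ofReal_one, one_mul, one_mul, ← Complex.exp_conj, map_mul, Complex.conj_ofReal,
      Complex.conj_I, ← Complex.exp_add, mul_neg, neg_add_eq_sub, ← sub_mul,
      ← Complex.ofReal_sub, Complex.exp_ofReal_mul_I_re, ← Real.cos_abs, ← Real.cos_pi_div_three]
    exact Real.cos_lt_cos_of_nonneg_of_le_pi (abs_nonneg _) (by linarith) a
  rw [norm_sub_sq_unit hy hx]
  linarith

theorem pigeon {ι : Type*} [Fintype ι] {ω : ι → ℂ} (n : ∀ i, ‖ω i‖ = 1) (i₀ : ι) {p r : ℕ}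
    (c : (Set.range ω).ncard ≤ r) (l : 6 ^ (r - 1) < p) :
    ∃ m, 0 < m ∧ m < p ∧ ∀ i, ‖ω i ^ m - ω i₀ ^ m‖ ^ 2 < 1 := by
  classical
  have := Real.pi_pos
  let S : Finset ℂ := (Finset.univ.image ω).erase (ω i₀)
  have hS : S.card ≤ r - 1 := by
    rw [Finset.card_erase_of_mem (Finset.mem_image_of_mem _ (Finset.mem_univ _))]
    rw [← Set.image_univ, ← Finset.coe_univ, ← Finset.coe_image, Set.ncard_coe_finset] at c
    omega
  let F : Fin p → S → Finset.Icc (-2 : ℤ) 3 := fun k s =>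
    ⟨⌈(((s : ℂ) / ω i₀) ^ (k : ℕ)).arg * 3 / Real.pi⌉, Finset.mem_Icc.2 ⟨Int.le_ceil_iff.2 (by
      rw [lt_div_iff₀ this]; have := Complex.neg_pi_lt_arg (((s : ℂ) / ω i₀) ^ (k : ℕ))
      push_cast; linarith), Int.ceil_le.2 (by
      rw [div_le_iff₀ this]; have := Complex.arg_le_pi (((s : ℂ) / ω i₀) ^ (k : ℕ))
      push_cast; linarith)⟩⟩
  obtain ⟨k, j, kj, e⟩ := Fintype.exists_ne_map_eq_of_card_lt F (by
    rw [Fintype.card_fun, Fintype.card_fin, Fintype.card_coe, Fintype.card_coe]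
    exact lt_of_le_of_lt (Nat.pow_le_pow_right (by simp) hS) (by simpa using l))
  wlog w : j < k generalizing k j
  · exact this j k kj.symm e.symm (lt_of_le_of_ne (not_lt.1 w) kj)
  refine ⟨k - j, Nat.sub_pos_of_lt w, by omega, fun i => ?_⟩
  by_cases z : ω i = ω i₀
  · simp [z]
  have u : ∀ t : ℕ, ‖(ω i / ω i₀) ^ t‖ = 1 := fun t => by simp [n]
  have := lt_one_of_ceil_eq (u j) (u k) (congrArg Subtype.val (congrFun e.symm
    ⟨ω i, Finset.mem_erase.2 ⟨z, Finset.mem_image_of_mem _ (Finset.mem_univ _)⟩⟩))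
  have n0 : ω i₀ ≠ 0 := norm_ne_zero_iff.1 (by rw [n]; exact one_ne_zero)
  obtain ⟨m, hm⟩ := Nat.exists_eq_add_of_le (show (j : ℕ) ≤ k from w.le)
  rw [hm, Nat.add_sub_cancel_left]
  rw [hm, show (ω i / ω i₀) ^ (j + m) - (ω i / ω i₀) ^ (j : ℕ) =
    (ω i / ω i₀) ^ (j : ℕ) / ω i₀ ^ m * (ω i ^ m - ω i₀ ^ m) by
      rw [pow_add, div_pow (ω i) _ m]; field_simp, norm_mul, norm_div, u, norm_pow, n] at this
  simpa using this

theorem ncard_le {G : Type*} [Group G] [Finite G] {p : ℕ} {M : Ideal AlgInt} (hM : IsPModular p M)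
    {χ : IrrCharacter G} (hχ : χ ∈ principalBlock M G) {x : G} (hx : orderOf x = p)
    {ι : Type*} [Fintype ι] {ω : ι → ℂ} (o : ∀ i, ω i ^ p = 1)
    (e : ∀ k : ℕ, (χ : G → ℂ) (x ^ k) = ∑ i, ω i ^ k) :
    (Set.range ω).ncard ≤ (Fintype.card ι).gcd (centralizer ({x} : Set G)).index := by
  classical
  have hp := hM.1
  set n := Fintype.card ι with hn
  set K := (centralizer ({x} : Set G)).index
  have e1 : (χ : G → ℂ) 1 = n := by simpa using e 0
  have n0 : n ≠ 0 := fun z => irr_one_ne_zero χ.2 (by rw [e1, z]; simp)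
  have n0' : (n : ℂ) ≠ 0 := Nat.cast_ne_zero.2 n0
  have key : ∀ s ∈ Finset.univ.image ω, n ∣ K * (Finset.univ.filter (ω · = s)).card := fun s hs => by
    obtain ⟨i, -, rfl⟩ := Finset.mem_image.1 hs
    obtain ⟨m, hm⟩ : ∃ m, m = (Finset.univ.filter (ω · = ω i)).card := ⟨_, rfl⟩
    rw [← hm]
    have i0 : ω i ≠ 0 := fun z => by have := o i; rw [z, zero_pow hp.ne_zero] at this; simp at this
    have a : ∑ k ∈ Finset.range p, (χ : G → ℂ) (x ^ k) * (ω i)⁻¹ ^ k = p * m := by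
      simp only [e, Finset.sum_mul, ← mul_pow]
      rw [Finset.sum_comm, hm, Finset.card_filter, Nat.cast_sum, Finset.mul_sum]
      refine Finset.sum_congr rfl fun j _ => ?_
      split_ifs with c
      · simp [c, i0]
      · rw [geom_sum_eq (fun z => c (by field_simp at z; exact z)), mul_pow, inv_pow, o, o]; simp
    have c : ∀ k ∈ Finset.range p, IsIntegral ℤ (K * (χ : G → ℂ) (x ^ k) / n) ∧
        v M (K * (χ : G → ℂ) (x ^ k) / n - K) < 1 := fun k hk => by
      rcases k.eq_zero_or_pos with rfl | k0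
      · rw [pow_zero, e1, mul_div_cancel_right₀ _ n0']
        exact ⟨isIntegral_algebraMap (x := (K : ℤ)), by simp⟩
      have : centralizer ({x ^ k} : Set G) = centralizer {x} := by
        obtain ⟨j, hj⟩ := exists_pow_eq_self_of_coprime (x := x) (n := k) (by
          rw [hx]; exact (Nat.coprime_of_lt_prime k0.ne' (Finset.mem_range.1 hk) hp).symm)
        ext y
        simp only [mem_centralizer_singleton_iff]
        exact ⟨fun c => hj ▸ (Commute.pow_right c j).eq, fun c => (Commute.pow_right c k).eq⟩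
      have u := isIntegral_index_mul_div χ.2 (x ^ k)
      have w := v_lt_one_of_memLocalIdeal hM.2.1 (hχ (x ^ k))
      simp only [centralChar, mul_one, div_one] at w
      rw [this, e1] at u w
      exact ⟨u, v_sub_lt_one_symm w⟩
    have r : ∀ k, IsIntegral ℤ ((ω i)⁻¹ ^ k) := fun k => (IsIntegral.of_pow hp.pos (by
      rw [inv_pow, o, inv_one]; exact isIntegral_one)).pow k
    have T : ((K * (p * m) : ℕ) : ℂ) / n =
        ∑ k ∈ Finset.range p, K * (χ : G → ℂ) (x ^ k) / n * (ω i)⁻¹ ^ k := by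
      push_cast
      rw [← a, Finset.mul_sum, Finset.sum_div]
      exact Finset.sum_congr rfl fun k _ => by ring
    obtain ⟨t, ht⟩ := dvd_of_isIntegral_div n0 (T ▸ IsIntegral.sum _ fun k hk => (c k hk).1.mul (r k))
    have vt : v M (t : ℂ) < 1 := by
      have : (t : ℂ) = ∑ k ∈ Finset.range p, K * (χ : G → ℂ) (x ^ k) / n * (ω i)⁻¹ ^ k := by
        rw [← T, ht]; push_cast; field_simp
      refine v_lt_one_of_sub_lt_one (b := ∑ k ∈ Finset.range p, (K : ℂ)) ?_ ?_
      · rw [this, ← Finset.sum_sub_distrib]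
        refine v_sum_lt_one fun k hk => ?_
        rw [show K * (χ : G → ℂ) (x ^ k) / n * (ω i)⁻¹ ^ k - K = (K * (χ : G → ℂ) (x ^ k) / n - K) *
          (ω i)⁻¹ ^ k + K * ((ω i)⁻¹ ^ k - 1) by ring]
        exact Valuation.map_add_lt _ (v_mul_lt_one_left (c k hk).2 (v_le_one_of_isIntegral M (r k)))
          (v_mul_lt_one_right (v_natCast_le_one M K) (v_sub_one_lt_one_of_pow_eq_one hM (k := 1) (by
            rw [pow_one, ← pow_mul, mul_comm, pow_mul, inv_pow, o]; simp)))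
      · rw [Finset.sum_const, Finset.card_range, nsmul_eq_mul]
        exact v_mul_lt_one_left (v_p_lt_one hM) (v_natCast_le_one M K)
    obtain ⟨u, rfl⟩ := (v_natCast_lt_one_iff hM t).1 vt
    exact ⟨u, Nat.eq_of_mul_eq_mul_left hp.pos (by linarith)⟩
  rw [← Set.image_univ, ← Finset.coe_univ, ← Finset.coe_image, Set.ncard_coe_finset]
  have g0 : 0 < n.gcd K := Nat.gcd_pos_of_pos_left _ (Nat.pos_of_ne_zero n0)
  have s : n = ∑ s ∈ Finset.univ.image ω, (Finset.univ.filter (ω · = s)).card :=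
    Finset.card_eq_sum_card_image ω Finset.univ
  have : ∑ _s ∈ Finset.univ.image ω, n ≤
      ∑ s ∈ Finset.univ.image ω, n.gcd K * (Finset.univ.filter (ω · = s)).card :=
    Finset.sum_le_sum fun s hs => Nat.le_of_dvd (Nat.mul_pos g0 (by
      obtain ⟨i, -, rfl⟩ := Finset.mem_image.1 hs
      exact Finset.card_pos.2 ⟨i, by simp⟩)) (by
        rw [← Nat.gcd_mul_right]; exact Nat.dvd_gcd (dvd_mul_right _ _) (key s hs))
  rw [← Finset.mul_sum, ← s, Finset.sum_const, smul_eq_mul] at this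
  exact Nat.le_of_mul_le_mul_right this (Nat.pos_of_ne_zero n0)


/-- A refinement of Burnside's result on simple groups of order divisible by only two primes. Let G be a finite simple group of order p^a · q^b · g₀ with p, q distinct primes, a > 0, g₀ coprime to p and q, and the order of G different from p. Then g₀ − 1 > log p / log 6, that is 6^(g₀ − 1) > p. -/
theorem result {G : Type*} [Group G] [Finite G] [IsSimpleGroup G] (p q a b g₀ : ℕ) (hp : p.Prime) (hq : q.Prime) (hpq : p ≠ q) (ha : 0 < a) (hg : Nat.card G = p ^ a * q ^ b * g₀) (hcop : ¬ p ∣ g₀) (hcoq : ¬ q ∣ g₀) (hne : Nat.card G ≠ p) : p < 6 ^ (g₀ - 1) := by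
  have := Fact.mk hp
  have c0 : Nat.card G ≠ 0 := Nat.card_pos.ne'
  have pd : p ∣ Nat.card G := hg ▸ ((dvd_pow_self p ha.ne').mul_right _).mul_right _
  obtain ⟨P⟩ : Nonempty (Sylow p G) := inferInstance
  obtain ⟨x, xo, xc⟩ : ∃ x : G, orderOf x = p ∧ ¬ p ∣ (centralizer ({x} : Set G)).index := by
    have : Nontrivial P := (Subgroup.nontrivial_iff_ne_bot _).2 (P.ne_bot_of_dvd_card pd)
    have := P.isPGroup'.center_nontrivial
    obtain ⟨k, hk⟩ := (P.isPGroup'.to_subgroup (center P)).exists_card_eq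
    obtain ⟨z, hz⟩ := exists_prime_orderOf_dvd_card' (G := center P) p (hk ▸ dvd_pow_self p (by
      rintro rfl; exact absurd hk (Finite.one_lt_card (α := center P)).ne'))
    refine ⟨((z : P) : G), by rw [Subgroup.orderOf_coe, Subgroup.orderOf_coe, hz], fun d =>
      P.not_dvd_index (d.trans (index_dvd_of_le fun y hy => ?_))⟩
    exact mem_centralizer_singleton_iff.2 (congrArg Subtype.val (mem_center_iff.1 z.2 ⟨y, hy⟩))
  have x1 : x ≠ 1 := fun z => hp.one_lt.ne (by rw [← xo, z, orderOf_one])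
  have zc : center G = ⊥ := (IsSimpleGroup.eq_bot_or_eq_top_of_normal _ inferInstance).resolve_right
    fun z => hne ((Nat.prime_dvd_prime_iff_eq hp (prime_card_of_simple_of_index_eq_pow (k := 0) hp x1
      (by rw [pow_zero, index_eq_one, eq_top_iff]
          exact fun y _ => mem_centralizer_singleton_iff.2 (mem_center_iff.1 (z ▸ mem_top x) y)))).1 pd).symm
  obtain ⟨M, hM⟩ := exists_isPModular hp
  obtain ⟨χ, hχ, χ1, n, e1, qn⟩ : ∃ χ ∈ pb M G, χ ≠ oneIrr G ∧ ∃ n : ℕ, (χ : G → ℂ) 1 = n ∧ ¬ q ∣ n := by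
    by_contra! k
    obtain ⟨N, hN⟩ := exists_isPModular hq
    have := pb_orth hM (g := x) (h := 1) (by
      rw [pPart_of_pElement hp ⟨1, by rw [xo, pow_one]⟩, pPart_of_pRegular hp (by simp [hp.ne_one])]
      simpa using x1)
    classical
    rw [← Finset.add_sum_erase _ _ (oneIrr_mem_pb hM), add_eq_zero_iff_eq_neg] at this
    have u : v N (∑ χ ∈ (pb M G).erase (oneIrr G), (χ : G → ℂ) x * conj ((χ : G → ℂ) 1)) < 1 :=
      v_sum_lt_one fun χ c => by
        obtain ⟨n, -, e⟩ := irr_one_eq_nat χ.2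
        rw [e, map_natCast]
        exact v_mul_lt_one_right (v_le_one_of_isIntegral N (char_isIntegral (irr_isCharacter χ.2) x))
          ((v_natCast_lt_one_iff hN n).2 (k χ (Finset.mem_of_mem_erase c) (Finset.ne_of_mem_erase c) n e))
    rw [← Valuation.map_neg, ← this] at u
    simp [oneIrr] at u
  obtain ⟨V, _, _, _, ρ, hρ, hU⟩ := exists_unitary (irr_isCharacter χ.2)
  have := isIrreducible_of_irr ρ (hρ ▸ χ.2)
  obtain ⟨B, ω, nω, c, d⟩ := exists_on_eigenbasis hU x
  have cm : ∀ (m : ℕ) i, ρ (x ^ m) (B i) = ω i ^ m • B i := fun m i => by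
    induction m with
    | zero => simp
    | succ m ih => rw [pow_succ, map_mul, End.mul_apply, c, map_smul, ih, smul_smul, pow_succ']
  have o : ∀ i, ω i ^ p = 1 := fun i => by
    have := cm p i
    rw [← xo, pow_orderOf_eq_one, map_one, End.one_apply, xo] at this
    exact smul_left_injective ℂ (B.toBasis.ne_zero i) (this.symm.trans (one_smul ℂ _).symm)
  have l := ncard_le hM (mem_pb.1 hχ) xo o (hρ ▸ d)
  have en : Fintype.card (Fin (finrank ℂ V)) = n := by
    have := d 0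
    rw [hρ, pow_zero, e1] at this
    simpa using this.symm
  rw [en] at l
  have dg : n.gcd (centralizer ({x} : Set G)).index ∣ g₀ := by
    have := (Nat.gcd_dvd_right n _).trans (centralizer ({x} : Set G)).index_dvd_card
    rw [hg] at this
    refine Nat.Coprime.dvd_of_dvd_mul_left (Nat.Coprime.mul_right ?_ ?_) this
    · exact ((hp.coprime_iff_not_dvd.2 fun k => xc (k.trans (Nat.gcd_dvd_right _ _))).symm).pow_right _
    · exact ((hq.coprime_iff_not_dvd.2 fun k => qn (k.trans (Nat.gcd_dvd_left _ _))).symm).pow_right _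
  replace l := l.trans (Nat.le_of_dvd (Nat.pos_of_ne_zero fun z => hcop (by simp [z])) dg)
  by_contra! w
  replace w : 6 ^ (g₀ - 1) < p := lt_of_le_of_ne w fun z => by
    rcases (g₀ - 1).eq_zero_or_pos with k | k
    · rw [k] at z; exact hp.one_lt.ne z
    · have : 6 ∣ p := z ▸ dvd_pow_self 6 k.ne'
      have := (Nat.dvd_prime hp).1 this
      rcases this with t | t
      · omega
      · exact absurd (t ▸ hp) (by norm_num)
  have := nontrivial_of_isIrreducible ρ
  let i₀ : Fin (finrank ℂ V) := ⟨0, finrank_pos⟩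
  obtain ⟨m, m0, mp, hm⟩ := pigeon nω i₀ l w
  have xm : x ^ m ≠ 1 := pow_ne_one_of_lt_orderOf m0.ne' (xo ▸ mp)
  have := blich hU (ω := fun i => ω i ^ m) (fun i => by simp [nω]) (cm m) hm i₀ rfl xm
  rw [hρ, charCenter_eq_center_of_faithful χ.2 (charKer_eq_bot_of_simple χ.2
    fun z => χ1 (Subtype.ext z)), zc] at this
  exact xm this

end Cfsg.Agent.S4484
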