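import Cfsg.Statements.S4486
import Cfsg.Agent.Char.BLeo

set_option autoImplicit false
open Cfsg

namespace Cfsg.Agent.S4486

open CF CF.Char CF.BG Subgroup in
/-- Let G be a finite group and p a prime dividing its order such that every non-identity element of a Sylow p-subgroup P has the same centralizer as P; let p^n be the order of P. If G has a non-principal irreducible character χ of degree x with x² < p^n − 1, then either G has a proper normal subgroup containing P, or G has a normal subgroup of index p^n and x = 1. -/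
theorem result {G : Type*} [Group G] [Finite G] (p : ℕ) (hp : p.Prime) (hpG : p ∣ Nat.card G) (P : Sylow p G) (hstar : ∀ x ∈ (P : Subgroup G), x ≠ 1 → Subgroup.centralizer ({x} : Set G) = Subgroup.centralizer ((P : Subgroup G) : Set G)) (n : ℕ) (hn : Nat.card P = p ^ n) (χ : Cfsg.IrrCharacter G) (h1 : (χ : G → ℂ) ≠ fun _ => 1) (hdeg : Cfsg.charDegree (χ : G → ℂ) ^ 2 + 1 < p ^ n) : (∃ K : Subgroup G, K.Normal ∧ K ≠ ⊤ ∧ (P : Subgroup G) ≤ K) ∨ ((∃ N : Subgroup G, N.Normal ∧ N.index = p ^ n) ∧ Cfsg.charDegree (χ : G → ℂ) = 1) := by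
  have := Fact.mk hp
  have h : Star p (P : Subgroup G) := ⟨syl_sylow_top P, hstar⟩
  refine or_iff_not_imp_left.2 fun w => ?_
  obtain ⟨a, b⟩ := h.linear (fun K k l => by_contra fun z => w ⟨K, k, z, l⟩) χ.2 h1
    (BlockB.irr_charDegree_eq χ).symm (hn ▸ hdeg)
  have c := h.syl.burnside (inf_le_right.trans b)
  exact ⟨⟨_, normalIn_top.1 (O_normal _ _), by
    rw [← relIndex_top_right, (c.sdprod h.syl).relIndex_left, hn]⟩, a⟩

end Cfsg.Agent.S4486
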