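import Mathlib
import Cfsg.Agent.Fgs2.Isa5
import Cfsg.Statements.S4488

set_option autoImplicit false
open Cfsg

namespace Cfsg.Agent.S4488

open CF.Char CF.BG CF.Clifford CF.Fgs2.Isa Subgroup in

/-- Let the finite group G have a faithful p-rational character χ of degree n (all values of χ lie in the field generated over ℚ by a root of unity of order prime to p), and let p^a be the order of a Sylow p-subgroup of G. Then a ≤ Σ_{i ≥ 0} ⌊n / ((p − 1)·p^i)⌋ (a finite sum; the terms vanish once (p − 1)p^i > n). -/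
theorem result {G : Type*} [Group G] [Finite G] (p : ℕ) (hp : p.Prime) (χ : G → ℂ) (hχ : Cfsg.IsCharacter G χ) (hfaith : ∀ g : G, χ g = χ 1 → g = 1) (hrat : (∃ r : ℕ, 0 < r ∧ ¬ p ∣ r ∧ ∀ g : G, χ g ∈ IntermediateField.adjoin ℚ ({Complex.exp (2 * Real.pi * Complex.I / r)} : Set ℂ))) (n : ℕ) (hn : Cfsg.charDegree χ = n) : (Nat.card G).factorization p ≤ ∑ i ∈ Finset.range (n + 1), n / ((p - 1) * p ^ i) := by
  have := Fact.mk hp
  obtain ⟨P⟩ : Nonempty (Sylow p G) := inferInstance
  obtain ⟨r, r0, hr, h⟩ := hrat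
  have hP := char_restrict hχ (P : Subgroup G)
  have e : χ 1 = n := by rw [← hn, CF.BlockB.charDegree_eq hχ]
  have := schur_dvd hp P.isPGroup' hP (n := n) e fun m c x => by
    obtain ⟨k, hk⟩ := P.isPGroup' x
    obtain ⟨σ, a, b⟩ := exists_aut_fix hp r0.ne' hr c k
    rw [← char_map_eq_pow hP (σ : ℂ →+* ℂ) b hk]
    exact CF.Block.fix_adjoin (a _ (Complex.isPrimitiveRoot_exp r r0.ne').pow_eq_one) (h _)
  rw [show charKer (fun x : (P : Subgroup G) => χ x) = ⊥ from eq_bot_iff.2 fun x hx =>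
    Subtype.ext (hfaith _ ((mem_charKer_iff hP).1 hx)), index_bot, P.card_eq_multiplicity] at this
  simpa [hp.factorization_pow] using fact_le_of_dvd hp this

end Cfsg.Agent.S4488
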