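import Mathlib
import Cfsg.Agent.Fgs2.Isa11
import Cfsg.Statements.S4489

set_option autoImplicit false
open Cfsg

namespace Cfsg.Agent.S4489

open CF.Char CF.BG CF.Clifford CF.Fgs2.Isa Subgroup in

/-- Let P be a finite p-group of order p^a with a > 0, and χ a faithful irreducible character of P of degree f whose field of values ℚ(χ) has degree (p − 1)·p^t over ℚ. Then a ≤ (f − 1)/(p − 1) + (t + 1)·f; in integer form, (p − 1)·a ≤ (f − 1) + (p − 1)(t + 1)·f. -/
theorem result {P : Type*} [Group P] [Finite P] (p a : ℕ) (hp : p.Prime) (ha : 0 < a) (hP : Nat.card P = p ^ a) (χ : Cfsg.IrrCharacter P) (hfaith : ∀ g : P, (χ : P → ℂ) g = (χ : P → ℂ) 1 → g = 1) (f t : ℕ) (hf : Cfsg.charDegree (χ : P → ℂ) = f) (hfield : Module.finrank ℚ (IntermediateField.adjoin ℚ (Set.range (χ : P → ℂ))) = (p - 1) * p ^ t) : (p - 1) * a ≤ (f - 1) + (p - 1) * (t + 1) * f := by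
  have e : (χ : P → ℂ) 1 = f := by rw [← hf, CF.BlockB.irr_charDegree_eq]
  have := log_le_of_gal hp _ P rfl (.of_card hP) χ a f t χ.2 e (hfield ▸ gal_le_finrank _ (by
    rw [hfield]; exact mul_ne_zero (Nat.sub_ne_zero_of_lt hp.one_lt) (pow_ne_zero _ hp.ne_zero))) (by
    rw [show charKer (χ : P → ℂ) = ⊥ from eq_bot_iff.2 fun g h =>
      hfaith g ((mem_charKer_iff (irr_isCharacter χ.2)).1 h), index_bot, hP])
  have := cd_pos (cd_of_irr χ.2 e)
  omega

end Cfsg.Agent.S4489
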