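import Cfsg.Statements.S4491
import Cfsg.Agent.BlockB.Height
-- import your own Cfsg.Agent.* helpers here

set_option autoImplicit false
open Cfsg

namespace Cfsg.Agent.S4491

/-- Let B be a p-block of defect d of the finite group G (relative to a maximal ideal M of the algebraic integers containing p), and let p^a be the p-part of the order of G. Then the exact power of p dividing the sum of the squares of the degrees of the irreducible characters in B is p^(2a − d). -/
theorem result {G : Type*} [Group G] [Finite G] (p : ℕ) [Fact p.Prime] (M : Ideal Cfsg.AlgInt) (hM : Cfsg.IsPModular p M) (B : Set (Cfsg.IrrCharacter G)) (hB : Cfsg.IsPBlock M B) : (∑ᶠ χ ∈ B, Cfsg.charDegree (χ : G → ℂ) ^ 2).factorization p = 2 * (Nat.card G).factorization p - Cfsg.blockDefect p B := by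
  classical
  have h1 := CF.BlockB.v_blockCoeff_one hM hB
  have h2 := CF.BlockB.blockDefect_add_minExp (p := p) (CF.BlockB.block_nonempty hM hB)
  have h3 : CF.BlockB.regB B 1 = ((∑ᶠ χ ∈ B, Cfsg.charDegree (χ : G → ℂ) ^ 2 : ℕ) : ℂ) := by
    rw [CF.BlockB.regB_apply, CF.BlockB.finsum_mem_irr]
    push_cast
    exact Finset.sum_congr rfl fun χ _ => by rw [CF.BlockB.irr_charDegree_eq, sq]
  have h4 : CF.BlockB.v M (CF.BlockB.regB B 1) = CF.BlockB.v M (p : ℂ) ^
      ((Nat.card G).factorization p + CF.BlockB.minExp p B) := by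
    rw [CF.BlockB.regB, map_mul, inv_one, h1, CF.BlockB.v_card hM, pow_add]
  rw [h3] at h4
  have h5 : (∑ᶠ χ ∈ B, Cfsg.charDegree (χ : G → ℂ) ^ 2 : ℕ) ≠ 0 := by
    intro h
    rw [h, Nat.cast_zero, map_zero] at h4
    exact CF.BlockB.vp_pow_ne_zero hM _ h4.symm
  rw [CF.BlockB.v_natCast hM h5, CF.BlockB.vp_pow_inj hM] at h4
  omega

end Cfsg.Agent.S4491
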