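import Cfsg.Statements.S4493
import Cfsg.Agent.Block.Ito

set_option autoImplicit false
open Cfsg

namespace Cfsg.Agent.S4493

open CF.Block CF Subgroup

/-- Let G be a finite solvable group and p a prime. Then G has a normal abelian Sylow p-subgroup if and only if no irreducible character degree of G is divisible by p. -/
theorem result {G : Type*} [Group G] [Finite G] (hsolv : Group.IsSolvable G) (p : ℕ) (hp : p.Prime) : (∃ P : Subgroup G, P.Normal ∧ (∀ x ∈ P, ∀ y ∈ P, x * y = y * x) ∧ IsPGroup p P ∧ ¬ p ∣ P.index) ↔ ∀ χ : Cfsg.IrrCharacter G, ¬ p ∣ Cfsg.charDegree (χ : G → ℂ) := by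
  have : Fact p.Prime := ⟨hp⟩
  have hs := Solv.isPSolvable_of_isSolvable (G := G) p
  constructor
  · rintro ⟨P, hn, hc, hP, hi⟩
    obtain ⟨S, rfl⟩ := isSyl_top_iff.1
      (isSyl_of_not_dvd_relIndex hP le_top (by rwa [relIndex_top_right]))
    exact (ito_iff hs S).1 ⟨hn, hc⟩
  · intro h
    obtain ⟨S⟩ : Nonempty (Sylow p G) := inferInstance
    obtain ⟨hn, hc⟩ := (ito_iff hs S).2 h
    exact ⟨S, hn, hc, S.2, S.not_dvd_index⟩

end Cfsg.Agent.S4493
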