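import Cfsg.Statements.S4495
import Cfsg.Agent.Small.SC

set_option autoImplicit false
open Cfsg

namespace Cfsg.Agent.S4495

open CF.Small Subgroup

/-- Let the finite group G contain an element x of prime order p with C_G(x) = ⟨x⟩, and let t be the number of conjugacy classes of elements of order p. If t ≠ p − 1 then the commutator subgroup has index at most (p − 1)/t; if t = p − 1 it has index exactly p. -/
theorem result {G : Type*} [Group G] [Finite G] (p : ℕ) (hp : p.Prime) (x : G) (hx : orderOf x = p) (hC : Subgroup.centralizer ({x} : Set G) = Subgroup.zpowers x) (t : ℕ) (ht : Nat.card {C : ConjClasses G // ∃ g ∈ C.carrier, orderOf g = p} = t) : (t ≠ p - 1 → (commutator G).index * t ≤ p - 1) ∧ (t = p - 1 → (commutator G).index = p) := by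
  have := Fact.mk hp
  obtain ⟨S, rfl, hK⟩ := exists_pset_self hx hC
  have h1 := S.card_classes
  have h2 := hp.two_le
  rw [ht] at h1
  refine ⟨fun h => ?_, fun h => PSet.index_commutator hK ?_⟩
  · rw [← h1, mul_comm]
    exact Nat.mul_le_mul_left _ (Nat.le_of_dvd PSet.fi_pos (PSet.index_dvd hK
      (S.z_mem_commutator fun e => h (by rwa [e, mul_one] at h1))))
  · rw [h] at h1
    exact Nat.eq_of_mul_eq_mul_left (by omega) (h1.trans (mul_one _).symm)

end Cfsg.Agent.S4495
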