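import Cfsg.Statements.S4497
import Cfsg.Agent.Small.SC

set_option autoImplicit false
open Cfsg

namespace Cfsg.Agent.S4497

open CF.Small Subgroup CF

theorem gen_eq {G : Type*} [Group G] [Finite G] {p : ℕ} [Fact p.Prime] (S : PSet p G)
    {L : Subgroup G} (h : normalClosure ({S.z} : Set G) = L) (S' : PSet p L) : S'.Gen := by
  subst h
  exact S.gen_sub

/-- Let the finite group G contain an element x of prime order p with C_G(x) = ⟨x⟩, let t be the number of conjugacy classes of elements of order p, and let S* = O_{p′}(G) be the largest normal subgroup of order prime to p. Then S* ≤ G′; if t ≠ p − 1 the quotient G′/S* is simple (in particular non-trivial); if t = p − 1 then G′ = S*. -/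
theorem result {G : Type*} [Group G] [Finite G] (p : ℕ) (hp : p.Prime) (x : G) (hx : orderOf x = p) (hC : Subgroup.centralizer ({x} : Set G) = Subgroup.zpowers x) (t : ℕ) (ht : Nat.card {C : ConjClasses G // ∃ g ∈ C.carrier, orderOf g = p} = t) : Cfsg.pPrimeCore p G ≤ commutator G ∧ (t ≠ p - 1 → ∀ h : ((Cfsg.pPrimeCore p G).subgroupOf (commutator G)).Normal, IsSimpleGroup (↥(commutator G) ⧸ (Cfsg.pPrimeCore p G).subgroupOf (commutator G))) ∧ (t = p - 1 → commutator G = Cfsg.pPrimeCore p G) := by
  have := Fact.mk hp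
  obtain ⟨S, rfl, hK⟩ := exists_pset_self hx hC
  have h1 := S.card_classes
  have h2 := hp.two_le
  rw [ht] at h1
  have hO : S.z ∉ pPrimeCore p G := mt S.dvd_card_of_z_mem Solv.not_dvd_card_pPrimeCore
  refine ⟨PSet.le_commutator hK hO, fun h hn => ?_, fun h => le_antisymm
    (S.le_pPrimeCore_of_z_notMem (S.z_notMem_commutator ?_)) (PSet.le_commutator hK hO)⟩
  · have hz := S.z_mem_commutator fun e => h (by rwa [e, mul_one] at h1)
    obtain ⟨S', -⟩ := S.exists_sub hz
    have : Nontrivial (commutator G ⧸ (pPrimeCore p G).subgroupOf (commutator G)) :=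
      ⟨⟨(⟨S.z, hz⟩ : commutator G), 1, fun e =>
        hO ((QuotientGroup.eq_one_iff (⟨S.z, hz⟩ : commutator G)).1 e)⟩⟩
    refine ⟨fun L hL => ?_⟩
    rw [← map_comap_eq_self_of_surjective (QuotientGroup.mk'_surjective _) L]
    by_cases h3 : S'.z ∈ L.comap (QuotientGroup.mk' _)
    · right
      rw [gen_eq S (le_antisymm (normalClosure_le_normal (by simpa using hz))
          (PSet.commutator_le hK (subset_normalClosure rfl))) S' _ (hL.comap _) h3,
        map_top_of_surjective _ (QuotientGroup.mk'_surjective _)]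
    · left
      have h4 := S'.le_pPrimeCore_of_z_notMem h3
      rw [Subgroup.map_eq_bot_iff, QuotientGroup.ker_mk']
      exact fun y hy => ((Solv.map_pPrimeCore_of_normal _).le (mem_map_of_mem _ (h4 hy))).1
  · rw [h] at h1
    exact Nat.eq_of_mul_eq_mul_left (by omega) (h1.trans (mul_one _).symm)

end Cfsg.Agent.S4497
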