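import Cfsg.Statements.S4498
import Cfsg.Agent.BlockB.Misc1
-- import your own Cfsg.Agent.* helpers here

set_option autoImplicit false
open Cfsg

namespace Cfsg.Agent.S4498

/-- Let p and q be distinct primes dividing the order of the finite group G, and suppose G has no element of order p·q. Fix maximal ideals M_p over p and M_q over q of the algebraic integers. Then the principal p-block and the principal q-block of G have a non-principal irreducible character in common. -/
theorem result {G : Type*} [Group G] [Finite G] (p q : ℕ) [Fact p.Prime] [Fact q.Prime] (hpq : p ≠ q) (hp : p ∣ Nat.card G) (hq : q ∣ Nat.card G) (hno : ∀ g : G, orderOf g ≠ p * q) (Mp Mq : Ideal Cfsg.AlgInt) (hMp : Cfsg.IsPModular p Mp) (hMq : Cfsg.IsPModular q Mq) : ∃ χ : Cfsg.IrrCharacter G, (χ : G → ℂ) ≠ (fun _ => 1) ∧ χ ∈ Cfsg.principalBlock Mp G ∧ χ ∈ Cfsg.principalBlock Mq G := by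
  by_contra! h
  obtain ⟨y, hy⟩ := exists_prime_orderOf_dvd_card' p hp
  obtain ⟨ω, hω, h1⟩ := CF.BlockB.exists_sum_inter_eq hMp hMq hpq hno
    CF.BlockB.isPBlock_principalBlock CF.BlockB.isPBlock_principalBlock (y := y) hy.symm.dvd
  have h2 : Cfsg.principalBlock Mp G ∩ Cfsg.principalBlock Mq G = {CF.Char.oneIrr G} := by
    ext χ
    refine ⟨fun hχ => by_contra fun h' => h χ (fun e => h' (Subtype.ext e)) hχ.1 hχ.2, ?_⟩
    rintro rfl
    exact ⟨CF.BlockB.oneIrr_mem_principalBlock hMp, CF.BlockB.oneIrr_mem_principalBlock hMq⟩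
  rw [h2, finsum_mem_singleton, CF.BlockB.charDegree_oneIrr] at h1
  have h3 : CF.BlockB.v Mq ((q : ℂ) ^ (Nat.card G).factorization q * ω) < 1 := by
    refine CF.BlockB.v_mul_lt_one_left ?_ (CF.BlockB.v_le_one_of_isIntegral Mq hω)
    rw [← Nat.cast_pow, CF.BlockB.v_natCast_lt_one_iff hMq]
    exact dvd_pow_self q ((hMq.1.dvd_iff_one_le_factorization Nat.card_pos.ne').1 hq |> Nat.ne_zero_of_lt)
  rw [← h1] at h3
  simp [CF.Char.oneIrr] at h3

end Cfsg.Agent.S4498
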