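import Cfsg.Statements.S4500
import Cfsg.Agent.Small.SC
import Cfsg.Agent.BlockB.Column
import Cfsg.Agent.BlockB.Gen
import Cfsg.Agent.BlockB.Third

set_option autoImplicit false
open Cfsg

namespace Cfsg.Agent.S4500

open CF.Small Subgroup CF CF.PF CF.BlockB

theorem aux {G : Type*} [Group G] [Finite G] [Nontrivial G] {p q r a b c : ℕ} (hp : p.Prime)
    (hq : q.Prime) (hr : r.Prime) (ha : a ≤ 2) (hpq : p ≠ q) (hpr : p ≠ r)
    (hG : Nat.card G = p ^ a * q ^ b * r ^ c) : ∃ χ : IrrCharacter G,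
      (χ : G → ℂ) ≠ (fun _ => 1) ∧ ∃ k : ℕ, charDegree (χ : G → ℂ) = q ^ k := by
  classical
  rcases Nat.eq_zero_or_pos a with rfl | h0
  · have := Char.burnside_paqb (G := G) hq hr (by rw [hG, pow_zero, one_mul])
    obtain ⟨g, -, hg⟩ := SetLike.exists_of_lt (IsSolvable.commutator_lt_top_of_nontrivial G)
    obtain ⟨χ, hχ, h⟩ := exists_irrK_notMem (H := ⊤) le_top le_normalizer_of_normal hg
    obtain ⟨h1, h2⟩ := mem_irrK.1 hχ
    refine ⟨⟨χ, mem_irr_top.1 h1⟩, fun e => h ?_, 0, ?_⟩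
    · rw [show χ = triv ⊤ from e.trans triv_top.symm]
      exact le_ker_triv ⊤ (mem_top g)
    · have := (irr_one_eq_one_iff' h1).2 h2
      rw [exists_degree h1] at this
      exact_mod_cast this
  have := Fact.mk hp
  obtain ⟨M, hM⟩ := exists_isPModular hp
  obtain ⟨u, hu⟩ := exists_prime_orderOf_dvd_card' (G := G) p
    (hG ▸ ((dvd_pow_self p h0.ne').mul_right _).mul_right _)
  have h1 := sum_block_mul_mul_eq_zero hM (nrm_eSet_le_one hM isPBlock_principalBlock)
    (a := 1) (b := 1) (u := u) fun x y h => by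
      rw [pPart_of_pElement hp ⟨1, by rw [hu, pow_one]⟩, show x * 1 * x⁻¹ * (y * 1 * y⁻¹) = 1 by simp,
        pPart_of_pElement hp ⟨0, by simp⟩, isConj_one_left] at h
      exact hp.one_lt.ne (by simpa [h] using hu)
  by_contra! h2
  have h3 : ∀ χ ∈ (Finset.univ.filter (· ∈ principalBlock M G)).erase (Char.oneIrr G),
      r ∣ charDegree (χ : G → ℂ) := fun χ hχ => by
    rw [Finset.mem_erase, Finset.mem_filter] at hχ
    have h4 : ¬ p ∣ charDegree (χ : G → ℂ) := fun h => by
      have h5 := (hp.dvd_iff_one_le_factorization (deg_pos (coe_mem_irr_top χ)).ne').1 h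
      have h6 := height_add_two_le hM isPBlock_principalBlock hχ.2.2 (by
        rw [blockHeight_eq, minExp_principal hM]; omega)
      rw [blockHeight_eq, minExp_principal hM, blockDefect_principal hM, hG] at h6
      simp [Nat.factorization_mul, hp.ne_zero, hq.ne_zero, hr.ne_zero, hp.factorization,
        hq.factorization, hr.factorization, hpq, hpr] at h6
      omega
    by_contra h5
    have h6 := Char.irr_one_dvd_card χ.2 (exists_degree (coe_mem_irr_top χ))
    rw [hG] at h6
    obtain ⟨k, -, hk⟩ := (Nat.dvd_prime_pow hq).1 (Nat.Coprime.dvd_of_dvd_mul_left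
      ((hp.coprime_iff_not_dvd.2 h4).symm.pow_right a) (Nat.Coprime.dvd_of_dvd_mul_right
        ((hr.coprime_iff_not_dvd.2 h5).symm.pow_right c) h6))
    exact h2 χ (fun e => hχ.1 (Subtype.ext e)) k hk
  rw [← Finset.add_sum_erase _ _ (Finset.mem_filter.2 ⟨Finset.mem_univ _,
    oneIrr_mem_principalBlock hM⟩)] at h1
  have h4 : ((-1 : ℤ) : ℂ) / (r : ℤ) = ∑ χ ∈ (Finset.univ.filter (· ∈ principalBlock M G)).erase
      (Char.oneIrr G), (charDegree (χ : G → ℂ) / r : ℕ) * (χ : G → ℂ) u⁻¹ := by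
    rw [div_eq_iff (by exact_mod_cast hr.ne_zero), Finset.sum_mul, Int.cast_neg, Int.cast_one,
      neg_eq_iff_add_eq_zero, ← h1]
    congr 1
    · simp [Char.oneIrr]
    · refine Finset.sum_congr rfl fun χ hχ => ?_
      obtain ⟨k, hk⟩ := h3 χ hχ
      rw [mul_div_right_comm, mul_div_cancel_right₀ _ (Char.irr_one_ne_zero χ.2), Char.irr_inv χ.2,
        exists_degree (coe_mem_irr_top χ), hk, Nat.mul_div_cancel_left _ hr.pos]
      push_cast
      ring
  have h5 := Char.int_dvd_of_isIntegral_div (a := -1) (b := r) (by exact_mod_cast hr.ne_zero)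
    (h4 ▸ IsIntegral.sum _ fun χ _ => (isIntegral_natCast _).mul
      (ZIrr.isIntegral (zirr_of_irr (coe_mem_irr_top χ)) _))
  exact hr.one_lt.ne' (Nat.dvd_one.1 (Int.natCast_dvd_natCast.1 (by simpa using h5)))

/-- Let G be a non-trivial finite group of order p^a · q^b · r^c with p, q, r distinct primes and a ≤ 2. Then G has a non-principal irreducible character whose degree is a power of q, and a non-principal irreducible character whose degree is a power of r; the power may be the zeroth, so a non-principal linear character serves for both. -/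
theorem result {G : Type*} [Group G] [Finite G] [Nontrivial G] (p q r a b c : ℕ) (hp : p.Prime) (hq : q.Prime) (hr : r.Prime) (hpq : p ≠ q) (hpr : p ≠ r) (hqr : q ≠ r) (ha : a ≤ 2) (hG : Nat.card G = p ^ a * q ^ b * r ^ c) : (∃ χ : Cfsg.IrrCharacter G, (χ : G → ℂ) ≠ (fun _ => 1) ∧ ∃ k : ℕ, Cfsg.charDegree (χ : G → ℂ) = q ^ k) ∧ ∃ χ : Cfsg.IrrCharacter G, (χ : G → ℂ) ≠ (fun _ => 1) ∧ ∃ k : ℕ, Cfsg.charDegree (χ : G → ℂ) = r ^ k := by
  exact ⟨aux hp hq hr ha hpq hpr hG, aux hp hr hq ha hpr hpq (b := c) (c := b) (by rw [hG]; ring)⟩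

end Cfsg.Agent.S4500
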