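import Cfsg.Statements.S4501
import Cfsg.Agent.Small.PQ
import Cfsg.Agent.S0998
import Cfsg.Agent.Classical.Transport

set_option autoImplicit false
open Cfsg

namespace Cfsg.Agent.S4501

/-- Let G be a non-abelian finite simple group and p, q distinct primes. If the order of G is 4·p^a·q^b with a ≤ 2, then G is isomorphic to the alternating group of degree 5. If the order of G is 3·p^a·q^b with a ≤ 2, then G is isomorphic to the alternating group of degree 5 or to PSL(2,7). -/
theorem result {G : Type*} [Group G] [Finite G] [IsSimpleGroup G] (hna : ∃ x y : G, x * y ≠ y * x) (p q a b : ℕ) (hp : p.Prime) (hq : q.Prime) (hpq : p ≠ q) (ha : a ≤ 2) : (Nat.card G = 4 * p ^ a * q ^ b → Nonempty (G ≃* alternatingGroup (Fin 5))) ∧ (Nat.card G = 3 * p ^ a * q ^ b → Nonempty (G ≃* alternatingGroup (Fin 5)) ∨ Nonempty (G ≃* Matrix.ProjectiveSpecialLinearGroup (Fin 2) (ZMod 7))) := by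
  have hG : ¬ IsMulCommutative G := fun h => let ⟨x, y, e⟩ := hna; e (mul_comm' x y)
  refine ⟨CF.Small.A5_of_four hG hp hq, fun h => ?_⟩
  have hs := CF.Small.not_solvable_of_simple hG
  have hp3 : p ≠ 3 := by
    rintro rfl
    exact hs (CF.Char.burnside_paqb (a := a + 1) (b := b) hp hq (by rw [h]; ring))
  have hq3 : q ≠ 3 := by
    rintro rfl
    exact hs (CF.Char.burnside_paqb (a := a) (b := b + 1) hp hq (by rw [h]; ring))
  interval_cases a
  · exact absurd (CF.Char.burnside_paqb (a := 1) (b := b) Nat.prime_three hq (by rw [h]; ring)) hs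
  · have := Fact.mk (show Nat.Prime 7 by norm_num)
    rcases Cfsg.Agent.S0998.result (G := G) (fun c => hG inferInstance) p q 3 b hp hq Nat.prime_three hpq
      hp3 hq3 (by rw [h]; ring) with ⟨F, _, _, c, ⟨e⟩⟩ | ⟨F, _, _, c, ⟨e⟩⟩
    · obtain ⟨e2⟩ := CF.Classical.PSL2_five_equiv (F := F) (by rw [Nat.card_eq_fintype_card, c])
      exact .inl ⟨e.trans e2⟩
    · exact .inr ⟨e.trans (CF.Classical.pslCongr _ (FiniteField.ringEquivOfCardEq (by rw [c, ZMod.card])))⟩
  · by_cases h2 : p = 2
    · subst h2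
      exact .inl (CF.Small.A5_of_four hG Nat.prime_three hq (a := 1) (b := b) (by rw [h]; ring))
    · exact absurd h (CF.Small.card_ne_three_sq hG hp hq hpq h2 hp3 hq3)

end Cfsg.Agent.S4501
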