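import Cfsg.Statements.S4502
import Cfsg.Agent.Small.SC
import Cfsg.Agent.Clifford.Small

set_option autoImplicit false
open Cfsg

namespace Cfsg.Agent.S4502

open CF.Small Subgroup CF CF.PF CF.Small.PSet

variable {p : ℕ} [hp : Fact p.Prime] {G : Type*} [Group G] [Finite G]

theorem count (S : PSet p G) :
    Nat.card {χ : IrrCharacter G // ¬ p ∣ charDegree (χ : G → ℂ)} * S.fi =
      ∑ θ ∈ irr S.K, (S.ei θ ^ 2 + (p - 1)) := by
  classical
  let A : (G → ℂ) → Finset (G → ℂ) := fun θ => (irr ⊤).filter fun χ => ∃ j ≠ 0, S.bz χ θ j ≠ 0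
  have hA : ∀ {θ} (B : S.Blk θ), A θ = B.all := fun B =>
    Finset.ext fun χ => Finset.mem_filter.trans B.mem_all_iff.symm
  have h1 : Nat.card {χ : IrrCharacter G // ¬ p ∣ charDegree (χ : G → ℂ)} =
      ((irr (⊤ : Subgroup G)).filter fun χ => ¬ p ∣ charDegree χ).card := by
    rw [← card_irrSet fun χ h => (Finset.mem_filter.1 h).1]
    exact Nat.card_congr (Equiv.subtypeEquivRight fun χ => by simp [coe_mem_irr_top])
  rw [h1, Finset.card_filter, Finset.sum_mul, Finset.sum_congr rfl (g := fun χ =>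
    ∑ θ ∈ irr S.K, if χ ∈ A θ then S.ei θ else 0), Finset.sum_comm]
  · refine Finset.sum_congr rfl fun θ hθ => ?_
    obtain ⟨B⟩ := nonempty_blk hθ
    rw [← Finset.sum_filter, Finset.filter_mem_eq_inter, hA B, Finset.inter_eq_right.2
      fun _ => B.all_irr, Finset.sum_const, smul_eq_mul, Blk.all,
      Finset.card_union_of_disjoint B.disjoint, add_mul, B.card_X, B.card_Y, sq]
  · intro χ hχ
    split_ifs with h
    · rw [zero_mul, Finset.sum_eq_zero fun θ hθ => if_neg fun h' => ?_]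
      obtain ⟨B⟩ := nonempty_blk hθ
      exact B.not_dvd_degree hθ (hA B ▸ h') (exists_degree hχ) h
    · obtain ⟨θ, hθ, B, hB⟩ := exists_blk_of_not_dvd (S := S) hχ (exists_degree hχ) h
      rw [one_mul, ← Finset.sum_filter, show (irr S.K).filter (fun θ' => χ ∈ A θ') = orb S.N θ from
        Finset.ext fun θ' => ?_, Finset.sum_congr rfl (g := fun _ => S.ei θ), Finset.sum_const,
        smul_eq_mul, mul_comm, ei_mul_card_orb hθ]
      · intro θ' h'
        have h2 := ei_mul_card_orb (orb_subset_irr S.N_le_normalizer_K hθ h')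
        rw [orb_eq_of_mem h', ← ei_mul_card_orb hθ] at h2
        exact Nat.eq_of_mul_eq_mul_right (Finset.card_pos.2 ⟨_, h'⟩) h2
      · rw [Finset.mem_filter]
        refine ⟨fun ⟨h1, h2⟩ => ?_, fun h' => ?_⟩
        · obtain ⟨B'⟩ := nonempty_blk h1
          exact B.mem_orb_of_mem_all hθ h1 B' hB (hA B' ▸ h2)
        · have h1 := orb_subset_irr S.N_le_normalizer_K hθ h'
          obtain ⟨B'⟩ := nonempty_blk h1
          exact ⟨h1, by rwa [hA B', B.all_eq_of_mem_orb B' h']⟩

/-- Let G be a finite group whose order is divisible by the prime p exactly once, and let P be a Sylow p-subgroup. Then the number of irreducible characters of G of degree not divisible by p equals the number of conjugacy classes of the normalizer of P. -/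
theorem result {G : Type*} [Group G] [Finite G] (p : ℕ) [Fact p.Prime] (hdiv : p ∣ Nat.card G) (hsq : ¬ p ^ 2 ∣ Nat.card G) (P : Sylow p G) : Nat.card {χ : Cfsg.IrrCharacter G // ¬ p ∣ Cfsg.charDegree (χ : G → ℂ)} = Nat.card (ConjClasses (Subgroup.normalizer ((P : Subgroup G) : Set G))) := by
  obtain ⟨S, hS⟩ := exists_pset_sylow P (card_sylow_eq P (a := 1) (m := Nat.card G / p)
    (by rw [pow_one, Nat.mul_div_cancel' hdiv]) (fun h => hsq (by
      rw [← Nat.mul_div_cancel' hdiv, sq]; exact Nat.mul_dvd_mul_left p h)) |>.trans (pow_one p))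
  rw [← hS]
  obtain ⟨T, e⟩ := S.exists_sub (S.P_le_N (mem_zpowers _))
  have hP : T.P = S.P.subgroupOf S.N := by
    ext x
    simp [PSet.P, e, mem_subgroupOf, mem_zpowers_iff, Subtype.ext_iff]
  have hn : T.P.Normal := hP ▸ inferInstance
  have hN : T.N = ⊤ := normalizer_eq_top _
  have hC : T.C = S.C.subgroupOf S.N := by
    ext x
    simp [mem_subgroupOf, mem_C_iff, e, Commute, SemiconjBy, Subtype.ext_iff]
  have hK : T.K = S.K.subgroupOf S.N := by
    ext x
    simp [mem_subgroupOf, mem_K_iff, hC]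
  have hf : T.fi = S.fi := by rw [fi, hC, hN, relIndex_top_right, fi, relIndex]
  have h1 := count T
  rw [Nat.card_congr (Equiv.subtypeUnivEquiv fun χ h => T.nsq (by
    rw [← T.P.card_mul_index, T.card_P, sq]
    exact Nat.mul_dvd_mul_left p (h.trans (Clifford.irr_one_dvd_index_of_normal_comm T.P
      (fun a ha b hb => by
        obtain ⟨i, rfl⟩ := T.mem_P_iff.1 hb
        exact (T.commute_zp (T.P_le_C ha) i).eq) χ.2 (exists_degree (coe_mem_irr_top χ)))))),
    Char.card_irr, hf] at h1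
  refine Nat.eq_of_mul_eq_mul_right (fi_pos (S := S)) ((count S).trans (Eq.trans ?_ h1.symm))
  let ι := subgroupOfEquivOfLe S.K_le_N
  refine Finset.sum_bij (fun θ _ => fun x : S.N => θ x) (fun θ hθ => ?_) (fun θ hθ θ' hθ' h => ?_)
    (fun θ hθ => ⟨extendByZero S.N θ, ?_, restrict_extendByZero _ _⟩) fun θ hθ => ?_
  · rw [hK]
    exact mem_irr.2 ⟨fun x hx => (mem_irr.1 hθ).1 x hx, Char.irr_comp_equiv (mem_irr.1 hθ).2 ι⟩
  · funext x
    by_cases hx : x ∈ S.K
    · exact congrFun h ⟨x, S.K_le_N hx⟩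
    · rw [(mem_irr.1 hθ).1 x hx, (mem_irr.1 hθ').1 x hx]
  · rw [hK] at hθ
    refine mem_irr.2 ⟨fun x hx => ?_, ?_⟩
    · by_cases h : x ∈ S.N
      · rw [extendByZero_of_mem _ _ h, (mem_irr.1 hθ).1 ⟨x, h⟩ hx]
      · exact extendByZero_of_notMem _ _ h
    · convert Char.irr_comp_equiv (mem_irr.1 hθ).2 ι.symm using 2 with x
      exact extendByZero_of_mem _ _ (S.K_le_N x.2)
  · rw [ei, ei, hC, hN, ← relIndex_subgroupOf (inertia_le (L := S.N))]
    congr 3
    ext g
    simp only [mem_subgroupOf, mem_inertia, g.2, mem_top, true_and]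
    refine ⟨fun h => funext fun x => congrFun h x, fun h => funext fun x => ?_⟩
    by_cases hx : x ∈ S.N
    · exact congrFun h ⟨x, hx⟩
    · rw [cj_apply, (mem_irr.1 hθ).1 x (mt (S.K_le_N ·) hx), (mem_irr.1 hθ).1 _ fun h => hx (by
        simpa [mul_assoc] using S.N.mul_mem (S.N.mul_mem (S.N.inv_mem g.2) (S.K_le_N h)) g.2)]

end Cfsg.Agent.S4502
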