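import Cfsg.Statements.S4506
import Cfsg.Agent.BlockB.Central
import Cfsg.Agent.Char.Galois
-- import your own Cfsg.Agent.* helpers here

set_option autoImplicit false
open Cfsg

namespace Cfsg.Agent.S4506

/-- Let G be a finite group, p a prime, p^a the p-part of the order of G and g′ its p′-part. Call two irreducible characters p-conjugate when one is obtained from the other by applying a field automorphism of ℂ that fixes the g′-th roots of unity, and let r be the number of characters p-conjugate to the irreducible character χ (χ included). Then the exponent of p in r·χ(1) is at most a; and if p^a divides r·χ(1) then p^a already divides χ(1). -/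
theorem result {G : Type*} [Group G] [Finite G] (p : ℕ) (hp : p.Prime) (χ : Cfsg.IrrCharacter G) (r : ℕ) (hr : Nat.card {ψ : Cfsg.IrrCharacter G // ∃ σ : ℂ ≃+* ℂ, σ (Complex.exp (2 * Real.pi * Complex.I / ((Nat.card G / p ^ (Nat.card G).factorization p) : ℕ))) = Complex.exp (2 * Real.pi * Complex.I / ((Nat.card G / p ^ (Nat.card G).factorization p) : ℕ)) ∧ (ψ : G → ℂ) = fun g => σ ((χ : G → ℂ) g)} = r) : (r * Cfsg.charDegree (χ : G → ℂ)).factorization p ≤ (Nat.card G).factorization p ∧ (p ^ (Nat.card G).factorization p ∣ r * Cfsg.charDegree (χ : G → ℂ) → p ^ (Nat.card G).factorization p ∣ Cfsg.charDegree (χ : G → ℂ)) := by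
  classical
  have := Fact.mk hp
  have := Fintype.ofFinite G
  set m := Nat.card G / p ^ (Nat.card G).factorization p
  set a := (Nat.card G).factorization p
  set c := charDegree (χ : G → ℂ)
  have hm0 : m ≠ 0 := (Nat.ordCompl_pos p Nat.card_pos.ne').ne'
  have hζ := Complex.isPrimitiveRoot_exp m hm0
  rw [Nat.card_eq_fintype_card, Fintype.card_subtype] at hr
  set S := Finset.univ.filter fun ψ : IrrCharacter G => ∃ σ : ℂ ≃+* ℂ,
    σ (Complex.exp (2 * Real.pi * Complex.I / m)) = Complex.exp (2 * Real.pi * Complex.I / m) ∧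
      (ψ : G → ℂ) = fun g => σ ((χ : G → ℂ) g)
  have hS : ∀ ψ ∈ S, pRegularPart p (ψ : G → ℂ) = pRegularPart p (χ : G → ℂ) := fun ψ hψ => by
    obtain ⟨σ, h1, h2⟩ := (Finset.mem_filter.1 hψ).2
    refine CF.BlockB.reg_eq_iff.2 fun g hg => ?_
    rw [h2]
    refine (CF.Char.gen_map_eq_pow (CF.Char.gen_of_irr χ.2) σ.toRingHom (n := m) (m := 1)
      (fun z hz => ?_) (orderOf_dvd_iff_pow_eq_one.1 ?_)).trans (by rw [pow_one])
    · have := NeZero.mk hm0
      obtain ⟨i, -, rfl⟩ := hζ.eq_pow_of_pow_eq_one hz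
      rw [map_pow, pow_one]
      exact congrArg (· ^ i) h1
    · exact (((Nat.Prime.coprime_iff_not_dvd hp).2 hg).symm.pow_right a).dvd_of_dvd_mul_left
        ((Nat.ordProj_mul_ordCompl_eq_self _ p).symm ▸ orderOf_dvd_natCard g)
  have hχS : χ ∈ S := Finset.mem_filter.2 ⟨Finset.mem_univ _, RingEquiv.refl ℂ, rfl, rfl⟩
  have hΨ := CF.BlockB.gen_pow_smul_reg_irr hp χ
  set d := a - c.factorization p
  set Ψ := (p : ℂ) ^ d • pRegularPart p (χ : G → ℂ) with hΨd
  choose n hn using fun ξ : IrrCharacter G => CF.Char.inner_gen_eq_int hΨ (CF.Char.gen_of_irr ξ.2)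
  have h1 : ∀ ψ ∈ S, n ψ = n χ := fun ψ hψ => by
    rw [← Int.cast_inj (α := ℂ), ← hn, ← hn, CF.Char.inner_smul_left, CF.Char.inner_smul_left,
      ← CF.BlockB.inner_reg_reg, hS ψ hψ, CF.BlockB.inner_reg_reg]
  have h2 : ∑ ξ, n ξ ^ 2 = p ^ d * n χ := by
    have := CF.Char.inner_eq_sum_irr (CF.Char.gen_isClassFunction hΨ) Ψ
    simp only [hn, map_intCast, ← sq] at this
    rw [← Int.cast_inj (α := ℂ)]
    push_cast
    rw [← this, ← hn]
    conv_lhs => rw [hΨd, CF.Char.inner_smul_right, ← hΨd, CF.BlockB.PV.inner_reg_right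
      ((CF.BlockB.pv_reg _).smul _)]
    rw [map_pow, map_natCast]
  have h3 : Ψ 1 = p ^ d * c := by
    rw [hΨd, Pi.smul_apply, CF.BlockB.reg_one hp, CF.BlockB.irr_charDegree_eq, smul_eq_mul]
  have hc0 : c ≠ 0 := by
    intro h
    exact CF.Char.irr_one_ne_zero χ.2 (by rw [← CF.BlockB.irr_charDegree_eq χ]; exact_mod_cast h)
  have h4 : n χ ≠ 0 := fun h => by
    rw [h, mul_zero, Finset.sum_eq_zero_iff_of_nonneg fun _ _ => sq_nonneg _] at h2
    rw [CF.Char.classFun_apply_eq_sum (CF.Char.gen_isClassFunction hΨ),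
      Finset.sum_eq_zero fun ξ hξ => by rw [hn, pow_eq_zero_iff two_ne_zero |>.1 (h2 ξ hξ)]; simp] at h3
    exact mul_ne_zero (pow_ne_zero _ (Nat.cast_ne_zero.2 hp.ne_zero)) (Nat.cast_ne_zero.2 hc0) h3.symm
  rw [← Finset.sum_add_sum_compl S, Finset.sum_congr rfl fun ψ hψ => by rw [h1 ψ hψ],
    Finset.sum_const, hr, nsmul_eq_mul] at h2
  have h5 := Finset.sum_nonneg fun ξ (_ : ξ ∈ Sᶜ) => sq_nonneg (n ξ)
  have hr0 : 0 < r := hr ▸ Finset.card_pos.2 ⟨χ, hχS⟩
  have hr1 : (1 : ℤ) ≤ r := by exact_mod_cast hr0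
  have hpd : (0 : ℤ) < p ^ d := by exact_mod_cast pow_pos hp.pos d
  have h6 : 1 ≤ n χ := by
    by_contra! h
    have := sq_pos_of_ne_zero h4
    nlinarith
  have h7 : r * n χ ≤ p ^ d := by nlinarith
  have h8 : r ≤ p ^ d := by
    have : (r : ℤ) ≤ p ^ d := by nlinarith
    exact_mod_cast this
  have h9 : c.factorization p ≤ a := CF.BlockB.factorization_charDegree_le χ
  have h10 : r.factorization p ≤ d := (Nat.pow_le_pow_iff_right hp.one_lt).1
    ((Nat.le_of_dvd hr0 (Nat.ordProj_dvd r p)).trans h8)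
  have h11 : (r * c).factorization p = r.factorization p + c.factorization p := by
    rw [Nat.factorization_mul hr0.ne' hc0]; rfl
  refine ⟨by omega, fun h => ?_⟩
  rw [hp.pow_dvd_iff_le_factorization (mul_ne_zero hr0.ne' hc0)] at h
  have h12 : r = p ^ d := h8.antisymm (Nat.le_of_dvd hr0
    ((hp.pow_dvd_iff_le_factorization hr0.ne').2 (by omega)))
  have h13 : (r : ℤ) = p ^ d := by exact_mod_cast h12
  have h14 : n χ = 1 := by nlinarith
  rw [h14, h13, one_pow, add_eq_left, Finset.sum_eq_zero_iff_of_nonneg fun _ _ => sq_nonneg _] at h2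
  have h15 : ∀ g, Ψ g = ∑ ψ ∈ S, (ψ : G → ℂ) g := fun g => by
    rw [CF.Char.classFun_apply_eq_sum (CF.Char.gen_isClassFunction hΨ), ← Finset.sum_add_sum_compl S,
      Finset.sum_eq_zero (s := Sᶜ) fun ξ hξ => by
        rw [hn, pow_eq_zero_iff two_ne_zero |>.1 (h2 ξ hξ)]; simp, add_zero]
    exact Finset.sum_congr rfl fun ψ hψ => by simp [hn, h1 ψ hψ, h14]
  obtain ⟨P⟩ : Nonempty (Sylow p G) := inferInstance
  have := Fintype.ofFinite (P : Subgroup G)
  have h16 := CF.BlockB.avg_eq_of_vanish hp (Ψ := Ψ) (fun g hg => by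
    simp [hΨd, CF.BlockB.reg_of_dvd _ hg]) (x := 1) (by simpa using hp.ne_one) P P.isPGroup'
    (fun x _ => Subgroup.mem_centralizer_singleton_iff.2 (Commute.one_right x))
  obtain ⟨j, hj⟩ := CF.Char.inner_char_eq_nat (CF.Char.char_restrict (CF.Char.irr_isCharacter χ.2) P)
    (CF.Char.irr_isCharacter (CF.Char.oneIrr _).2)
  have h17 : ∀ ψ ∈ S, ∑ u : (P : Subgroup G), (ψ : G → ℂ) u = Nat.card (P : Subgroup G) * j :=
    fun ψ hψ => by
      obtain ⟨σ, -, h2⟩ := (Finset.mem_filter.1 hψ).2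
      rw [CF.Char.inner_def, inv_mul_eq_iff_eq_mul₀ CF.Char.card_ne_zero_complex] at hj
      simp only [CF.Char.oneIrr, map_one, mul_one] at hj
      simp only [h2, ← map_sum, hj, map_mul, map_natCast]
  simp only [one_mul] at h16
  rw [h3, Finset.sum_congr rfl fun u _ => h15 _, Finset.sum_comm, Finset.sum_congr rfl h17,
    Finset.sum_const, hr, h12, nsmul_eq_mul, Nat.cast_pow, mul_right_inj'
      (pow_ne_zero _ (Nat.cast_ne_zero.2 hp.ne_zero)), P.card_eq_multiplicity] at h16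
  exact ⟨j, by exact_mod_cast h16.symm⟩

end Cfsg.Agent.S4506
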