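import Cfsg.Statements.S4507
import Cfsg.Agent.Small.Def4

set_option autoImplicit false
open Cfsg

namespace Cfsg.Agent.S4507

open CF.Small CF.PF CF.BlockB

/-- Let G be a finite group whose order g is divisible by the prime p exactly once, g′ = g/p, and fix a maximal ideal M of the algebraic integers containing p. Call two irreducible characters p-conjugate when a field automorphism of ℂ fixing the g′-th roots of unity carries one to the other. Let B be a p-block of positive defect (its defect group is a Sylow p-subgroup). Then B contains a subset Y (the exceptional family) such that: Y is a full p-conjugacy class (its members are pairwise p-conjugate and every p-conjugate of a member of Y lies in Y); every member of B outside Y is p-conjugate only to itself; the size t of Y divides p − 1 and B has exactly t + (p − 1)/t members; and there are signs δ_χ = ±1 (χ ∈ B) such that for every p-regular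 element x and every θ ∈ Y, Σ_{χ ∈ B ∖ Y} δ_χ χ(x) + δ_θ θ(x) = 0. -/
theorem result {G : Type*} [Group G] [Finite G] (p : ℕ) [Fact p.Prime] (M : Ideal Cfsg.AlgInt) (hM : Cfsg.IsPModular p M) (hdiv : p ∣ Nat.card G) (hsq : ¬ p ^ 2 ∣ Nat.card G) (B : Set (Cfsg.IrrCharacter G)) (hB : Cfsg.IsPBlock M B) (hd : 0 < Cfsg.blockDefect p B) : ∃ Y : Set (Cfsg.IrrCharacter G), Y ⊆ B ∧ Y.Nonempty ∧ (∀ θ ∈ Y, ∀ ψ : Cfsg.IrrCharacter G, (∃ σ : ℂ ≃+* ℂ, σ (Complex.exp (2 * Real.pi * Complex.I / ((Nat.card G / p ^ (Nat.card G).factorization p) : ℕ))) = Complex.exp (2 * Real.pi * Complex.I / ((Nat.card G / p ^ (Nat.card G).factorization p) : ℕ)) ∧ (ψ : G → ℂ) = fun g => σ ((θ : G → ℂ) g)) ↔ ψ ∈ Y) ∧ (∀ χ ∈ B, χ ∉ Y → ∀ ψ : Cfsg.IrrCharacter G, (∃ σ : ℂ ≃+* ℂ, σ (Complex.exp (2 * Real.pi * Complex.I / ((Nat.card G / p ^ (Nat.card G).factorization p) : ℕ))) = Complex.exp (2 * Real.pi * Complex.I / ((Nat.card G / p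 ^ (Nat.card G).factorization p) : ℕ)) ∧ (ψ : G → ℂ) = fun g => σ ((χ : G → ℂ) g)) → ψ = χ) ∧ Nat.card Y ∣ p - 1 ∧ Nat.card B = Nat.card Y + (p - 1) / Nat.card Y ∧ ∃ δ : Cfsg.IrrCharacter G → ℤ, (∀ χ ∈ B, δ χ = 1 ∨ δ χ = -1) ∧ ∀ x : G, ¬ p ∣ orderOf x → ∀ θ ∈ Y, (∑ᶠ χ ∈ B \ Y, (δ χ : ℂ) * (χ : G → ℂ) x) + (δ θ : ℂ) * (θ : G → ℂ) x = 0 := by
  classical
  have hp : p.Prime := Fact.out
  obtain ⟨S⟩ := nonempty_pset hdiv hsq
  obtain ⟨θ, hθ, B', rfl⟩ := PSet.exists_blk (S := S) hM hB hd.ne'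
  obtain ⟨m, hm⟩ := hdiv
  have hm0 : m ≠ 0 := by rintro rfl; exact Nat.card_pos.ne' hm
  have e1 : Nat.card G / p ^ (Nat.card G).factorization p = m := by
    rw [S.factorization_card, pow_one, hm, Nat.mul_div_cancel_left _ hp.pos]
  rw [e1]
  have hζ := Complex.isPrimitiveRoot_exp m hm0
  have hζn : Complex.exp (2 * Real.pi * Complex.I / m) ^ Nat.card G = 1 := by
    rw [hm, mul_comm p, pow_mul, hζ.pow_eq_one, one_pow]
  have key : ∀ σ : ℂ ≃+* ℂ, σ (Complex.exp (2 * Real.pi * Complex.I / m)) =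
      Complex.exp (2 * Real.pi * Complex.I / m) → ∃ s, Adm p G s ∧ ∀ χ : Cfsg.IrrCharacter G,
        (fun g => σ ((χ : G → ℂ) g)) = fun g => (χ : G → ℂ) (g ^ s) := fun σ hσ => by
    obtain ⟨s, hs, h⟩ := CF.Char.aut_exists_pow (σ : ℂ →+* ℂ) (Nat.card_pos (α := G)).ne'
    refine ⟨s, adm_of_modEq hm hs ?_, fun χ => funext fun g => CF.Char.gen_map_eq_pow
      (mem_ZIrr_top.1 (zirr_of_irr (coe_mem_irr_top χ))) (σ : ℂ →+* ℂ) h pow_card_eq_one'⟩
    have := h _ hζn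
    rw [RingHom.coe_coe, hσ] at this
    rw [hζ.eq_orderOf]
    exact (isOfFinOrder_iff_pow_eq_one.2 ⟨m, Nat.pos_of_ne_zero hm0, hζ.pow_eq_one⟩
      ).pow_eq_pow_iff_modEq.1 (by rw [pow_one, ← this])
  have hc : Nat.card (irrSet B'.Y) * S.ei θ = p - 1 := by
    rw [card_irrSet fun _ => B'.Y_irr, B'.card_Y]
  have hdiff : irrSet B'.all \ irrSet B'.Y = irrSet B'.X := by
    rw [B'.irrSet_all, Set.union_diff_right, B'.disjoint_irrSet.sdiff_eq_left]
  refine ⟨irrSet B'.Y, fun χ h => B'.mem_all.2 (Or.inr h),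
    ⟨⟨_, mem_irr_top.1 (B'.ex_irr 1 one_ne_zero)⟩, B'.ex_mem_Y one_ne_zero⟩, fun χ h ψ => ?_,
    fun χ h h' ψ ⟨σ, hσ, e⟩ => ?_, ⟨_, hc.symm⟩, ?_,
    fun χ => if (χ : G → ℂ) ∈ B'.X then B'.ε χ else -B'.δ, fun χ _ => ?_, fun x hx χ h => ?_⟩
  · obtain ⟨j, hj, e⟩ := B'.mem_Y.1 h
    refine ⟨fun ⟨σ, hσ, e'⟩ => ?_, fun h' => ?_⟩
    · obtain ⟨s, hs, h⟩ := key σ hσ
      rw [mem_irrSet, e', h, ← e, B'.pow_ex hθ hj hs]
      exact B'.ex_mem_Y (mul_ne_zero hj (S.natCast_ne_zero_of_adm hs))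
    · obtain ⟨j', hj', e'⟩ := B'.mem_Y.1 h'
      obtain ⟨s, hs, h1, h2⟩ := S.exists_adm' hm (div_ne_zero hj' hj)
      obtain ⟨σ, hσ⟩ := CF.Char.exists_aut_pow (Nat.card_pos (α := G)).ne' hs.1
      refine ⟨σ, by rw [hσ _ hζn, pow_eq_pow_of_modEq h2 hζ.pow_eq_one, pow_one], ?_⟩
      rw [← e', ← mul_div_cancel₀ j' hj, ← h1, ← B'.pow_ex hθ hj hs, e]
      exact funext fun g => (CF.Char.gen_map_eq_pow
        (mem_ZIrr_top.1 (zirr_of_irr (coe_mem_irr_top χ))) (σ : ℂ →+* ℂ) hσ pow_card_eq_one').symm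
  · obtain ⟨s, hs, h1⟩ := key σ hσ
    exact Subtype.ext (by rw [e, h1, B'.pow_X hθ ((B'.mem_all.1 h).resolve_right h') hs])
  · rw [card_irrSet fun _ => B'.all_irr, B'.card_all, ← hc, Nat.mul_div_cancel _ (S.ei_pos θ),
      Nat.mul_div_cancel_left _ (Nat.pos_of_mul_pos_right (hc ▸ Nat.sub_pos_of_lt hp.one_lt)),
      add_comm]
  · dsimp only
    split_ifs with h
    · exact B'.ε_sign _ h
    · rcases B'.δ_sign with e | e <;> simp [e]
  · obtain ⟨j, hj, e⟩ := B'.mem_Y.1 h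
    rw [hdiff, finsum_irrSet B'.X_irr fun χ => ((if χ ∈ B'.X then B'.ε χ else -B'.δ : ℤ) : ℂ) * χ x,
      Finset.sum_congr rfl fun χ h => by rw [if_pos h], B'.reg_rel hθ hj hx]
    simp only [← e, if_neg (B'.ex_notMem j hj)]
    push_cast; ring

end Cfsg.Agent.S4507
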