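import Cfsg.Statements.S4508
import Cfsg.Agent.Small.SC

set_option autoImplicit false
open Cfsg

namespace Cfsg.Agent.S4508

open CF.Small Subgroup CF CF.PF CF.Small.PSet

/-- Let the finite group G contain an element x of prime order p with C_G(x) = ⟨x⟩, and let t be the number of conjugacy classes of elements of order p. If G has an irreducible character of degree p − 1, then t is even or the commutator subgroup has even index. -/
theorem result {G : Type*} [Group G] [Finite G] (p : ℕ) (hp : p.Prime) (x : G) (hx : orderOf x = p) (hC : Subgroup.centralizer ({x} : Set G) = Subgroup.zpowers x) (t : ℕ) (ht : Nat.card {C : ConjClasses G // ∃ g ∈ C.carrier, orderOf g = p} = t) (χ : Cfsg.IrrCharacter G) (hχ : Cfsg.charDegree (χ : G → ℂ) + 1 = p) : Even t ∨ Even (commutator G).index := by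
  have := Fact.mk hp
  obtain ⟨S, rfl, hK⟩ := exists_pset_self hx hC
  have h1 := S.card_classes
  have h2 := hp.two_le
  rw [ht] at h1
  rcases eq_or_ne S.fi 1 with hf | hf
  · rw [index_commutator hK hf, show t = p - 1 by rwa [hf, mul_one] at h1]
    exact hp.eq_two_or_odd'.symm.imp (fun h => Nat.Odd.sub_odd h odd_one) fun h : p = 2 => by rw [h]; exact even_two
  have h3 : p ≠ 2 := by
    rintro rfl
    exact hf (Nat.eq_one_of_mul_eq_one_left h1)
  refine or_iff_not_imp_left.2 fun h4 => ?_
  obtain ⟨e, he⟩ := (Nat.even_mul.1 (h1 ▸ Nat.Odd.sub_odd (hp.odd_of_ne_two h3) odd_one)).resolve_left h4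
  have hχ' := coe_mem_irr_top χ
  obtain ⟨B, -⟩ := S.exists_pblk
  have h5 : mu S.P χ (triv S.P) = 0 := by
    have h6 : (χ : G → ℂ) ∈ B.all := by_contra fun h =>
      Nat.not_dvd_of_pos_of_lt (deg_pos hχ') (by omega) (B.dvd_deg_of_notMem hK hχ' h)
    rcases B.mem_all.1 h6 with h | h
    · have h7 := B.mu_P_X h
      rcases B.ε_sign _ h with h8 | h8
      · have h9 := (B.pX_modEq h).dvd
        rw [h8] at h9
        have := Int.le_of_dvd (by omega) (Int.dvd_neg.2 h9)
        omega
      · exact B.mu_P_of_deg h h8 (by omega)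
    · obtain ⟨j, hj, e⟩ := B.mem_Y.1 h
      have h7 := B.mu_P_ex hj
      rw [e, ← B.deg_Y (triv_mem_irr _) h] at h7
      rcases B.x_cases (by rw [← B.deg_Y (triv_mem_irr _) h]; omega) with ⟨h8, h9⟩ | ⟨h8, h9⟩ <;>
        rw [← B.deg_Y (triv_mem_irr _) h] at h9
      · rw [h8, h9, one_mul, sub_self] at h7
        exact_mod_cast (mul_eq_zero.1 h7).resolve_left (by omega)
      · omega
  obtain ⟨g, hg, ho⟩ := S.exists_H_eq hK
  have hc := isCh_of_irr hχ'
  have h6 := detChar_of_regular (isCh_top.1 hc) (z := g) (e := e) (s := t) (by omega)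
    (by rw [← coe_deg hc, show charDegree (χ : G → ℂ) = t * S.fi by omega, he, two_mul,
      Nat.cast_mul]) fun k hk => by
      have hk' : g ^ k ∈ S.H := hg ▸ npow_mem_zpowers g k
      rw [← res_of_mem (χ : G → ℂ) (S.H_le hk')]
      refine vanish_of_mu_P (hc.res le_top) ?_ (S.H_le hk') (notMem_C_of_mem_H hK hk' hk)
      rwa [mu, ip_congr _ (fun x hx => res_of_mem _ (S.P_le_N hx)) fun _ _ => rfl]
  have h7 := congrArg Units.val (Abelianization.commutator_subset_ker
    (Clifford.detHom (isCh_top.1 hc)) ((commutator G).pow_index_mem g))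
  rw [map_pow, Units.val_pow_eq_pow_val, Clifford.coe_detHom, h6,
    (Nat.not_even_iff_odd.1 h4).neg_one_pow] at h7
  exact (neg_one_pow_eq_one_iff_even (by norm_num)).1 h7

end Cfsg.Agent.S4508
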