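import Cfsg.Statements.S4509
import Cfsg.Agent.Small.SC

set_option autoImplicit false
open Cfsg

namespace Cfsg.Agent.S4509

open CF.Small Subgroup CF

theorem derived_le {G : Type*} [Group G] {z : G} {M : Subgroup G} [M.Normal]
    (h : commutator G ≤ zpowers z ⊔ M) : derivedSeries G 2 ≤ M := by
  refine (commutator_mono h h).trans ?_
  rw [← QuotientGroup.ker_mk' M, ← Subgroup.map_eq_bot_iff, map_commutator, Subgroup.map_sup,
    (Subgroup.map_eq_bot_iff _).2 le_rfl, sup_bot_eq, MonoidHom.map_zpowers,
    commutator_eq_bot_iff_le_centralizer]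
  exact le_centralizer _

/-- Let the finite group G contain an element x of prime order p with C_G(x) = ⟨x⟩; let t be the number of conjugacy classes of elements of order p and 1 + n·p the number of subgroups of order p. Then G has a normal subgroup of order 1 + n·p if and only if either t = p − 1, or t < p − 1 and G″ ≠ G′. Moreover, if t = p − 1 then G′ has order 1 + n·p and G/G′ is cyclic of order p; and if t < p − 1 and G″ ≠ G′ then G″ has order 1 + n·p and G′ has order p·(1 + n·p). -/
theorem result {G : Type*} [Group G] [Finite G] (p : ℕ) (hp : p.Prime) (x : G) (hx : orderOf x = p) (hC : Subgroup.centralizer ({x} : Set G) = Subgroup.zpowers x) (t : ℕ) (ht : Nat.card {C : ConjClasses G // ∃ g ∈ C.carrier, orderOf g = p} = t) (n : ℕ) (hn : Nat.card {H : Subgroup G // Nat.card H = p} = 1 + n * p) : ((∃ S : Subgroup G, S.Normal ∧ Nat.card S = 1 + n * p) ↔ (t = p - 1 ∨ (t < p - 1 ∧ derivedSeries G 2 ≠ derivedSeries G 1))) ∧ (t = p - 1 → Nat.card (commutator G) = 1 + n * p ∧ IsCyclic (G ⧸ commutator G) ∧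 (commutator G).index = p) ∧ (t < p - 1 → derivedSeries G 2 ≠ derivedSeries G 1 → Nat.card (derivedSeries G 2) = 1 + n * p ∧ Nat.card (commutator G) = p * (1 + n * p)) := by
  have := Fact.mk hp
  obtain ⟨S, rfl, hK⟩ := exists_pset_self hx hC
  have h1 := S.card_classes
  have h2 := hp.two_le
  rw [ht] at h1
  rw [S.card_subgroups] at hn
  rw [← hn]
  have h3 : t = p - 1 → S.fi = 1 := fun h => by
    rw [h] at h1
    exact Nat.eq_of_mul_eq_mul_left (by omega) (h1.trans (mul_one _).symm)
  have h4 : t < p - 1 → S.z ∈ commutator G := fun h =>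
    S.z_mem_commutator fun e => h.ne (by rwa [e, mul_one] at h1)
  have h5 : t < p - 1 → derivedSeries G 2 ≠ derivedSeries G 1 →
      Nat.card (derivedSeries G 2) = S.N.index ∧ Nat.card (commutator G) = p * S.N.index := by
    intro h h'
    have hz : S.z ∉ derivedSeries G 2 := fun e =>
      h' (le_antisymm (derivedSeries_antitone G one_le_two) (PSet.commutator_le hK e))
    have h6 : commutator G = S.P ⊔ derivedSeries G 2 := by
      refine le_antisymm (fun y hy => ?_)
        (sup_le (zpowers_le.2 (h4 h)) (derivedSeries_antitone G one_le_two))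
      have : (y : G ⧸ derivedSeries G 2) ∈ zpowers (S.z : G ⧸ derivedSeries G 2) := by
        rw [← (PSet.quot_cent hK hz).2, mem_centralizer_singleton_iff]
        refine commutatorElement_eq_one_iff_mul_comm.1 ((QuotientGroup.eq_one_iff _).2
          (commutator_mem_commutator hy (h4 h)))
      obtain ⟨k, hk⟩ := this
      rw [← mul_inv_cancel_left (S.z ^ k) y]
      exact mul_mem_sup ⟨k, rfl⟩ (QuotientGroup.eq.1 hk)
    have h7 : Nat.card (derivedSeries G 2) = S.N.index := (PSet.card_eq_index_iff hK hz).2 (by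
      refine eq_top_iff.2 fun g _ => ?_
      obtain ⟨m, hm, y, hy, rfl⟩ := S.exists_mul_H (h4 h) g
      exact mul_mem (sup_le_sup_right S.P_le_N _ (h6.le hm)) (mem_sup_left (S.H_le hy)))
    refine ⟨h7, ?_⟩
    rw [h6, Solv.card_sup_of_inf_eq_bot le_normalizer_of_normal
      ((PSet.disjoint_N hK hz).symm.mono_left S.P_le_N).eq_bot, S.card_P, h7]
  refine ⟨⟨fun ⟨M, hM, e⟩ => ?_, ?_⟩, fun h => ⟨PSet.card_commutator hK (h3 h),
    isCyclic_of_prime_card (PSet.index_commutator hK (h3 h)), PSet.index_commutator hK (h3 h)⟩, h5⟩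
  · have h6 : t ≤ p - 1 := h1 ▸ Nat.le_mul_of_pos_right t PSet.fi_pos
    refine h6.eq_or_lt.imp_right fun h => ⟨h, fun e' => ?_⟩
    have hz : S.z ∉ M := fun h => S.not_dvd_index_N (e ▸ S.dvd_card_of_z_mem h)
    have := PSet.normal_sup hK ((PSet.card_eq_index_iff hK hz).1 e)
    exact hz (derived_le (PSet.commutator_le hK (mem_sup_left (mem_zpowers _))) (e'.ge (h4 h)))
  · rintro (h | ⟨h, h'⟩)
    · exact ⟨_, inferInstance, PSet.card_commutator hK (h3 h)⟩
    · exact ⟨_, inferInstance, (h5 h h').1⟩

end Cfsg.Agent.S4509
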