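import Cfsg.Statements.S4510
import Cfsg.Agent.Block.Count

set_option autoImplicit false
open Cfsg

namespace Cfsg.Agent.S4510

open CF.Block CF

/-- Let G be a finite group, p a prime, M a maximal ideal of the algebraic integers containing p, and call the defect of a conjugacy class the exponent of p in the order of the centralizer of its elements. Two irreducible characters lying in p-blocks of defect exactly d lie in the same block if and only if their central characters (class size times χ(x)/χ(1)) agree modulo the local ideal at M at every p-regular element x whose class has defect exactly d. -/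
theorem result {G : Type*} [Group G] [Finite G] (p : ℕ) [Fact p.Prime] (M : Ideal Cfsg.AlgInt) (hM : Cfsg.IsPModular p M) (d : ℕ) (χ ψ : Cfsg.IrrCharacter G) (hχ : Cfsg.blockDefect p (Cfsg.blockOf M (χ : G → ℂ)) = d) (hψ : Cfsg.blockDefect p (Cfsg.blockOf M (ψ : G → ℂ)) = d) : Cfsg.SameBlock M (χ : G → ℂ) (ψ : G → ℂ) ↔ ∀ x : G, ¬ p ∣ orderOf x → (Nat.card (Subgroup.centralizer ({x} : Set G))).factorization p = d → Cfsg.MemLocalIdeal M (Cfsg.centralChar (χ : G → ℂ) x - Cfsg.centralChar (ψ : G → ℂ) x) := by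
  refine ⟨fun h x _ _ => h x, fun h => ?_⟩
  classical
  have hB := BlockB.isPBlock_blockOf (M := M) χ
  have hB' := BlockB.isPBlock_blockOf (M := M) ψ
  let ι := {C : ConjClasses G // ¬ p ∣ orderOf C.out ∧ cdef p C.out = d}
  have := Fintype.ofFinite ι
  have hc : ∀ y : G, IsConj (ConjClasses.mk y).out y := fun y =>
    ConjClasses.mk_eq_mk_iff_isConj.1 (Quotient.out_eq (ConjClasses.mk y))
  have hinj : ∀ i j : ι, IsConj i.1.out j.1.out → i = j := fun i j hij =>
    Subtype.ext ((Quotient.out_eq i.1).symm.trans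
      ((ConjClasses.mk_eq_mk_iff_isConj.2 hij).trans (Quotient.out_eq j.1)))
  have key : ∀ B, Cfsg.IsPBlock M B → Cfsg.blockDefect p B = d → ∀ y,
      (eb M (Cfsg.blockOf M (χ : G → ℂ))).coeff y ≠ 0 → lc M B y ≠ 0 →
      ∃ i : ι, IsConj i.1.out y := by
    intro B hB1 hB2 y h1 h2
    refine ⟨⟨ConjClasses.mk y, ?_, ?_⟩, hc y⟩
    · obtain ⟨c, hc⟩ := isConj_iff.1 (hc y)
      rw [← BlockB.orderOf_conj' _ c, hc]
      exact not_dvd_of_coeff hM hB h1
    · rw [cdef_eq_of_isConj (hc y)]
      exact le_antisymm ((cdef_le_defect hM hB h1).trans hχ.le)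
        (hB2.ge.trans (defect_le_cdef hM hB1 h2))
  have h1 := sum_coeff_mul_lc hM hB hB (fun i : ι => i.1.out) hinj (key _ hB hχ)
  have h2 := sum_coeff_mul_lc hM hB' hB (fun i : ι => i.1.out) hinj (key _ hB' hψ)
  have h3 : ∀ i : ι, lc M (Cfsg.blockOf M (ψ : G → ℂ)) i.1.out =
      lc M (Cfsg.blockOf M (χ : G → ℂ)) i.1.out := fun i => by
    rw [lc, lc, lam_eb_clsum hM hB (BlockB.mem_blockOf_self hM χ),
      lam_eb_clsum hM hB' (BlockB.mem_blockOf_self hM ψ)]
    exact ((memLocalIdeal_sub_iff hM (BlockB.centralChar_isIntegral' χ.2 _)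
      (BlockB.centralChar_isIntegral' ψ.2 _)).1 (h _ i.2.1 i.2.2)).symm
  simp only [h3] at h2
  rw [h2, if_pos rfl] at h1
  have h4 : Cfsg.blockOf M (ψ : G → ℂ) = Cfsg.blockOf M (χ : G → ℂ) := by
    by_contra h0
    rw [if_neg h0] at h1
    exact zero_ne_one h1
  exact BlockB.sameBlock_of_mem hM hB (BlockB.mem_blockOf_self hM χ)
    (h4 ▸ BlockB.mem_blockOf_self hM ψ)

end Cfsg.Agent.S4510
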