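import Cfsg.Statements.S4512
import Cfsg.Agent.BlockB.Column
import Cfsg.Agent.Char.Klein
-- import your own Cfsg.Agent.* helpers here

set_option autoImplicit false
open Cfsg

namespace Cfsg.Agent.S4512

/-- If G is a finite group with a Sylow 2-subgroup that is a Klein four-group and a single conjugacy class of involutions, then its principal 2-block (relative to a maximal ideal M of the algebraic integers containing 2) has 2-regular rank 3: the restrictions of its irreducible characters to the elements of odd order span a space of dimension 3 (it has three irreducible Brauer characters). -/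
theorem result {G : Type*} [Group G] [Finite G] (M : Ideal Cfsg.AlgInt) (hM : Cfsg.IsPModular 2 M) (P : Sylow 2 G)
    (hP : Nat.card P = 4) (hexp : ∀ x : P, x * x = 1)
    (hone : ∀ s t : G, orderOf s = 2 → orderOf t = 2 → IsConj s t) :
    Cfsg.blockRank 2 (Cfsg.principalBlock M G) = 3 := by
  classical
  have hK : IsKleinFour (P : Subgroup G) := CF.Invol.isKleinFour_iff.2
    ⟨hP, fun x hx => congrArg Subtype.val (hexp ⟨x, hx⟩)⟩
  obtain ⟨a, b, c, ε, -, ha, hb, hc, hab, hac, hbc, hB, -⟩ := CF.Char.klein_pb hM P hK hone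
  obtain ⟨t, ht, -, -, h1, -⟩ := CF.Invol.klein_exists hK
  have ht2 := CF.Invol.klein_orderOf hK ht h1
  obtain ⟨N, _, hN1, hN2⟩ := CF.Char.klein_exists_npc P hK ht h1
  have h := CF.BlockB.card_pb_eq_blockRank_add hM {t} (by simpa using ⟨h1, 1, ht2⟩)
    fun g hg ⟨k, hk⟩ => by
      obtain ⟨x, hx⟩ := CF.Invol.exists_conj_mem_sylow P (CF.BlockB.isPGroup_zpowers ⟨k, hk⟩)
      refine ⟨t, ⟨by simp, hone _ _ ?_ ht2⟩, fun y hy => by simpa using hy.1⟩
      rw [← CF.BlockB.orderOf_conj' g x]
      exact CF.Invol.klein_orderOf hK hx fun e => hg (by simpa using e)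
  rw [Finset.sum_singleton, CF.BlockB.blockRank_pb_of_npc hM N hN1 hN2,
    show Cfsg.principalBlock M G = ({CF.Char.oneIrr G, a, b, c} : Finset _) by
      ext χ; simp [hB], Finset.coe_sort_coe, Nat.card_eq_finsetCard,
    Finset.card_insert_of_notMem (by simp [ha.symm, hb.symm, hc.symm]),
    Finset.card_insert_of_notMem (by simp [hab, hac]), Finset.card_pair hbc] at h
  rw [show Cfsg.principalBlock M G = ({CF.Char.oneIrr G, a, b, c} : Finset _) by
      ext χ; simp [hB]]
  omega

end Cfsg.Agent.S4512
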