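import Cfsg.Statements.S4513
import Cfsg.Agent.BlockB.Form
import Cfsg.Agent.BlockB.Central
-- import your own Cfsg.Agent.* helpers here

set_option autoImplicit false
open Cfsg

namespace Cfsg.Agent.S4513

/-- Blocks of defect one for p = 2. Let M be a maximal ideal of the algebraic integers containing 2, B a 2-block of the finite group G whose defect group is the subgroup generated by an involution x, C = C_G(x), b a block of C inducing B and θ a member of b taking the same value at x as at 1 (there is exactly one). Then B consists of exactly two irreducible characters, which agree on every element of odd order, and they can be labelled χ₁, χ₂ with signs ε₁, ε₂ = ±1, ε₁ε₂ = −1, such that χᵢ(x y) = εᵢ θ(y) for every element y of C of odd order. -/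
theorem result {G : Type*} [Group G] [Finite G] (M : Ideal Cfsg.AlgInt) (hM : Cfsg.IsPModular 2 M) (x : G) (hx : orderOf x = 2)
    (B : Set (Cfsg.IrrCharacter G)) (hB : Cfsg.IsPBlock M B) (hBD : Cfsg.IsDefectGroup 2 M B (Subgroup.zpowers x))
    (b : Set (Cfsg.IrrCharacter ↥(Subgroup.centralizer ({x} : Set G)))) (hb : Cfsg.IsInducedBlock M (Subgroup.centralizer ({x} : Set G)) b B)
    (θ : Cfsg.IrrCharacter ↥(Subgroup.centralizer ({x} : Set G))) (hθ : θ ∈ b)
    (hθx : ∀ z : ↥(Subgroup.centralizer ({x} : Set G)), (z : G) = x → (θ : ↥(Subgroup.centralizer ({x} : Set G)) → ℂ) z = (θ : ↥(Subgroup.centralizer ({x} : Set G)) → ℂ) 1) :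
    Nat.card B = 2 ∧ (∀ χ ∈ B, ∀ ψ ∈ B, ∀ g : G, ¬ 2 ∣ orderOf g → (χ : G → ℂ) g = (ψ : G → ℂ) g) ∧
      ∃ χ₁ ∈ B, ∃ χ₂ ∈ B, χ₁ ≠ χ₂ ∧ ∃ ε₁ ε₂ : ℤ, (ε₁ = 1 ∨ ε₁ = -1) ∧ (ε₂ = 1 ∨ ε₂ = -1) ∧ ε₁ * ε₂ = -1 ∧
        ∀ y : ↥(Subgroup.centralizer ({x} : Set G)), ¬ 2 ∣ orderOf y →
          (χ₁ : G → ℂ) (x * y) = (ε₁ : ℂ) * (θ : ↥(Subgroup.centralizer ({x} : Set G)) → ℂ) y ∧ (χ₂ : G → ℂ) (x * y) = (ε₂ : ℂ) * (θ : ↥(Subgroup.centralizer ({x} : Set G)) → ℂ) y := by
  classical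
  open CF.BlockB CF.Char in
  have := Fintype.ofFinite G
  have := Fintype.ofFinite (Cen x)
  have hx' : ∃ k : ℕ, orderOf x = 2 ^ k := ⟨1, by simpa using hx⟩
  let x' : Cen x := ⟨x, self_mem_Cen x⟩
  have hd : Cfsg.blockDefect 2 B = 1 := by
    have := card_defectGroup hM hB hBD
    rw [Nat.card_zpowers, hx] at this
    exact (Nat.pow_right_injective le_rfl (this.symm.trans (pow_one 2).symm))
  have hc : Nat.card (Subgroup.zpowers x') = 2 := by
    rw [Nat.card_zpowers, ← Subgroup.orderOf_coe, hx]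
  have hZ : Subgroup.zpowers x' ≤ Subgroup.center _ := Subgroup.zpowers_le.2
    (Subgroup.mem_center_iff.2 fun c => Subtype.ext (mem_Cen.1 c.2))
  have : (Subgroup.zpowers x').Normal := ⟨fun n hn g => by
    rwa [Subgroup.mem_center_iff.1 (hZ hn), mul_inv_cancel_right]⟩
  have hbD := isDefectGroup_of_normal hM hb.1 (D := Subgroup.zpowers x')
    (IsPGroup.of_card (n := 1) (by simpa using hc))
    ((blockDefect_le_of_sub hM hx' rfl hb).trans (by rw [hd, hc, Nat.prime_two.factorization_self]))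
  have hdb : Cfsg.blockDefect 2 b = 1 := by
    have := card_defectGroup hM hb.1 hbD
    rw [hc] at this
    exact (Nat.pow_right_injective le_rfl (this.symm.trans (pow_one 2).symm))
  have hcan := canon_of_defectGroup hM hb.1 hbD (sup_centralizer_of_le_center hZ) hθ
    (Subgroup.zpowers_le.2 ((mem_charKer_iff (irr_isCharacter θ.2)).2 (hθx x' rfl)))
  have he := nrm_eSet_le_one hM hb.1
  have hφ := reg_mem_lat (p := 2) hθ
  have h1 : ((2 : ℕ) : ℂ) ^ Cfsg.blockDefect 2 b * Cfsg.classInner (Cfsg.pRegularPart 2 (θ : Cen x → ℂ))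
      (Cfsg.pRegularPart 2 (θ : Cen x → ℂ)) = 1 := by
    rw [inner_reg_reg, hdb, pow_one, ← hcan.norm, hc]
  have h2 := (v_form_lat_self_iff hM hb.1 hφ).1 (by rw [h1, map_one])
  have hΦ := lat_gen hM he hφ
  have hpv := (lat_pv hφ).smul (((2 : ℕ) : ℂ) ^ Cfsg.blockDefect 2 b)
  have hsp := (lat_inSpan hM he hφ).smul (((2 : ℕ) : ℂ) ^ Cfsg.blockDefect 2 b)
  choose d hdd using fun χ : Cfsg.IrrCharacter G => gen_eq_int_of_sq_eq_one (gen_inner_sec
    (commute_zpowers_of_le (le_refl (Cen x))) (gen_of_irr χ.2) hΦ) (g := ⟨x, Subgroup.mem_zpowers x⟩)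
    (Subtype.ext (by simpa [sq, hx] using pow_orderOf_eq_one x))
  have h3 : ∀ χ ∈ B, d χ ≠ 0 := fun χ hχ h0 => by
    have := (v_inner_sec_lat_major_iff hM hx' rfl hb (hdb.trans hd.symm) hφ hχ).2 h2
    rw [hdd, h0, Int.cast_zero, map_zero] at this
    exact vp_pow_ne_zero hM _ this.symm
  have h4 := sum_norm_inner_sec_sq hM hx' rfl hb hpv hsp
  rw [CF.Char.inner_smul_left, CF.Char.inner_smul_right, map_pow, map_natCast, h1,
    Finset.sum_congr rfl fun χ _ => by erw [hdd, Complex.norm_intCast, sq_abs], hdb] at h4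
  norm_cast at h4
  have h5 : 2 ≤ (Finset.univ.filter (· ∈ B)).card := by
    have := blockRank_lt_card hM hB (by omega)
    have := blockRank_pos hM.1 (block_nonempty hM hB)
    rw [← card_eq_card_filter]; omega
  have h6 : ∀ χ ∈ Finset.univ.filter (· ∈ B), (1 : ℤ) ≤ d χ ^ 2 := fun χ hχ => by
    exact pow_two_pos_of_ne_zero (h3 χ (Finset.mem_filter.1 hχ).2)
  have h7 : (Finset.univ.filter (· ∈ B)).card = 2 := by
    have := Finset.card_nsmul_le_sum _ _ _ h6
    rw [nsmul_one, h4] at this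
    omega
  obtain ⟨χ₁, χ₂, hne, h8⟩ := Finset.card_eq_two.1 h7
  have hm : ∀ χ, χ ∈ B ↔ χ = χ₁ ∨ χ = χ₂ := fun χ => by
    simpa using Finset.ext_iff.1 h8 χ
  have hm1 := (hm _).2 (Or.inl rfl)
  have hm2 := (hm _).2 (Or.inr rfl)
  rw [h8, Finset.sum_pair hne] at h4
  norm_num at h4
  have h61 := h6 χ₁ (Finset.mem_filter.2 ⟨Finset.mem_univ _, hm1⟩)
  have h62 := h6 χ₂ (Finset.mem_filter.2 ⟨Finset.mem_univ _, hm2⟩)
  have h9 : ∀ g, lift (Cen x) x' (((2 : ℕ) : ℂ) ^ Cfsg.blockDefect 2 b •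
      Cfsg.pRegularPart 2 (θ : Cen x → ℂ)) g = d χ₁ * (χ₁ : G → ℂ) g + d χ₂ * (χ₂ : G → ℂ) g := fun g => by
    rw [(inSpan_lift hM (x := x') hx' rfl hb hpv hsp).apply_eq_sum, h8, Finset.sum_pair hne,
      inner_lift_left _ _ (irr_isClassFunction χ₁.2), inner_lift_left _ _ (irr_isClassFunction χ₂.2),
      ← CF.Char.inner_conj_symm, ← CF.Char.inner_conj_symm (sec _ _ _)]
    erw [hdd, hdd]
    rw [map_intCast, map_intCast]
  have h10 : ∀ g, ¬ 2 ∣ orderOf g → d χ₁ * (χ₁ : G → ℂ) g + d χ₂ * (χ₂ : G → ℂ) g = 0 := fun g hg => by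
    rw [← h9, lift_eq_zero hM.1 (x := x') hx' le_rfl hpv]
    rw [pPart_of_pRegular hM.1 hg, isConj_one_left]
    intro h
    have h : x = 1 := h
    simp [h] at hx
  have e1 : d χ₁ = 1 ∨ d χ₁ = -1 := sq_eq_one_iff.1 (by omega)
  have e2 : d χ₂ = 1 ∨ d χ₂ = -1 := sq_eq_one_iff.1 (by omega)
  have h11 : d χ₂ = - d χ₁ := by
    have := h10 1 (by simp)
    rw [← irr_charDegree_eq, ← irr_charDegree_eq] at this
    norm_cast at this
    have := irr_charDegree_ne_zero χ₁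
    rcases e1 with h | h <;> rcases e2 with h' | h' <;> simp only [h, h'] at * <;> omega
  have h12 : (d χ₁ : ℂ) * d χ₁ = 1 := by rcases e1 with h | h <;> simp [h]
  have h13 : ∀ g, ¬ 2 ∣ orderOf g → (χ₁ : G → ℂ) g = (χ₂ : G → ℂ) g := fun g hg => by
    have := h10 g hg
    rw [h11] at this
    push_cast at this
    linear_combination d χ₁ * this - ((χ₁ : G → ℂ) g - (χ₂ : G → ℂ) g) * h12
  have h14 : ∀ g, 2 ∣ orderOf g → (χ₂ : G → ℂ) g = - (χ₁ : G → ℂ) g := fun g hg => by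
    have := ((inSpan_irr hm1).reg hM (nrm_eSet_le_one hM hB)).apply_eq_sum g
    rw [h8, Finset.sum_pair hne, reg_of_dvd _ hg, ← inner_reg_reg _ (χ₂ : G → ℂ),
      ← reg_eq_iff.2 h13, inner_reg_reg, ← mul_add] at this
    exact eq_neg_of_add_eq_zero_right ((mul_eq_zero.1 this.symm).resolve_left
      (inner_reg_self_ne_zero hM.1 (irr_one_ne_zero χ₁.2)))
  refine ⟨by rw [card_eq_card_filter, h7], fun χ hχ ψ hψ g hg => ?_, χ₁, hm1, χ₂, hm2, hne, d χ₁,
    d χ₂, e1, e2, by rcases e1 with h | h <;> simp [h11, h], fun y hy => ?_⟩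
  · rcases (hm _).1 hχ with rfl | rfl <;> rcases (hm _).1 hψ with rfl | rfl <;> simp [h13 g hg]
  have h15 := h9 (x * y)
  have h16 := h14 (x * y) (dvd_orderOf_mul hM.1 (by rwa [Subgroup.orderOf_coe])
    (commute_of_mem_Cen y) hx' (by rintro rfl; simp at hx) |>.trans (by
      rw [(commute_of_mem_Cen y).eq]))
  erw [lift_apply_mul hM.1 (x := x') hx' rfl hpv hsp.classFun hy] at h15
  rw [Pi.smul_apply, reg_of_not_dvd _ hy, hdb, h16, h11] at h15
  rw [h16, h11]
  push_cast at h15 ⊢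
  simp only [smul_eq_mul] at h15
  constructor
  · linear_combination (-(d χ₁ : ℂ) / 2) * h15 - (χ₁ : G → ℂ) (x * y) * h12
  · linear_combination ((d χ₁ : ℂ) / 2) * h15 + (χ₁ : G → ℂ) (x * y) * h12

end Cfsg.Agent.S4513
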