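import Cfsg.Statements.S4634
import Cfsg.Agent.Block.Perf
import Cfsg.Agent.BlockB.Ord2

set_option autoImplicit false
open Cfsg

namespace Cfsg.Agent.S4634

open CF.Block CF Subgroup

theorem eq_of_card_eq {A : Type*} [Group A] [Finite A] [IsCyclic A] {p e : ℕ} (hp : p.Prime)
    (hA : IsPGroup p A) (he : e ∣ p - 1) {E E' : Subgroup (MulAut A)} (hE : Nat.card E = e)
    (hE' : Nat.card E' = e) : E = E' := by
  have := Fact.mk hp
  by_cases h2 : p = 2
  · subst h2
    rw [card_eq_one.1 (hE.trans (Nat.dvd_one.1 he)), card_eq_one.1 (hE'.trans (Nat.dvd_one.1 he))]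
  obtain ⟨n, hn⟩ := IsPGroup.iff_card.1 hA
  have := ZMod.isCyclic_units_of_prime_pow p hp h2 n
  rw [← hn] at this
  have : IsCyclic (⊤ : Subgroup (MulAut A)) := isCyclic_of_surjective _
    ((IsCyclic.mulAutMulEquiv A).symm.trans topEquiv.symm).surjective
  exact le_antisymm (Fgs2.le_of_card_dvd_of_isCyclic le_top le_top (by rw [hE, hE']))
    (Fgs2.le_of_card_dvd_of_isCyclic le_top le_top (by rw [hE, hE']))

theorem pb_eq_univ {F : Type*} [Group F] [Finite F] {p : ℕ} {M : Ideal AlgInt}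
    (hM : IsPModular p M) {Q : Subgroup F} [Q.Normal] (hQ : IsPGroup p Q)
    (hQC : centralizer (Q : Set F) = Q) : principalBlock M F = Set.univ := by
  have : Fact p.Prime := ⟨hM.1⟩
  have := BlockB.charP_k hM
  have key : ∀ χ : IrrCharacter F, eb M (blockOf M (χ : F → ℂ)) = 1 := fun χ => by
    have hb := isBlk_eb hM (BlockB.isPBlock_blockOf (M := M) χ)
    refine (regSupp hM).eq_one hb hQ ?_
    have := hb.mem_sub_Cz (L := ⊤) hQ le_top (by rw [Nz_top, normalizer_eq_top])
    rwa [Cz_top, hQC] at this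
  exact Set.eq_univ_of_forall fun χ => (mem_iff_eb_blockOf hM (BlockB.isPBlock_blockOf
    (Char.oneIrr F))).2 ((key χ).trans (key _).symm)

/-- Let B be a block of the finite group G relative to a maximal ideal M of the algebraic integers containing the prime p, with a nontrivial cyclic defect group P, let c be a block of C_G(P) inducing B, T the stabilizer of c in N_G(P) and e the index of C_G(P) in T. Let F be any finite group of order #P · e having a cyclic subgroup Q of order #P that is its own centralizer (F is then the semidirect product of Q by a cyclic group of order e acting faithfully). Then there is a perfect isometry from the set of all irreducible characters of F onto B whose signs agree on all the characters of F that do not contain Q in their kernel. -/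
theorem result {G : Type*} [Group G] [Finite G] (p : ℕ) [Fact p.Prime] (M : Ideal Cfsg.AlgInt) (hM : Cfsg.IsPModular p M) (B : Set (Cfsg.IrrCharacter G)) (hB : Cfsg.IsPBlock M B) (P : Subgroup G) (hPD : Cfsg.IsDefectGroup p M B P) (hP1 : P ≠ ⊥) (hcyc : IsCyclic P) (c : Set (Cfsg.IrrCharacter (Subgroup.centralizer (P : Set G)))) (hc : Cfsg.IsInducedBlock M (Subgroup.centralizer (P : Set G)) c B) (T : Subgroup G) (hT : ∀ g : G, g ∈ T ↔ (g ∈ Subgroup.normalizer (P : Set G) ∧ Cfsg.StabilizesBlock (Subgroup.centralizer (P : Set G)) c g)) (e : ℕ) (he : (Subgroup.centralizer (P : Set G)).relIndex T = e) (F : Type*) [Group F] [Finite F] (hF : Nat.card F = Nat.card P * e) (Q : Subgroup F) (hQ : IsCyclic Q) (hQcard : Nat.card Q = Nat.card P) (hQC : Subgroup.centralizer (Q : Set F) = Q) : ∃ (I : Cfsg.IrrCharacter F → Cfsg.IrrCharacter G) (ε : Cfsg.IrrCharacter F → ℤ), Cfsg.IsPerfectIsometry p M (Set.univ : Set (Cfsg.IrrCharacter F)) B I ε ∧ ∀ η η' : Cfsg.IrrCharacter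 F, (∃ x ∈ Q, (η : F → ℂ) x ≠ (η : F → ℂ) 1) → (∃ x ∈ Q, (η' : F → ℂ) x ≠ (η' : F → ℂ) 1) → ε η = ε η' := by
  classical
  have := Fintype.ofFinite G
  have := Fintype.ofFinite F
  have := Fintype.ofFinite Q
  obtain ⟨hm, -, hE⟩ := setup_of_induced hM hB hPD hc hT
  have hn : ((centralizer (P : Set G)).subgroupOf T).Normal :=
    normal_subgroupOf_of_le_normalizer fun g hg =>
      normalizer_le_normalizer_centralizer P ((hT g).1 hg).1
  have hep := (Agent.S4633.result p M hM B hB P hPD hP1 hcyc c hc T hT).2.1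
  rw [he] at hE hep
  have hfs := fS_of_cyc hM hB hm hcyc
  have hp2 := hM.1.two_le
  have he1 : e < p := by have := Nat.le_of_dvd (by omega) hep; omega
  have he0 : 0 < e := hE ▸ Nat.card_pos
  have hQi : Q.index = e := Nat.eq_of_mul_eq_mul_left Nat.card_pos
    ((card_mul_index Q).trans (hF.trans (by rw [hQcard])))
  have hQp : IsPGroup p Q := IsPGroup.of_card (hQcard.trans hfs.card_eq_pow)
  set S := hQp.toSylow (hQi ▸ Nat.not_dvd_of_pos_of_lt he0 he1)
  have hsub : Subsingleton (Sylow p F) := (Nat.card_eq_one_iff_unique.1 (Nat.ModEq.eq_of_lt_of_lt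
    (card_sylow_modEq_one p F) ((Nat.le_of_dvd he0 (hQi ▸ S.card_dvd_index)).trans_lt he1)
    hp2)).1
  have hQn : Q.Normal := S.normal_of_subsingleton
  have hQ1 : Q ≠ ⊥ := fun h => hP1 (card_eq_one.1 (by rw [← hQcard, h, card_bot]))
  have hfs' : FS p (principalBlock M F) Q (pbe M Q) :=
    fS_of_cyc hM (BlockB.isPBlock_blockOf (Char.oneIrr F)) (maxPair_pb hM S) hQ
  have hE' : Nat.card (FE Q (pbe M Q)) = e := by
    rw [card_FE, stab_pbe hM, hQC, normalizer_eq_top, relIndex_top_right, hQi]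
  let σ : Q ≃* P := mulEquivOfCyclicCardEq hQcard
  obtain ⟨w, ζ, a, δ, h, ha⟩ := hfs.exists_fD_cyc hcyc hP1
  obtain ⟨ζ', a', δ', h', ha'⟩ := hfs'.exists_fD_of_rank hfs'.glue_pb hQ1
    (hfs'.rank_eq_of_cyc hQ hQ1)
  obtain ⟨I, ε, hI, hε⟩ := h.perf ha h' ha' hP1 hQ1 σ (eq_of_card_eq hM.1 hfs.pair.isP hep hE
    (by rw [card_map_of_injective (MulAut.congr σ).injective, hE']))
  have hu := pb_eq_univ hM hQp hQC
  refine ⟨I, ε, hu ▸ hI, ?_⟩
  have hq := Nat.le_of_dvd (by have := (one_lt_card_iff_ne_bot Q).2 hQ1; omega) hfs'.dvd_sub_one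
  rw [hE'] at hq
  have key : ∀ η : IrrCharacter F, (∃ x ∈ Q, (η : F → ℂ) x ≠ (η : F → ℂ) 1) →
      η ≠ Char.oneIrr F ∧ e ≤ charDegree (η : F → ℂ) ∧
        (η ∉ FY ζ' → charDegree (η : F → ℂ) = Nat.card Q - 1) := by
    rintro η ⟨x, hx, hx'⟩
    have h0 : ∑ u : Q, (η : F → ℂ) u = 0 := by
      by_contra h0
      refine hx' ?_
      simpa using Char.mem_charKer.1 (Char.le_charKer_of_inner_ne_zero η.2 Q
        (by simpa [Char.inner_def, Nat.card_pos.ne'] using h0) hx) 1
    have hB' : η ∈ principalBlock M F := hu ▸ Set.mem_univ _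
    rw [← Finset.add_sum_erase _ _ (Finset.mem_univ 1), Finset.sum_congr rfl fun u hu =>
      hfs'.apply_eq_Dv (BlockB.inSpan_irr hB') (y := u) ⟨1, mul_one _, Commute.one_right _,
        BlockB.exists_orderOf_of_mem hM.1 hQp u.2, by simpa using hM.1.one_lt.ne'⟩
        (Finset.ne_of_mem_erase hu), OneMemClass.coe_one, ← BlockB.irr_charDegree_eq] at h0
    have h1 : η ∉ FY ζ' → charDegree (η : F → ℂ) = Nat.card Q - 1 := fun hη => by
      rw [Finset.sum_congr rfl fun u hu => h'.Dv_X hη (Finset.ne_of_mem_erase hu),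
        Finset.sum_const, Finset.card_erase_of_mem (Finset.mem_univ _), Finset.card_univ,
        ← Nat.card_eq_fintype_card, nsmul_eq_mul] at h0
      have h2 : (charDegree (η : F → ℂ) : ℤ) + (Nat.card Q - 1 : ℕ) * a' η = 0 := by
        exact_mod_cast h0
      rcases ha' η ⟨hB', hη⟩ with h3 | h3 <;> rw [h3] at h2 <;> omega
    refine ⟨by rintro rfl; exact hx' rfl, ?_, h1⟩
    by_cases hη : η ∈ FY ζ'
    swap
    · rwa [h1 hη]
    obtain ⟨ψ, hψ, rfl⟩ := hη
    have h2 : ∑ u : Q, orbS (FE Q (pbe M Q)) ψ u = 0 := by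
      simpa [Char.inner_def, Nat.card_pos.ne'] using hfs'.eFree.inner_orbS_one hψ
    rw [← Finset.add_sum_erase _ _ (Finset.mem_univ 1), orbS_one, hE'] at h2
    rw [Finset.sum_congr rfl fun u hu => h'.Dv_Y hψ (Finset.ne_of_mem_erase hu)] at h0
    simp only [Int.cast_zero, zero_add, ← Finset.mul_sum, eq_neg_of_add_eq_zero_right h2] at h0
    have h3 : (charDegree (ζ' ψ : F → ℂ) : ℤ) + δ' * -e = 0 := by exact_mod_cast h0
    rcases h'.sign with h4 | h4 <;> rw [h4] at h3 <;> omega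
  have key2 : ∀ η η' : IrrCharacter F, (∃ x ∈ Q, (η : F → ℂ) x ≠ (η : F → ℂ) 1) →
      (∃ x ∈ Q, (η' : F → ℂ) x ≠ (η' : F → ℂ) 1) → η ≠ η' → η ∈ FY ζ' := by
    intro η η' hη hη' hne
    by_contra h0
    obtain ⟨h1, -, h2⟩ := key η hη
    obtain ⟨h3, h4, -⟩ := key η' hη'
    have h5 := Finset.sum_le_sum_of_subset (f := fun χ : IrrCharacter F =>
      charDegree (χ : F → ℂ) ^ 2) (show {η, η'} ⊆ Finset.univ.erase (Char.oneIrr F) by
        simp [Finset.insert_subset_iff, h1, h3])
    have h6 := BlockB.Ord.sum_deg_sq_erase (G := F)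
    rw [Finset.sum_pair hne, h2 h0] at h5
    rw [hF, ← hQcard] at h6
    obtain ⟨n, hn⟩ : ∃ n, Nat.card Q = n + 1 := ⟨Nat.card Q - 1, by omega⟩
    rw [hn, Nat.add_sub_cancel] at h5 hq
    rw [hn] at h6
    nlinarith [Nat.mul_le_mul h4 h4, Nat.mul_le_mul_left n hq, Nat.mul_le_mul_left e he0]
  intro η η' hη hη'
  by_cases hne : η = η'
  · rw [hne]
  · rw [hε η (key2 η η' hη hη' hne), hε η' (key2 η' η hη' hη (Ne.symm hne))]

end Cfsg.Agent.S4634
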