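import Cfsg.Statements.S4635
import Cfsg.Agent.Block.Perf

set_option autoImplicit false
open Cfsg

namespace Cfsg.Agent.S4635

open CF.Block CF Subgroup

/-- Let B be a block of the finite group G relative to a maximal ideal M of the algebraic integers containing the prime p, with a nontrivial cyclic defect group P; let Z be the subgroup of order p of P and H = N_G(Z), which contains N_G(P). Let c be the block of H with defect group P that induces B. Then B and c contain the same number of irreducible characters, have the same p-regular rank, and there is a perfect isometry from c onto B. -/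
theorem result {G : Type*} [Group G] [Finite G] (p : ℕ) [Fact p.Prime] (M : Ideal Cfsg.AlgInt) (hM : Cfsg.IsPModular p M) (B : Set (Cfsg.IrrCharacter G)) (hB : Cfsg.IsPBlock M B) (P : Subgroup G) (hPD : Cfsg.IsDefectGroup p M B P) (hP1 : P ≠ ⊥) (hcyc : IsCyclic P) (Z : Subgroup G) (hZ : Z ≤ P) (hZcard : Nat.card Z = p) (H : Subgroup G) (hH : H = Subgroup.normalizer (Z : Set G)) (c : Set (Cfsg.IrrCharacter H)) (hcD : Cfsg.IsDefectGroup p M c (P.subgroupOf H)) (hc : Cfsg.IsInducedBlock M H c B) : Nat.card c = Nat.card B ∧ Cfsg.blockRank p c = Cfsg.blockRank p B ∧ ∃ (I : Cfsg.IrrCharacter H → Cfsg.IrrCharacter G) (ε : Cfsg.IrrCharacter H → ℤ), Cfsg.IsPerfectIsometry p M c B I ε := by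
  have hD := (isDefectGroup_iff hM hB P).1 hPD
  have hL : normalizer (P : Set G) ≤ H :=
    hH ▸ (Agent.S4636.result p P hD.isP hP1 hcyc Z hZ hZcard).2 P le_rfl hP1
  obtain ⟨e', h1, h2, h3⟩ := exists_pair_of_induced hM hB hPD hL hcD hc
  set σ := subgroupOfEquivOfLe (le_normalizer.trans hL)
  have hcyc' : IsCyclic (P.subgroupOf H) := isCyclic_of_surjective _ σ.symm.surjective
  have hP' : P.subgroupOf H ≠ ⊥ := fun h => hP1 (card_eq_one.1 (by
    rw [← Nat.card_congr σ.toEquiv, h, card_bot]))
  have hfs := fS_of_cyc hM hB h2 hcyc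
  have hfs' := fS_of_cyc hM hc.1 h1 hcyc'
  have hl := hfs.rank_eq_of_cyc hcyc hP1
  have hl' := hfs'.rank_eq_of_cyc hcyc' hP'
  obtain ⟨I, ε, hI⟩ := hfs.perf hfs' hP1 hP' hl hl' σ h3
  exact ⟨Nat.card_congr (hI.1.equiv I), by
    rw [hl, hl', h3, card_map_of_injective (MulAut.congr σ).injective], I, ε, hI⟩

end Cfsg.Agent.S4635
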