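import Cfsg.Statements.S4637
import Cfsg.Agent.Block.FSX

set_option autoImplicit false
open Cfsg

namespace Cfsg.Agent.S4637

open CF.Block CF Subgroup

/-- Let B be a block of the finite group G relative to a maximal ideal M of the algebraic integers containing 2, with a Klein four defect group P. Let c be a block of C_G(P) inducing B, T the stabilizer of c in N_G(P) and e the index of C_G(P) in T (the inertial index). Then e is 1 or 3, B contains exactly four irreducible characters, and the 2-regular rank of B (its number of irreducible Brauer characters) equals e. -/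
theorem result {G : Type*} [Group G] [Finite G] (M : Ideal Cfsg.AlgInt) (hM : Cfsg.IsPModular 2 M) (B : Set (Cfsg.IrrCharacter G)) (hB : Cfsg.IsPBlock M B) (P : Subgroup G) (hPD : Cfsg.IsDefectGroup 2 M B P) (hV : IsKleinFour P) (c : Set (Cfsg.IrrCharacter (Subgroup.centralizer (P : Set G)))) (hc : Cfsg.IsInducedBlock M (Subgroup.centralizer (P : Set G)) c B) (T : Subgroup G) (hT : ∀ g : G, g ∈ T ↔ (g ∈ Subgroup.normalizer (P : Set G) ∧ Cfsg.StabilizesBlock (Subgroup.centralizer (P : Set G)) c g)) (e : ℕ) (he : (Subgroup.centralizer (P : Set G)).relIndex T = e) : (e = 1 ∨ e = 3) ∧ Nat.card B = 4 ∧ Cfsg.blockRank 2 B = e := by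
  have := Fintype.ofFinite G
  obtain ⟨hm, -, hE⟩ := setup_of_induced hM hB hPD hc hT
  have hab : P ≤ centralizer (P : Set G) := fun a ha b hb =>
    congrArg Subtype.val ((IsKleinFour.isMulCommutative (G := P)).is_comm.comm ⟨b, hb⟩ ⟨a, ha⟩)
  have h4 : Nat.card P = 4 := IsKleinFour.card_four
  obtain ⟨hfs, h3⟩ := fS_two hM hB hm hab (by
    rw [show omg hab 2 = P from le_antisymm (fun _ h => h.1) fun x hx => ⟨hx, by
      rw [sq]; exact congrArg Subtype.val (IsKleinFour.mul_self (⟨x, hx⟩ : P))⟩, h4])
  have hP : P ≠ ⊥ := fun h => by simp [h] at h4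
  have hk := hfs.card_eq
  obtain ⟨w, ζ, a, d, δ, h⟩ := hfs.exists_fD'
  have h1 := h.norm_eq hP
  have h2 := h.one_le_norm hP
  have h5 := h.rank_le_sum hP
  have h6 := BlockB.blockRank_pos hM.1 (BlockB.block_nonempty hM hB)
  have h7 := h.rank_eq_sum hP
  rw [hE, he, h4] at *
  generalize ∑ᶠ χ ∈ B \ FY ζ, a χ ^ 2 = s at *
  generalize Nat.card B = n at *
  rcases (Nat.dvd_prime Nat.prime_three).1 h3 with rfl | rfl
  · omega
  · norm_num at h1 h2 hk
    generalize d - δ = x at h1 h2
    have : -2 < x := by nlinarith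
    have : x < 2 := by nlinarith
    interval_cases x <;> simp at h1 h2 <;> omega

end Cfsg.Agent.S4637
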