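import Cfsg.Statements.S4638
import Cfsg.Agent.Block.Perf

set_option autoImplicit false
open Cfsg

namespace Cfsg.Agent.S4638

open CF.Block CF Subgroup

/-- Let B be a block of the finite group G relative to a maximal ideal M of the algebraic integers containing 2, with a Klein four defect group P, and let c be its Brauer correspondent: the block of N_G(P) with defect group P that induces B. Then there is a perfect isometry from c onto B. -/
theorem result {G : Type*} [Group G] [Finite G] (M : Ideal Cfsg.AlgInt) (hM : Cfsg.IsPModular 2 M) (B : Set (Cfsg.IrrCharacter G)) (hB : Cfsg.IsPBlock M B) (P : Subgroup G) (hPD : Cfsg.IsDefectGroup 2 M B P) (hV : IsKleinFour P) (c : Set (Cfsg.IrrCharacter (Subgroup.normalizer (P : Set G)))) (hcD : Cfsg.IsDefectGroup 2 M c (P.subgroupOf (Subgroup.normalizer (P : Set G)))) (hc : Cfsg.IsInducedBlock M (Subgroup.normalizer (P : Set G)) c B) : ∃ (I : Cfsg.IrrCharacter (Subgroup.normalizer (P : Set G)) → Cfsg.IrrCharacter G) (ε : Cfsg.IrrCharacter (Subgroup.normalizer (P : Set G)) → ℤ), Cfsg.IsPerfectIsometry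 2 M c B I ε := by
  obtain ⟨e', h1, h2, h3⟩ := exists_pair_of_induced hM hB hPD le_rfl hcD hc
  set σ := subgroupOfEquivOfLe (le_normalizer.trans (le_refl (normalizer (P : Set G))))
  have hV' : IsKleinFour (P.subgroupOf (normalizer (P : Set G))) :=
    ⟨(Nat.card_congr σ.toEquiv).trans hV.card_four,
      (Monoid.exponent_eq_of_mulEquiv σ).trans hV.exponent_two⟩
  obtain ⟨hfs, hl⟩ := FS.rank_eq_of_klein hM hB h2 hV
  obtain ⟨hfs', hl'⟩ := FS.rank_eq_of_klein hM hc.1 h1 hV'
  exact hfs.perf hfs' (fun h => by simpa [h] using hV.card_four)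
    (fun h => by simpa [h] using hV'.card_four) hl hl' σ h3

end Cfsg.Agent.S4638
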