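import Cfsg.Statements.S4639
import Cfsg.Agent.Block.Cyc3

set_option autoImplicit false
open Cfsg

namespace Cfsg.Agent.S4639

open CF.Block CF Subgroup

/-- Let B be a block of the finite group G relative to a maximal ideal M of the algebraic integers containing the prime p, with a nontrivial commutative defect group P. Let c be a block of C_G(P) inducing B, T the stabilizer of c in N_G(P) and e the index of C_G(P) in T. Suppose that T/C_G(P) is commutative (all commutators of elements of T lie in C_G(P)) and acts freely on the non-identity elements of P (an element of T fixing a non-identity element of P under conjugation lies in C_G(P)). Then B has at most e + (#P − 1)/e irreducible characters and p-regular rank at most e; equality holds in the first bound exactly when it holds in the second; and both equalities hold when e ≤ 3. -/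
theorem result {G : Type*} [Group G] [Finite G] (p : ℕ) [Fact p.Prime] (M : Ideal Cfsg.AlgInt) (hM : Cfsg.IsPModular p M) (B : Set (Cfsg.IrrCharacter G)) (hB : Cfsg.IsPBlock M B) (P : Subgroup G) (hPD : Cfsg.IsDefectGroup p M B P) (hP1 : P ≠ ⊥) (hPab : ∀ x ∈ P, ∀ y ∈ P, x * y = y * x) (c : Set (Cfsg.IrrCharacter (Subgroup.centralizer (P : Set G)))) (hc : Cfsg.IsInducedBlock M (Subgroup.centralizer (P : Set G)) c B) (T : Subgroup G) (hT : ∀ g : G, g ∈ T ↔ (g ∈ Subgroup.normalizer (P : Set G) ∧ Cfsg.StabilizesBlock (Subgroup.centralizer (P : Set G)) c g)) (e : ℕ) (he : (Subgroup.centralizer (P : Set G)).relIndex T = e) (hEab : ∀ g ∈ T, ∀ h ∈ T, g * h * g⁻¹ * h⁻¹ ∈ Subgroup.centralizer (P : Set G)) (hfree : ∀ g ∈ T, ∀ x ∈ P, x ≠ 1 → g * x * g⁻¹ = x → g ∈ Subgroup.centralizer (P : Set G)) : Nat.card B ≤ e + (Nat.card P - 1) / e ∧ Cfsg.blockRank p B ≤ e ∧ (Nat.card B = e + (Nat.card P - 1) / e ↔ Cfsg.blockRank p B = e) ∧ (e ≤ 3 → Nat.card B = e + (Nat.card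 P - 1) / e ∧ Cfsg.blockRank p B = e) := by
  have := Fintype.ofFinite G
  obtain ⟨hm, hT2, hE⟩ := setup_of_induced hM hB hPD hc hT
  have hfs := fS_of_free hM hB hm (fun x hx y hy => hPab y hy x hx) (hT2 ▸ hfree)
  have hk := hfs.card_eq
  have hl := hfs.rank_le hP1
  have hcyc := fun h => hfs.rank_eq_of_cyc h hP1
  have h0 := hfs.rank_of_card_eq_one
  obtain ⟨w, ζ, a, d, δ, h⟩ := hfs.exists_fD'
  have h1 := h.norm_eq hP1
  have h2 := h.one_le_norm hP1
  have h3 := h.rank_eq_sum hP1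
  have h4 := hfs.dvd_sub_one
  have h5 := hfs.card_eq_pow
  have h6 := BlockB.blockRank_pos hM.1 (BlockB.block_nonempty hM hB)
  have h7 := h.rank_le_sum hP1
  have h8 := h.sign
  have h9 := hfs.one_le hP1
  rw [hE, he] at *
  suffices e ≤ 3 → blockRank p B = e by omega
  intro he3
  by_contra hne
  have hnp : ∀ q : ℕ, q.Prime → Nat.card P ≠ q := fun q hq hq' =>
    have := Fact.mk hq
    hne (hcyc (isCyclic_of_prime_card hq'))
  generalize ∑ᶠ χ ∈ B \ FY ζ, a χ ^ 2 = s at *
  obtain ⟨r, hr⟩ := h4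
  have hc1 : 1 ≤ Nat.card P := Nat.card_pos
  have he1 : 0 < e := by omega
  rw [hr, Nat.mul_div_cancel_left _ he1] at h1 h2 h9
  have hn : 2 ≤ (d - δ) ^ 2 + (r - 1 : ℤ) * d ^ 2 := by omega
  have hn' : (d - δ) ^ 2 + (r - 1 : ℤ) * d ^ 2 ≤ e := by omega
  have hd0 : d ≠ 0 := by
    rintro rfl
    rcases h8 with rfl | rfl <;> simp at hn
  have hd1 : 1 ≤ d ^ 2 := sq_pos_of_ne_zero hd0
  have hr1 : (1 : ℤ) ≤ r := by omega
  have hr4 : (r : ℤ) ≤ e + 1 := by nlinarith [sq_nonneg (d - δ)]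
  have hd2 : (d - δ) ^ 2 ≤ 3 := by nlinarith
  have : -2 < d - δ := by nlinarith
  have : d - δ < 2 := by nlinarith
  have hdd : d = δ ∨ d = 2 * δ := by omega
  have h10 : d ^ 2 = 1 ∧ (d - δ) ^ 2 = 0 ∨ d ^ 2 = 4 ∧ (d - δ) ^ 2 = 1 := by
    rcases hdd with rfl | rfl <;> rcases h8 with rfl | rfl <;> simp
  have h11 : 3 ≤ r := by
    rcases h10 with ⟨h10, h11⟩ | ⟨h10, h11⟩ <;> rw [h10, h11] at hn hn' <;> omega
  obtain ⟨rfl, rfl⟩ | ⟨rfl, rfl⟩ | ⟨rfl, rfl⟩ : (e = 2 ∧ r = 3) ∨ (e = 3 ∧ r = 3) ∨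
      (e = 3 ∧ r = 4) := by omega
  · exact hnp 7 (by norm_num) (by omega)
  · have h12 : p ^ blockDefect p B = 10 := by omega
    have h13 := (Nat.prime_dvd_prime_iff_eq Nat.prime_two hM.1).1
      (Nat.prime_two.dvd_of_dvd_pow (n := blockDefect p B) (by rw [h12]; norm_num))
    have h14 := (Nat.prime_dvd_prime_iff_eq Nat.prime_five hM.1).1
      (Nat.prime_five.dvd_of_dvd_pow (n := blockDefect p B) (by rw [h12]; norm_num))
    omega
  · exact hnp 13 (by norm_num) (by omega)

end Cfsg.Agent.S4639
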