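import Cfsg.Statements.S4640
import Cfsg.Agent.Block.Sub
import Cfsg.Agent.Block.CoverRed
import Cfsg.Agent.BlockB.Column
import Cfsg.Agent.Clifford.Gallagher

set_option autoImplicit false
open Cfsg

namespace Cfsg.Agent.S4640

open CF.Block CF Subgroup
open scoped ComplexConjugate

theorem inner_res_eq {G : Type*} [Group G] [Fintype G] (N : Subgroup G) [N.Normal] [Fintype N]
    (χ ψ : G → ℂ) : classInner (fun n : N => χ n) (fun n : N => ψ n) =
      ∑ β : IrrCharacter (G ⧸ N), (β : G ⧸ N → ℂ) 1 *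
        classInner (fun g : G => χ g * (β : G ⧸ N → ℂ) g) ψ := by
  classical
  simp only [Char.inner_def, Finset.mul_sum]
  rw [Finset.sum_comm, Finset.sum_congr rfl fun g _ => (?_ : _ =
    (Nat.card N : ℂ)⁻¹ * if g ∈ N then χ g * conj (ψ g) else 0), ← Finset.mul_sum,
    ← Finset.mul_sum, ← Finset.sum_filter, Finset.sum_subtype (p := (· ∈ N)) _ (by simp)]
  rw [Finset.sum_congr rfl (g := fun β : IrrCharacter (G ⧸ N) => (β : G ⧸ N → ℂ) 1 *
    (β : G ⧸ N → ℂ) g * ((Nat.card G : ℂ)⁻¹ * (χ g * conj (ψ g)))) fun β _ => by ring,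
    ← Finset.sum_mul, BlockB.sum_irr_quotient_one_mul, Char.index_eq_div_complex]
  have := Char.card_ne_zero_complex (G := G)
  split_ifs
  · field_simp
  · simp

/-- Let N be a normal subgroup of the finite group G of index a power of the prime p, M a maximal ideal of the algebraic integers containing p, b a block of N stabilized by every element of G, and B a block of G covering b (some member of B has a member of b as a constituent of its restriction to N). Suppose that B has a commutative defect group P. Then G = NP and P ∩ N is a defect group of b; every member of B restricts to a member of b; every member of b is the restriction of exactly [G : N] members of B; B contains exactly [G : N] times as many irreducible characters as b; and B and b have the same p-regular rank. -/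
theorem result {G : Type*} [Group G] [Fintype G] (p : ℕ) [Fact p.Prime] (M : Ideal Cfsg.AlgInt) (hM : Cfsg.IsPModular p M) (N : Subgroup G) [N.Normal] [Fintype N] (hNi : ∃ k : ℕ, N.index = p ^ k) (b : Set (Cfsg.IrrCharacter N)) (hb : Cfsg.IsPBlock M b) (hstab : ∀ g : G, Cfsg.StabilizesBlock N b g) (B : Set (Cfsg.IrrCharacter G)) (hB : Cfsg.IsPBlock M B) (hcov : ∃ χ ∈ B, ∃ θ ∈ b, Cfsg.classInner (fun n : N => (χ : G → ℂ) n) (θ : N → ℂ) ≠ 0) (P : Subgroup G) (hPD : Cfsg.IsDefectGroup p M B P) (hPab : ∀ x ∈ P, ∀ y ∈ P, x * y = y * x) : N ⊔ P = ⊤ ∧ Cfsg.IsDefectGroup p M b ((P ⊓ N).subgroupOf N) ∧ (∀ χ ∈ B, ∃ θ ∈ b, ∀ n : N, (χ : G → ℂ) n = (θ : N → ℂ) n) ∧ (∀ θ ∈ b, Nat.card {χ : Cfsg.IrrCharacter G // χ ∈ B ∧ ∀ n : N, (χ : G → ℂ) n = (θ : N → ℂ) n} = N.index) ∧ Nat.card B = N.index * Nat.card b ∧ Cfsg.blockRank p B = Cfsg.blockRank p b := by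
  classical
  have := BlockB.charP_k hM
  have hreg := mem_of_index_eq_pow hNi
  have hbk := isBlk_ebs hM hb
  have hst : ebs M N b ∈ fix _ ⊤ :=
    (mem_fix_iff_stabilizes hM hb (le_normalizer_of_normal' _ N)).2 fun x _ => hstab x
  have heq : ∀ {C : Set (IrrCharacter G)}, IsPBlock M C → eb M C * ebs M N b ≠ 0 →
      eb M C = ebs M N b := fun hC h => by
    rw [(regSupp hM).eq_orb hreg (isBlk_eb hM hC) hbk (le_normalizer_of_normal' _ N) le_top h,
      orb_of_mem_fix hst]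
  have hcov' := (covers_iff hM hB hb).1 hcov
  have hB' := heq hB hcov'
  have hD := (isDefectGroup_iff hM hB P).1 hPD
  have hab : P ≤ centralizer (P : Set G) := fun x hx y hy => hPab y hy x hx
  obtain ⟨e, he⟩ := hD.exists_maxPair (isBlk_eb hM hB)
  have hsup : P ⊔ N = ⊤ := by
    obtain ⟨n, hn⟩ := hNi
    exact eq_of_not_dvd_relIndex le_sup_right le_top (by rwa [relIndex_top_right])
      ((hB' ▸ hD).fong (hB' ▸ isBlk_eb hM hB) hbk (le_normalizer_of_normal' _ N) le_top)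
  have hsurj : ∀ q : G ⧸ N, ∃ u ∈ P, (u : G ⧸ N) = q := fun q => by
    obtain ⟨g, rfl⟩ := QuotientGroup.mk_surjective q
    obtain ⟨a, ha, c, hc, rfl⟩ := (mem_sup_of_norm (le_normalizer_of_normal' P N)).1
      (hsup ▸ mem_top g)
    exact ⟨a, ha, QuotientGroup.eq.2 (by simpa using hc)⟩
  have hcomm : ∀ a b : G ⧸ N, a * b = b * a := fun a b => by
    obtain ⟨u, hu, rfl⟩ := hsurj a
    obtain ⟨w, hw, rfl⟩ := hsurj b
    rw [← QuotientGroup.mk_mul, hPab u hu w hw, QuotientGroup.mk_mul]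
  have hmem : ∀ χ : IrrCharacter G, ∀ θ ∈ b,
      classInner (fun n : N => (χ : G → ℂ) n) (θ : N → ℂ) ≠ 0 → χ ∈ B := fun χ θ hθ h => by
    rw [mem_iff_eb_blockOf hM hB, hB']
    exact heq (BlockB.isPBlock_blockOf χ) ((covers_iff hM (BlockB.isPBlock_blockOf χ) hb).1
      ⟨χ, BlockB.mem_blockOf_self hM χ, θ, hθ, h⟩)
  have hirr : ∀ χ ∈ B, IsIrrCharacter N fun n => (χ : G → ℂ) n := fun χ hχ => by
    rw [Char.irr_iff_inner_self (Char.char_restrict (Char.irr_isCharacter χ.2) N), inner_res_eq,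
      Finset.sum_eq_single (Char.oneIrr _)]
    · simp [Char.coe_oneIrr, Char.inner_irr_self χ.2]
    · intro β _ hβ
      obtain ⟨lam, hlam⟩ := Char.exists_linear_of_one (Char.irr_isCharacter β.2)
        (Char.irr_one_eq_one_of_comm hcomm β.2)
      rw [hlam]
      refine mul_eq_zero_of_right _ (Char.inner_irr_ne (Char.irr_mul_linear χ.2
        (lam.comp (QuotientGroup.mk' N))) χ.2 fun h =>
          hβ (Subtype.ext (hlam.trans (funext fun q => ?_))))
      obtain ⟨u, hu, rfl⟩ := hsurj q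
      have h1 := regProj_sbl_ne_zero_of_le hM hB he hχ hu (le_Cen_of_comm hab hu)
      rw [← regProj_reg hM (BlockB.nrm_eSet_le_one hM (sbl_spec hM he.bpair.pair hu).1)] at h1
      obtain ⟨y, hy⟩ := Function.ne_iff.1 (mt (fun h2 => by rw [h2, map_zero]) h1 :
        pRegularPart p (BlockB.sec (BlockB.Cen u) u χ) ≠ 0)
      by_cases hpy : p ∣ orderOf y
      · exact absurd (BlockB.reg_of_dvd _ hpy) hy
      rw [BlockB.reg_of_not_dvd _ hpy] at hy
      have h2 : (lam ((u * y : G) : G ⧸ N) : ℂ) = 1 := (mul_eq_left₀ hy).1 (congrFun h (u * y))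
      rwa [QuotientGroup.mk_mul, (QuotientGroup.eq_one_iff (y : G)).2
        (hreg y (mem_top _) (by simpa using hpy)), mul_one] at h2
    · simp
  have h3 : ∀ χ ∈ B, ∃ θ ∈ b, ∀ n : N, (χ : G → ℂ) n = (θ : N → ℂ) n := fun χ hχ => by
    obtain ⟨θ, hθ, h⟩ := exists_under_of_covers hM hB hb hcov' hχ
    exact ⟨θ, hθ, congrFun (Char.irr_eq_of_inner_ne_zero (hirr χ hχ) θ.2 h)⟩
  have h3' : ∀ θ ∈ b, ∃ χ ∈ B, ∀ n : N, (χ : G → ℂ) n = (θ : N → ℂ) n := fun θ hθ => by
    obtain ⟨χ, hχ, h⟩ := exists_over_of_covers hM hB hb hcov' hθ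
    exact ⟨χ, hχ, congrFun (Char.irr_eq_of_inner_ne_zero (hirr χ hχ) θ.2 h)⟩
  have h4 : ∀ θ ∈ b, Nat.card {χ : IrrCharacter G // χ ∈ B ∧
      ∀ n : N, (χ : G → ℂ) n = (θ : N → ℂ) n} = N.index := fun θ hθ => by
    obtain ⟨χ, hχ, h⟩ := h3' θ hθ
    have hc := Char.irr_isCharacter χ.2
    have h5 : ∀ (β : IrrCharacter (G ⧸ N)) (n : N), (β : G ⧸ N → ℂ) (n : G) = 1 := fun β n => by
      rw [(QuotientGroup.eq_one_iff _).2 n.2, Char.irr_one_eq_one_of_comm hcomm β.2]
    have h6 : ∀ (β : IrrCharacter (G ⧸ N)) (n : N),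
        (β : G ⧸ N → ℂ) (n : G) = (β : G ⧸ N → ℂ) (1 : G) := fun β n => (h5 β n).trans (h5 β 1).symm
    have h7 : ∀ (β : IrrCharacter (G ⧸ N)) (n : N),
        (β : G ⧸ N → ℂ) (n : G) * (χ : G → ℂ) n = (θ : N → ℂ) n := fun β n => by
      rw [h5, h, one_mul]
    rw [index, ← Char.card_irr_of_comm hcomm]
    refine (Nat.card_eq_of_bijective (fun β => ⟨⟨_, (Clifford.NormalEmb.sub N).irr_mul_ext θ.2 hc h
      (Char.irr_inflate N β.2) (h6 β)⟩, hmem _ θ hθ ((congrArg (classInner · _)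
        (funext (h7 β))).trans_ne ((Char.inner_irr_self θ.2).trans_ne one_ne_zero)), h7 β⟩)
      ⟨fun β γ h8 => ?_, fun ψ => ?_⟩).symm
    · have := (Clifford.NormalEmb.sub N).eq_of_mul_ext θ.2 hc h (Char.irr_inflate N β.2)
        (Char.irr_inflate N γ.2) (h6 β) (h6 γ) (congrArg (fun x => (x.1 : G → ℂ)) h8)
      exact Subtype.ext (funext fun q => QuotientGroup.induction_on q (congrFun this))
    · obtain ⟨β, hβ, h8, h9⟩ := (Clifford.NormalEmb.sub N).exists_mul_ext θ.2 hc h ψ.1.2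
        ((congrArg (classInner · _) (funext ψ.2.2)).trans_ne
          ((Char.inner_irr_self θ.2).trans_ne one_ne_zero))
      obtain ⟨γ, hγ, rfl⟩ := Char.exists_irr_quotient hβ N fun n hn =>
        (Char.mem_charKer_iff (Char.irr_isCharacter hβ)).2 (h8 ⟨n, hn⟩)
      exact ⟨⟨γ, hγ⟩, Subtype.ext (Subtype.ext h9)⟩
  refine ⟨by rwa [sup_comm], (isDefectGroup_iff_subgroupOf hM hb inf_le_right).2
    (hD.inf_of_stable (isBlk_eb hM hB) hbk (le_normalizer_of_normal' _ N) le_top hcov' hst),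
    h3, h4, ?_, ?_⟩
  · choose r hr1 hr2 using h3
    rw [← Nat.card_congr (Equiv.sigmaFiberEquiv fun χ : B => (⟨r χ χ.2, hr1 χ χ.2⟩ : b)),
      Nat.card_sigma, Finset.sum_congr rfl fun θ _ => (?_ : _ = N.index), Finset.sum_const,
      smul_eq_mul, mul_comm, Nat.card_eq_fintype_card, Finset.card_univ]
    rw [← h4 θ θ.2]
    exact Nat.card_congr ⟨fun χ => ⟨χ.1.1, χ.1.2, fun n => (hr2 _ χ.1.2 n).trans
      (congrFun (congrArg (fun x : b => (x.1 : N → ℂ)) χ.2) n)⟩,
      fun χ => ⟨⟨χ.1, χ.2.1⟩, Subtype.ext (Subtype.ext (funext fun n =>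
        (hr2 _ χ.2.1 n).symm.trans (χ.2.2 n)))⟩, fun _ => rfl, fun _ => rfl⟩
  · let E := Char.indLinear N
    let L : (N → ℂ) →ₗ[ℂ] (G → ℂ) :=
      { toFun := extendByZero N, map_add' := Char.extendByZero_add N
        map_smul' := Char.extendByZero_smul N }
    have hL : Function.Injective L := fun a b h => funext fun n => by
      simpa [L, Char.extendByZero_coe] using congrFun h n
    have h5 : ∀ (χ : G → ℂ) (θ : N → ℂ), (∀ n : N, χ n = θ n) →
        L (pRegularPart p θ) = pRegularPart p χ := fun χ θ h => funext fun g => by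
      change extendByZero N _ g = _
      by_cases hg : g ∈ N
      · rw [Char.extendByZero_of_mem _ _ hg, ← funext h, ← BlockB.reg_restrict]
      · rw [Char.extendByZero_of_not_mem _ _ hg, BlockB.reg_of_dvd _ (by_contra fun h =>
          hg (hreg g (mem_top g) h))]
    rw [blockRank, blockRank, (Submodule.equivMapOfInjective L hL _).finrank_eq, Submodule.map_span,
      Set.image_image, show (fun χ : IrrCharacter G => pRegularPart p (χ : G → ℂ)) '' B = _ from ?_]
    ext φ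
    constructor
    · rintro ⟨χ, hχ, rfl⟩
      obtain ⟨θ, hθ, h⟩ := h3 χ hχ
      exact ⟨θ, hθ, h5 _ _ h⟩
    · rintro ⟨θ, hθ, rfl⟩
      obtain ⟨χ, hχ, h⟩ := h3' θ hθ
      exact ⟨χ, hχ, (h5 _ _ h).symm⟩

end Cfsg.Agent.S4640
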