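import Cfsg.Statements.S4641
import Cfsg.Agent.Block.Brauer
import Cfsg.Agent.Block.Prin
import Cfsg.Agent.BlockB.Misc1
import Cfsg.Agent.BlockB.Column

set_option autoImplicit false
open Cfsg

namespace Cfsg.Agent.S4641

open CF.Block CF Subgroup

theorem exists_int_of_gen_inSpan {G : Type*} [Group G] [Fintype G] {B : Set (Cfsg.IrrCharacter G)}
    {g : ℕ} (hg1 : ∀ χ ∈ B, g ∣ Cfsg.charDegree (χ : G → ℂ)) {θ : G → ℂ}
    (h1 : Cfsg.IsGeneralizedCharacter G θ) (h2 : BlockB.InSpan B θ) : ∃ n : ℤ, θ 1 = g * n := by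
  classical
  rw [h2.apply_eq_sum 1]
  refine Finset.sum_induction _ (fun z : ℂ => ∃ n : ℤ, z = g * n) ?_ ⟨0, by simp⟩ fun χ hχ => ?_
  · rintro _ _ ⟨m, rfl⟩ ⟨n, rfl⟩
    exact ⟨m + n, by push_cast; ring⟩
  · obtain ⟨m, hm⟩ := Char.inner_gen_eq_int h1 (Char.gen_of_irr χ.2)
    obtain ⟨n, hn⟩ := hg1 χ (Finset.mem_filter.1 hχ).2
    exact ⟨m * n, by rw [hm, ← BlockB.irr_charDegree_eq, hn]; push_cast; ring⟩

/-- Let B be a block of the finite group G relative to a maximal ideal M of the algebraic integers containing the prime p, let p^a be the p-part of the order of G and p^d the order of a defect group D of B, and let g be the greatest common divisor of the degrees of the members of B. Then the p-part of g is exactly p^(a−d), and writing g = p^(a−d)·u there is a positive integer v, prime to p and at least the p-regular rank of B (its number of irreducible Brauer characters), with Σ_{χ ∈ B} χ(1)² = p^(2a−d)·u²·v. -/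
theorem result {G : Type*} [Group G] [Finite G] (p : ℕ) [Fact p.Prime] (M : Ideal Cfsg.AlgInt) (hM : Cfsg.IsPModular p M) (B : Set (Cfsg.IrrCharacter G)) (hB : Cfsg.IsPBlock M B) (D : Subgroup G) (hD : Cfsg.IsDefectGroup p M B D) (a d : ℕ) (ha : (Nat.card G).factorization p = a) (hd : Nat.card D = p ^ d) (g : ℕ) (hg1 : ∀ χ ∈ B, g ∣ Cfsg.charDegree (χ : G → ℂ)) (hg2 : ∀ g' : ℕ, (∀ χ ∈ B, g' ∣ Cfsg.charDegree (χ : G → ℂ)) → g' ∣ g) : g.factorization p = a - d ∧ ∃ v : ℕ, 0 < v ∧ ¬ p ∣ v ∧ Cfsg.blockRank p B ≤ v ∧ ∑ᶠ χ ∈ B, Cfsg.charDegree (χ : G → ℂ) ^ 2 = p ^ (2 * a - d) * (g / p ^ (a - d)) ^ 2 * v := by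
  classical
  have := Fintype.ofFinite G
  have hp := hM.1
  have hB1 := BlockB.nrm_eSet_le_one hM hB
  have hne := BlockB.block_nonempty hM hB
  have hd' : BlockB.minExp p B = a - d := by
    have h1 := BlockB.blockDefect_add_minExp (p := p) hne
    have h2 := Nat.pow_right_injective hp.two_le (hd.symm.trans (BlockB.card_defectGroup hM hB hD))
    omega
  have hda : d ≤ a := by
    have h1 := BlockB.blockDefect_add_minExp (p := p) hne
    have h2 := Nat.pow_right_injective hp.two_le (hd.symm.trans (BlockB.card_defectGroup hM hB hD))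
    omega
  obtain ⟨χ₀, hχ₀, h0⟩ := BlockB.exists_minExp_eq (p := p) hne
  have hg0 : g ≠ 0 := fun h => BlockB.irr_charDegree_ne_zero χ₀ (by simpa [h] using hg1 χ₀ hχ₀)
  have hgf : g.factorization p = a - d := by
    refine le_antisymm ?_ ?_
    · rw [← hd', ← h0]
      exact (Nat.factorization_le_iff_dvd hg0 (BlockB.irr_charDegree_ne_zero χ₀)).2 (hg1 χ₀ hχ₀) p
    · refine (hp.pow_dvd_iff_le_factorization hg0).1 (hg2 _ fun χ hχ => ?_)
      rw [hp.pow_dvd_iff_le_factorization (BlockB.irr_charDegree_ne_zero χ), ← hd']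
      exact BlockB.minExp_le hχ
  refine ⟨hgf, ?_⟩
  set u := g / p ^ (a - d) with hu
  have hgu : g = p ^ (a - d) * u := by rw [hu, ← hgf, Nat.ordProj_mul_ordCompl_eq_self]
  have hpu : Nat.Coprime (p ^ a) u := by
    rw [hu, ← hgf]; exact (Nat.coprime_ordCompl hp hg0).pow_left _
  obtain ⟨j, φ, h⟩ := exists_iBr hM hB1
  have h1 : ∀ i, ∃ s : ℕ, φ i 1 = (g * (s + 1) : ℕ) := fun i => by
    obtain ⟨n, hn⟩ := h.exists_apply_one hM hB1 i
    obtain ⟨θ, hθ1, hθ2, hθ3⟩ := BlockB.mem_lat_iff.1 (h.bset.lat i)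
    obtain ⟨m, hm⟩ := exists_int_of_gen_inSpan hg1 hθ1 hθ2
    have h2 : φ i 1 = θ 1 := by rw [← hθ3, BlockB.reg_of_not_dvd _ (by simpa using hp.ne_one)]
    have h3 : ((n + 1 : ℕ) : ℤ) = g * m := by exact_mod_cast hn.symm.trans (h2.trans hm)
    obtain ⟨s, hs⟩ : g ∣ n + 1 := Int.natCast_dvd_natCast.1 ⟨m, h3⟩
    obtain ⟨s, rfl⟩ := Nat.exists_eq_add_one_of_ne_zero (n := s) (by rintro rfl; simp at hs)
    exact ⟨s, by rw [hn, hs]⟩
  have h2 : ∀ i, ∃ t : ℕ, pch M (j i) 1 = (p ^ a * u * (t + 1) : ℕ) := fun i => by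
    have hc := char_pch (M := M) (h.idem i)
    obtain ⟨n, hn⟩ := Char.char_one_eq_nat hc
    obtain ⟨m, hm⟩ := exists_int_of_gen_inSpan hg1 (h.bset.gen i) (h.bset.span i)
    have h3 : u ∣ n := (Dvd.intro_left _ hgu.symm).trans
      (Int.natCast_dvd_natCast.1 ⟨m, by exact_mod_cast hn.symm.trans hm⟩)
    obtain ⟨P⟩ : Nonempty (Sylow p G) := inferInstance
    have := Fintype.ofFinite P
    have h4 := (h.bset.pv i).apply_one_eq_sum hp (pch_classFun _) P P.isPGroup'
    have h5 : p ^ a ∣ n := by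
      rw [← BlockB.v_natCast_le_pow_iff hM, ← hn, h4, map_mul, Sylow.card_eq_multiplicity, ha,
        Nat.cast_pow, map_pow]
      refine mul_le_of_le_one_right' (BlockB.v_sum_le_one fun χ _ => ?_)
      obtain ⟨m, hm⟩ := Char.inner_gen_eq_int (h.bset.gen i) (Char.gen_of_irr χ.2)
      obtain ⟨m', hm'⟩ := Char.inner_gen_eq_int (Char.gen_restrict (Char.gen_of_irr χ.2) P)
        (Char.gen_const_int (G := P) 1)
      rw [Int.cast_one] at hm'
      rw [hm, hm', ← Int.cast_mul]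
      exact BlockB.v_intCast_le_one M _
    obtain ⟨t, ht⟩ := hpu.mul_dvd_of_dvd_of_dvd h5 h3
    obtain ⟨t, rfl⟩ := Nat.exists_eq_add_one_of_ne_zero (n := t) (by
      rintro rfl
      have h6 := h.bset.dual i i
      rw [Char.char_eq_zero_of_one_eq_zero hc (by simp [hn, ht]), Char.inner_zero_right] at h6
      simp at h6)
    exact ⟨t, by rw [hn, ht]⟩
  choose s hs using h1
  choose t ht using h2
  have h3 : ∑ᶠ χ ∈ B, Cfsg.charDegree (χ : G → ℂ) ^ 2 =
      p ^ (2 * a - d) * u ^ 2 * ∑ i, (s i + 1) * (t i + 1) := by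
    have h4 := regB_one_eq B
    rw [h.regB_eq hM hB1, Finset.sum_apply] at h4
    simp only [Pi.smul_apply, smul_eq_mul, hs, ht, ← Nat.cast_mul, ← Nat.cast_sum] at h4
    rw [← Nat.cast_injective h4, Finset.mul_sum]
    refine Finset.sum_congr rfl fun i _ => ?_
    rw [show 2 * a - d = a - d + a by omega, pow_add]
    conv_lhs => rw [hgu]
    ring
  have h4 : Cfsg.blockRank p B ≤ ∑ i, (s i + 1) * (t i + 1) := by
    conv_lhs => rw [← Fintype.card_fin (Cfsg.blockRank p B), Fintype.card, Finset.card_eq_sum_ones]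
    exact Finset.sum_le_sum fun i _ => Nat.one_le_iff_ne_zero.2 (by positivity)
  refine ⟨_, (BlockB.blockRank_pos hp hne).trans_le h4, ?_, h4, h3⟩
  have h5 := BlockB.regB_div_card B (1 : G)
  rw [BlockB.index_centralizer_one, inv_one, Nat.cast_one, one_mul, regB_one_eq, h3,
    show centralizer ({1} : Set G) = ⊤ from BlockB.cen_one, card_top,
    div_eq_iff (Nat.cast_ne_zero.2 Nat.card_pos.ne')] at h5
  have h6 := congrArg (BlockB.v M) h5
  rw [map_mul, BlockB.v_blockCoeff_one hM hB, BlockB.v_natCast hM Nat.card_pos.ne', ha, hd',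
    ← pow_add, show a - d + a = 2 * a - d by omega] at h6
  push_cast at h6
  rw [map_mul, map_mul, map_pow, map_pow, mul_assoc,
    mul_eq_left₀ (BlockB.vp_pow_ne_zero hM _)] at h6
  rw [← BlockB.v_natCast_eq_one_iff hM]
  push_cast
  refine le_antisymm (by exact_mod_cast BlockB.v_natCast_le_one M _) ?_
  rw [← h6]
  exact mul_le_of_le_one_left' (pow_le_one' (BlockB.v_natCast_le_one M _) _)

end Cfsg.Agent.S4641
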