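import Cfsg.Statements.S4642
import Cfsg.Agent.Block.PSolv

set_option autoImplicit false
open Cfsg

namespace Cfsg.Agent.S4642

open CF.Block CF Subgroup

/-- Let G be a finite group, p a prime, M a maximal ideal of the algebraic integers containing p, K the largest normal subgroup of G of order prime to p, and L the preimage in G of the largest normal p-subgroup of G/K. Let Q be a Sylow p-subgroup of L and suppose C_G(Q) ≤ L. Let θ be an irreducible character of K invariant under conjugation by every element of G, and let B be the set of irreducible characters of G whose restriction to K contains θ. Then B is a block of G, every Sylow p-subgroup of G is a defect group of B, and B is of principal type: for every p-subgroup R of G exactly one block of C_G(R) induces B. -/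
theorem result {G : Type*} [Group G] [Fintype G] (p : ℕ) [Fact p.Prime] (M : Ideal Cfsg.AlgInt) (hM : Cfsg.IsPModular p M) (K : Subgroup G) (hK : K = Cfsg.pPrimeCore p G) [Fintype K] (L : Subgroup G) (hL : L = Cfsg.pPrimePCore p G) (Q : Subgroup G) (hQL : Q ≤ L) (hQp : IsPGroup p Q) (hQS : ¬ p ∣ Q.relIndex L) (hCQ : Subgroup.centralizer (Q : Set G) ≤ L) (θ : Cfsg.IrrCharacter K) (hθ : ∀ g : G, Cfsg.IsConjCharOf K g (θ : K → ℂ) (θ : K → ℂ)) (B : Set (Cfsg.IrrCharacter G)) (hBdef : ∀ χ : Cfsg.IrrCharacter G, χ ∈ B ↔ Cfsg.classInner (fun k : K => (χ : G → ℂ) k) (θ : K → ℂ) ≠ 0) : Cfsg.IsPBlock M B ∧ (∀ S : Sylow p G, Cfsg.IsDefectGroup p M B S) ∧ ∀ R : Subgroup G, IsPGroup p R → ∃! f : Set (Cfsg.IrrCharacter (Subgroup.centralizer (R : Set G))), Cfsg.IsInducedBlock M (Subgroup.centralizer (R : Set G)) f B := by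
  have := BlockB.charP_k hM
  subst hK hL
  have hp : ¬ p ∣ Nat.card (Cfsg.pPrimeCore p G) := Solv.not_dvd_card_pPrimeCore
  have hθ' := isPBlock_singleton_of_not_dvd hM hp θ
  have hst : ebs M _ {θ} ∈ fix (BlockB.k M) (⊤ : Subgroup G) := mem_fix.2 fun g _ =>
    cj_ebs_singleton hM hp θ (le_normalizer_of_normal' ⊤ _ trivial) (hθ g)
  have hc : Loc.IsCharP p (⊤ : Subgroup (G ⧸ Cfsg.pPrimeCore p G)) := by
    rw [Loc.isCharP_top_iff]
    have hidx : ∃ n, (Cfsg.pPrimeCore p G).relIndex (Cfsg.pPrimePCore p G) = p ^ n := by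
      have h1 : IsPGroup p ((Cfsg.pPrimePCore p G).map
          (QuotientGroup.mk' (Cfsg.pPrimeCore p G))) := by
        rw [Solv.map_pPrimePCore]; exact Solv.pCore_isPGroup
      obtain ⟨n, hn⟩ := IsPGroup.iff_card.1 h1
      exact ⟨n, by rw [← hn, ← relIndex_ker, QuotientGroup.ker_mk']⟩
    obtain ⟨n, hn⟩ := hidx
    have h3 : Q ⊔ Cfsg.pPrimeCore p G = Cfsg.pPrimePCore p G := by
      refine eq_of_not_dvd_relIndex (p := p) le_sup_right
        (sup_le hQL Solv.pPrimeCore_le_pPrimePCore) hn fun hd => hQS ?_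
      rw [← relIndex_mul_relIndex Q (Q ⊔ Cfsg.pPrimeCore p G) _ le_sup_left
        (sup_le hQL Solv.pPrimeCore_le_pPrimePCore)]
      exact hd.mul_left _
    have h4 : Q.map (QuotientGroup.mk' (Cfsg.pPrimeCore p G)) =
        Cfsg.pCore p (G ⧸ Cfsg.pPrimeCore p G) := by
      rw [← Solv.map_pPrimePCore, ← h3, Subgroup.map_sup, QuotientGroup.map_mk'_self, sup_bot_eq]
    have hsolv : Group.IsSolvable Q := by
      have := hQp.isNilpotent
      infer_instance
    rw [← h4, ← Coprime.map_mk'_centralizer _ Q (Solv.coprime_card_of_isPGroup hQp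
      Solv.pPrimeCore_coprime) (Or.inl hsolv), h4, ← Solv.map_pPrimePCore]
    exact map_mono hCQ
  obtain ⟨h1, h2, h3⟩ := fong_isBlk hM hp hc (isBlk_ebs hM hθ') hst
  obtain ⟨B', hB, hBe, hmem⟩ := exists_block_over_singleton hM hp θ h1
  obtain rfl : B = B' := Set.ext fun χ => by rw [hBdef, hmem]
  refine ⟨hB, fun P => ?_, fun R hR => ?_⟩
  · rw [isDefectGroup_iff hM hB, hBe]
    exact h2 _ (isSyl_sylow P)
  · obtain ⟨f, hf, hfe⟩ := exists_ebs_eq hM (h3 R hR)
    have hS := BrSetup.centralizer_top (G := G) hR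
    refine ⟨f, (isInducedBlock_iff hM hf hB).2 ((hS.induces_iff (isBlk_ebs hM hf)
      (isBlk_eb hM hB)).2 ?_), fun f' hf' => ?_⟩
    · rw [hBe, hfe]; exact (h3 R hR).idem
    · have hI := IsInducedBlock.induces hM hf'
      have h4 := (hS.induces_iff_ne hI.blk hI.blk').1 hI
      rw [hBe, ← hfe] at h4
      exact (ebs_inj hM hf hf'.1 ((isBlk_ebs hM hf).eq_of_mul_ne_zero hI.blk h4)).symm

end Cfsg.Agent.S4642
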