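import Cfsg.Statements.S4644
import Cfsg.Agent.Block.Wat

set_option autoImplicit false
open Cfsg

namespace Cfsg.Agent.S4644

open CF.Block CF Subgroup

/-- Let B be a block of the finite group G relative to a maximal ideal M of the algebraic integers containing the prime p, with a commutative defect group P; let c be a block of C_G(P) inducing B and T the stabilizer of c in N_G(P). Let u be an element of P fixed under conjugation by every element of T, H = C_G(u) (so C_G(P) ≤ H), and f the block of H induced by c inside H. Then B and f have the same p-regular rank and the same number of irreducible characters. -/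
theorem result {G : Type*} [Group G] [Finite G] (p : ℕ) [Fact p.Prime] (M : Ideal Cfsg.AlgInt) (hM : Cfsg.IsPModular p M) (B : Set (Cfsg.IrrCharacter G)) (hB : Cfsg.IsPBlock M B) (P : Subgroup G) (hPD : Cfsg.IsDefectGroup p M B P) (hPab : ∀ x ∈ P, ∀ y ∈ P, x * y = y * x) (c : Set (Cfsg.IrrCharacter (Subgroup.centralizer (P : Set G)))) (hc : Cfsg.IsInducedBlock M (Subgroup.centralizer (P : Set G)) c B) (T : Subgroup G) (hT : ∀ g : G, g ∈ T ↔ (g ∈ Subgroup.normalizer (P : Set G) ∧ Cfsg.StabilizesBlock (Subgroup.centralizer (P : Set G)) c g)) (u : G) (hu : u ∈ P) (huT : ∀ g ∈ T, g * u * g⁻¹ = u) (H : Subgroup G) (hH : H = Subgroup.centralizer ({u} : Set G)) (f : Set (Cfsg.IrrCharacter H)) (hf : Cfsg.IsInducedBlockIn M H (Subgroup.centralizer (P : Set G)) c f) : Cfsg.blockRank p B = Cfsg.blockRank p f ∧ Nat.card B = Nat.card f := by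
  have := BlockB.charP_k hM
  have he := maxPair_of_induced hM hB hPD hc
  have hab : P ≤ centralizer (P : Set G) := fun x hx y hy => hPab y hy x hx
  obtain rfl := eq_stab_of_stabilizes hM hc.1 hT
  have hH' : H = centralizer (zpowers u : Set G) := by rw [hH, centralizer_zpowers]
  have h1 := (nle_of_inducedIn hM he.bpair.pair.isP (zpowers_le_of_mem hu)
    (hab.trans (centralizer_anti (zpowers_le_of_mem hu))) hH' hf).ple.sbk_eq he.bpair.pair
  have h2 : stab (Nz ⊤ P) (ebs M _ c) ⊓ centralizer ((⊥ : Subgroup G) : Set G) ≤ BlockB.Cen u :=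
    fun t ht => BlockB.mem_Cen.2 (mul_inv_eq_iff_eq_mul.1 (huT t ht.1))
  have h3 := lsub_sup hM he hab hu ⊥ bot_le h2
  have h4 := krk_sbk_sup hM he hab hu ⊥ bot_le h2
  rw [lsub, lsub] at h3
  rw [sup_bot_eq, h1, he.bpair.sbk_bot, Cz_bot, Cz_top, ← hH'] at h3 h4
  rw [lrk_ebs hM hf.2.1, lrk_top hM hB] at h3
  rw [krk_ebs hM hf.2.1, krk_top hM hB] at h4
  exact ⟨h3.symm, h4.symm⟩

end Cfsg.Agent.S4644
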