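import Cfsg.Statements.S4645
import Cfsg.Agent.Block.Abel
import Cfsg.Agent.S4633

set_option autoImplicit false
open Cfsg

namespace Cfsg.Agent.S4645

open CF.Block CF Subgroup

/-- Let B be a block of the finite group G relative to a maximal ideal M of the algebraic integers containing the prime p, with a nontrivial cyclic defect group P; let c be a block of C_G(P) inducing B and T the stabilizer of c in N_G(P). Let Q be a nontrivial subgroup of P (so C_G(P) ≤ C_G(Q)), f the block of C_G(Q) induced by c inside C_G(Q), and T' the stabilizer of f in N_G(Q). Then T' = T·C_G(Q), the index of C_G(Q) in T' equals the index of C_G(P) in T, f has p-regular rank 1, and f is a nilpotent block of C_G(Q). -/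
theorem result {G : Type*} [Group G] [Finite G] (p : ℕ) [Fact p.Prime] (M : Ideal Cfsg.AlgInt) (hM : Cfsg.IsPModular p M) (B : Set (Cfsg.IrrCharacter G)) (hB : Cfsg.IsPBlock M B) (P : Subgroup G) (hPD : Cfsg.IsDefectGroup p M B P) (hP1 : P ≠ ⊥) (hcyc : IsCyclic P) (c : Set (Cfsg.IrrCharacter (Subgroup.centralizer (P : Set G)))) (hc : Cfsg.IsInducedBlock M (Subgroup.centralizer (P : Set G)) c B) (T : Subgroup G) (hT : ∀ g : G, g ∈ T ↔ (g ∈ Subgroup.normalizer (P : Set G) ∧ Cfsg.StabilizesBlock (Subgroup.centralizer (P : Set G)) c g)) (Q : Subgroup G) (hQP : Q ≤ P) (hQ1 : Q ≠ ⊥) (f : Set (Cfsg.IrrCharacter (Subgroup.centralizer (Q : Set G)))) (hf : Cfsg.IsInducedBlockIn M (Subgroup.centralizer (Q : Set G)) (Subgroup.centralizer (P : Set G)) c f) (T' : Subgroup G) (hT' : ∀ g : G, g ∈ T' ↔ (g ∈ Subgroup.normalizer (Q : Set G) ∧ Cfsg.StabilizesBlock (Subgroup.centralizer (Q : Set G)) f g)) : T' = T ⊔ Subgroup.centralizer (Q : Set G) ∧ (Subgroup.centralizer (Q : Set G)).relIndex T' = (Subgroup.centralizer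 (P : Set G)).relIndex T ∧ Cfsg.blockRank p f = 1 ∧ Cfsg.IsNilpotentBlock p M f := by
  have := BlockB.charP_k hM
  have hD := (isDefectGroup_iff hM hB P).1 hPD
  have he := maxPair_of_induced hM hB hPD hc
  have hab : P ≤ centralizer (P : Set G) := fun a ha b hb =>
    congrArg Subtype.val ((IsCyclic.isMulCommutative (α := P)).is_comm.comm ⟨b, hb⟩ ⟨a, ha⟩)
  have hle := (nle_of_inducedIn hM hD.isP hQP (hab.trans (centralizer_anti hQP)) rfl hf).ple
  have hTN : T ≤ normalizer (P : Set G) := fun g hg => ((hT g).1 hg).1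
  have hn : ((centralizer (P : Set G)).subgroupOf T).Normal :=
    normal_subgroupOf_of_le_normalizer (hTN.trans (normalizer_le_normalizer_centralizer P))
  have hfree := (S4633.result p M hM B hB P hPD hP1 hcyc c hc T hT).2.2
  obtain rfl := eq_stab_of_stabilizes hM hc.1 hT
  obtain rfl := eq_stab_of_stabilizes hM hf.2.1 hT'
  set T := stab (Nz ⊤ P) (ebs M (centralizer (P : Set G)) c) with hTdef
  have hTQ : T ≤ normalizer (Q : Set G) := fun g hg => by
    rw [mem_normalizer_iff_cjs]
    have h1 : cjs g Q ≤ P := by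
      rw [← cjs_eq_of_mem_normalizer (hTN hg)]; exact cjs_mono g hQP
    exact (eq_of_le_cjs (Fgs2.le_of_card_dvd_of_isCyclic hQP h1 (by rw [card_cjs]))).symm
  obtain ⟨x, hx, hx1⟩ := (bot_or_exists_ne_one Q).resolve_left hQ1
  have h1 : T ⊓ centralizer (Q : Set G) ≤ centralizer (P : Set G) := fun g hg =>
    hfree g hg.1 x (hQP hx) hx1 (conj_eq_of_mem_centralizer hg.2 hx)
  have h2 : stab (Nz ⊤ Q) (ebs M _ f) = T ⊔ centralizer (Q : Set G) := by
    rw [he.stab_eq_of_comm hab hle, Cz_top, inf_eq_left.2 hTQ]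
  have h3 : IsNilpotentBlock p M f := by
    rw [isNilpotentBlock_iff_sub hM hf.2.1]
    have := (he.isNilBlk_Cz_iff hab hle).2 h1
    rwa [Cz_top] at this
  refine ⟨h2, ?_, blockRank_eq_one_of_isNilpotentBlock hM h3, h3⟩
  rw [h2, relIndex_sup_of_norm (hTQ.trans (normalizer_le_normalizer_centralizer Q)),
    ← inf_relIndex_right, ← inf_relIndex_right (centralizer (P : Set G))]
  congr 1
  exact le_antisymm (le_inf (by rw [inf_comm]; exact h1) inf_le_right)
    (inf_le_inf_right _ (centralizer_anti hQP))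

end Cfsg.Agent.S4645
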