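import Cfsg.Statements.S4647
import Cfsg.Agent.Block.Rk
import Cfsg.Agent.Block.Nil
import Cfsg.Agent.Perm.Module

set_option autoImplicit false
open Cfsg

namespace Cfsg.Agent.S4647

open CF.Block CF Subgroup MonoidAlgebra Module

section
variable {k : Type*} [Field k] {G : Type*} [Group G] [Finite G] {p : ℕ} [Fact p.Prime] [CharP k p]

/-- Two-sided multiplication action. -/
@[reducible] def biAct (S : Subgroup G) : MulAction (S × S) G where
  smul x g := x.1 * g * (x.2 : G)⁻¹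
  one_smul g := by change ((1 : S) : G) * g * ((1 : S) : G)⁻¹ = g; simp
  mul_smul x y g := by
    change ((x.1 * y.1 : S) : G) * g * ((x.2 * y.2 : S) : G)⁻¹ =
      x.1 * (y.1 * g * (y.2 : G)⁻¹) * (x.2 : G)⁻¹
    simp [mul_assoc]

/-- Two-sided multiplication on the group algebra. -/
noncomputable def biRep (k : Type*) [Field k] (S : Subgroup G) : Representation k (S × S) k[G] where
  toFun x := LinearMap.mulLeftRight k (single (x.1 : G) 1, single (x.2 : G)⁻¹ 1)
  map_one' := by ext1 a; ext1; simp [← MonoidAlgebra.one_def]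
  map_mul' x y := by
    ext1 a; ext1
    simp [single_mul_single, mul_assoc]

omit [Finite G] [Fact p.Prime] [CharP k p] in
theorem coeff_biRep (S : Subgroup G) (x : S × S) (a : k[G]) (g : G) :
    (biRep k S x a).coeff g = a.coeff ((x.1 : G)⁻¹ * g * x.2) := by
  simp [biRep, mul_assoc]

def dc (S : Subgroup G) (y : G) : Set G := {z | ∃ s ∈ S, ∃ t ∈ S, s * y * t⁻¹ = z}

omit [Finite G] in
theorem mem_dc_iff {S : Subgroup G} {y z s t : G} (hs : s ∈ S) (ht : t ∈ S) :
    s * z * t ∈ dc S y ↔ z ∈ dc S y := by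
  constructor
  · rintro ⟨a, ha, b, hb, h⟩
    exact ⟨s⁻¹ * a, mul_mem (inv_mem hs) ha, t * b, mul_mem ht hb, by
      rw [mul_inv_rev, ← mul_assoc, mul_assoc s⁻¹, mul_assoc s⁻¹, h]; group⟩
  · rintro ⟨a, ha, b, hb, rfl⟩
    exact ⟨s * a, mul_mem hs ha, t⁻¹ * b, mul_mem (inv_mem ht) hb, by group⟩

theorem card_le_dc (S : Subgroup G) (y : G) :
    Nat.card S ^ 2 ≤ Nat.card (dc S y) * Nat.card (S ⊓ cjs y⁻¹ S : Subgroup G) := by
  let _ := biAct S
  have h := Nat.card_congr (MulAction.orbitProdStabilizerEquivGroup (S × S) y)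
  rw [Nat.card_prod, Nat.card_prod] at h
  have h1 : MulAction.orbit (S × S) y = dc S y := by
    ext z
    exact ⟨fun ⟨x, hx⟩ => ⟨_, x.1.2, _, x.2.2, hx⟩, fun ⟨s, hs, t, ht, h⟩ => ⟨(⟨s, hs⟩, ⟨t, ht⟩), h⟩⟩
  rw [sq, ← h, h1]
  refine Nat.mul_le_mul_left _ (Nat.card_le_card_of_injective
    (fun x => ⟨x.1.2, x.1.2.2, mem_cjs.2 ?_⟩) fun x x' hx => ?_)
  · have : (x.1.1 : G) * y * (x.1.2 : G)⁻¹ = y := x.2
    rw [inv_inv, mul_inv_eq_iff_eq_mul.1 this |>.symm, mul_inv_cancel_right]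
    exact x.1.1.2
  · have h1 : (x.1.1 : G) * y * (x.1.2 : G)⁻¹ = y := x.2
    have h2 : (x'.1.1 : G) * y * (x'.1.2 : G)⁻¹ = y := x'.2
    have h3 : (x.1.2 : G) = x'.1.2 :=
      congrArg (fun z : (S ⊓ cjs y⁻¹ S : Subgroup G) => (z : G)) hx
    rw [h3] at h1
    exact Subtype.ext (Prod.ext (Subtype.ext (by simpa using h1.trans h2.symm)) (Subtype.ext h3))

omit [Fact p.Prime] [CharP k p] in
theorem finrank_range_trunc (S : Set G) :
    finrank k (LinearMap.range (trunc (R := k) S)) = Nat.card S := by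
  classical
  have := Fintype.ofFinite G
  have h : LinearMap.range (trunc (R := k) S) =
      Submodule.span k (Set.range fun s : S => single (s : G) (1 : k)) := by
    refine le_antisymm ?_ (Submodule.span_le.2 ?_)
    · rintro _ ⟨a, rfl⟩
      rw [eq_sum_single (trunc S a)]
      refine sum_mem fun x _ => ?_
      by_cases hx : x ∈ S
      · rw [← mul_one ((trunc S a).coeff x), ← smul_eq_mul, ← smul_single]
        exact Submodule.smul_mem _ _ (Submodule.subset_span ⟨⟨x, hx⟩, rfl⟩)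
      · simp [coeff_trunc_of_notMem a hx]
    · rintro _ ⟨s, rfl⟩
      refine ⟨single (s : G) 1, trunc_eq_self fun x hx => ?_⟩
      simp [Finsupp.single_apply, show (s : G) ≠ x from fun h => hx (h ▸ s.2)]
  rw [h, finrank_span_eq_card, Nat.card_eq_fintype_card]
  convert (MonoidAlgebra.basis G k).linearIndependent.comp _ Subtype.val_injective using 1
  ext; simp

theorem isNilBlk_of_finrank [IsAlgClosed k] {B : k[G]} (hB : IsBlk ⊤ B) {P S : Subgroup G}
    (hP : IsDefGrp p ⊤ B P) (hS : IsPGroup p S) (hPS : P ≤ S)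
    (hdim : finrank k (LinearMap.range (LinearMap.mulRight k B)) * Nat.card P ≤ Nat.card S ^ 2) :
    IsNilBlk p ⊤ B := by
  classical
  have := Fintype.ofFinite G
  have hc : ∀ a, B * a = a * B := fun a => Zc_comm hB.mem (mem_sub_top a)
  set w := B * setSum k (S : Set G) with hw
  have hw0 : w ≠ 0 := mul_setSum_ne_zero hS (hB.mem_fix_of_le le_top) hB.idem hB.ne
  have hw1 : ∀ x, biRep k S x w = w := fun x => by
    have : biRep k S x (setSum k (S : Set G)) = setSum k (S : Set G) := ga_ext fun g => by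
      rw [coeff_biRep, coeff_setSum, coeff_setSum]
      simp [mul_mem_cancel_left, mul_mem_cancel_right]
    rw [hw, ← this]
    simp only [biRep, MonoidHom.coe_mk, OneHom.coe_mk, LinearMap.mulLeftRight_apply] at this ⊢
    rw [this, ← mul_assoc, ← hc, mul_assoc B, mul_assoc B, this]
  have hBr : ∀ {Q : Subgroup G} {a : k[G]} {x : G}, IsPGroup p Q →
      (∀ u ∈ Q, single (x * u * x⁻¹) 1 * a * single u⁻¹ 1 = a) →
      Br Q (single x⁻¹ 1 * a * B) = Br Q (single x⁻¹ 1 * a) * Br Q B := fun {Q a x} hQ h =>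
    Br_mul hQ (mem_fix.2 fun u hu => by
      conv_rhs => rw [← h u hu]
      simp [cj_eq, ← mul_assoc, single_mul_single]) (hB.mem_fix_of_le le_top)
  have hcard : ∀ y, w.coeff y ≠ 0 → Nat.card (S ⊓ cjs y⁻¹ S : Subgroup G) ≤ Nat.card P := by
    intro y hy
    refine hP.card_le hB (hS.to_le inf_le_left) le_top fun h => hy ?_
    have h1 := hBr (Q := S ⊓ cjs y⁻¹ S) (a := w) (x := y) (hS.to_le inf_le_left) fun u hu =>
      hw1 (⟨_, by simpa using mem_cjs.1 hu.2⟩, ⟨u, hu.1⟩)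
    rw [h, mul_zero, mul_assoc, hw, ← hc, ← mul_assoc B, hB.idem, ← hw] at h1
    simpa using Br_eq_zero_iff.1 h1 1 (one_mem _)
  have hinv : ∀ {a : k[G]}, (∀ x, biRep k S x a = a) → ∀ {y z}, z ∈ dc S y →
      a.coeff z = a.coeff y := by
    rintro a ha y _ ⟨s, hs, t, ht, rfl⟩
    rw [← ha (⟨s, hs⟩, ⟨t, ht⟩), coeff_biRep, ha]
    simp [mul_assoc]
  obtain ⟨y, hy, hy0⟩ : ∃ y, w.coeff y ≠ 0 ∧ setSum k (dc S y) * B ≠ 0 := by
    by_contra! h
    let r : Setoid G := ⟨fun a b => b ∈ dc S a, fun a => ⟨1, one_mem _, 1, one_mem _, by simp⟩,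
      by rintro a _ ⟨s, hs, t, ht, rfl⟩
         exact ⟨s⁻¹, inv_mem hs, t⁻¹, inv_mem ht, by group⟩,
      by rintro a b _ h ⟨s, hs, t, ht, rfl⟩
         exact (mem_dc_iff hs (inv_mem ht)).2 h⟩
    have h1 : w = ∑ q : Quotient r, w.coeff q.out • setSum k (dc S q.out) := ga_ext fun g => by
      rw [coeff_sum_apply, Finset.sum_eq_single (Quotient.mk r g)]
      · have := Quotient.mk_out (s := r) g
        rw [BlockB.coeff_smul_mul, coeff_setSum_of_mem this, mul_one, hinv hw1 this]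
      · intro q _ hq
        rw [BlockB.coeff_smul_mul, coeff_setSum_of_notMem, mul_zero]
        exact fun h => hq (by rw [← Quotient.out_eq q]; exact Quotient.sound h)
      · simp
    apply hw0
    rw [show w = w * B by rw [hw, ← hc, ← mul_assoc, hB.idem], h1, Finset.sum_mul]
    refine Finset.sum_eq_zero fun q _ => ?_
    by_cases h2 : w.coeff q.out = 0
    · rw [h2, zero_smul, zero_mul]
    · rw [smul_mul_assoc, h _ h2, smul_zero]
  set U := LinearMap.range (trunc (R := k) (dc S y)) with hU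
  have hUm : ∀ a, a ∈ U ↔ ∀ z ∉ dc S y, a.coeff z = 0 := fun a =>
    ⟨by rintro ⟨b, rfl⟩ z hz; exact coeff_trunc_of_notMem b hz, fun h => ⟨a, trunc_eq_self h⟩⟩
  have hUr : ∀ x, ∀ a ∈ U, biRep k S x a ∈ U := fun x a ha => (hUm _).2 fun z hz => by
    rw [coeff_biRep]
    exact (hUm a).1 ha _ fun h => hz ((mem_dc_iff (inv_mem x.1.2) x.2.2).1 h)
  have hrB : ∀ x a, biRep k S x (a * B) = biRep k S x a * B := fun x a => by
    simp only [biRep, MonoidHom.coe_mk, OneHom.coe_mk, LinearMap.mulLeftRight_apply, mul_assoc, hc]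
  have hinj : U ⊓ LinearMap.ker (LinearMap.mulRight k B) = ⊥ := by
    by_contra h
    have hSS : IsPGroup p (S × S) := by
      obtain ⟨n, hn⟩ := hS.exists_card_eq
      exact IsPGroup.of_card (n := n + n) (by rw [Nat.card_prod, hn, pow_add])
    obtain ⟨a, ha, ha0, ha1⟩ := Perm.exists_fixed_vector hSS (biRep k S)
      (U ⊓ LinearMap.ker (LinearMap.mulRight k B)) (fun x a ha => ⟨hUr x a ha.1, by
        have : a * B = 0 := ha.2
        change biRep k S x a * B = 0
        rw [← hrB, this, map_zero]⟩) h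
    have h1 : a = a.coeff y • setSum k (dc S y) := ga_ext fun g => by
      rw [BlockB.coeff_smul_mul]
      by_cases hg : g ∈ dc S y
      · rw [coeff_setSum_of_mem hg, mul_one, hinv ha1 hg]
      · rw [coeff_setSum_of_notMem hg, mul_zero, (hUm a).1 ha.1 g hg]
    have h2 : a * B = 0 := ha.2
    rw [h1, smul_mul_assoc, smul_eq_zero, or_iff_left hy0] at h2
    exact ha0 (by rw [h1, h2, zero_smul])
  have hsurj : U.map (LinearMap.mulRight k B) = LinearMap.range (LinearMap.mulRight k B) := by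
    refine Submodule.eq_of_le_of_finrank_le (LinearMap.map_le_range) ?_
    have h1 := ((LinearMap.mulRight k B).domRestrict U).finrank_range_add_finrank_ker
    rw [LinearMap.range_domRestrict, LinearMap.ker_domRestrict,
      ← Submodule.finrank_map_subtype_eq, Submodule.map_comap_subtype, hinj, finrank_bot, add_zero,
      finrank_range_trunc] at h1
    rw [h1]
    exact Nat.le_of_mul_le_mul_right (hdim.trans ((card_le_dc S y).trans
      (Nat.mul_le_mul_left _ (hcard y hy)))) Nat.card_pos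
  have key : ∀ (Q : Subgroup G) (x : G), Q ≤ S → Br Q B ≠ 0 → (∀ u ∈ Q, x * u * x⁻¹ ∈ S) →
      ∃ c ∈ centralizer (Q : Set G), x * c ∈ dc S y := by
    intro Q x hQ hQB hx
    obtain ⟨a, ha, ha1⟩ := hsurj.ge ⟨single x 1, rfl⟩
    change a * B = single x 1 * B at ha1
    have h1 := hBr (Q := Q) (a := a) (x := x) (hS.to_le hQ) fun u hu => by
      have h2 : biRep k S (⟨_, hx u hu⟩, ⟨u, hQ hu⟩) a - a ∈
          U ⊓ LinearMap.ker (LinearMap.mulRight k B) := by
        refine ⟨sub_mem (hUr _ a ha) ha, ?_⟩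
        change (_ - a) * B = 0
        rw [sub_mul, ← hrB, ha1, hrB]
        simp [biRep, single_mul_single]
      rw [hinj, Submodule.mem_bot, sub_eq_zero] at h2
      exact h2
    rw [mul_assoc, ha1, ← mul_assoc, single_mul_single, inv_mul_cancel, mul_one,
      ← MonoidAlgebra.one_def, one_mul] at h1
    obtain ⟨c, hc1, hc2⟩ := Br_ne_zero_iff.1 (left_ne_zero_of_mul (h1 ▸ hQB))
    refine ⟨c, hc1, by_contra fun h => hc2 ?_⟩
    simpa using (hUm a).1 ha _ h
  obtain ⟨c₀, hc₀, h₀⟩ := key P 1 hPS hP.br (fun u hu => by simpa using hPS hu)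
  rw [one_mul] at h₀
  have hPeq : P = S ⊓ cjs c₀⁻¹ S := eq_of_le_of_card_le
    (fun u hu => ⟨hPS hu, mem_cjs.2 (by
      rw [inv_inv, conj_eq_of_mem_centralizer hc₀ hu]; exact hPS hu)⟩)
    (hcard c₀ (by rwa [hinv hw1 h₀]))
  obtain ⟨e, he⟩ := hP.exists_maxPair hB
  rw [he.isNilBlk_iff_ple]
  intro Q f hle x hx hxp
  have hxQ : ∀ u ∈ Q, x * u * x⁻¹ ∈ S := fun u hu =>
    hPS (hle.le (conj_mem_of_mem_normalizer hx.1.1 hu))
  obtain ⟨c, hc1, s, hs, t, ht, h1⟩ := key Q x (hle.le.trans hPS)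
    (Br_ne_zero_of_le hle.le hP.br) hxQ
  obtain ⟨s', hs', t', ht', rfl⟩ := h₀
  obtain ⟨n, hn⟩ := hS ⟨s * s'⁻¹ * (t'⁻¹⁻¹ * t⁻¹),
    mul_mem (mul_mem hs (inv_mem hs')) (mul_mem (inv_mem (inv_mem ht')) (inv_mem ht))⟩
  refine mem_centralizer_of_agree Fact.out hx.1.1 hxp (congrArg Subtype.val hn) fun u hu => ?_
  have h2 : x * u * x⁻¹ = s * y * t⁻¹ * u * (s * y * t⁻¹)⁻¹ := by
    conv_lhs => rw [← conj_eq_of_mem_centralizer hc1 hu]
    rw [h1]; group
  have h3 : t' * t⁻¹ * u * (t' * t⁻¹)⁻¹ ∈ P := by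
    have h4 := mul_mem ht' (inv_mem ht)
    rw [hPeq]
    refine ⟨S.mul_mem (mul_mem h4 (hPS (hle.le hu))) (S.inv_mem h4), mem_cjs.2 ?_⟩
    have h5 := mul_mem hs' (inv_mem hs)
    convert mul_mem (mul_mem h5 (hxQ u hu)) (inv_mem h5) using 1
    rw [h2]; group
  have h4 := conj_eq_of_mem_centralizer hc₀ h3
  rw [h2]
  calc _ = s * s'⁻¹ * (s' * y * t'⁻¹ * (t' * t⁻¹ * u * (t' * t⁻¹)⁻¹) * (s' * y * t'⁻¹)⁻¹) *
      (s * s'⁻¹)⁻¹ := by group
    _ = _ := by rw [h4]; simp only [Subgroup.coe_mk]; group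

end

/-- Let B be a block of the finite group G relative to a maximal ideal M of the algebraic integers containing the prime p, p^a the p-part of the order of G and p^d the order of a defect group D of B. If Σ_{χ ∈ B} χ(1)² = p^(2a−d) (the least possible value), then B is nilpotent. -/
theorem result {G : Type*} [Group G] [Finite G] (p : ℕ) [Fact p.Prime] (M : Ideal Cfsg.AlgInt) (hM : Cfsg.IsPModular p M) (B : Set (Cfsg.IrrCharacter G)) (hB : Cfsg.IsPBlock M B) (D : Subgroup G) (hD : Cfsg.IsDefectGroup p M B D) (a d : ℕ) (ha : (Nat.card G).factorization p = a) (hd : Nat.card D = p ^ d) (hmin : ∑ᶠ χ ∈ B, Cfsg.charDegree (χ : G → ℂ) ^ 2 = p ^ (2 * a - d)) : Cfsg.IsNilpotentBlock p M B := by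
  have := BlockB.charP_k hM
  have hD' := (isDefectGroup_iff hM hB D).1 hD
  obtain ⟨S, hS, hDS⟩ := exists_isSyl_ge hD'.isP (le_top (a := D))
  rw [isNilpotentBlock_iff hM hB]
  refine isNilBlk_of_finrank (isBlk_eb hM hB) hD' hS.isP hDS ?_
  have h1 := hS.card_eq
  rw [card_top, ha] at h1
  have h2 := card_le_of_le hDS
  rw [h1, hd, Nat.pow_le_pow_iff_right hM.1.one_lt] at h2
  rw [finrank_eb hM hB, hmin, hd, h1, ← pow_add, ← pow_mul, Nat.sub_add_cancel (by omega), mul_comm]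

end Cfsg.Agent.S4647
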