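import Cfsg.Statements.S4650
import Cfsg.Agent.Block.Fus

set_option autoImplicit false
open Cfsg

namespace Cfsg.Agent.S4650

open CF.Block

/-- Let B be a block of the finite group G relative to a maximal ideal M of the algebraic integers containing the prime p, with a nontrivial commutative defect group P; let c be a block of C_G(P) inducing B and T the stabilizer of c in N_G(P). Then T/C_G(P) acts freely on the non-identity elements of P (an element of T fixing a non-identity element of P under conjugation lies in C_G(P)) if and only if, for every nontrivial subgroup Q of P, the block of C_G(Q) induced by c inside C_G(Q) is a nilpotent block of C_G(Q). -/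
theorem result {G : Type*} [Group G] [Finite G] (p : ℕ) [Fact p.Prime] (M : Ideal Cfsg.AlgInt) (hM : Cfsg.IsPModular p M) (B : Set (Cfsg.IrrCharacter G)) (hB : Cfsg.IsPBlock M B) (P : Subgroup G) (hPD : Cfsg.IsDefectGroup p M B P) (hPab : ∀ x ∈ P, ∀ y ∈ P, x * y = y * x) (hP1 : P ≠ ⊥) (c : Set (Cfsg.IrrCharacter (Subgroup.centralizer (P : Set G)))) (hc : Cfsg.IsInducedBlock M (Subgroup.centralizer (P : Set G)) c B) (T : Subgroup G) (hT : ∀ g : G, g ∈ T ↔ (g ∈ Subgroup.normalizer (P : Set G) ∧ Cfsg.StabilizesBlock (Subgroup.centralizer (P : Set G)) c g)) : (∀ g ∈ T, ∀ x ∈ P, x ≠ 1 → g * x * g⁻¹ = x → g ∈ Subgroup.centralizer (P : Set G)) ↔ ∀ Q : Subgroup G, Q ≤ P → Q ≠ ⊥ → ∀ f : Set (Cfsg.IrrCharacter (Subgroup.centralizer (Q : Set G))), Cfsg.IsInducedBlockIn M (Subgroup.centralizer (Q : Set G)) (Subgroup.centralizer (P : Set G)) c f → Cfsg.IsNilpotentBlock p M f := by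
  have := CF.BlockB.charP_k hM
  have hP := (isDefectGroup_iff hM hB P).1 hPD
  have hab : P ≤ Subgroup.centralizer (P : Set G) := fun x hx y hy => hPab y hy x hx
  have h := (((isBrauerPairOf_iff hM).1
    ((isInducedBlock_centralizer_iff hM hP.isP).1 hc)).2.2).maxPair hP
  have he := h.bpair.pair
  obtain rfl := eq_stab_of_stabilizes hM hc.1 hT
  have key : ∀ Q : Subgroup G, Q ≤ P →
      ((∀ f : Set (IrrCharacter (Subgroup.centralizer (Q : Set G))), IsInducedBlockIn M
        (Subgroup.centralizer (Q : Set G)) (Subgroup.centralizer (P : Set G)) c f →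
        IsNilpotentBlock p M f) ↔ stab (Nz ⊤ P) (ebs M _ c) ⊓ Subgroup.centralizer (Q : Set G) ≤
          Subgroup.centralizer (P : Set G)) := fun Q hQ => by
    have hPQ : P ≤ Cz ⊤ Q := le_inf (hab.trans (centralizer_anti hQ)) le_top
    have hC : Cz (Cz ⊤ Q) P = Cz ⊤ (P ⊔ Q) := Cz_Cz _ _ _
    have hC' := hC
    rw [sup_eq_left.2 hQ] at hC'
    obtain ⟨g, hg⟩ := he.exists_nle hQ (hPQ.trans ((Cz_le_Nz _ _).trans inf_le_left))
    have h1 : BPair p (Cz ⊤ Q) g P (ebs M _ c) :=
      NLE.bPair_unlift hg.left.blk hPQ hC (by rwa [sup_eq_left.2 hQ])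
    have h2 := h1.maxPair ⟨hPQ, hP.isP, h1.Br_ne_zero, fun R hR h3 h4 h5 => by
      refine (eq_of_le_of_card_le h3 (hP.card_le h.bpair.blk hR le_top ?_)).symm
      exact (h.bpair.of_ple hg.ple).induces.Br_ne_zero hR h4 h5⟩
    have h3 := h2.isNilBlk_iff_of_comm hab
    rw [Nz, stab_inf, Cz_top, ← Nz_top] at h3
    rw [← h3]
    have h4 := h1.induces
    rw [hC', Cz_top, Cz_top] at h4
    obtain ⟨g, hg', rfl⟩ := exists_ebs_eq hM h4.blk'
    have h5 := (isInducedBlockIn_iff hM h4.le hc.1 hg').2 h4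
    refine ⟨fun h6 => (isNilpotentBlock_iff_sub hM hg').1 (h6 g h5), fun h6 f hf => ?_⟩
    rwa [isNilpotentBlock_iff_sub hM hf.2.1,
      ((isInducedBlockIn_iff hM h4.le hc.1 hf.2.1).1 hf).unique h4]
  constructor
  · intro h1 Q hQ hQ1
    obtain ⟨⟨x, hx⟩, hx1⟩ := Subgroup.ne_bot_iff_exists_ne_one.1 hQ1
    exact (key Q hQ).2 fun g hg => h1 g hg.1 x (hQ hx) (by simpa using hx1) (by
      rw [← hg.2 x hx, mul_inv_cancel_right])
  · intro h1 g hg x hx hx1 h2
    have h3 := Subgroup.zpowers_le.2 hx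
    refine (key _ h3).1 (h1 _ h3 (by simpa using hx1)) ⟨hg, ?_⟩
    rw [centralizer_zpowers]
    exact Subgroup.mem_centralizer_singleton_iff.2 (mul_inv_eq_iff_eq_mul.1 h2)

end Cfsg.Agent.S4650
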