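import Cfsg.Statements.S4651
import Cfsg.Agent.Block.Chain

set_option autoImplicit false
open Cfsg

namespace Cfsg.Agent.S4651

open CF.Block CF Subgroup CF.BlockB

theorem indSet_eq {G : Type*} [Group G] [Finite G] {p : ℕ} {M : Ideal AlgInt} (hM : IsPModular p M)
    (H : Subgroup G) (b : Set (IrrCharacter G)) :
    {ψ : IrrCharacter H | ∃ β, ψ ∈ β ∧ IsInducedBlock M H β b} = indSet M H b :=
  Set.ext fun ξ => ⟨fun ⟨_, h5, h6⟩ => (block_eq_blockOf hM h6.1 h5 ▸ h6 :),
    fun h5 => ⟨_, mem_blockOf_self hM ξ, h5⟩⟩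

/-- An alternating-sum identity over chains of p-subgroups (the character-count form behind the chain reformulation of Alperin's weight conjecture, which holds unconditionally for the difference k − l). Let b be a block of the finite group G relative to a maximal ideal M of the algebraic integers containing the prime p. Consider the nonempty chains s = {Q_0 < Q_1 < ⋯ < Q_m} of nontrivial p-subgroups of G in which every member is normal in the largest member; let N_G(s) be the intersection of the normalizers of the members (the stabilizer of the chain), and let b_s be the set of irreducible characters of N_G(s) lying in blocks of N_G(s) that induce b. Then #G · (k(b) − l(b)) equals the sum over all such chains s of (−1)^m · #N_G(s) · (k(b_s) − l(b_s)), where k counts irreducible characters and l is the p-regular rank; equivalently, k(b) − l(b) is the alternating sum of k(b_s) − l(b_s) over representatives of the conjugacy classes of such chains. -/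
theorem result {G : Type*} [Group G] [Finite G] (p : ℕ) [Fact p.Prime] (M : Ideal Cfsg.AlgInt) (hM : Cfsg.IsPModular p M) (b : Set (Cfsg.IrrCharacter G)) (hb : Cfsg.IsPBlock M b) : (Nat.card G : ℤ) * ((Nat.card b : ℤ) - (Cfsg.blockRank p b : ℤ)) = ∑ᶠ s ∈ {s : Finset (Subgroup G) | s.Nonempty ∧ (∀ Q ∈ s, ∀ R ∈ s, Q ≤ R ∨ R ≤ Q) ∧ (∀ Q ∈ s, Q ≠ ⊥ ∧ IsPGroup p Q) ∧ ∃ T ∈ s, ∀ Q ∈ s, Q ≤ T ∧ T ≤ Subgroup.normalizer ((Q : Subgroup G) : Set G)}, (-1 : ℤ) ^ (s.card - 1) * (Nat.card (((⨅ Q ∈ s, Subgroup.normalizer ((Q : Subgroup G) : Set G) : Subgroup G))) : ℤ) * ((Nat.card {ψ : Cfsg.IrrCharacter (((⨅ Q ∈ s, Subgroup.normalizer ((Q : Subgroup G) : Set G) : Subgroup G))) | ∃ β : Set (Cfsg.IrrCharacter (((⨅ Q ∈ s, Subgroup.normalizer ((Q : Subgroup G) : Set G) : Subgroup G)))), ψ ∈ β ∧ Cfsg.IsInducedBlock M (((⨅ Q ∈ s, Subgroup.normalizer ((Q : Subgroup G) : Set G) : Subgroup G))) β b} : ℤ) - (Cfsg.blockRank p {ψ : Cfsg.IrrCharacter (((⨅ Q ∈ s, Subgroup.normalizer ((Q : Subgroup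 G) : Set G) : Subgroup G))) | ∃ β : Set (Cfsg.IrrCharacter (((⨅ Q ∈ s, Subgroup.normalizer ((Q : Subgroup G) : Set G) : Subgroup G)))), ψ ∈ β ∧ Cfsg.IsInducedBlock M (((⨅ Q ∈ s, Subgroup.normalizer ((Q : Subgroup G) : Set G) : Subgroup G))) β b} : ℤ)) := by
  classical
  have := Fintype.ofFinite G
  have := Fintype.ofFinite (Subgroup G)
  have hp := hM.1
  let w : G → Subgroup G → Subgroup G → ℂ := fun g K T =>
    Th K (idl M K (Br T (eb M b))) (pReg p g)
  have h1 : ∀ s, NChain p s → (Nat.card (chN s) : ℂ) * ((Nat.card (indSet M (chN s) b) : ℂ) -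
      blockRank p (indSet M (chN s) b)) = ∑ g with p ∣ orderOf g, if g ∈ chN s then
        w g (chN s ⊓ Cen (pPart p g)) (chT s (pPart p g)) else 0 := fun s hs => by
    rw [card_mul_sub_eq hM (nrm_eSet_indSet hM _ b), ← Finset.sum_filter]
    refine Finset.sum_bij (fun g _ => (g : G)) (fun g hg => by simpa using hg)
      (fun _ _ _ _ => Subtype.ext) (fun g hg => ?_) fun g _ => ?_
    · simp only [Finset.mem_filter, Finset.mem_univ, true_and] at hg
      exact ⟨⟨g, hg.2⟩, by simpa using hg.1, rfl⟩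
    · rw [thc_eq_Th hM (chN s).subtype_injective (nrm_eSet_indSet hM _ b), range_subtype,
        ← ebs, ebs_indSet hM hs.brSetup hb, ← Br_sup_of_mem_sub (Br_mem_sub _ _),
        Br_Br le_sup_right]
      rfl
  have h2 : (Nat.card G : ℂ) * ((Nat.card b : ℂ) - blockRank p b) = ∑ g with p ∣ orderOf g,
      w g (chN ∅ ⊓ Cen (pPart p g)) (chT ∅ (pPart p g)) := by
    rw [card_mul_sub_eq hM (nrm_eSet_le_one hM hb)]
    refine Finset.sum_congr rfl fun g _ => ?_
    rw [thc_eq_Th hM (f := MonoidHom.id G) Function.injective_id (nrm_eSet_le_one hM hb), gmap_id]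
    simp [w, chN, chT, (MonoidHom.range_eq_top (f := MonoidHom.id G)).2
      Function.surjective_id]
  simp only [indSet_eq hM]
  rw [finsum_mem_eq_finite_toFinset_sum _ (Set.toFinite _)]
  apply Int.cast_injective (α := ℂ)
  push_cast
  rw [h2, Finset.sum_congr (s₂ := (Finset.univ.filter (NChain p)).erase ∅) _
    (g := fun s => ∑ g with p ∣ orderOf g, -if g ∈ chN s then (-1) ^ s.card *
      w g (chN s ⊓ Cen (pPart p g)) (chT s (pPart p g)) else 0) fun s hs => ?_, Finset.sum_comm]
  · refine Finset.sum_congr rfl fun g hg => ?_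
    have h3 := sum_chain_eq_zero hp (pPart_pElement hp g)
      (mt (pPart_eq_one_iff hp).1 (not_not.2 (Finset.mem_filter.1 hg).2))
      (mem_Cen.2 (commute_pPart_self g)) (pPart_mem_zpowers g)
      ((Finset.univ.filter (NChain p)).filter (g ∈ chN ·)) (fun s => by simp) (w g)
    rw [Finset.sum_filter, ← Finset.add_sum_erase (a := ∅) _ _ (by
      simpa using ⟨by simp, by simp, by simp⟩), if_pos (by simp [chN])] at h3
    rw [Finset.sum_neg_distrib, ← add_eq_zero_iff_eq_neg]
    simpa using h3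
  · ext s
    simp only [Set.Finite.mem_toFinset, Set.mem_ofPred_eq, Finset.mem_erase, Finset.mem_filter,
      Finset.mem_univ, true_and, Finset.nonempty_iff_ne_empty]
    refine and_congr_right fun h3 => ⟨fun ⟨h4, h5, T, _, h6⟩ => ⟨h4, h5, fun Q hQ R hR =>
      (h6 R hR).1.trans (h6 Q hQ).2⟩, fun h4 => ⟨h4.tot, h4.pgrp, s.sup id, ?_, fun Q hQ =>
        ⟨Finset.le_sup (f := id) hQ, fun g hg => mem_chN.1 (h4.sup_le_chN hg) Q hQ⟩⟩⟩
    refine (h4.sup_induction (C := fun Q => Q = ⊥ ∨ Q ∈ s) (.inl rfl)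
      fun _ => .inr).resolve_left fun h5 => ?_
    obtain ⟨Q, hQ⟩ := Finset.nonempty_iff_ne_empty.2 h3
    exact (h4.pgrp Q hQ).1 (eq_bot_iff.2 (h5 ▸ Finset.le_sup (f := id) hQ))
  · obtain ⟨h3, h4⟩ := Finset.mem_erase.1 hs
    obtain ⟨n, hn⟩ := Nat.exists_eq_succ_of_ne_zero (Finset.card_ne_zero.2
      (Finset.nonempty_iff_ne_empty.2 h3))
    rw [mul_assoc]
    erw [h1 s (Finset.mem_filter.1 h4).2]
    rw [Finset.mul_sum, hn]
    refine Finset.sum_congr rfl fun g _ => ?_
    split_ifs <;> simp [pow_succ]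

end Cfsg.Agent.S4651
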