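import Cfsg.Statements.S4654
import Cfsg.Agent.Block.PairRed

set_option autoImplicit false
open Cfsg

namespace Cfsg.Agent.S4654

open CF.Block

/-- Fix a prime p and a maximal ideal M of the algebraic integers containing p. Let P be a normal p-subgroup of the finite group G, B a p-block of G and e a p-block of C_G(P) such that (P, e) is a Brauer pair of B (as P is normal, this says that e occurs in the idempotent of B, which is supported on C_G(P)). Let T be the stabilizer of e in G under conjugation. Then the idempotent of e is a block idempotent of T: some block E of T has, at every element of T, the same idempotent coefficient as e (zero off C_G(P)); and the idempotent of B is the sum of the distinct G-conjugates of the idempotent of e: its coefficient at g is the sum over all x in G of the coefficient of e at x⁻¹ g x, divided by the order of T. -/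
theorem result {G : Type*} [Group G] [Fintype G] (p : ℕ) [Fact p.Prime] (M : Ideal Cfsg.AlgInt) (hM : Cfsg.IsPModular p M) (P : Subgroup G) [P.Normal] (hP : IsPGroup p P) (B : Set (Cfsg.IrrCharacter G)) (e : Set (Cfsg.IrrCharacter (Subgroup.centralizer (P : Set G)))) (hBe : Cfsg.IsBrauerPairOf p M B P e) (T : Subgroup G) (hT : ∀ x : G, x ∈ T ↔ Cfsg.StabilizesBlock (Subgroup.centralizer (P : Set G)) e x) : (∃ E : Set (Cfsg.IrrCharacter T), Cfsg.IsPBlock M E ∧ ∀ t : T, Cfsg.blockCoeff E t = Cfsg.subgroupBlockCoeff (Subgroup.centralizer (P : Set G)) e (t : G)) ∧ ∀ g : G, Cfsg.blockCoeff B g = (Nat.card T : ℂ)⁻¹ * ∑ x : G, Cfsg.subgroupBlockCoeff (Subgroup.centralizer (P : Set G)) e (x⁻¹ * g * x) := by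
  classical
  have := CF.BlockB.charP_k hM
  obtain ⟨hB, he, h⟩ := (isBrauerPairOf_iff hM).1 hBe
  have hN : Subgroup.normalizer (P : Set G) = ⊤ := Subgroup.normalizer_eq_top _
  have hT1 : T = stab (Nz ⊤ P) (ebs M _ e) :=
    eq_stab_of_stabilizes hM he fun y => by rw [hT, hN]; simp
  have hT2 : T = stab ⊤ (ebs M _ e) := by rw [hT1, Nz_top, hN]
  have hCT : Subgroup.centralizer (P : Set G) ≤ T := by
    rw [hT1]; exact (Cz_top P).ge.trans h.pair.Cz_le_stab
  have hblk : IsBlk T (ebs M _ e) := by rw [hT1]; exact h.pair.isBlk_stab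
  obtain ⟨F, hF, -, hF2⟩ := exists_block_of_isBlk hM hCT he hblk
  refine ⟨⟨F, hF, hF2⟩, fun g => ?_⟩
  have hCn : (⊤ : Subgroup G) ≤ Subgroup.normalizer (Subgroup.centralizer (P : Set G) : Set G) :=
    hN.ge.trans (normalizer_le_normalizer_centralizer P)
  have hsub := (isBlk_eb hM hB).mem_sub_centralizer hP le_top hN.ge
  have horb : eb M B = orb ⊤ (ebs M _ e) := by
    refine (isBlk_eb hM hB).eq_orb (isBlk_ebs hM he) hCn le_top hsub ?_
    have h1 := h.eq
    rw [Br_of_mem_sub hsub] at h1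
    rw [h1]
    exact (isBlk_ebs hM he).ne
  have hfix : eS _ e ∈ fix ℂ T := by
    intro x hx
    rw [hT2] at hx
    exact (cj_eS_eq_iff hM he (hCn trivial)).2 hx.2
  have hn1 := nrm_eS_le_one hM he
  have hred : red M (tr T ⊤ (eS _ e)) = eb M B := by
    rw [red_tr hn1, red_eS, horb, orb, ← hT2]
  have hZ : ∀ x : G, cj x (eS _ e) ∈ Zc ℂ (Subgroup.centralizer (P : Set G)) := fun x => by
    have := cj_mem_Zc x (eS_mem_Zc _ e)
    rwa [cjs_eq_of_mem_normalizer (hCn trivial)] at this
  have hI : ∀ x : G, cj x (eS _ e) * cj x (eS _ e) = cj x (eS _ e) := fun x => by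
    rw [← map_mul, eS_idem]
  have horth : ∀ q q' : Cos T ⊤, q ≠ q' → cj (crp q) (eS _ e) * cj (crp q') (eS _ e) = 0 := by
    intro q q' hne
    have hc := Zc_comm (hZ (crp q)) (hZ (crp q')).1
    have hq : CF.BlockB.nrm M (cj (crp q) (eS _ e)) ≤ 1 := by rwa [nrm_cj]
    have hq' : CF.BlockB.nrm M (cj (crp q') (eS _ e)) ≤ 1 := by rwa [nrm_cj]
    rw [← red_eq_zero_iff_of_idem (M := M) _ (CF.BlockB.nrm_mul_le_one hq hq'), red_mul hq hq',
      red_cj, red_cj, red_eS]
    · refine (((isBlk_ebs hM he).cj_of_mem_normalizer (hCn (x := crp q) trivial)).eq_or_mul_eq_zero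
        ((isBlk_ebs hM he).cj_of_mem_normalizer (hCn (x := crp q') trivial))).resolve_left
        fun h1 => hne ?_
      rw [Cos.eq_iff]
      exact hT2.ge ⟨trivial, cj_eq_cj_iff.1 h1⟩
    · calc _ = cj (crp q) (eS _ e) * (cj (crp q') (eS _ e) * cj (crp q) (eS _ e)) *
          cj (crp q') (eS _ e) := by simp only [mul_assoc]
        _ = _ := by rw [← hc, ← mul_assoc, hI, mul_assoc, hI]
  have hidem : tr T ⊤ (eS _ e) * tr T ⊤ (eS _ e) = tr T ⊤ (eS _ e) := by
    rw [tr_apply, Finset.sum_mul_sum]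
    refine Finset.sum_congr rfl fun q _ => ?_
    rw [Finset.sum_eq_single q (fun q' _ h1 => horth q q' h1.symm) (by simp), hI]
  have heq : CF.BlockB.eSet B = tr T ⊤ (eS _ e) := by
    refine eq_of_red_eq_of_idem (M := M) (CF.BlockB.eSet_mul_self B) hidem
      (CF.BlockB.Z_comm (CF.BlockB.eSet_mem_Z B) _).symm (CF.BlockB.nrm_eSet_le_one hM hB)
      ((nrm_tr_le _).trans hn1) ?_
    rw [hred, red_eSet]
  have h2 := card_smul_tr (R := ℂ) (K := T) (H := ⊤) le_top hfix
  have h3 := congrArg (fun a : MonoidAlgebra ℂ G => a.coeff g) h2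
  have hT0 : (Nat.card T : ℂ) ≠ 0 := Nat.cast_ne_zero.2 Nat.card_pos.ne'
  simp only [← heq, coeff_sum_apply] at h3
  rw [eq_inv_mul_iff_mul_eq₀ hT0]
  have h4 : (Nat.card T • CF.BlockB.eSet B).coeff g = Nat.card T * Cfsg.blockCoeff B g := by
    rw [← Nat.cast_smul_eq_nsmul ℂ, CF.BlockB.coeff_smul_mul]
    simp [CF.BlockB.eSet]
  rw [← h4, h3]
  refine Fintype.sum_equiv Subgroup.topEquiv.toEquiv _ _ fun x => ?_
  rw [coeff_cj, coeff_eS]
  rfl

end Cfsg.Agent.S4654
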