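import Cfsg.Statements.S4661
import Cfsg.Agent.Block.PairRed

set_option autoImplicit false
open Cfsg

namespace Cfsg.Agent.S4661

open CF.Block

/-- Fix a prime p and a maximal ideal M of the algebraic integers containing p. Let (P, e) be a maximal Brauer pair of the p-block B of the finite group G, Q ≤ P, and f the p-block of C_G(Q) with (Q, f) ≤ (P, e). Then C_P(Q) is contained in a defect group of f (as a block of the group C_G(Q)); and for some x in G the conjugate pair (x Q x⁻¹, conjugate of f) again lies below (P, e) and C_P(x Q x⁻¹) is a defect group of the conjugate of f in C_G(x Q x⁻¹). -/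
theorem result {G : Type*} [Group G] [Fintype G] (p : ℕ) [Fact p.Prime] (M : Ideal Cfsg.AlgInt) (hM : Cfsg.IsPModular p M) (B : Set (Cfsg.IrrCharacter G)) (P Q : Subgroup G) (e : Set (Cfsg.IrrCharacter (Subgroup.centralizer (P : Set G)))) (f : Set (Cfsg.IrrCharacter (Subgroup.centralizer (Q : Set G)))) (hmax : Cfsg.IsMaximalBrauerPair p M B P e) (hQP : Q ≤ P) (hf : Cfsg.IsPBlock M f) (hle : Cfsg.SubpairLE p M Q f P e) : (∃ D : Subgroup (Subgroup.centralizer (Q : Set G)), Cfsg.IsDefectGroup p M f D ∧ (P ⊓ Subgroup.centralizer (Q : Set G)).subgroupOf (Subgroup.centralizer (Q : Set G)) ≤ D) ∧ ∃ x : G, Cfsg.SubpairLE p M (Q.map (MulAut.conj x).toMonoidHom) (Cfsg.conjBlock Q x f) P e ∧ Cfsg.IsDefectGroup p M (Cfsg.conjBlock Q x f) ((P ⊓ Subgroup.centralizer ((Q.map (MulAut.conj x).toMonoidHom) : Set G)).subgroupOf (Subgroup.centralizer ((Q.map (MulAut.conj x).toMonoidHom) : Set G))) := by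
  have := CF.BlockB.charP_k hM
  obtain ⟨hB, he, h⟩ := (isMaximalBrauerPair_iff hM).1 hmax
  have hle' := SubpairLE.ple hM hle
  have hfp := h.bpair.of_ple hle'
  have hP := h.bpair.pair.isP
  have hBr : Br (P ⊓ Subgroup.centralizer (Q : Set G)) (ebs M _ f) ≠ 0 :=
    Br_ne_zero_of_le (inf_le_inf_left _ (centralizer_le_normalizer' Q))
      (hle'.Br_ne_zero h.bpair.pair)
  obtain ⟨D, hD, hle2⟩ := exists_isDefGrp_ge (H := Subgroup.centralizer (Q : Set G))
    (hP.to_inf_left) inf_le_right hBr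
  refine ⟨⟨D.subgroupOf _, (isDefectGroup_iff_subgroupOf hM hf hD.le).2 hD,
    Subgroup.subgroupOf_mono _ hle2⟩, ?_⟩
  obtain ⟨x, -, h1, -, h3⟩ := h.exists_cj_isDefGrp hfp (T := Subgroup.centralizer (Q : Set G))
    ((Cz_top Q).ge.trans hfp.pair.Cz_le_stab) hD
  refine ⟨x, (subpairLE_conj_iff hM hf he x).2 h1, ?_⟩
  rw [isDefectGroup_iff_subgroupOf hM (isPBlock_conjBlock hM x hf) inf_le_right, ebs_conjBlock,
    centralizer_cjs]
  exact h3

end Cfsg.Agent.S4661
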