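import Cfsg.Statements.S4662
import Cfsg.Agent.Block.PairRed

set_option autoImplicit false
open Cfsg

namespace Cfsg.Agent.S4662

open CF.Block

/-- Fix a prime p and a maximal ideal M of the algebraic integers containing p. Let (P, e) be a maximal Brauer pair of the p-block B of the finite group G, Q ≤ P, and f the p-block of C_G(Q) with (Q, f) ≤ (P, e). Let T be the stabilizer of f in N_G(Q). Then the idempotent of f is a block idempotent of T, and N_P(Q) is contained in a defect group of that block of T; moreover for some x in G the conjugate pair (x Q x⁻¹, conjugate of f) again lies below (P, e) and, with T' the stabilizer of the conjugate of f in N_G(x Q x⁻¹), N_P(x Q x⁻¹) is a defect group of the block of T' whose idempotent is that of the conjugate of f. -/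
theorem result {G : Type*} [Group G] [Fintype G] (p : ℕ) [Fact p.Prime] (M : Ideal Cfsg.AlgInt) (hM : Cfsg.IsPModular p M) (B : Set (Cfsg.IrrCharacter G)) (P Q : Subgroup G) (e : Set (Cfsg.IrrCharacter (Subgroup.centralizer (P : Set G)))) (f : Set (Cfsg.IrrCharacter (Subgroup.centralizer (Q : Set G)))) (hmax : Cfsg.IsMaximalBrauerPair p M B P e) (hQP : Q ≤ P) (hf : Cfsg.IsPBlock M f) (hle : Cfsg.SubpairLE p M Q f P e) (T : Subgroup G) (hT : ∀ y : G, y ∈ T ↔ y ∈ Subgroup.normalizer (Q : Set G) ∧ Cfsg.StabilizesBlock (Subgroup.centralizer (Q : Set G)) f y) : (∃ F : Set (Cfsg.IrrCharacter T), Cfsg.IsPBlock M F ∧ (∀ t : T, Cfsg.blockCoeff F t = Cfsg.subgroupBlockCoeff (Subgroup.centralizer (Q : Set G)) f (t : G)) ∧ ∃ D : Subgroup T, Cfsg.IsDefectGroup p M F D ∧ (P ⊓ Subgroup.normalizer (Q : Set G)).subgroupOf T ≤ D) ∧ ∃ x : G, Cfsg.SubpairLE p M (Q.map (MulAut.conj x).toMonoidHom) (Cfsg.conjBlock Q x f) P e ∧ ∀ (T' : Subgroup G), (∀ y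 : G, y ∈ T' ↔ y ∈ Subgroup.normalizer ((Q.map (MulAut.conj x).toMonoidHom) : Set G) ∧ Cfsg.StabilizesBlock (Subgroup.centralizer ((Q.map (MulAut.conj x).toMonoidHom) : Set G)) (Cfsg.conjBlock Q x f) y) → ∃ F' : Set (Cfsg.IrrCharacter T'), Cfsg.IsPBlock M F' ∧ (∀ t : T', Cfsg.blockCoeff F' t = Cfsg.subgroupBlockCoeff (Subgroup.centralizer ((Q.map (MulAut.conj x).toMonoidHom) : Set G)) (Cfsg.conjBlock Q x f) (t : G)) ∧ Cfsg.IsDefectGroup p M F' ((P ⊓ Subgroup.normalizer ((Q.map (MulAut.conj x).toMonoidHom) : Set G)).subgroupOf T') := by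
  have := CF.BlockB.charP_k hM
  obtain ⟨hB, he, h⟩ := (isMaximalBrauerPair_iff hM).1 hmax
  have hle' := SubpairLE.ple hM hle
  have hfp := h.bpair.of_ple hle'
  have hP := h.bpair.pair.isP
  obtain rfl := eq_stab_of_stabilizes hM hf hT
  have hblk := hfp.pair.isBlk_stab
  obtain ⟨D, hD, hle2⟩ := exists_isDefGrp_ge (H := stab (Nz ⊤ Q) (ebs M _ f))
    (hP.to_inf_left) (hle'.inf_normalizer_le_stab h.bpair.pair) (hle'.Br_ne_zero h.bpair.pair)
  obtain ⟨F, hF, hF1, hF2⟩ := exists_block_of_isBlk hM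
    ((Cz_top Q).ge.trans hfp.pair.Cz_le_stab) hf hblk
  refine ⟨⟨F, hF, hF2, D.subgroupOf _, (isDefectGroup_iff_subgroupOf hM hF hD.le).2
    (by rw [hF1]; exact hD), Subgroup.subgroupOf_mono _ hle2⟩, ?_⟩
  obtain ⟨x, -, h1, -, h3⟩ := h.exists_cj_isDefGrp hfp le_rfl hD
  refine ⟨x, (subpairLE_conj_iff hM hf he x).2 h1, fun T' hT' => ?_⟩
  have hf' := isPBlock_conjBlock hM x hf
  obtain rfl := eq_stab_of_stabilizes hM hf' hT'
  have hp' : IsPair p ⊤ (cjs x Q) (ebs M _ (Cfsg.conjBlock Q x f)) :=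
    isPair_ebs hM (isPGroup_cjs x hfp.pair.isP) hf'
  obtain ⟨F', hF', hF1', hF2'⟩ := exists_block_of_isBlk hM
    ((Cz_top (cjs x Q)).ge.trans hp'.Cz_le_stab) hf' hp'.isBlk_stab
  refine ⟨F', hF', hF2', ?_⟩
  rw [← ebs_conjBlock] at h1
  have hle3 := h1.inf_normalizer_le_stab h.bpair.pair
  rw [isDefectGroup_iff_subgroupOf hM hF' hle3, hF1']
  rw [cjs_stab, cjs_Nz, cjs_top, ← ebs_conjBlock] at h3
  have : P ⊓ Subgroup.normalizer (cjs x Q : Set G) =
      P ⊓ stab (Nz ⊤ (cjs x Q)) (ebs M _ (Cfsg.conjBlock Q x f)) :=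
    le_antisymm (le_inf inf_le_left hle3)
      (inf_le_inf_left _ ((stab_le _ _).trans inf_le_left))
  rw [this]
  exact h3

end Cfsg.Agent.S4662
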