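import Cfsg.Statements.S4664
import Cfsg.Agent.Block.Misc

set_option autoImplicit false
open Cfsg

namespace Cfsg.Agent.S4664

open CF.Block

/-- Fix a prime p and a maximal ideal M of the algebraic integers containing p, and let B be a p-block of the finite group G. Let m be the p'-part of the order of G and η = exp(2πi/m). Then every coefficient of the idempotent of B lies in the cyclotomic field ℚ(η). -/
theorem result {G : Type*} [Group G] [Fintype G] (p : ℕ) [Fact p.Prime] (M : Ideal Cfsg.AlgInt) (hM : Cfsg.IsPModular p M) (B : Set (Cfsg.IrrCharacter G)) (hB : Cfsg.IsPBlock M B) (g : G) : Cfsg.blockCoeff B g ∈ IntermediateField.adjoin ℚ ({Complex.exp (2 * Real.pi * Complex.I / ((Nat.card G / p ^ (Nat.card G).factorization p : ℕ) : ℂ))} : Set ℂ) := by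
  classical
  by_cases hg : p ∣ orderOf g
  · rw [CF.BlockB.blockCoeff_eq_zero hM hB hg]
    exact zero_mem _
  set m := Nat.card G / p ^ (Nat.card G).factorization p with hm
  have hm0 : m ≠ 0 := (Nat.ordCompl_pos p Nat.card_pos.ne').ne'
  have hdvd : orderOf g ∣ m := by
    have h1 : orderOf g ∣ p ^ (Nat.card G).factorization p * m := by
      rw [hm, Nat.ordProj_mul_ordCompl_eq_self]
      exact orderOf_dvd_natCard g
    exact (Nat.Coprime.pow_right _
      ((Nat.Prime.coprime_iff_not_dvd hM.1).2 hg).symm).dvd_of_dvd_mul_left h1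
  have hη := Complex.isPrimitiveRoot_exp m hm0
  set K := IntermediateField.adjoin ℚ ({Complex.exp (2 * Real.pi * Complex.I / (m : ℂ))} : Set ℂ)
  have hroot : ∀ z : ℂ, z ^ orderOf g = 1 → z ∈ K := by
    intro z hz
    have : NeZero m := ⟨hm0⟩
    obtain ⟨c, hc⟩ := hdvd
    obtain ⟨i, -, rfl⟩ := hη.eq_pow_of_pow_eq_one (ξ := z) (by rw [hc, pow_mul, hz, one_pow])
    exact pow_mem (IntermediateField.mem_adjoin_simple_self ℚ _) _
  rw [CF.BlockB.blockCoeff_eq]
  refine mul_mem (inv_mem (natCast_mem _ _)) (sum_mem fun χ _ => ?_)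
  obtain ⟨n, ω, h1, h2, h3⟩ := CF.Char.char_exists_roots (CF.Char.irr_isCharacter χ.2) g
  rw [← CF.Char.char_inv (CF.Char.irr_isCharacter χ.2), h1, ← zpow_neg_one, h3]
  exact mul_mem (natCast_mem _ _) (sum_mem fun i _ => zpow_mem (hroot _ (h2 i)) _)

end Cfsg.Agent.S4664
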