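import Cfsg.Statements.S4665
import Cfsg.Agent.BlockB.Height
-- import your own Cfsg.Agent.* helpers here

set_option autoImplicit false
open Cfsg

namespace Cfsg.Agent.S4665

/-- Fix a prime p, a maximal ideal M of the algebraic integers containing p, and a p-block B of the finite group G, and let p^a be the p-part of the order of G. Let χ be an integer combination of the irreducible characters in B. If the function that agrees with χ on p-regular elements and vanishes on p-singular elements is again an integer combination of the irreducible characters in B, then p^a divides χ(1). -/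
theorem result {G : Type*} [Group G] [Fintype G] (p : ℕ) [Fact p.Prime] (M : Ideal Cfsg.AlgInt) (hM : Cfsg.IsPModular p M) (B : Set (Cfsg.IrrCharacter G)) (hB : Cfsg.IsPBlock M B) (χ : G → ℂ) (hχ : (∃ n : Cfsg.IrrCharacter G → ℤ, ∀ g : G, χ g = ∑ᶠ ψ ∈ B, (n ψ : ℂ) * (ψ : G → ℂ) g)) (h0 : (∃ n : Cfsg.IrrCharacter G → ℤ, ∀ g : G, Cfsg.pRegularPart p χ g = ∑ᶠ ψ ∈ B, (n ψ : ℂ) * (ψ : G → ℂ) g)) : ∃ k : ℤ, χ 1 = (p ^ (Nat.card G).factorization p : ℂ) * k := by
  classical
  have key : ∀ θ : G → ℂ, (∃ n : Cfsg.IrrCharacter G → ℤ, ∀ g : G,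
      θ g = ∑ᶠ ψ ∈ B, (n ψ : ℂ) * (ψ : G → ℂ) g) → Cfsg.IsGeneralizedCharacter G θ := by
    rintro θ ⟨n, hn⟩
    refine CF.Char.isGen_iff_exists_int.2 ⟨fun ψ => if ψ ∈ B then n ψ else 0, ?_⟩
    ext g
    rw [hn, CF.BlockB.finsum_mem_irr_ite, Finset.sum_apply]
    refine Finset.sum_congr rfl fun ψ _ => ?_
    by_cases h : ψ ∈ B <;> simp [h]
  have h1 := key _ h0
  have h2 := CF.BlockB.v_div_card_centralizer_le hM (CF.Char.gen_isClassFunction h1)
    (fun g hg => CF.BlockB.reg_of_dvd _ hg) (c := 1) (fun ξ => by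
      obtain ⟨n, hn⟩ := CF.Char.inner_gen_eq_int h1 (CF.Char.gen_of_irr ξ.2)
      rw [hn]; exact CF.BlockB.v_intCast_le_one M n) 1
  obtain ⟨n, hn⟩ := CF.Char.gen_one_eq_int (key _ hχ)
  rw [CF.BlockB.card_centralizer_one, CF.BlockB.reg_one hM.1, map_div₀, CF.BlockB.v_card hM,
    div_le_one₀ (CF.BlockB.vp_pow_pos hM _), hn, CF.BlockB.v_intCast_le_pow_iff hM] at h2
  obtain ⟨k, rfl⟩ := h2
  exact ⟨k, by rw [hn]; push_cast; rfl⟩

end Cfsg.Agent.S4665
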