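import Cfsg.Statements.S4668
import Cfsg.Agent.Block.Extra
import Cfsg.Agent.Coprime.PGroup

set_option autoImplicit false
open Cfsg

namespace Cfsg.Agent.S4668

open CF.Block

/-- Fix a prime p and a maximal ideal M of the algebraic integers containing p. Let Q₀ < Q₁ < ⋯ < Q_m be a strictly increasing chain of p-subgroups of the finite group G and N the intersection of their normalizers. Then every block idempotent of N is supported on C_G(Q_m): for every p-block E of N, the idempotent coefficient of E vanishes at every element of N outside C_G(Q_m). -/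
theorem result {G : Type*} [Group G] [Fintype G] (p : ℕ) [Fact p.Prime] (M : Ideal Cfsg.AlgInt) (hM : Cfsg.IsPModular p M) (m : ℕ) (Q : Fin (m + 1) → Subgroup G) (hQ : StrictMono Q) (hQp : ∀ i, IsPGroup p (Q i)) (N : Subgroup G) (hN : ∀ g : G, g ∈ N ↔ ∀ i, g ∈ Subgroup.normalizer (Q i : Set G)) (E : Set (Cfsg.IrrCharacter N)) (hE : Cfsg.IsPBlock M E) (n : N) (hn : (n : G) ∉ Subgroup.centralizer (Q (Fin.last m) : Set G)) : Cfsg.blockCoeff E n = 0 := by
  have := CF.BlockB.charP_k hM
  by_contra h0
  set R := N ⊓ Q (Fin.last m) with hR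
  have hRp : IsPGroup p R := (hQp _).to_inf_right
  have hE' := isBlk_ebs hM hE
  have hNR : N ≤ Subgroup.normalizer (R : Set G) := le_trans
    (le_inf Subgroup.le_normalizer fun g hg => (hN g).1 hg _) (normalizer_inf_le_normalizer_inf _ _)
  have h1 : eS N E ∈ sub ℂ (Cz N R) := mem_sub_of_red_mem_sub hM (eS_idem N E)
    (nrm_eS_le_one hM hE) (fix_anti inf_le_right (eS_mem_Zc N E).2)
    (by rw [red_eS]; exact hE'.mem_sub_Cz hRp inf_le_left (le_inf hNR le_rfl))
  have h2 : (n : G) ∈ Subgroup.centralizer (R : Set G) :=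
    (mem_of_coeff_ne_zero h1 (by rwa [coeff_eS_coe])).1
  have h3 : ¬ p ∣ orderOf (n : G) := by
    rw [Subgroup.orderOf_coe]; exact CF.BlockB.not_dvd_orderOf_of_blockCoeff_ne_zero hM hE h0
  have h4 : ∀ {S : Subgroup G}, S ≤ R → S ≤ Subgroup.centralizer (Subgroup.zpowers (n : G) : Set G) :=
    fun h => by
      rw [centralizer_zpowers, le_centralizer_singleton_iff]; exact centralizer_anti h h2
  have key : ∀ i, (n : G) ∈ Subgroup.centralizer (Q i : Set G) := by
    intro i
    induction i using Fin.induction with
    | zero =>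
      refine centralizer_anti (le_inf (fun g hg => (hN g).2 fun i => ?_)
        (hQ.monotone (Fin.zero_le _))) h2
      exact Subgroup.le_normalizer (hQ.monotone (Fin.zero_le i) hg)
    | succ i ih =>
      have h5 := hQ.monotone (Fin.castSucc_le_succ i)
      refine Subgroup.zpowers_le.1 (CF.Coprime.le_centralizer_of_pxq (Q i.castSucc) _ (Q i.succ)
        (hQp _) ?_ (hQp _) ?_ (h5.trans Subgroup.le_normalizer)
        (Subgroup.zpowers_le.2 ((hN n).1 n.2 _)) (h4 (le_inf (fun g hg => (hN g).2 fun j => ?_)
          (inf_le_left.trans (hQ.monotone (Fin.le_last _))))))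
      · rw [Nat.card_zpowers, Nat.coprime_comm, hM.1.coprime_iff_not_dvd]; exact h3
      · rw [centralizer_zpowers, le_centralizer_singleton_iff]; exact ih
      · rcases le_or_gt j i.castSucc with h | h
        · exact centralizer_le_normalizer' _ (centralizer_anti (hQ.monotone h) hg.2)
        · exact Subgroup.le_normalizer (hQ.monotone (Fin.castSucc_lt_iff_succ_le.1 h) hg.1)
  exact hn (key _)

end Cfsg.Agent.S4668
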