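import Cfsg.Statements.S4670
import Cfsg.Agent.Block.Extra

set_option autoImplicit false
open Cfsg

namespace Cfsg.Agent.S4670

open CF.Block

/-- Fix a prime p and a maximal ideal M of the algebraic integers containing p. Let P be a p-subgroup of the finite group G and H a subgroup containing N_G(P). For every p-block B of G with defect group P there is exactly one p-block c of H with defect group P whose idempotent agrees with that of B, modulo the local ideal at M, at every element of C_G(P) (their Brauer-map images at P coincide); and every p-block c of H with defect group P arises in this way from exactly one such B. This is the Brauer correspondence over H. -/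
theorem result {G : Type*} [Group G] [Fintype G] (p : ℕ) [Fact p.Prime] (M : Ideal Cfsg.AlgInt) (hM : Cfsg.IsPModular p M) (P H : Subgroup G) (hP : IsPGroup p P) (hH : Subgroup.normalizer (P : Set G) ≤ H) : (∀ B : Set (Cfsg.IrrCharacter G), Cfsg.IsPBlock M B → Cfsg.IsDefectGroup p M B P → ∃! c : Set (Cfsg.IrrCharacter H), Cfsg.IsPBlock M c ∧ Cfsg.IsDefectGroup p M c (P.subgroupOf H) ∧ ∀ x : G, x ∈ Subgroup.centralizer (P : Set G) → Cfsg.MemLocalIdeal M (Cfsg.blockCoeff B x - Cfsg.subgroupBlockCoeff H c x)) ∧ (∀ c : Set (Cfsg.IrrCharacter H), Cfsg.IsPBlock M c → Cfsg.IsDefectGroup p M c (P.subgroupOf H) → ∃! B : Set (Cfsg.IrrCharacter G), Cfsg.IsPBlock M B ∧ Cfsg.IsDefectGroup p M B P ∧ ∀ x : G, x ∈ Subgroup.centralizer (P : Set G) → Cfsg.MemLocalIdeal M (Cfsg.blockCoeff B x - Cfsg.subgroupBlockCoeff H c x)) := by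
  have := CF.BlockB.charP_k hM
  have hPH : P ≤ H := Subgroup.le_normalizer.trans hH
  have h0 : Subgroup.normalizer (P : Set G) ⊓ H = Subgroup.normalizer (P : Set G) ⊓ ⊤ := by
    rw [inf_eq_left.2 hH, inf_top_eq]
  refine ⟨fun B hB hD => ?_, fun c hc hD => ?_⟩
  · obtain ⟨h1, h2⟩ := ((isDefectGroup_iff hM hB P).1 hD).first_main (isBlk_eb hM hB)
    obtain ⟨c, h3, h4, h5⟩ := exists_global_of_defGrp (h0 ▸ h1.blk) (h0 ▸ h2)
    obtain ⟨c, hc, rfl⟩ := exists_ebs_eq hM h3.blk'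
    refine ⟨c, ⟨hc, (isDefectGroup_iff_subgroupOf hM hc hPH).2 h4,
      (Br_eb_eq_iff hM hB hc P).2 h5.symm⟩, fun c' h' => ebs_inj hM h'.1 hc ?_⟩
    refine IsDefGrp.eq_of_Br_mul_ne_zero hP hPH (isBlk_ebs hM h'.1) h3.blk' ?_
    rw [← (Br_eb_eq_iff hM hB h'.1 P).1 h'.2.2, h5, h1.blk.idem]
    exact h1.blk.ne
  · obtain ⟨h1, h2⟩ := ((isDefectGroup_iff_subgroupOf hM hc hPH).1 hD).first_main
      (isBlk_ebs hM hc)
    obtain ⟨B, h3, h4, h5⟩ := exists_global_of_defGrp (h0 ▸ h1.blk) (h0 ▸ h2)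
    obtain ⟨B, hB, rfl⟩ := exists_eb_eq hM h3.blk'
    refine ⟨B, ⟨hB, (isDefectGroup_iff hM hB P).2 h4, (Br_eb_eq_iff hM hB hc P).2 h5⟩,
      fun B' h' => eb_inj hM h'.1 hB ?_⟩
    refine IsDefGrp.eq_of_Br_mul_ne_zero hP le_top (isBlk_eb hM h'.1) h3.blk' ?_
    rw [(Br_eb_eq_iff hM h'.1 hc P).1 h'.2.2, h5, h1.blk.idem]
    exact h1.blk.ne

end Cfsg.Agent.S4670
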