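import Cfsg.Statements.S4672
import Cfsg.Agent.Block.CoverRed

set_option autoImplicit false
open Cfsg

namespace Cfsg.Agent.S4672

open CF.Block

/-- Fix a prime p and a maximal ideal M of the algebraic integers containing p. Let N be a normal subgroup of the finite group G of p-power index and c a p-block of N stable under conjugation by G. Then the idempotent of c is a block idempotent of G: there is a p-block B of G whose idempotent coefficients agree with those of c on N and vanish off N; and for every defect group P of such a block B, G = NP and P ∩ N is a defect group of c. -/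
theorem result {G : Type*} [Group G] [Fintype G] (p : ℕ) [Fact p.Prime] (M : Ideal Cfsg.AlgInt) (hM : Cfsg.IsPModular p M) (N : Subgroup G) [N.Normal] (hN : ∃ k : ℕ, N.index = p ^ k) (c : Set (Cfsg.IrrCharacter N)) (hc : Cfsg.IsPBlock M c) (hst : ∀ x : G, Cfsg.StabilizesBlock N c x) : (∃ B : Set (Cfsg.IrrCharacter G), Cfsg.IsPBlock M B ∧ ∀ g : G, Cfsg.blockCoeff B g = Cfsg.subgroupBlockCoeff N c g) ∧ ∀ B : Set (Cfsg.IrrCharacter G), Cfsg.IsPBlock M B → (∀ g : G, Cfsg.blockCoeff B g = Cfsg.subgroupBlockCoeff N c g) → ∀ P : Subgroup G, Cfsg.IsDefectGroup p M B P → N ⊔ P = ⊤ ∧ Cfsg.IsDefectGroup p M c ((P ⊓ N).subgroupOf N) := by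
  have := CF.BlockB.charP_k hM
  have hc' := isBlk_ebs hM hc
  have hfix := (mem_fix_iff_stabilizes (P := ⊤) hM hc (le_normalizer_of_normal' _ _)).2
    fun x _ => hst x
  have htop : IsBlk ⊤ (ebs M N c) :=
    (regSupp hM).isBlk_of_stable (mem_of_index_eq_pow hN) hc' le_top hfix
  refine ⟨?_, fun B hB h P hP => ?_⟩
  · obtain ⟨B, hB, h⟩ := exists_eb_eq hM htop
    exact ⟨B, hB, (eb_eq_iff_coeff hM hc hB).1 h⟩
  · have hP' := (isDefectGroup_iff hM hB P).1 hP
    rw [(eb_eq_iff_coeff hM hc hB).2 h] at hP'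
    obtain ⟨n, hn⟩ := hN
    refine ⟨?_, (isDefectGroup_iff_subgroupOf hM hc inf_le_right).2
      (hP'.inf_of_isBlk htop hc' (le_normalizer_of_normal' _ _) le_top)⟩
    rw [sup_comm]
    exact eq_of_not_dvd_relIndex le_sup_right le_top (by rwa [Subgroup.relIndex_top_right])
      (hP'.fong htop hc' (le_normalizer_of_normal' _ _) le_top)

end Cfsg.Agent.S4672
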