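import Cfsg.Statements.S4673
import Cfsg.Agent.Block.Extra

set_option autoImplicit false
open Cfsg

namespace Cfsg.Agent.S4673

open CF.Block

/-- Fix a prime p and a maximal ideal M of the algebraic integers containing p. Let N ≤ L be normal subgroups of the finite group G with L/N a p-group, let B be a p-block of G covering the p-block c of N (some member of B has a constituent in c on restriction to N), and suppose that N contains a defect group of B. Then the stabilizer T of c in G satisfies T ∩ L = N. -/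
theorem result {G : Type*} [Group G] [Fintype G] (p : ℕ) [Fact p.Prime] (M : Ideal Cfsg.AlgInt) (hM : Cfsg.IsPModular p M) (N L : Subgroup G) [N.Normal] [L.Normal] [Fintype N] (hNL : N ≤ L) (hLN : ∃ k : ℕ, (N.subgroupOf L).index = p ^ k) (B : Set (Cfsg.IrrCharacter G)) (hB : Cfsg.IsPBlock M B) (c : Set (Cfsg.IrrCharacter N)) (hc : Cfsg.IsPBlock M c) (hcov : (∃ χ ∈ B, ∃ θ ∈ c, Cfsg.classInner (fun n : N => (χ : G → ℂ) n) (θ : N → ℂ) ≠ 0)) (hD : ∃ D : Subgroup G, Cfsg.IsDefectGroup p M B D ∧ D ≤ N) (T : Subgroup G) (hT : ∀ x : G, x ∈ T ↔ Cfsg.StabilizesBlock N c x) : T ⊓ L = N := by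
  have := CF.BlockB.charP_k hM
  rw [eq_stab_top_of_stabilizes hM hc hT, ← stab_inf, top_inf_eq]
  rw [covers_iff hM hB hc] at hcov
  obtain ⟨D, hD, hDN⟩ := hD
  obtain ⟨n, hn⟩ := hLN
  have hD' := (isDefectGroup_iff hM hB D).1 hD
  have hB' := isBlk_eb hM hB
  have hc' := isBlk_ebs hM hc
  have hLn := le_normalizer_of_normal' L N
  have hreg : ∀ x ∈ L, ¬ p ∣ orderOf x → x ∈ N := fun x hx => mem_of_relIndex_eq_pow hLn hn hx
  have hNs : N ≤ stab L (ebs M N c) := le_stab hNL hc'.mem_fix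
  have h1 : IsBlk (stab L (ebs M N c)) (ebs M N c) := (regSupp hM).isBlk_of_stable
    (fun x hx => hreg x (stab_le _ _ hx)) hc' hNs (mem_fix_stab _ _)
  obtain ⟨E, hE⟩ := h1.exists_isDefGrp (p := p)
  have h2 := hD'.card_inf hB' ((regSupp hM).isBlk_orb hreg hc' hLn hNL)
    (le_normalizer_of_normal' _ _) le_top (hc'.mul_orb_ne_zero_of_covers hLn hcov)
    (hE.orb hc' hLn h1)
  have h3 := hD'.card_inf hB' hc' (le_normalizer_of_normal' _ _) le_top hcov
    (hE.inf_of_isBlk h1 hc' (le_normalizer_of_normal' _ _) hNs)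
  rw [inf_eq_left.2 (hDN.trans hNL)] at h2
  rw [inf_eq_left.2 hDN, h2] at h3
  have h4 : E ≤ N := inf_eq_left.1 (eq_of_le_of_card_le inf_le_left h3.le)
  have h5 := hE.fong h1 hc' (le_normalizer_of_normal' _ _) hNs
  rw [sup_eq_right.2 h4] at h5
  obtain ⟨m, -, hm⟩ := (Nat.dvd_prime_pow hM.1).1
    ((Dvd.intro _ (Subgroup.relIndex_mul_relIndex N _ L hNs (stab_le L (ebs M N c)))).trans hn.dvd)
  exact (eq_of_not_dvd_relIndex le_rfl hNs hm h5).symm

end Cfsg.Agent.S4673
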