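import Cfsg.Statements.S4675
import Cfsg.Agent.BlockB.Form
-- import your own Cfsg.Agent.* helpers here

set_option autoImplicit false
open Cfsg

namespace Cfsg.Agent.S4675

/-- Fix a prime p and a maximal ideal M of the algebraic integers containing p. Let B be a p-block of the finite group G with defect group P and p-regular rank one (a single irreducible Brauer character). Then there are a function φ on G that is, on the p-regular elements, an integer combination of the members of B, and natural numbers d_χ (χ ∈ B), such that every χ ∈ B agrees with d_χ·φ on the p-regular elements and Σ_{χ ∈ B} d_χ² equals the order of P (the single Cartan invariant of B is the order of P). -/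
theorem result {G : Type*} [Group G] [Fintype G] (p : ℕ) [Fact p.Prime] (M : Ideal Cfsg.AlgInt) (hM : Cfsg.IsPModular p M) (B : Set (Cfsg.IrrCharacter G)) (hB : Cfsg.IsPBlock M B) (P : Subgroup G) (hP : Cfsg.IsDefectGroup p M B P) (hl : Cfsg.blockRank p B = 1) : ∃ φ : G → ℂ, ∃ d : Cfsg.IrrCharacter G → ℕ, (∃ n : Cfsg.IrrCharacter G → ℤ, ∀ x : G, Cfsg.IsPRegular p x → φ x = ∑ᶠ ψ ∈ B, (n ψ : ℂ) * (ψ : G → ℂ) x) ∧ (∀ χ ∈ B, ∀ x : G, Cfsg.IsPRegular p x → (χ : G → ℂ) x = (d χ : ℂ) * φ x) ∧ ∑ᶠ χ ∈ B, d χ ^ 2 = Nat.card P := by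
  classical
  open CF.BlockB CF.Char in
  have hb := nrm_eSet_le_one hM hB
  obtain ⟨φ, Φ, h⟩ := exists_bSet' hM hb hl
  obtain ⟨C, hC⟩ := h.exists_cartan
  obtain ⟨Q, hQ⟩ := h.exists_form hM hb
  choose d hd using fun χ : Cfsg.IrrCharacter G => inner_gen_eq_int (gen_of_irr χ.2) (h.gen 0)
  have h1 : ∀ χ ∈ B, Cfsg.pRegularPart p (χ : G → ℂ) = (d χ : ℂ) • φ 0 := fun χ hχ => by
    simpa [hd] using h.reg_eq hχ
  have h2 : C 0 0 * Q 0 0 = p ^ Cfsg.blockDefect p B := by
    simpa [Matrix.mul_apply] using congrFun (congrFun (h.cartan_mul_form hM hb hC hQ) 0) 0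
  have h3 : 0 < Q 0 0 :=
    BSet.pos_of_inner_self (h.ne_zero 0) (pow_pos hM.1.pos _) (by exact_mod_cast hQ 0 0)
  obtain ⟨χ₀, h₀, hh⟩ := exists_height_zero (p := p) (block_nonempty hM hB)
  have h4 := v_ctr_of_height_zero hM hB h₀ h₀ hh
  rw [hh, pow_zero, ctr_eq hM hb h₀, ← inner_reg_reg, h1 χ₀ h₀, CF.Char.inner_smul_left,
    CF.Char.inner_smul_right, map_intCast, mul_left_comm, mul_left_comm _ (d χ₀ : ℂ), hQ,
    ← Int.cast_mul, ← Int.cast_mul, v_intCast_eq_one_iff hM] at h4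
  have h5 : Q 0 0 = 1 := by
    obtain ⟨q, hq⟩ := Int.eq_ofNat_of_zero_le h3.le
    rw [hq] at h2 h4 ⊢
    obtain ⟨i, -, rfl⟩ := (Nat.dvd_prime_pow hM.1).1 (by exact_mod_cast Dvd.intro_left _ h2 :
      q ∣ p ^ Cfsg.blockDefect p B)
    cases i with
    | zero => simp
    | succ i => exact (h4 ⟨d χ₀ * d χ₀ * p ^ i, by push_cast; ring⟩).elim
  obtain ⟨n, hn⟩ := lat_one_eq_int hM.1 (h.lat 0)
  have h6 : ∀ χ ∈ B, ∀ x, Cfsg.IsPRegular p x → (χ : G → ℂ) x = d χ * φ 0 x := fun χ hχ x hx => by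
    rw [← reg_of_not_dvd (χ : G → ℂ) hx, h1 χ hχ]; rfl
  have h7 : ∀ χ ∈ B, ((d χ).natAbs : ℤ) * n.sign = d χ := fun χ hχ => by
    have := h6 χ hχ 1 (by simpa [Cfsg.IsPRegular] using hM.1.ne_one)
    rw [hn, ← irr_charDegree_eq] at this
    have h8 : 0 < d χ * n := by
      have h9 := irr_charDegree_ne_zero χ
      have : ((Cfsg.charDegree (χ : G → ℂ) : ℤ)) = d χ * n := by exact_mod_cast this
      omega
    rcases pos_and_pos_or_neg_and_neg_of_mul_pos h8 with ⟨h9, h10⟩ | ⟨h9, h10⟩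
    · rw [Int.sign_eq_one_of_pos h10]; omega
    · rw [Int.sign_eq_neg_one_of_neg h10]; omega
  obtain ⟨c, hc⟩ := h.exists_int_comb 0
  refine ⟨fun x => n.sign * φ 0 x, fun χ => (d χ).natAbs, ⟨fun χ => n.sign * c χ, fun x hx => ?_⟩,
    fun χ hχ x hx => ?_, ?_⟩
  · beta_reduce
    rw [hc x hx, finsum_mem_eq_finite_toFinset_sum _ (Set.toFinite _),
      finsum_mem_eq_finite_toFinset_sum _ (Set.toFinite _), Finset.mul_sum]
    exact Finset.sum_congr rfl fun _ _ => by push_cast; ring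
  · beta_reduce
    rw [h6 χ hχ x hx, ← mul_assoc, ← Int.cast_natCast, ← Int.cast_mul, h7 χ hχ]
  · have h8 := h.sum_inner_mul 0 0
    rw [hC, Finset.sum_congr rfl fun χ _ => by
      rw [← CF.Char.inner_conj_symm _ (Φ 0), hd, map_intCast]] at h8
    rw [h5, mul_one] at h2
    rw [card_defectGroup hM hB hP, finsum_mem_eq_finite_toFinset_sum _ (Set.toFinite _),
      ← Nat.cast_inj (R := ℤ)]
    push_cast
    rw [← h2, ← Int.cast_inj (α := ℂ), ← h8]
    push_cast
    exact Finset.sum_congr (by ext; simp) fun χ _ => by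
      rw [← Int.cast_pow, sq_abs, sq, Int.cast_mul]

end Cfsg.Agent.S4675
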