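import Cfsg.Statements.S4681
import Cfsg.Agent.Block.Fus

set_option autoImplicit false
open Cfsg

namespace Cfsg.Agent.S4681

open CF.Block

/-- Fix a prime p and a maximal ideal M of the algebraic integers containing p. Let B₀ be the principal p-block of the finite group G, P a Sylow p-subgroup and e₀ the principal p-block of C_G(P). Then (P, e₀) is a maximal Brauer pair of B₀, and the fusion system of B₀ on (P, e₀) is the fusion system of G on P: its maps from each subgroup of P are exactly the conjugation maps into P by elements of G. -/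
theorem result {G : Type*} [Group G] [Fintype G] (p : ℕ) [Fact p.Prime] (M : Ideal Cfsg.AlgInt) (hM : Cfsg.IsPModular p M) (S : Sylow p G) : Cfsg.IsMaximalBrauerPair p M (Cfsg.principalBlock M G) (S : Subgroup G) (Cfsg.principalBlock M (Subgroup.centralizer ((S : Subgroup G) : Set G))) ∧ ∀ F : Cfsg.FusionSystem (S : Subgroup G), Cfsg.IsBlockFusionSystemOn p M (Cfsg.principalBlock M G) (S : Subgroup G) (Cfsg.principalBlock M (Subgroup.centralizer ((S : Subgroup G) : Set G))) F → ∀ Q : Subgroup G, F.Hom Q = (Cfsg.groupFusionSystem (S : Subgroup G)).Hom Q := by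
  have := CF.BlockB.charP_k hM
  have hB := CF.BlockB.isPBlock_principalBlock (M := M) (G := G)
  have key : ∀ (Q : Subgroup G) (hQ : IsPGroup p Q) (f : MonoidAlgebra (CF.BlockB.k M) G),
      (BPair p ⊤ (eb M (principalBlock M G)) Q f ↔ f = ebs M _ (principalBlock M
        (Subgroup.centralizer (Q : Set G)))) := fun Q hQ f => by
    have h0 : ∀ e : Set (IrrCharacter (Subgroup.centralizer (Q : Set G))), IsPBlock M e →
        (BPair p ⊤ (eb M (principalBlock M G)) Q (ebs M _ e) ↔ e = principalBlock M _) := by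
      intro e he
      rw [← CF.BlockB.third_main hM (CF.BlockB.inducedBlockDefined_of_brSetup hM
        (BrSetup.centralizer_top hQ) he), isInducedBlock_centralizer_iff hM hQ,
        isBrauerPairOf_iff hM, and_iff_right hB, and_iff_right he]
    constructor
    · intro h
      obtain ⟨e, he, rfl⟩ := h.pair.exists_ebs_eq hM
      rw [(h0 e he).1 h]
    · rintro rfl
      exact (h0 _ CF.BlockB.isPBlock_principalBlock).2 rfl
  have h1 := (key S S.isPGroup' _).2 rfl
  have h2 := h1.maxPair ⟨le_top, S.isPGroup', h1.Br_ne_zero, fun Q hQ h _ _ => S.3 hQ h⟩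
  have hmax := (isMaximalBrauerPair_iff hM).2 ⟨hB, CF.BlockB.isPBlock_principalBlock, h2⟩
  refine ⟨hmax, fun F hF Q => CF.Fus.hom_eq_at.2 fun φ => ?_⟩
  rw [(isBlockFusionSystemOn_iff hM hmax).1 hF, CF.Fus.mor_group]
  refine and_congr_right fun hQ => ⟨?_, ?_⟩
  · rintro ⟨x, -, h3, f, -, h4⟩
    exact ⟨fun u hu => h3 u hu ▸ h4.le (conj_mem_cjs.2 hu), x, h3⟩
  · rintro ⟨h3, x, h4⟩
    have h5 : cjs x Q ≤ S := by
      rintro _ ⟨u, hu, rfl⟩
      exact (show φ u = (MulAut.conj x).toMonoidHom u from h4 u hu) ▸ h3 u hu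
    obtain ⟨f, hf⟩ := h1.pair.exists_ple hQ
    obtain ⟨g, hg⟩ := h1.pair.exists_ple h5
    refine ⟨x, trivial, h4, f, hf, ?_⟩
    rwa [(key _ (S.isPGroup'.to_le h5) _).1 ((h1.of_ple hf).cj_of_mem (Subgroup.mem_top x)),
      ← (key _ (S.isPGroup'.to_le h5) _).1 (h1.of_ple hg)]

end Cfsg.Agent.S4681
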