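import Cfsg.Statements.S4682
import Cfsg.Agent.Block.Fus

set_option autoImplicit false
open Cfsg

namespace Cfsg.Agent.S4682

open CF.Block

/-- Fix a prime p and a maximal ideal M of the algebraic integers containing p, a p-block B of the finite group G with maximal Brauer pair (P, e), P abelian, and a Brauer pair (Q, f) ≤ (P, e). Let T_Q be the stabilizer of f in N_G(Q) and T_P the stabilizer of e in N_G(P). Then every element of T_Q is a product of an element of T_P and an element of C_G(Q); and the index of C_G(Q) in T_Q equals the index of T_P ∩ C_G(Q) in T_P ∩ N_G(Q). -/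
theorem result {G : Type*} [Group G] [Fintype G] (p : ℕ) [Fact p.Prime] (M : Ideal Cfsg.AlgInt) (hM : Cfsg.IsPModular p M) (B : Set (Cfsg.IrrCharacter G)) (P : Subgroup G) (e : Set (Cfsg.IrrCharacter (Subgroup.centralizer (P : Set G)))) (hmax : Cfsg.IsMaximalBrauerPair p M B P e) (hab : ∀ x ∈ P, ∀ y ∈ P, x * y = y * x) (Q : Subgroup G) (f : Set (Cfsg.IrrCharacter (Subgroup.centralizer (Q : Set G)))) (hQP : Q ≤ P) (hf : Cfsg.IsPBlock M f) (hle : Cfsg.SubpairLE p M Q f P e) (TQ : Subgroup G) (hTQ : ∀ y : G, y ∈ TQ ↔ y ∈ Subgroup.normalizer (Q : Set G) ∧ Cfsg.StabilizesBlock (Subgroup.centralizer (Q : Set G)) f y) (TP : Subgroup G) (hTP : ∀ y : G, y ∈ TP ↔ y ∈ Subgroup.normalizer (P : Set G) ∧ Cfsg.StabilizesBlock (Subgroup.centralizer (P : Set G)) e y) : (∀ x ∈ TQ, ∃ y ∈ TP, ∃ c ∈ Subgroup.centralizer (Q : Set G), x = y * c) ∧ ((Subgroup.centralizer (Q : Set G)).subgroupOf TQ).index = ((TP ⊓ Subgroup.centralizer (Q : Set G)).subgroupOf (TP ⊓ Subgroup.normalizer (Q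 : Set G))).index := by
  have := CF.BlockB.charP_k hM
  have h := ((isMaximalBrauerPair_iff hM).1 hmax).2.2
  have hle' := SubpairLE.ple hM hle
  obtain rfl := eq_stab_of_stabilizes hM hf hTQ
  obtain rfl := eq_stab_of_stabilizes hM hmax.1.1.2 hTP
  have h1 : ∀ x ∈ stab (Nz ⊤ Q) (ebs M _ f), ∃ y ∈ stab (Nz ⊤ P) (ebs M _ e),
      ∃ c ∈ Subgroup.centralizer (Q : Set G), x = y * c := fun x hx => by
    simpa only [Cz_top] using h.exists_mul_of_comm (fun x hx y hy => hab y hy x hx) hle' trivial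
      (by rwa [cjs_eq_of_mem_normalizer hx.1.1, hx.2])
  refine ⟨h1, ?_⟩
  have h2 : stab (Nz ⊤ Q) (ebs M _ f) =
      (stab (Nz ⊤ P) (ebs M _ e) ⊓ Subgroup.normalizer (Q : Set G)) ⊔
        Subgroup.centralizer (Q : Set G) := by
    refine le_antisymm (fun x hx => ?_) (sup_le (hle'.stab_inf_normalizer_le h.bpair.pair)
      ((Cz_top Q).ge.trans (hle'.left h.bpair.pair).Cz_le_stab))
    obtain ⟨y, hy, c, hc, rfl⟩ := h1 x hx
    refine mul_mem (Subgroup.mem_sup_left ⟨hy, ?_⟩) (Subgroup.mem_sup_right hc)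
    exact (mul_mem_cancel_right (centralizer_le_normalizer' Q hc)).1 hx.1.1
  change Subgroup.relIndex _ _ = Subgroup.relIndex _ _
  rw [h2, relIndex_sup_of_norm (inf_le_right.trans (normalizer_le_normalizer_centralizer Q)),
    ← Subgroup.inf_relIndex_right]
  congr 1
  exact le_antisymm (le_inf (inf_le_right.trans inf_le_left) inf_le_left)
    (le_inf inf_le_right (inf_le_inf_left _ (centralizer_le_normalizer' Q)))

end Cfsg.Agent.S4682
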