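import Cfsg.Statements.S4683
import Cfsg.Agent.BlockB.Rank
import Cfsg.Agent.Block.PairRed
-- import your own Cfsg.Agent.* helpers here

set_option autoImplicit false
open Cfsg

namespace Cfsg.Agent.S4683

/-- Fix a prime p and a maximal ideal M of the algebraic integers containing p, a p-block B of the finite group G, a p-element u and a p-block e of C = C_G(u) such that (⟨u⟩, e) is a Brauer pair of B (a Brauer element of B). For χ ∈ B let χ_u be the e-part of the class function c ↦ χ(u c) on C and χ_u' the e-part of c ↦ χ(u⁻¹ c). Then the sum over χ ∈ B and over the p-regular elements s of C of χ_u(s)·χ_u'(s⁻¹) equals the order of C times the p-regular rank of e (the number of irreducible Brauer characters of e). -/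
theorem result {G : Type*} [Group G] [Fintype G] (p : ℕ) [Fact p.Prime] (M : Ideal Cfsg.AlgInt) (hM : Cfsg.IsPModular p M) (B : Set (Cfsg.IrrCharacter G)) (u : G) (hu : ∃ k : ℕ, orderOf u = p ^ k) (e : Set (Cfsg.IrrCharacter (Subgroup.centralizer (Subgroup.zpowers u : Set G)))) (hBe : Cfsg.IsBrauerPairOf p M B (Subgroup.zpowers u) e) : ∑ᶠ χ ∈ B, ∑ᶠ s : Subgroup.centralizer (Subgroup.zpowers u : Set G), Cfsg.pRegularPart p (Cfsg.blockPart e (fun c : Subgroup.centralizer (Subgroup.zpowers u : Set G) => (χ : G → ℂ) (u * c))) s * Cfsg.blockPart e (fun c : Subgroup.centralizer (Subgroup.zpowers u : Set G) => (χ : G → ℂ) (u⁻¹ * c)) s⁻¹ = (Nat.card (Subgroup.centralizer (Subgroup.zpowers u : Set G)) : ℂ) * (Cfsg.blockRank p e : ℂ) := by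
  classical
  have hind := (CF.Block.isInducedBlock_centralizer_iff hM (CF.BlockB.isPGroup_zpowers hu)).2 hBe
  have hH := CF.Block.centralizer_zpowers u
  have he := CF.BlockB.nrm_eSet_le_one hM hind.1
  rw [CF.BlockB.finsum_mem_irr, ← CF.BlockB.sum_inner_regProj_sec hM hu hH hind, Finset.mul_sum]
  refine Finset.sum_congr rfl fun χ _ => ?_
  have h1 : ∀ θ, CF.BlockB.blockPartL e (CF.BlockB.regProj p e θ) = CF.BlockB.regProj p e θ :=
    fun θ => CF.BlockB.inSpan_regProj hM he θ
  rw [finsum_eq_sum_of_fintype, ← h1, CF.BlockB.blockPartL_apply, CF.BlockB.inner_blockPart_left,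
    CF.Char.card_mul_inner]
  refine Finset.sum_congr rfl fun s _ => ?_
  rw [CF.BlockB.blockPart_inv]
  congr 3
  ext c
  have : (c : G) * u = u * c := CF.BlockB.mem_Cen.1 (hH.le c.2)
  rw [CF.BlockB.sec_apply, ← this, Subgroup.coe_inv, ← mul_inv_rev, CF.Char.irr_inv χ.2, Complex.conj_conj]

end Cfsg.Agent.S4683
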