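import Cfsg.Statements.S4685
import Cfsg.Agent.Block.Star3

set_option autoImplicit false
open Cfsg

namespace Cfsg.Agent.S4685

open CF.Block CF Subgroup

/-- Fix a prime p and a maximal ideal M of the algebraic integers containing p, a p-block B of the finite group G with maximal Brauer pair (P, e) and fusion system F on P. Then for every h the number of irreducible characters of height h in B is divisible by the index of Z(P) ∩ foc(F) in Z(P), where foc(F) is the focal subgroup of F. -/
theorem result {G : Type*} [Group G] [Fintype G] (p : ℕ) [Fact p.Prime] (M : Ideal Cfsg.AlgInt) (hM : Cfsg.IsPModular p M) (B : Set (Cfsg.IrrCharacter G)) (P : Subgroup G) (e : Set (Cfsg.IrrCharacter (Subgroup.centralizer (P : Set G)))) (hmax : Cfsg.IsMaximalBrauerPair p M B P e) (F : Cfsg.FusionSystem P) (hF : Cfsg.IsBlockFusionSystemOn p M B P e F) (h : ℕ) : ((P ⊓ Subgroup.centralizer (P : Set G) ⊓ F.focalSubgroup).subgroupOf (P ⊓ Subgroup.centralizer (P : Set G))).index ∣ Nat.card {χ : Cfsg.IrrCharacter G // χ ∈ B ∧ Cfsg.blockHeight p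 B (χ : G → ℂ) = h} := by
  have hF' := (isBlockFusionSystemOn_iff hM hmax).1 hF
  obtain ⟨hB, -, he⟩ := (isMaximalBrauerPair_iff hM).1 hmax
  rw [inf_subgroupOf_left]
  exact relIndex_dvd_of_stable hM hB he _ (fun u w h => hF'.mem_focal hM h) _ inf_le_left _
    (fun χ ψ h h1 => (blockHeight_congr h).symm.trans h1)
    fun χ h1 _ z hz => regProj_sbl_ne_zero_of_le hM hB he h1 hz.1 fun x hx =>
      BlockB.mem_Cen.2 (mem_centralizer_iff.1 hz.2 x hx)

end Cfsg.Agent.S4685
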