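import Cfsg.Statements.S4693
import Cfsg.Agent.Block.Fus

set_option autoImplicit false
open Cfsg

namespace Cfsg.Agent.S4693

open CF.Block

/-- Fix a prime p and a maximal ideal M of the algebraic integers containing p, a p-block B of the finite group G with maximal Brauer pair (P, e) and fusion system F on P, and a Brauer pair (Q, f) ≤ (P, e) with Q centric in F. Suppose every element of G normalizes Q and stabilizes f. Then the idempotent of B agrees with that of f modulo M at every element of G, and f is the idempotent of a nilpotent block of Q·C_G(Q): some p-block of Q·C_G(Q) has the idempotent coefficients of f and is nilpotent. -/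
theorem result {G : Type*} [Group G] [Fintype G] (p : ℕ) [Fact p.Prime] (M : Ideal Cfsg.AlgInt) (hM : Cfsg.IsPModular p M) (B : Set (Cfsg.IrrCharacter G)) (P : Subgroup G) (e : Set (Cfsg.IrrCharacter (Subgroup.centralizer (P : Set G)))) (hmax : Cfsg.IsMaximalBrauerPair p M B P e) (F : Cfsg.FusionSystem P) (hF : Cfsg.IsBlockFusionSystemOn p M B P e F) (Q : Subgroup G) (f : Set (Cfsg.IrrCharacter (Subgroup.centralizer (Q : Set G)))) (hQP : Q ≤ P) (hf : Cfsg.IsPBlock M f) (hle : Cfsg.SubpairLE p M Q f P e) (hcen : F.IsCentric Q) (hG : ∀ x : G, x ∈ Subgroup.normalizer (Q : Set G) ∧ Cfsg.StabilizesBlock (Subgroup.centralizer (Q : Set G)) f x) : (∀ g : G, Cfsg.MemLocalIdeal M (Cfsg.blockCoeff B g - Cfsg.subgroupBlockCoeff (Subgroup.centralizer (Q : Set G)) f g)) ∧ ∃ F' : Set (Cfsg.IrrCharacter ↥(Q ⊔ Subgroup.centralizer (Q : Set G))), Cfsg.IsPBlock M F' ∧ (∀ t : ↥(Q ⊔ Subgroup.centralizer (Q : Set G)), Cfsg.blockCoeff F' t = Cfsg.subgroupBlockCoeff (Subgroup.centralizer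 (Q : Set G)) f (t : G)) ∧ Cfsg.IsNilpotentBlock p M F' := by
  have := CF.BlockB.charP_k hM
  have h := ((isMaximalBrauerPair_iff hM).1 hmax).2.2
  have hle' := SubpairLE.ple hM hle
  have hB := hmax.1.2.1
  have hf' := h.bpair.of_ple hle'
  have hQ := hf'.pair.isP
  have h1 : ⊤ ≤ stab (Nz ⊤ Q) (ebs M _ f) := fun x _ => (mem_stab_iff_stabilizes hM hf x).2 (hG x)
  have hn : ⊤ ≤ Subgroup.normalizer (Q : Set G) := fun x _ => (hG x).1
  have h2 : eb M B = ebs M _ f := by
    refine hf'.blk.eq_of_mul_ne_zero (hf'.pair.isBlk_of_le le_top le_top h1) ?_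
    rw [← hf'.blk.Br_eq_self hQ le_top hn, hf'.eq]
    exact hf'.pair.blk.ne
  refine ⟨fun g => ?_, ?_⟩
  · rw [(eb_eq_iff_coeff hM hf hB).1 h2 g, sub_self]
    exact CF.BlockB.memLocalIdeal_of_v_lt_one hM isAlgebraic_zero (by simp)
  · have h3 := hf'.pair.isBlk_sup
    have h4 := (((isBlockFusionSystemOn_iff hM hmax).1 hF).centric_iff h hle').1 hcen
    have h5 : Q ⊔ Cz ⊤ Q ≤ Subgroup.normalizer (Cz ⊤ Q : Set G) :=
      le_normalizer_Cz (le_top.trans hn) le_top
    have h6 : IsDefGrp p (Q ⊔ Cz ⊤ Q) (ebs M _ f) Q := isDefGrp_of_not_dvd h3 hf'.pair.blk h5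
      le_sup_right hQ le_sup_left (by rw [hf'.pair.Br_self]; exact h3.ne)
      (by rwa [inf_Cz le_top]) (by rw [Subgroup.relIndex_self]; exact hM.1.not_dvd_one)
    obtain ⟨n, h7⟩ := exists_relIndex_eq_pow hQ (Cz ⊤ Q)
    rw [← relIndex_sup_of_norm (le_sup_left.trans h5)] at h7
    have h8 := h6.isNilBlk h3 (le_top.trans hn) fun x hx hp => (mem_of_relIndex_eq_pow h5 h7 hx hp).1
    rw [Cz_top] at h3 h8
    obtain ⟨F', h9, h10, h11⟩ := exists_block_of_isBlk hM le_sup_right hf h3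
    exact ⟨F', h9, h11, (isNilpotentBlock_iff_sub hM h9).2 (h10 ▸ h8)⟩

end Cfsg.Agent.S4693
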