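import Cfsg.Statements.S4694
import Cfsg.Agent.Block.Fus

set_option autoImplicit false
open Cfsg

namespace Cfsg.Agent.S4694

open CF.Block

/-- Fix a prime p and a maximal ideal M of the algebraic integers containing p, a p-block B of the finite group G and a Brauer pair (Q, e) of B. Let T be the stabilizer of e in N_G(Q) and suppose that (Q, e) carries a weight: the block of T whose idempotent is that of e contains an irreducible character χ that is constant on the cosets of Q and whose degree has p-part equal to the p-part of the index of Q in T. Then Z(Q) is a defect group of e as a block of C_G(Q), and Q is the largest normal p-subgroup of T: every p-subgroup of T normalized by T lies in Q. -/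
theorem result {G : Type*} [Group G] [Fintype G] (p : ℕ) [Fact p.Prime] (M : Ideal Cfsg.AlgInt) (hM : Cfsg.IsPModular p M) (B : Set (Cfsg.IrrCharacter G)) (Q : Subgroup G) (e : Set (Cfsg.IrrCharacter (Subgroup.centralizer (Q : Set G)))) (hQe : Cfsg.IsBrauerPairOf p M B Q e) (T : Subgroup G) (hT : ∀ y : G, y ∈ T ↔ y ∈ Subgroup.normalizer (Q : Set G) ∧ Cfsg.StabilizesBlock (Subgroup.centralizer (Q : Set G)) e y) (F' : Set (Cfsg.IrrCharacter T)) (hF' : Cfsg.IsPBlock M F') (hF'e : ∀ t : T, Cfsg.blockCoeff F' t = Cfsg.subgroupBlockCoeff (Subgroup.centralizer (Q : Set G)) e (t : G)) (χ : Cfsg.IrrCharacter T) (hχ : χ ∈ F') (hχQ : ∀ q : G, q ∈ Q → ∀ t : T, ∀ t' : T, (t' : G) = q * (t : G) → (χ : T → ℂ) t' = (χ : T → ℂ) t) (hdeg : (Cfsg.charDegree (χ : T → ℂ)).factorization p + (Nat.card Q).factorization p = (Nat.card T).factorization p) : Cfsg.IsDefectGroup p M e ((Q ⊓ Subgroup.centralizer (Q : Set G)).subgroupOf (Subgroup.centralizer (Q : Set G))) ∧ ∀ R : Subgroup G, R ≤ T → IsPGroup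 p R → (∀ t ∈ T, t ∈ Subgroup.normalizer (R : Set G)) → R ≤ Q := by
  have := CF.BlockB.charP_k hM
  have hp := hM.1
  obtain ⟨-, he, hpair⟩ := (isBrauerPairOf_iff hM).1 hQe
  have hT' := eq_stab_of_stabilizes hM he hT
  have hQ := hpair.pair.isP
  have hQT : Q ≤ T := hT' ▸ hpair.pair.le_stab
  have hCT : Cz ⊤ Q ≤ T := hT' ▸ hpair.pair.Cz_le_stab
  have hTN : T ≤ Nz ⊤ Q := hT' ▸ stab_le _ _
  have hF := (ebs_eq_iff_coeff hM ((Cz_top Q).ge.trans hCT) he hF').2 hF'e
  have hQn : (Q.subgroupOf T).Normal :=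
    (Subgroup.normal_subgroupOf_iff_le_normalizer hQT).2 (hTN.trans inf_le_left)
  obtain ⟨ψ, hψ, hχψ⟩ := CF.Char.exists_irr_quotient χ.2 (Q.subgroupOf T)
    fun q hq => CF.Char.mem_charKer.2 fun t => hχQ q hq t _ rfl
  set φ := QuotientGroup.mk' (Q.subgroupOf T) with hφ
  have hs : Function.Surjective φ := QuotientGroup.mk'_surjective _
  have hker : φ.ker = Q.subgroupOf T := QuotientGroup.ker_mk' _
  have hkp : IsPGroup p φ.ker := by
    rw [hker]; exact hQ.comap_of_injective _ T.subtype_injective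
  have hb := CF.BlockB.isPBlock_blockOf (M := M) (⟨ψ, hψ⟩ : IrrCharacter _)
  have hψb := CF.BlockB.mem_blockOf_self hM (⟨ψ, hψ⟩ : IrrCharacter _)
  have hb' := isBlk_eb hM hb
  have hD : IsDefGrp p ⊤ (eb M (blockOf M ψ)) ⊥ := by
    obtain ⟨D, hD⟩ := hb'.exists_isDefGrp (p := p)
    have h1 := hD.card_eq_pow hM hb
    rw [CF.BlockB.defect_eq_zero_of_mem hM hb hψb, pow_zero, Subgroup.card_eq_one] at h1
    · exact h1 ▸ hD
    have h2 := (Q.subgroupOf T).card_mul_index
    rw [Nat.card_congr (Subgroup.subgroupOfEquivOfLe hQT).toEquiv] at h2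
    rw [← h2, Nat.factorization_mul Nat.card_pos.ne' Subgroup.index_ne_zero_of_finite,
      Finsupp.add_apply, add_comm, add_right_inj] at hdeg
    rw [← Subgroup.index, ← hdeg, hχψ]
    rfl
  have hcov := (mem_iff_gmap_mul_ne_zero hM hs hb hF' hψb hχψ).1 hχ
  refine ⟨?_, fun R hRT hR hn => ?_⟩
  · have h0 := hpair.pair.isBlk_sup
    have hHT := sup_le hQT hCT
    have hHn : Q ⊔ Cz ⊤ Q ≤ Subgroup.normalizer (Cz ⊤ Q : Set G) :=
      (hHT.trans hTN).trans (Nz_le_normalizer_Cz _ _)
    obtain ⟨n, h7⟩ := exists_relIndex_eq_pow hQ (Cz ⊤ Q)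
    rw [← relIndex_sup_of_norm (le_sup_left.trans hHn)] at h7
    have h1 : IsBlk ((Q ⊔ Cz ⊤ Q).subgroupOf T) (eb M F') := by
      rw [← isBlk_gmap T.subtype_injective, map_subgroupOf_subtype hHT]
      rwa [← hF] at h0
    have hHn' : ((Q ⊔ Cz ⊤ Q).subgroupOf T).Normal :=
      (Subgroup.normal_subgroupOf_iff_le_normalizer hHT).2 (hTN.trans
        ((le_inf inf_le_left (Nz_le_normalizer_Cz _ _)).trans (normalizer_inf_le_normalizer_sup _ _)))
    have h2 : IsBlk (((Q ⊔ Cz ⊤ Q).subgroupOf T).map φ) _ := h1.gmap_of_centralizes (regSupp hM) φ hkp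
      (hker.le.trans (Subgroup.comap_mono le_sup_left)) fun x hx hxp y hy => Subtype.ext
        ((mem_of_relIndex_eq_pow hHn h7 hx (by rwa [orderOf_injective _ T.subtype_injective])).1 y (hker.le hy))
    have := hHn'.map φ hs
    have h3 := gmap_mem_Zc_top hs (isBlk_eb hM hF').mem
    have h4 := hD.inf_of_stable hb' h2 (le_normalizer_of_normal' _ _) le_top
      (by rwa [← Zc_comm h3 hb'.mem_sub]) h3.2
    rw [isDefectGroup_iff_subgroupOf hM he inf_le_right]
    refine ⟨inf_le_right, hQ.to_inf_left, Br_ne_zero_of_le inf_le_left (by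
      rw [hpair.pair.Br_self]; exact h0.ne), fun S hS h5 h6 h7 => le_antisymm (le_inf ?_ h6) h5⟩
    have hST : S ≤ T := h6.trans ((Cz_top Q).ge.trans hCT)
    have hS' : IsPGroup p (S.subgroupOf T) := hS.comap_of_injective _ T.subtype_injective
    have hfix := (isBlk_eb hM hF').mem_fix_of_le (P := S.subgroupOf T) le_top
    have h8 := gmap_ne_zero_of_idem φ hkp (Br_mem_fix (fun q hq =>
      centralizer_le_normalizer' _ fun s hs => Subtype.ext (h6 hs q (hker.le hq)).symm)
      ((isBlk_eb hM hF').mem_fix_of_le le_top)) (Br_idem hS' hfix h1.idem) (fun h0 => h7 (by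
        rw [← hF, ← map_subgroupOf_subtype hST, ebs, ← gmap_Br T.subtype_injective, h0, map_zero]))
    rw [gmap_Br' φ hS' hfix] at h8
    have h9 := h4.max _ (hS'.map φ) (by simp) (Subgroup.map_mono (Subgroup.comap_mono
      (h6.trans ((Cz_top Q).ge.trans le_sup_right)))) h8
    rw [bot_inf_eq, Subgroup.map_eq_bot_iff, hker] at h9
    exact fun s hs => h9 (show (⟨s, hST hs⟩ : T) ∈ S.subgroupOf T from hs)
  · have := (Subgroup.normal_subgroupOf_iff_le_normalizer hRT).2 hn
    have := this.map φ hs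
    have h1 := hD.normal_le (P := (R.subgroupOf T).map φ) hb'
      ((hR.comap_of_injective _ T.subtype_injective).map φ) le_top
      (le_normalizer_of_normal' _ _)
    rw [le_bot_iff, Subgroup.map_eq_bot_iff, hker] at h1
    exact fun s hs => h1 (show (⟨s, hRT hs⟩ : T) ∈ R.subgroupOf T from hs)

end Cfsg.Agent.S4694
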