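import Cfsg.Statements.S4696
import Cfsg.Agent.Block.Cyc3

set_option autoImplicit false
open Cfsg

namespace Cfsg.Agent.S4696

open CF.Block CF Subgroup

/-- Let p be a prime, M a maximal ideal of the algebraic integers containing p, and B a p-block of the finite group G whose defect group D is cyclic of order p^a with a ≥ 1. Let C = C_G(D), let b be a block of C inducing B, let T be the stabilizer of b in N_G(D) (the elements g of N_G(D) such that the g-conjugate of every member of b is again in b), and let e be the index of C in T (the inertial index of B). Then e divides p − 1, every irreducible character in B has height zero, and B is the disjoint union of a set X of e characters and a set Y of (p^a − 1)/e characters, the members of Y agreeing on p-regular elements, for which there are signs δ_χ = ±1 (χ ∈ X) and δ₀ = ±1 such that: for every ψ ∈ Y and every p-regular g, δ₀ ψ(g) + Σ_{χ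 ∈ X} δ_χ χ(g) = 0; for all χ, χ' ∈ X the integers δ_χ χ(1) and δ_χ' χ'(1) are congruent modulo p^a; and for ψ ∈ Y and χ ∈ X, ψ(1) ≡ −e δ₀ δ_χ χ(1) modulo p^a. -/
theorem result {G : Type*} [Group G] [Finite G] (p : ℕ) [Fact p.Prime] (M : Ideal Cfsg.AlgInt) (hM : Cfsg.IsPModular p M) (D : Subgroup G) (hD : IsCyclic D) (a : ℕ) (ha : 1 ≤ a) (hDa : Nat.card D = p ^ a) (B : Set (Cfsg.IrrCharacter G)) (hB : Cfsg.IsPBlock M B) (hBD : Cfsg.IsDefectGroup p M B D) (b : Set (Cfsg.IrrCharacter (Subgroup.centralizer (D : Set G)))) (hind : Cfsg.IsInducedBlock M (Subgroup.centralizer (D : Set G)) b B) (T : Subgroup G) (hT : ∀ g : G, g ∈ T ↔ (g ∈ Subgroup.normalizer (D : Set G) ∧ ∀ θ ∈ b, ∀ θ' : Cfsg.IrrCharacter (Subgroup.centralizer (D : Set G)), (∀ h h' : Subgroup.centralizer (D : Set G), (h' : G) = g * h * g⁻¹ → (θ' : Subgroup.centralizer (D : Set G) → ℂ) h' = (θ : Subgroup.centralizer (D : Set G)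 → ℂ) h) → θ' ∈ b)) (e : ℕ) (he : (Subgroup.centralizer (D : Set G)).relIndex T = e) : e ∣ p - 1 ∧ (∀ χ ∈ B, Cfsg.blockHeight p B (χ : G → ℂ) = 0) ∧ ∃ X Y : Set (Cfsg.IrrCharacter G), B = X ∪ Y ∧ Disjoint X Y ∧ Nat.card X = e ∧ Nat.card Y = (p ^ a - 1) / e ∧ (∀ ψ ∈ Y, ∀ ψ' ∈ Y, ∀ g : G, ¬ p ∣ orderOf g → (ψ : G → ℂ) g = (ψ' : G → ℂ) g) ∧ ∃ (δ : Cfsg.IrrCharacter G → ℤ) (δ₀ : ℤ), (∀ χ ∈ X, δ χ = 1 ∨ δ χ = -1) ∧ (δ₀ = 1 ∨ δ₀ = -1) ∧ (∀ ψ ∈ Y, ∀ g : G, ¬ p ∣ orderOf g → (δ₀ : ℂ) * (ψ : G → ℂ) g + ∑ᶠ χ ∈ X, (δ χ : ℂ) * (χ : G → ℂ) g = 0) ∧ (∀ χ ∈ X, ∀ χ' ∈ X, δ χ * (Cfsg.charDegree (χ : G → ℂ) : ℤ) ≡ δ χ' * (Cfsg.charDegree (χ' : G → ℂ) : ℤ) [ZMOD (p : ℤ) ^ a]) ∧ (∀ ψ ∈ Y, ∀ χ ∈ X, (Cfsg.charDegree (ψ : G → ℂ) : ℤ) ≡ -((e : ℤ) * δ₀ * δ χ * (Cfsg.charDegree (χ : G → ℂ) : ℤ)) [ZMOD (p : ℤ) ^ a]) := by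
  classical
  have := Fintype.ofFinite G
  have hT' := stabilizes_of_stabB hM hind.1 hT
  obtain ⟨hm, hT2, hE⟩ := setup_of_induced hM hB hBD hind hT'
  have hP : D ≠ ⊥ := by
    rintro rfl
    exact (Nat.one_lt_pow (n := a) (by omega) hM.1.one_lt).ne (by rw [← hDa, card_bot])
  have hn : ((centralizer (D : Set G)).subgroupOf T).Normal :=
    normal_subgroupOf_of_le_normalizer fun g hg =>
      normalizer_le_normalizer_centralizer D ((hT g).1 hg).1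
  obtain ⟨w, ζ, c, δ, h, hc⟩ := (fS_of_cyc hM hB hm hD).exists_fD_cyc hD hP
  have hX : Nat.card (B \ FY ζ : Set _) = e := by rw [h.card_FX, h.rank_eq hP hc, hE, he]
  have hrel : ∀ ψ ∈ FY ζ, ∀ g : G, ¬ p ∣ orderOf g → ((-δ : ℤ) : ℂ) * (ψ : G → ℂ) g +
      ∑ᶠ χ ∈ B \ FY ζ, (c χ : ℂ) * (χ : G → ℂ) g = 0 := fun ψ hψ g hg => by
    simpa using h.relation hψ hg
  have hmod := fun χ hχ χ' hχ' => h.modEq hc (χ := χ) (χ' := χ') hχ hχ'
  rw [hDa, Nat.cast_pow] at hmod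
  refine ⟨he ▸ (Agent.S4633.result p M hM B hB D hBD hP hD b hind T hT').2.1,
    fun χ hχ => h.height_zero hP hc hχ, B \ FY ζ, FY ζ,
    (Set.sdiff_union_of_subset h.FY_subset).symm, Set.disjoint_sdiff_left, hX,
    by rw [h.card_FY, hE, he, hDa], fun η hη η' hη' g hg => h.reg_eq hη hη' hg, c, -δ, hc,
    by rcases h.sign with rfl | rfl <;> simp, hrel, hmod, fun ψ hψ χ hχ => ?_⟩
  have h1 := hrel ψ hψ 1 (by simpa using hM.1.one_lt.ne')
  rw [finsum_mem_eq_toFinset_sum] at h1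
  simp only [← BlockB.irr_charDegree_eq] at h1
  have h2 : -δ * (charDegree (ψ : G → ℂ) : ℤ) +
      ∑ χ' ∈ (B \ FY ζ).toFinset, c χ' * (charDegree (χ' : G → ℂ) : ℤ) = 0 := by
    exact_mod_cast h1
  have h3 := Int.ModEq.sum (s := (B \ FY ζ).toFinset) fun χ' hχ' =>
    hmod χ' (Set.mem_toFinset.1 hχ') χ hχ
  rw [Finset.sum_const, Set.toFinset_card, ← Nat.card_eq_fintype_card, hX, nsmul_eq_mul,
    eq_neg_of_add_eq_zero_right h2] at h3
  have h4 := h3.mul_left δ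
  rcases h.sign with rfl | rfl <;> simpa [mul_assoc] using h4

end Cfsg.Agent.S4696
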