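import Cfsg.Statements.S4697
import Cfsg.Agent.Block.Cyc3
import Cfsg.Agent.BlockB.BF

set_option autoImplicit false
open Cfsg

namespace Cfsg.Agent.S4697

open CF.Block CF Subgroup
open CF.BlockB (Cen)

variable {p : ℕ} {M : Ideal AlgInt}

theorem two {G : Type*} [Group G] [Finite G] (hM : IsPModular p M) {B : Set (IrrCharacter G)}
    (hB : IsPBlock M B) {D : Subgroup G} (hD : IsDefectGroup p M B D)
    (hab : D ≤ centralizer (D : Set G)) {x y : G} (hx : x ∈ D) (hy : y ∈ D)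
    (h : ∀ z ∈ D, ∃ i j : ℤ, z = x ^ i * y ^ j) : Nat.card B ≤ p ^ blockDefect p B := by
  classical
  have := Fact.mk hM.1
  have := BlockB.charP_k hM
  obtain ⟨e, he⟩ := ((isDefectGroup_iff hM hB D).1 hD).exists_maxPair (isBlk_eb hM hB)
  have h1 := le_Cen_of_comm hab hx
  have hind := isInducedBlock_sbl hM hB he.bpair hx
  have h2 := BlockB.card_le_of_cyc_quot hM (by
      simpa using IsPGroup.iff_orderOf.1 he.bpair.pair.isP ⟨x, hx⟩) hind
    (Or.inr ⟨_, (isDefectGroup_iff_subgroupOf hM hind.1 h1).2 (isDefGrp_sbl_of_le hM he hx h1),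
      ⟨y, h1 hy⟩, hy, fun z hz => h z hz⟩) (T := B.toFinset) fun χ hχ =>
      ⟨Set.mem_toFinset.1 hχ, regProj_sbl_ne_zero_of_le hM hB he (Set.mem_toFinset.1 hχ) hx h1⟩
  rwa [blockDefect_sbl_of_le hM hB he hx h1, Set.toFinset_card, ← Nat.card_eq_fintype_card] at h2

theorem three {G : Type*} [Group G] [Finite G] (hM : IsPModular p M) {B : Set (IrrCharacter G)}
    (hB : IsPBlock M B) {D : Subgroup G} (hD : IsDefectGroup p M B D)
    (hab : D ≤ centralizer (D : Set G)) {x y z : G} (hx : x ∈ D) (hy : y ∈ D) (hz : z ∈ D)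
    (h : ∀ w ∈ D, ∃ i j l : ℤ, w = x ^ i * y ^ j * z ^ l) :
    Nat.card B * orderOf x ≤ p ^ blockDefect p B * p ^ blockDefect p B := by
  classical
  have := Fact.mk hM.1
  have := BlockB.charP_k hM
  obtain ⟨e, he⟩ := ((isDefectGroup_iff hM hB D).1 hD).exists_maxPair (isBlk_eb hM hB)
  have h1 := le_Cen_of_comm hab hx
  have hind := isInducedBlock_sbl hM hB he.bpair hx
  have hx' : ∃ n, orderOf x = p ^ n := by
    simpa using IsPGroup.iff_orderOf.1 he.bpair.pair.isP ⟨x, hx⟩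
  have hd := blockDefect_sbl_of_le hM hB he hx h1
  have := Fintype.ofFinite (Cen x)
  have h2 := BlockB.card_mul_le_rank_mul_major hM hx' rfl hind hd (m := 1) fun φ _ h0 n hn => by
    exact_mod_cast BlockB.BSet.pos_of_inner_self h0 (pow_pos hM.1.pos _) (by exact_mod_cast hn)
  obtain ⟨Z, hZ⟩ : ∃ Z, Z = zpowers (⟨x, BlockB.self_mem_Cen x⟩ : Cen x) := ⟨_, rfl⟩
  have hle : Z ≤ center _ := hZ ▸ zpowers_le_of_mem (mem_center_iff.2 fun g =>
    Subtype.ext (BlockB.mem_Cen.1 g.2))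
  have : Z.Normal := Clifford.normal_of_le_center hle
  have hπ := BlockB.pQuot_mk (hZ ▸ BlockB.isPGroup_zpowers (by
    simpa [← Subgroup.orderOf_coe] using hx')) (BlockB.regCent_of_le_center hle)
  have h3 : QuotientGroup.mk' Z ⟨x, BlockB.self_mem_Cen x⟩ = 1 :=
    (QuotientGroup.eq_one_iff (N := Z) _).2 (hZ ▸ mem_zpowers _)
  have h4 := two hM (hπ.isPBlock_dom hM hind.1) (hπ.isDefectGroup_dom hM hind.1
    ((isDefectGroup_iff_subgroupOf hM hind.1 h1).2 (isDefGrp_sbl_of_le hM he hx h1)))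
    (by
      rintro _ ⟨a, ha, rfl⟩ _ ⟨b, hb, rfl⟩
      rw [← map_mul, ← map_mul, subgroupOf_le_centralizer hab _ ha b hb])
    (mem_map_of_mem _ (show (⟨y, h1 hy⟩ : Cen x) ∈ D.subgroupOf _ from hy))
    (mem_map_of_mem _ (show (⟨z, h1 hz⟩ : Cen x) ∈ D.subgroupOf _ from hz)) (by
      rintro _ ⟨w, hw, rfl⟩
      obtain ⟨i, j, l, h5⟩ := h w hw
      refine ⟨j, l, ?_⟩
      rw [show w = (⟨x, BlockB.self_mem_Cen x⟩ : Cen x) ^ i * ⟨y, h1 hy⟩ ^ j * ⟨z, h1 hz⟩ ^ l from
        Subtype.ext (by simpa using h5)]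
      simp only [map_mul, map_zpow, h3, one_zpow, one_mul])
  have h5 := hπ.pow_blockDefect_dom hM hind.1
  rw [QuotientGroup.ker_mk', show Nat.card Z = orderOf x by
    rw [hZ, Nat.card_zpowers, ← Subgroup.orderOf_coe], hd] at h5
  have h6 := (BlockB.blockRank_le_card (p := p) _).trans h4
  rw [hπ.blockRank_dom hM hind.1] at h6
  rw [mul_one, hd] at h2
  calc _ ≤ p ^ _ * p ^ blockDefect p B * orderOf x :=
        Nat.mul_le_mul_right _ (h2.trans (Nat.mul_le_mul_right _ h6))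
    _ = _ := by rw [mul_right_comm, mul_comm _ (orderOf x), ← h5]

/-- Let p be a prime, M a maximal ideal of the algebraic integers containing p, and B a p-block of the finite group G with an abelian defect group D of order p^d. If D has rank 2 (its least number of generators is 2) then B contains at most p^d irreducible characters; if D has rank 3 then the number k of irreducible characters in B satisfies k^3 ≤ p^(5d). -/
theorem result {G : Type*} [Group G] [Finite G] (p : ℕ) [Fact p.Prime] (M : Ideal Cfsg.AlgInt) (hM : Cfsg.IsPModular p M) (B : Set (Cfsg.IrrCharacter G)) (hB : Cfsg.IsPBlock M B) (D : Subgroup G) (hBD : Cfsg.IsDefectGroup p M B D) (hab : IsMulCommutative D) (d : ℕ) (hDd : Nat.card D = p ^ d) : (Group.rank D = 2 → Nat.card B ≤ p ^ d) ∧ (Group.rank D = 3 → Nat.card B ^ 3 ≤ p ^ (5 * d)) := by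
  classical
  have hc : D ≤ centralizer (D : Set G) := le_centralizer D
  have hd : p ^ blockDefect p B = p ^ d := by rw [← BlockB.card_defectGroup hM hB hBD, hDd]
  let _ : CommGroup D := CommGroup.mk mul_comm'
  obtain ⟨S, hS, hS'⟩ := Group.rank_spec D
  refine ⟨fun h => ?_, fun h => ?_⟩
  · obtain ⟨x, y, -, rfl⟩ := Finset.card_eq_two.1 (hS.trans h)
    refine hd ▸ two hM hB hBD hc x.2 y.2 fun z hz => ?_
    obtain ⟨i, j, h1⟩ := mem_closure_pair.1 (show (⟨z, hz⟩ : D) ∈ closure {x, y} by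
      rw [← Finset.coe_pair, hS']; trivial)
    exact ⟨i, j, by simpa using (congrArg Subtype.val h1).symm⟩
  · obtain ⟨x, y, z, -, -, -, rfl⟩ := Finset.card_eq_three.1 (hS.trans h)
    have h1 : ∀ w : D, ∃ i j l : ℤ, w = x ^ i * y ^ j * z ^ l := fun w => by
      have h2 : w ∈ closure {x} ⊔ closure {y, z} := by
        rw [← Subgroup.closure_union, Set.singleton_union, show ({x, y, z} : Set D) = ({x, y, z} : Finset D)
          by simp, hS']; trivial
      obtain ⟨_, ha, _, hb, rfl⟩ := mem_sup.1 h2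
      obtain ⟨i, rfl⟩ := mem_closure_singleton.1 ha
      obtain ⟨j, l, rfl⟩ := mem_closure_pair.1 hb
      exact ⟨i, j, l, (mul_assoc _ _ _).symm⟩
    have h2 := three hM hB hBD hc x.2 y.2 z.2 fun w hw => by
      obtain ⟨i, j, l, h3⟩ := h1 ⟨w, hw⟩
      exact ⟨i, j, l, by simpa using congrArg Subtype.val h3⟩
    have h3 := three hM hB hBD hc y.2 x.2 z.2 fun w hw => by
      obtain ⟨i, j, l, h3⟩ := h1 ⟨w, hw⟩
      rw [mul_comm (x ^ i)] at h3
      exact ⟨j, i, l, congrArg Subtype.val h3⟩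
    have h4 := three hM hB hBD hc z.2 x.2 y.2 fun w hw => by
      obtain ⟨i, j, l, h3⟩ := h1 ⟨w, hw⟩
      rw [mul_comm _ (z ^ l), ← mul_assoc] at h3
      exact ⟨l, i, j, congrArg Subtype.val h3⟩
    have h5 := Nat.card_le_card_of_surjective
      (fun t : zpowers x × zpowers y × zpowers z => (t.1 : D) * t.2.1 * t.2.2) fun w => by
        obtain ⟨i, j, l, rfl⟩ := h1 w
        exact ⟨⟨⟨_, i, rfl⟩, ⟨_, j, rfl⟩, ⟨_, l, rfl⟩⟩, rfl⟩
    simp only [Nat.card_prod, Nat.card_zpowers, hDd] at h5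
    simp only [orderOf_coe, hd] at h2 h3 h4
    refine Nat.le_of_mul_le_mul_right ?_ (pow_pos hM.1.pos d)
    calc _ ≤ Nat.card B ^ 3 * (orderOf x * (orderOf y * orderOf z)) := Nat.mul_le_mul_left _ h5
      _ = Nat.card B * orderOf x * (Nat.card B * orderOf y) * (Nat.card B * orderOf z) := by ring
      _ ≤ _ := Nat.mul_le_mul (Nat.mul_le_mul h2 h3) h4
      _ = _ := by ring

end Cfsg.Agent.S4697
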