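import Cfsg.Statements.S4699
import Cfsg.Agent.Block.Jord
import Cfsg.Agent.Block.Sub

set_option autoImplicit false
open Cfsg

namespace Cfsg.Agent.S4699

open CF.Block CF Subgroup Polynomial

theorem sub_pow_mul_pow {R : Type*} [Ring R] {A B : R} (h : Commute A B) {l n m : ℕ}
    (hA : A ^ l = 0) (hB : B ^ l = 0) (hl : 2 * l ≤ n + m + 1) : (A - B) ^ n * B ^ m = 0 := by
  rw [sub_eq_add_neg, h.neg_right.add_pow, Finset.sum_mul]
  refine Finset.sum_eq_zero fun i hi => ?_
  rcases le_or_gt l i with h1 | h1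
  · simp [pow_eq_zero_of_le h1 hA]
  · rw [mul_assoc, (Nat.cast_commute _ _).eq, neg_pow, mul_assoc, mul_assoc, ← mul_assoc (B ^ _),
      ← pow_add, pow_eq_zero_of_le (by have := Finset.mem_range.1 hi; omega) hB]
    simp

theorem geom_sum_eq_pow {F R : Type*} [Field F] [Ring R] [Algebra F R] (p : ℕ) [Fact p.Prime]
    [CharP F p] (n : ℕ) (a : R) : ∑ i ∈ Finset.range (p ^ n), a ^ i = (a - 1) ^ (p ^ n - 1) := by
  have h : ∑ i ∈ Finset.range (p ^ n), (X : F[X]) ^ i = (X - 1) ^ (p ^ n - 1) := by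
    refine mul_right_cancel₀ (X_sub_C_ne_zero (1 : F)) ?_
    rw [C_1, geom_sum_mul, pow_sub_one_mul (pow_ne_zero n (Fact.out : p.Prime).ne_zero),
      sub_pow_char_pow, one_pow]
  simpa using congrArg (aeval a) h

theorem tr_mul_pow {F R : Type*} [Field F] [Ring R] [Algebra F R] (p : ℕ) [Fact p.Prime]
    [CharP F p] {n l m : ℕ} {a b : R} (h1 : a * b = 1) (h2 : b * a = 1) (hl : (a - 1) ^ l = 0)
    (h : 2 * l ≤ p ^ n + m) (β : R) :
    (∑ i ∈ Finset.range (p ^ n), a ^ i * β * b ^ i) * (a - 1) ^ m = 0 := by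
  have hc := LinearMap.commute_mulLeft_right (R := F) (a - 1) (a - 1)
  have h3 := sub_pow_mul_pow hc (l := l) (n := p ^ n - 1) (m := m)
    (by rw [LinearMap.pow_mulLeft, hl, LinearMap.mulLeft_zero_eq_zero])
    (by rw [LinearMap.pow_mulRight, hl, LinearMap.mulRight_zero_eq_zero])
    (by have := Nat.pos_of_neZero (p ^ n); omega)
  have h4 : LinearMap.mulLeft F a * LinearMap.mulRight F b - 1 =
      (LinearMap.mulLeft F (a - 1) - LinearMap.mulRight F (a - 1)) * LinearMap.mulRight F b := by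
    ext y
    simp [sub_mul, mul_sub, mul_assoc, h2]
  have h5 : Commute (LinearMap.mulRight F (a - 1)) (LinearMap.mulRight F b) := by
    ext y
    simp [sub_mul, mul_sub, mul_assoc, h1, h2]
  have h6 := geom_sum_eq_pow (F := F) p n (LinearMap.mulLeft F a * LinearMap.mulRight F b)
  rw [h4, ((LinearMap.commute_mulLeft_right _ _).sub_left h5).mul_pow] at h6
  have h7 := congrArg (fun f => (LinearMap.mulRight F (a - 1) ^ m * f) β) h6
  rw [← mul_assoc, ((hc.symm.sub_right (Commute.refl _)).pow_pow _ _).eq, h3, zero_mul] at h7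
  simpa [(LinearMap.commute_mulLeft_right a b).mul_pow, mul_assoc, Finset.sum_mul] using h7

theorem pow_mul_pow_eq {F R : Type*} [Field F] [Ring R] [Algebra F R] (p : ℕ) [Fact p.Prime]
    [CharP F p] {a : R} {m j : ℕ} (hj : ¬ p ∣ j) (h : (a - 1) ^ (p + m) = 0) :
    (a ^ j - 1) ^ (p - 1) * (a - 1) ^ m = (a - 1) ^ (p - 1 + m) := by
  have hp : p.Prime := Fact.out
  obtain ⟨g, hg⟩ : (X - C 1 : F[X]) ∣ (∑ i ∈ Finset.range j, X ^ i) ^ (p - 1) - 1 := by
    rw [dvd_iff_isRoot, IsRoot.def]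
    simp only [eval_sub, eval_pow, eval_geom_sum, one_pow, Finset.sum_const, Finset.card_range,
      nsmul_eq_mul, mul_one, eval_one, sub_eq_zero]
    refine mul_left_cancel₀ (mt (CharP.cast_eq_zero_iff F p j).1 hj) ?_
    rw [mul_pow_sub_one hp.ne_zero, mul_one, ← frobenius_def, map_natCast]
  have h1 : (X ^ j - 1 : F[X]) ^ (p - 1) * (X - 1) ^ m =
      (X - 1) ^ (p - 1 + m) + g * (X - 1) ^ (p + m) := by
    obtain ⟨r, rfl⟩ := Nat.exists_eq_add_of_le' hp.one_le
    rw [← geom_sum_mul, mul_pow, eq_add_of_sub_eq hg, C_1, Nat.add_sub_cancel]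
    ring
  simpa [h] using congrArg (aeval a) h1

theorem sum_conj_eq {G A : Type*} [Group G] [Fintype G] [AddCommGroup A] {P : Subgroup G}
    [Fintype P] {x : G} [DecidablePred (IsConj x)] [DecidablePred (· ∈ P)]
    (hfree : ∀ (u : P) (y : G), u ≠ 1 → IsConj x y → (u : G) * y * (u : G)⁻¹ = y → y ∈ P)
    (T : P → A →+ A) (f : G → A) (hf : ∀ (u : P) y, f (u * y * (u : G)⁻¹) = T u (f y)) :
    ∃ β, ∑ y with IsConj x y, f y = ∑ y with IsConj x y ∧ y ∈ P, f y + ∑ u, T u β := by
  let _ : MulAction P G := MulAction.compHom G (MulAut.conj.comp P.subtype)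
  obtain ⟨β, hβ⟩ := exists_sum_of_free T
    (fun y : G => if IsConj x y ∧ y ∉ P then f y else 0) (fun u y => by
      change (if IsConj x (u * y * (u : G)⁻¹) ∧ u * y * (u : G)⁻¹ ∉ P then
        f (u * y * (u : G)⁻¹) else 0) = _
      rw [hf, apply_ite (T u), map_zero]
      exact if_congr (and_congr ⟨fun h => h.trans (isConj_iff.2 ⟨_, rfl⟩).symm,
        fun h => h.trans (isConj_iff.2 ⟨_, rfl⟩)⟩ (by
          rw [P.mul_mem_cancel_right (inv_mem u.2), P.mul_mem_cancel_left u.2])) rfl rfl)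
    fun u y hu h6 => if_neg fun h7 => h7.2 (hfree u y hu h7.1 h6)
  refine ⟨β, ?_⟩
  rw [← hβ, ← Finset.sum_filter, ← Finset.filter_filter, ← Finset.filter_filter,
    Finset.sum_filter_add_sum_filter_not]

/-- Let p be a prime and G a finite group whose Sylow p-subgroup P is cyclic of order p^n with n ≥ 2 and meets every other Sylow p-subgroup trivially. Then every faithful irreducible representation of G on a finite-dimensional space over a finite field of characteristic p has dimension at least p^n − (p − 1). -/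
theorem result {G : Type*} [Group G] [Finite G] (p : ℕ) [Fact p.Prime] (P : Sylow p G) (hcyc : IsCyclic P) (n : ℕ) (hn : 2 ≤ n) (hPn : Nat.card P = p ^ n) (hTI : ∀ Q : Sylow p G, Q ≠ P → (P : Subgroup G) ⊓ (Q : Subgroup G) = ⊥) (F : Type*) [Field F] [Finite F] [CharP F p] (V : Type*) [AddCommGroup V] [Module F V] [FiniteDimensional F V] (ρ : Representation F G V) (hfaith : Function.Injective ρ) (hirr : ρ.IsIrreducible) : p ^ n - (p - 1) ≤ Module.finrank F V := by
  classical
  have hp : p.Prime := Fact.out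
  have := Fintype.ofFinite G
  obtain ⟨x, hx⟩ := IsCyclic.exists_generator (α := P)
  have hox : orderOf x = p ^ n := (orderOf_eq_card_of_forall_mem_zpowers hx).trans hPn
  have hirr' := (Char.isIrreducible_iff ρ).1 hirr
  have hnt : Nontrivial V := hirr'.1
  have : CharP (Module.End F V) p := charP_of_injective_algebraMap (algebraMap F _).injective p
  have h0 : ∃ l, (ρ x - 1) ^ l = 0 := ⟨p ^ n, by
    rw [sub_pow_char_pow_of_commute _ _ (Commute.one_right _), ← map_pow, ← Subgroup.coe_pow, ← hox,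
      pow_orderOf_eq_one, Subgroup.coe_one, map_one, one_pow, sub_self]⟩
  have h1 : Nat.find h0 ≤ Module.finrank F V := Nat.find_min' h0 (by
    have := LinearMap.aeval_self_charpoly (ρ x - 1)
    rwa [IsNilpotent.charpoly_eq_X_pow_finrank h0, map_pow, aeval_X] at this)
  have h2 : p < Nat.find h0 := (Nat.lt_find_iff h0 p).2 fun m hm h2 => by
    have h3 := pow_eq_zero_of_le hm h2
    rw [sub_pow_char_of_commute _ (Commute.one_right _), one_pow, sub_eq_zero, ← map_pow,
      ← map_one ρ] at h3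
    have h4 := orderOf_dvd_of_pow_eq_one (hfaith h3)
    rw [orderOf_coe, hox] at h4
    exact (Nat.le_of_dvd hp.pos h4).not_gt (lt_self_pow₀ hp.one_lt hn)
  by_contra! h3
  obtain ⟨m, hm⟩ := Nat.exists_eq_add_of_le h2.le
  have h4 : (ρ x - 1) ^ (p + m) = 0 := hm ▸ Nat.find_spec h0
  have h5 : (ρ x - 1) ^ (p - 1 + m) ≠ 0 := Nat.find_min h0 (by have := hp.pos; omega)
  have hfree : ∀ (u : P) (y : G), u ≠ 1 → IsConj (x : G) y → (u : G) * y * (u : G)⁻¹ = y →
      y ∈ (P : Subgroup G) := fun u y hu hy h6 => by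
    obtain ⟨g, rfl⟩ := isConj_iff.1 hy
    have h7 : ((g • P : Sylow p G) : Subgroup G) = zpowers (g * x * g⁻¹) := by
      have h7 : g * x * g⁻¹ ∈ ((g • P : Sylow p G) : Subgroup G) := mem_map_of_mem _ x.2
      refine (eq_of_le_of_card_ge (zpowers_le.2 h7) ?_).symm
      rw [Nat.card_zpowers, show orderOf (g * x * g⁻¹) = orderOf (x : G) from
        (MulAut.conj g).orderOf_eq x, orderOf_coe, hox, Sylow.card_eq_multiplicity, ← hPn,
        Sylow.card_eq_multiplicity]
    have h8 : zpowers (u : G) ≤ normalizer ((g • P : Sylow p G) : Set G) := by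
      refine zpowers_le.2 (centralizer_le_normalizer _ ?_)
      rw [← Sylow.coe_coe, h7, zpowers_eq_closure, centralizer_closure]
      exact mem_centralizer_singleton_iff.2 (mul_inv_eq_iff_eq_mul.1 h6)
    have h9 := (g • P).is_maximal' (isPGroup_sup_of_le_normalizer (g • P).isPGroup'
      (P.isPGroup'.to_le (zpowers_le.2 u.2)) h8) le_sup_right
    by_contra h10
    have h11 := hTI (g • P) fun h11 => h10 ((congrArg Sylow.toSubgroup h11).le (h7.ge (mem_zpowers _)))
    exact hu (Subtype.ext (mem_bot.1 (h11 ▸ ⟨u.2, h9 ▸ mem_sup_left (mem_zpowers _)⟩)))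
  obtain ⟨c, hc⟩ := sum_conj_eq (A := F) hfree (fun _ => AddMonoidHom.id F) (fun _ => 1) fun _ _ => rfl
  obtain ⟨β, hβ⟩ := sum_conj_eq (A := Module.End F V) hfree
    (fun u => (AddMonoidHom.mulRight (ρ (u : G)⁻¹)).comp
    (AddMonoidHom.mulLeft (ρ u))) (fun y => (ρ y - 1) ^ (p - 1)) fun u y => by
      have h6 : ρ (u : G)⁻¹ * ρ u = 1 := by rw [← map_mul, inv_mul_cancel, map_one]
      have h7 : ρ u * ρ (u : G)⁻¹ = 1 := by rw [← map_mul, mul_inv_cancel, map_one]
      have h8 := Units.conj_pow ⟨ρ u, ρ (u : G)⁻¹, h7, h6⟩ (ρ y - 1) (p - 1)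
      simp only [Units.inv_mk, mul_sub, sub_mul, mul_one, h7, ← map_mul] at h8
      exact h8
  have h6 : (((Finset.univ.filter fun y => IsConj (x : G) y ∧ y ∈ (P : Subgroup G)).card : ℕ) : F)
      ≠ 0 := by
    have h6 : (centralizer ({(x : G)} : Set G)).index =
        (Finset.univ.filter fun y => IsConj (x : G) y).card := by
      rw [← Fintype.card_subtype, ← Nat.card_eq_fintype_card, ← relIndex_top_right, ← card_ccl]
      exact Nat.card_congr (Equiv.subtypeEquivRight fun _ => mem_ccl_top)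
    simp only [Finset.sum_const, nsmul_eq_mul, mul_one, AddMonoidHom.id_apply, Finset.card_univ,
      ← Nat.card_eq_fintype_card, hPn, Nat.cast_pow, CharP.cast_eq_zero,
      zero_pow (by omega : n ≠ 0), zero_mul, add_zero] at hc
    rw [← hc, ← h6, Ne, CharP.cast_eq_zero_iff F p]
    refine fun h7 => P.not_dvd_index (h7.trans (index_dvd_of_le fun y hy => ?_))
    obtain ⟨j, hj⟩ := hx ⟨y, hy⟩
    exact mem_centralizer_singleton_iff.2
      (congrArg Subtype.val (hj ▸ Commute.zpow_self x j : Commute ⟨y, hy⟩ x))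
  have h7 : ∑ u : P, ρ u * β * ρ (u : G)⁻¹ =
      ∑ i ∈ Finset.range (p ^ n), ρ x ^ i * β * ρ (x : G)⁻¹ ^ i := by
    rw [← IsCyclic.image_range_orderOf hx, Finset.sum_image
      (by rw [Finset.coe_range]; exact pow_injOn_Iio_orderOf), hox]
    simp only [← map_pow, Subgroup.coe_pow, inv_pow]
  have h8 := tr_mul_pow (F := F) p (n := n) (m := m) (a := ρ x) (b := ρ (x : G)⁻¹)
    (by rw [← map_mul, mul_inv_cancel, map_one]) (by rw [← map_mul, inv_mul_cancel, map_one]) h4
    (by omega) β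
  have h9 := congrArg (· * (ρ x - 1) ^ m) hβ
  rw [add_mul, Finset.sum_mul (Finset.univ.filter fun y => _ ∧ _), Finset.sum_congr
    (s₁ := Finset.univ.filter fun y => _ ∧ _) rfl
    (g := fun _ => (ρ x - 1) ^ (p - 1 + m)) fun y hy => ?_, Finset.sum_const] at h9
  · erw [h7] at h9
    rw [h8, add_zero, ← Nat.cast_smul_eq_nsmul F] at h9
    set d := ∑ y with IsConj (x : G) y, (ρ y - 1) ^ (p - 1)
    have h10 : ∀ g, ρ g * d = d * ρ g := fun g => by
      rw [Finset.mul_sum, Finset.sum_mul]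
      refine Finset.sum_equiv (MulAut.conj g).toEquiv (fun y => ?_) fun y _ => ?_
      · simp only [Finset.mem_filter, Finset.mem_univ, true_and]
        exact ⟨fun h => h.trans (isConj_iff.2 ⟨_, rfl⟩),
          fun h => h.trans (isConj_iff.2 ⟨_, rfl⟩).symm⟩
      · refine SemiconjBy.pow_right ?_ _
        simp [SemiconjBy, mul_sub, sub_mul, ← map_mul]
    rcases hirr'.2 (LinearMap.ker d) fun g w hw => by
      rw [LinearMap.mem_ker, ← Module.End.mul_apply, ← h10, Module.End.mul_apply, hw, map_zero]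
      with h11 | h11
    · refine Nat.find_min h0 (m := m + 1) (by have := hp.two_le; omega) (LinearMap.ext fun w => ?_)
      refine LinearMap.ker_eq_bot.1 h11 ?_
      rw [← Module.End.mul_apply, pow_succ, ← mul_assoc, h9, smul_mul_assoc, ← pow_succ,
        show p - 1 + m + 1 = p + m by have := hp.pos; omega, h4]
      simp
    · rw [LinearMap.ker_eq_top.1 h11, zero_mul] at h9
      exact smul_ne_zero h6 h5 h9.symm
  obtain ⟨h10, h11⟩ := (Finset.mem_filter.1 hy).2
  obtain ⟨j, hj⟩ := mem_powers_iff_mem_zpowers.2 (hx ⟨y, h11⟩)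
  obtain rfl : (x : G) ^ j = y := congrArg Subtype.val hj
  rw [map_pow]
  refine pow_mul_pow_eq (F := F) p (fun h12 => ?_) h4
  obtain ⟨g, hg⟩ := isConj_iff.1 h10
  have h13 : orderOf ((x : G) ^ j) = orderOf (x : G) := hg ▸ (MulAut.conj g).orderOf_eq x
  rw [orderOf_pow, orderOf_coe, hox, Nat.div_eq_self] at h13
  exact h13.elim (pow_ne_zero n hp.ne_zero) fun h13 => hp.one_lt.ne' (Nat.dvd_one.1
    (h13 ▸ Nat.dvd_gcd (dvd_pow_self p (by omega)) h12))

end Cfsg.Agent.S4699
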