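import Cfsg.Statements.S4703
import Cfsg.Agent.Small.Fb9

set_option autoImplicit false
open Cfsg

namespace Cfsg.Agent.S4703

open CF.Small CF.PF

/-- Let G be a finite group whose centre Z has odd order, p > 7 a prime, and suppose a Sylow p-subgroup of G has order p and is not normal. Let ζ be a faithful irreducible character of G (only the identity lies in its kernel). Then either G/Z is isomorphic to PSL(2, p) and ζ has degree (p + 1)/2 or (p − 1)/2, or ζ has degree at least p − 2. -/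
theorem result {G : Type*} [Group G] [Finite G] (hZ : Odd (Nat.card (Subgroup.center G))) (p : ℕ) [Fact p.Prime] (hp : 7 < p) (P : Sylow p G) (hP : Nat.card P = p) (hnn : ¬ (P : Subgroup G).Normal) (ζ : G → ℂ) (hζ : Cfsg.IsIrrCharacter G ζ) (hfaith : ∀ g : G, ζ g = ζ 1 → g = 1) : ((∃ (F : Type) (_ : Field F) (_ : Fintype F), Fintype.card F = p ∧ Nonempty (G ⧸ Subgroup.center G ≃* Matrix.ProjectiveSpecialLinearGroup (Fin 2) F)) ∧ (2 * Cfsg.charDegree ζ = p + 1 ∨ 2 * Cfsg.charDegree ζ = p - 1)) ∨ p - 2 ≤ Cfsg.charDegree ζ := by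
  obtain ⟨S, hS⟩ := exists_pset_sylow P hP
  refine or_iff_not_imp_right.2 fun h => ?_
  obtain ⟨h1, h2, h3, h4⟩ := PSet.feit_low (S := S) (mem_irr_top.2 hζ)
    (eq_bot_iff.2 fun g hg => hfaith g (apply_of_mem_ker hg)) (by omega) (by rwa [PSet.P, hS])
  have h5 : p = 2 * S.fi + 1 := h2.elim id fun ⟨m, h5, h6⟩ => by
    have := (h4 m h5 h6).2 hZ; omega
  clear h2
  exact ⟨⟨ZMod p, _, _, ZMod.card p, h3 h5 (.inr hp) _ (ZMod.card p)⟩, by omega⟩

end Cfsg.Agent.S4703
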