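import Cfsg.Statements.S4704
import Cfsg.Agent.Small.Fb9

set_option autoImplicit false
open Cfsg

namespace Cfsg.Agent.S4704

open CF.Small CF.PF

/-- Let G be a finite group with centre Z, p > 7 a prime, and suppose a Sylow p-subgroup of G has order p and is not normal. Let ζ be a faithful irreducible character of G and t the number of conjugacy classes of G consisting of elements of order p. Then one of the following holds: G/Z is isomorphic to PSL(2, p), ζ has degree (p + 1)/2 or (p − 1)/2 and t = 2; or ζ has degree at least p − 1; or ζ has degree at least p + 3/2 − √(p + 5/4) and p ≤ t^2 − 3t + 1. -/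
theorem result {G : Type*} [Group G] [Finite G] (p : ℕ) [Fact p.Prime] (hp : 7 < p) (P : Sylow p G) (hP : Nat.card P = p) (hnn : ¬ (P : Subgroup G).Normal) (ζ : G → ℂ) (hζ : Cfsg.IsIrrCharacter G ζ) (hfaith : ∀ g : G, ζ g = ζ 1 → g = 1) (t : ℕ) (ht : Nat.card {c : ConjClasses G // ∃ g : G, ConjClasses.mk g = c ∧ orderOf g = p} = t) : ((∃ (F : Type) (_ : Field F) (_ : Fintype F), Fintype.card F = p ∧ Nonempty (G ⧸ Subgroup.center G ≃* Matrix.ProjectiveSpecialLinearGroup (Fin 2) F)) ∧ (2 * Cfsg.charDegree ζ = p + 1 ∨ 2 * Cfsg.charDegree ζ = p - 1) ∧ t = 2) ∨ p - 1 ≤ Cfsg.charDegree ζ ∨ ((p : ℝ) + 3 / 2 - Real.sqrt ((p : ℝ) + 5 / 4) ≤ (Cfsg.charDegree ζ : ℝ) ∧ (p : ℤ) ≤ (t : ℤ) ^ 2 - 3 * t + 1) := by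
  obtain ⟨S, hS⟩ := exists_pset_sylow P hP
  refine or_iff_not_imp_right.2 fun h => ?_
  rw [not_or] at h
  obtain ⟨h1, h2, h3, h4⟩ := PSet.feit_low (S := S) (mem_irr_top.2 hζ)
    (eq_bot_iff.2 fun g hg => hfaith g (apply_of_mem_ker hg)) (by omega) (by rwa [PSet.P, hS])
  have h5 := S.card_classes
  simp only [ConjClasses.mem_carrier_iff_mk_eq, ht] at h5
  rcases h2 with h2 | ⟨m, h2, h6⟩
  · exact ⟨⟨ZMod p, _, _, ZMod.card p, h3 h2 (.inr hp) _ (ZMod.card p)⟩, by omega,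
      Nat.eq_of_mul_eq_mul_right S.fi_pos (by omega)⟩
  have h7 := (h4 m h2 h6).1 hp
  have h8 := Nat.mul_le_mul_right S.fi h2
  obtain rfl : t = m + 1 := Nat.eq_of_mul_eq_mul_right S.fi_pos (by rw [add_mul]; omega)
  refine (h.2 ⟨?_, by push_cast; nlinarith⟩).elim
  have h9 : (Cfsg.charDegree ζ : ℝ) + S.fi = p := by exact_mod_cast h1.resolve_right (by omega)
  have h10 : (p : ℝ) = m * S.fi + 1 + S.fi := by exact_mod_cast h6
  have h11 : (S.fi : ℝ) + 2 ≤ m := by exact_mod_cast h7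
  have := Real.le_sqrt_of_sq_le (x := S.fi + 3 / 2) (y := p + 5 / 4) (by
    nlinarith [Nat.cast_nonneg (α := ℝ) S.fi])
  linarith

end Cfsg.Agent.S4704
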