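import Cfsg.Statements.S4707
import Cfsg.Agent.Small.Lo4
import Cfsg.Agent.Classical.SmallRecog

set_option autoImplicit false
open Cfsg

namespace Cfsg.Agent.S4707

open CF.Small CF Subgroup

/-- Let p > 3 be a prime and G a primitive permutation group of degree 2p that is not doubly transitive. If a Sylow p-subgroup of G has normalizer of order 2p, then p = 5 and G is isomorphic to the alternating group of degree 5. -/
theorem result {α : Type*} [Fintype α] [DecidableEq α] {p : ℕ} [Fact p.Prime] (hp : 3 < p) (hα : Fintype.card α = 2 * p) (G : Subgroup (Equiv.Perm α)) (hprim : MulAction.IsPreprimitive G α) (hnot2 : ¬ MulAction.IsMultiplyPretransitive G α 2) (P : Sylow p G) (hN : Nat.card (Subgroup.normalizer ((P : Subgroup G) : Set G)) = 2 * p) : p = 5 ∧ Nonempty (G ≃* alternatingGroup (Fin 5)) := by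
  have hα' : Nat.card α = 2 * p := by simpa using hα
  obtain ⟨S, e⟩ := exists_pset_sylow P (card_sylow_of_normalizer (by omega) P hN
    ((dvd_mul_left p 2).trans (hN ▸ card_subgroup_dvd_card _)))
  obtain ⟨_, hG, ζ, h⟩ := PSet.perm_lo (S := S) (X := α) (by rw [← hN, ← e]) (fun h => by
    have := Nat.le_of_dvd Nat.card_pos (card_dvd_of_normal (X := α) (zpowers_ne_bot.2 S.z_ne_one))
    rw [S.card_P] at this
    omega) (by omega) (.inr ⟨hα', hp, hnot2⟩)
  have : Nontrivial α := Finite.one_lt_card_iff_nontrivial.1 (by omega)
  obtain ⟨x⟩ : Nonempty α := inferInstance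
  exact ((h.cases hG).resolve_right fun k => h.not_coatom hG k.1
    (MulAction.IsPreprimitive.isCoatom_stabilizer_of_isPreprimitive G x)
    ((MulAction.index_stabilizer_of_transitive G x).trans hα')).imp_right Classical.equiv_A5_of_simple

end Cfsg.Agent.S4707
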