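import Cfsg.Statements.S4708
import Cfsg.Agent.Block.Prin

set_option autoImplicit false
open Cfsg

namespace Cfsg.Agent.S4708

open CF.Block CF Subgroup

/-- Let p be a prime, M a maximal ideal of the algebraic integers containing p, G a finite group and H a normal subgroup. Write λ(X) for the sum of the squares of the degrees of the irreducible characters in the principal p-block of a group X. Then λ(H) ≤ λ(G) ≤ [G : H]·λ(H). -/
theorem result {G : Type*} [Group G] [Finite G] (p : ℕ) [Fact p.Prime] (M : Ideal Cfsg.AlgInt) (hM : Cfsg.IsPModular p M) (H : Subgroup G) [H.Normal] : (∑ᶠ θ ∈ Cfsg.principalBlock M H, Cfsg.charDegree (θ : H → ℂ) ^ 2) ≤ (∑ᶠ χ ∈ Cfsg.principalBlock M G, Cfsg.charDegree (χ : G → ℂ) ^ 2) ∧ (∑ᶠ χ ∈ Cfsg.principalBlock M G, Cfsg.charDegree (χ : G → ℂ) ^ 2) ≤ H.index * ∑ᶠ θ ∈ Cfsg.principalBlock M H, Cfsg.charDegree (θ : H → ℂ) ^ 2 := by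
  classical
  have := Fintype.ofFinite G
  have := Fintype.ofFinite H
  set B := Cfsg.principalBlock M G
  set b := Cfsg.principalBlock M H
  have hR := Char.char_restrict (BlockB.regB_isCharacter B) H
  -- multiplicities
  have hm : ∀ θ : Cfsg.IrrCharacter H, ∃ n : ℕ,
      Cfsg.classInner (fun x : H => BlockB.regB B x) (θ : H → ℂ) = n :=
    fun θ => Char.inner_char_eq_nat hR (Char.irr_isCharacter θ.2)
  choose m hm using hm
  have hsum : (∑ᶠ χ ∈ B, Cfsg.charDegree (χ : G → ℂ) ^ 2) =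
      ∑ θ : Cfsg.IrrCharacter H, m θ * Cfsg.charDegree (θ : H → ℂ) := by
    have h1 := Char.classFun_apply_eq_sum (Char.char_isClassFunction hR) 1
    have h2 := regB_one_eq B
    simp only [OneMemClass.coe_one] at h1
    rw [h2] at h1
    have : ((∑ᶠ χ ∈ B, Cfsg.charDegree (χ : G → ℂ) ^ 2 : ℕ) : ℂ) =
        ((∑ θ : Cfsg.IrrCharacter H, m θ * Cfsg.charDegree (θ : H → ℂ) : ℕ) : ℂ) := by
      rw [h1]; push_cast
      refine Finset.sum_congr rfl fun θ _ => ?_
      rw [hm, BlockB.irr_charDegree_eq]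
    exact_mod_cast this
  have hmult : ∀ θ : Cfsg.IrrCharacter H, ∀ χ : Cfsg.IrrCharacter G, ∃ n : ℕ,
      Cfsg.classInner (fun x : H => (χ : G → ℂ) x) (θ : H → ℂ) = n :=
    fun θ χ => Char.inner_char_eq_nat (Char.char_restrict (Char.irr_isCharacter χ.2) H)
      (Char.irr_isCharacter θ.2)
  choose e he using hmult
  have hme : ∀ θ, m θ = ∑ χ with χ ∈ B, Cfsg.charDegree (χ : G → ℂ) * e θ χ := by
    intro θ
    have : (m θ : ℂ) = ((∑ χ with χ ∈ B, Cfsg.charDegree (χ : G → ℂ) * e θ χ : ℕ) : ℂ) := by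
      rw [← hm]
      have : (fun x : H => BlockB.regB B x) =
          ∑ χ with χ ∈ B, (χ : G → ℂ) 1 • fun x : H => (χ : G → ℂ) x := by
        funext x; rw [BlockB.regB_apply]; simp [Finset.sum_apply]
      rw [this, Char.inner_sum_left]; push_cast
      refine Finset.sum_congr rfl fun χ _ => ?_
      rw [Char.inner_smul_left, he, BlockB.irr_charDegree_eq]
    exact_mod_cast this
  have hall : ∀ θ : Cfsg.IrrCharacter H, ∑ χ : Cfsg.IrrCharacter G,
      Cfsg.charDegree (χ : G → ℂ) * e θ χ = H.index * Cfsg.charDegree (θ : H → ℂ) := by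
    intro θ
    have h1 := Char.classFun_apply_eq_sum (Char.indFun_isClassFunction H (θ : H → ℂ)) 1
    rw [Char.indFun_one] at h1
    have : ((∑ χ : Cfsg.IrrCharacter G, Cfsg.charDegree (χ : G → ℂ) * e θ χ : ℕ) : ℂ) =
        ((H.index * Cfsg.charDegree (θ : H → ℂ) : ℕ) : ℂ) := by
      push_cast
      rw [BlockB.irr_charDegree_eq, h1]
      refine Finset.sum_congr rfl fun χ _ => ?_
      rw [Char.inner_indFun_left _ _ (Char.irr_isClassFunction χ.2),
        Char.inner_char_comm (Char.irr_isCharacter θ.2)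
          (Char.char_restrict (Char.irr_isCharacter χ.2) H), he, BlockB.irr_charDegree_eq,
        mul_comm]
    exact_mod_cast this
  have hlo : ∀ θ ∈ b, Cfsg.charDegree (θ : H → ℂ) ≤ m θ := by
    intro θ hθ
    obtain ⟨χ, hχ, h⟩ := exists_over_pb hM hθ
    have h1 : Cfsg.charDegree (θ : H → ℂ) ≤ Cfsg.charDegree (χ : G → ℂ) :=
      Char.irr_one_le_of_inner_ne_zero (Char.char_restrict (Char.irr_isCharacter χ.2) H) θ.2 h
        (BlockB.irr_charDegree_eq θ).symm (by simpa using (BlockB.irr_charDegree_eq χ).symm)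
    have h2 : 1 ≤ e θ χ := by
      rw [he] at h; exact Nat.one_le_iff_ne_zero.2 (by exact_mod_cast h)
    rw [hme]
    calc _ ≤ Cfsg.charDegree (χ : G → ℂ) * e θ χ := h1.trans (Nat.le_mul_of_pos_right _ h2)
      _ ≤ _ := Finset.single_le_sum (f := fun χ : Cfsg.IrrCharacter G =>
          Cfsg.charDegree (χ : G → ℂ) * e θ χ) (fun _ _ => Nat.zero_le _) (by simpa using hχ)
  have hhi : ∀ θ, m θ ≤ H.index * Cfsg.charDegree (θ : H → ℂ) := by
    intro θ
    rw [hme, ← hall]
    exact Finset.sum_le_sum_of_subset (Finset.filter_subset _ _)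
  have hz : ∀ θ, θ ∉ b → m θ = 0 := by
    intro θ hθ
    rw [hme]
    refine Finset.sum_eq_zero fun χ hχ => ?_
    have : e θ χ = 0 := by
      by_contra h0
      exact hθ (mem_pb_of_under hM (by simpa using hχ) (by rw [he]; exact_mod_cast h0))
    simp [this]
  have hsum' : ∑ θ : Cfsg.IrrCharacter H, m θ * Cfsg.charDegree (θ : H → ℂ) =
      ∑ θ with θ ∈ b, m θ * Cfsg.charDegree (θ : H → ℂ) := by
    symm
    refine Finset.sum_subset (Finset.filter_subset _ _) fun θ _ h => ?_
    rw [hz θ (by simpa using h), zero_mul]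
  rw [hsum, hsum', BlockB.finsum_mem_irr, Finset.mul_sum]
  refine ⟨Finset.sum_le_sum fun θ hθ => ?_, Finset.sum_le_sum fun θ hθ => ?_⟩
  · rw [sq]; exact Nat.mul_le_mul_right _ (hlo θ (by simpa using hθ))
  · rw [sq, ← mul_assoc]; exact Nat.mul_le_mul_right _ (hhi θ)

end Cfsg.Agent.S4708
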