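import Cfsg.Statements.S4711
import Cfsg.Agent.PLocal.ChA
import Cfsg.Agent.BlockB.Column
import Cfsg.Agent.Block.Misc

set_option autoImplicit false
open Cfsg

namespace Cfsg.Agent.S4711

open Subgroup CF.BG CF.Char CF.BlockB in
open scoped ComplexConjugate in
theorem aux {G : Type*} [Group G] [Finite G] {p : ℕ} [Fact p.Prime] {M : Ideal Cfsg.AlgInt}
    (hM : Cfsg.IsPModular p M) {P : Subgroup G} (hP : Syl p P ⊤)
    (h : ∀ χ ∈ Cfsg.principalBlock M G, Cfsg.IsIrrCharacter (𝐍 P) (fun n : 𝐍 P => (χ : G → ℂ) n)) :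
    PLen1 p (⊤ : Subgroup G) := by
  classical
  have hp : p.Prime := Fact.out
  have := Fintype.ofFinite G
  set B := Cfsg.principalBlock M G
  have hB : nrm M (eSet B) ≤ 1 := nrm_eSet_le_one hM isPBlock_principalBlock
  set R := normalClosure (P : Set G)
  let c : IrrCharacter G → ℂ := fun χ => ∑ u : P, conj ((χ : G → ℂ) u)
  have h1 : ∀ y : G, ¬ p ∣ orderOf y →
      ∑ χ ∈ Finset.univ.filter (· ∈ B), (χ : G → ℂ) y * c χ =
        ∑ χ ∈ Finset.univ.filter (· ∈ B), (χ : G → ℂ) y * (χ : G → ℂ) 1 := by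
    intro y hy
    simp only [c, Finset.mul_sum]
    rw [Finset.sum_comm, Finset.sum_eq_single (1 : P)]
    · exact Finset.sum_congr rfl fun χ _ => by rw [OneMemClass.coe_one, irr_conj_one χ.2]
    · intro u _ hu
      have := sum_block_mul_mul_eq_zero hM hB (a := y) (b := 1) (u := u) fun a b hc => by
        rw [mul_one, mul_inv_cancel, mul_one, pPart_conj, pPart_of_pRegular hp hy,
          pPart_of_pElement hp (exists_orderOf_of_mem hp hP.pi.isPGroup u.2)] at hc
        simp only [mul_one, mul_inv_cancel, isConj_one_right, isConj_one_left,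
          OneMemClass.coe_eq_one] at hc
        exact hu hc
      rw [← this]
      refine Finset.sum_congr rfl fun χ _ => ?_
      have := irr_one_ne_zero χ.2
      field_simp
    · simp
  have h2 : ∀ χ ∈ B, ∀ y ∈ R, (χ : G → ℂ) y * c χ = (χ : G → ℂ) 1 * c χ := by
    intro χ hχ y hy
    by_cases h0 : c χ = 0
    · rw [h0, mul_zero, mul_zero]
    have := (normalIn_norm P).normal
    have h3 : P.subgroupOf (𝐍 P) ≤ charKer (fun n : 𝐍 P => (χ : G → ℂ) n) := by
      refine le_charKer_of_sum_ne_zero (h χ hχ) _ fun e => h0 ?_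
      simp only [c]
      rw [← map_sum, map_eq_zero, ← e]
      exact (Fintype.sum_equiv (subgroupOfEquivOfLe (le_norm_self P)).toEquiv _ _
        fun _ => rfl).symm
    rw [charKer_restrict (irr_isCharacter χ.2)] at h3
    haveI := charKer_normal (irr_isClassFunction χ.2)
    have h4 : R ≤ charKer (χ : G → ℂ) :=
      normalClosure_le_normal fun x hx => h3 (x := ⟨x, le_norm_self P hx⟩) hx
    rw [(mem_charKer_iff (irr_isCharacter χ.2)).1 (h4 hy)]
  have h3 : ∀ y ∈ R, ¬ p ∣ orderOf y → ∀ χ ∈ B, (χ : G → ℂ) y = (χ : G → ℂ) 1 := by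
    intro y hy hy' χ hχ
    have e : ∑ χ ∈ Finset.univ.filter (· ∈ B), (χ : G → ℂ) y * (χ : G → ℂ) 1 =
        ∑ χ ∈ Finset.univ.filter (· ∈ B), (χ : G → ℂ) 1 * (χ : G → ℂ) 1 := by
      rw [← h1 y hy', ← h1 1 (by simpa using hp.ne_one)]
      exact Finset.sum_congr rfl fun χ hχ => h2 χ (by simpa using hχ) y hy
    have e' := congrArg Complex.re e
    rw [Complex.re_sum, Complex.re_sum] at e'
    have hle : ∀ χ : IrrCharacter G, ((χ : G → ℂ) y * (χ : G → ℂ) 1).re ≤
        ((χ : G → ℂ) 1 * (χ : G → ℂ) 1).re := fun χ => by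
      obtain ⟨n, -, hn⟩ := irr_one_eq_nat χ.2
      have := char_re_le (irr_isCharacter χ.2) y
      rw [hn] at this ⊢
      simp only [Complex.mul_re, Complex.natCast_re, Complex.natCast_im, mul_zero, sub_zero] at this ⊢
      exact mul_le_mul_of_nonneg_right this (Nat.cast_nonneg _)
    have := (Finset.sum_eq_sum_iff_of_le fun χ _ => hle χ).1 e' χ (by simpa using hχ)
    obtain ⟨n, hn0, hn⟩ := irr_one_eq_nat χ.2
    refine char_eq_one_of_re (irr_isCharacter χ.2) ?_
    rw [hn] at this ⊢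
    simp only [Complex.mul_re, Complex.natCast_re, Complex.natCast_im, mul_zero, sub_zero] at this ⊢
    exact mul_right_cancel₀ (by exact_mod_cast hn0.ne') this
  let K : Subgroup G := ⨅ χ : B, charKer (χ.1 : G → ℂ)
  have hK : K.Normal := Subgroup.normal_iInf_normal fun χ => charKer_normal (irr_isClassFunction χ.1.2)
  have hK' : PiGrp {p}ᶜ K := piGrp_of_forall_elt fun x hx => (piNat_compl_single hp).2
    (not_dvd_of_forall_eq hM hB ⟨_, oneIrr_mem_principalBlock hM⟩ fun χ hχ =>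
      (mem_charKer_iff (irr_isCharacter χ.2)).1 (mem_iInf.1 hx ⟨χ, hχ⟩))
  have hR : R ⊴ ⊤ := normalIn_top.2 inferInstance
  refine pLen1_of_npc hR (npc_of_normal ((normalIn_top.2 hK).inf_right le_top) hK'.inf_left
    fun q hq hd => by_contra fun hqp => ?_) (hP.idx_of_le le_normalClosure)
  obtain ⟨S, hS⟩ := exists_syl q R
  refine (hS.idx_of_le (K := K ⊓ R) (le_inf (fun x hx => mem_iInf.2 fun χ =>
    (mem_charKer_iff (irr_isCharacter χ.1.2)).2 (h3 x (hS.le hx) ?_ _ χ.2)) hS.le)) q hq hd rfl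
  exact fun hd => hqp (hS.pi.elt hx p hp hd).symm

/-- Let p be a prime, M a maximal ideal of the algebraic integers containing p, G a finite group, P a Sylow p-subgroup and N = N_G(P). Then G has p-length 1 (G = O_{p',p,p'}(G)) if and only if every irreducible character in the principal p-block of G restricts to an irreducible character of N. -/
theorem result {G : Type*} [Group G] [Finite G] (p : ℕ) [Fact p.Prime] (M : Ideal Cfsg.AlgInt) (hM : Cfsg.IsPModular p M) (P : Sylow p G) : Cfsg.PLengthLE p 1 G ↔ ∀ χ ∈ Cfsg.principalBlock M G, Cfsg.IsIrrCharacter ↥(Subgroup.normalizer ((P : Subgroup G) : Set G)) (fun n : ↥(Subgroup.normalizer ((P : Subgroup G) : Set G)) => (χ : G → ℂ) n) := by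
  have hp : p.Prime := Fact.out
  rw [CF.BG.pLengthLE_top_iff hp]
  refine ⟨fun h χ hχ => ?_, aux hM (CF.BG.syl_sylow_top P)⟩
  have h1 := h.frattini (CF.BG.syl_sylow_top P)
  rw [top_inf_eq] at h1
  set O := Cfsg.piCoreOf {p}ᶜ (⊤ : Subgroup G)
  haveI : O.Normal := CF.BG.normalIn_top.1 (CF.BG.O_normal _ _)
  have h2 : O ≤ CF.Char.charKer (χ : G → ℂ) := CF.Block.le_charKer_of_sameBlock hM O
    ((CF.BG.piNat_compl_single hp).1 (CF.BG.O_pi _ _)) CF.Char.irr_one χ.2 hχ
    (by rw [CF.Char.charKer_one]; exact le_top)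
  obtain ⟨ψ, hψ, e⟩ := CF.Char.exists_irr_quotient χ.2 O h2
  rw [e]
  refine CF.Char.irr_comp_of_surjective hψ ((QuotientGroup.mk' O).comp (Subgroup.subtype _))
    fun y => ?_
  obtain ⟨g, rfl⟩ := QuotientGroup.mk'_surjective O y
  obtain ⟨k, hk, n, hn, rfl⟩ := (CF.BG.mem_sup_norm' (H := O) (le_top.trans
    (CF.BG.normalIn_top.2 inferInstance).norm)).1 (h1.ge (Subgroup.mem_top g))
  exact ⟨⟨n, hn⟩, by simp [(QuotientGroup.eq_one_iff k).2 hk]⟩

end Cfsg.Agent.S4711
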