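import Cfsg.Statements.S4714
import Cfsg.Agent.BlockB.Central
-- import your own Cfsg.Agent.* helpers here

set_option autoImplicit false
open Cfsg

namespace Cfsg.Agent.S4714

/-- Let p be a prime, M a maximal ideal of the algebraic integers containing p, D a p-subgroup of the finite group G with G = D·C_G(D), and B a p-block with defect group D. Let χ be a member of B having D in its kernel (there is exactly one, the canonical character of B). Then the irreducible characters in B are exactly the functions θ on G for which there is an irreducible character ζ of D such that θ(yx) = ζ(y)χ(x) whenever y ∈ D, x has order prime to p and x commutes with y, and θ(z) = 0 whenever the p-part of z does not lie in D. -/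
theorem result {G : Type*} [Group G] [Finite G] (p : ℕ) [Fact p.Prime] (M : Ideal Cfsg.AlgInt) (hM : Cfsg.IsPModular p M) (D : Subgroup G) (hD : IsPGroup p D) (hG : D ⊔ Subgroup.centralizer (D : Set G) = ⊤) (B : Set (Cfsg.IrrCharacter G)) (hB : Cfsg.IsPBlock M B) (hBD : Cfsg.IsDefectGroup p M B D) (χ : Cfsg.IrrCharacter G) (hχ : χ ∈ B) (hχD : ∀ y ∈ D, (χ : G → ℂ) y = (χ : G → ℂ) 1) : (∀ θ : Cfsg.IrrCharacter G, θ ∈ B ↔ ∃ ζ : Cfsg.IrrCharacter D, (∀ (y : D) (x : G), ¬ p ∣ orderOf x → Commute (y : G) x → (θ : G → ℂ) ((y : G) * x) = (ζ : D → ℂ) y * (χ : G → ℂ) x) ∧ (∀ z : G, (∀ y : G, Cfsg.IsPPart p z y → y ∉ D) → (θ : G → ℂ) z = 0)) ∧ ∀ ζ : Cfsg.IrrCharacter D, ∃ θ ∈ B, (∀ (y : D) (x : G), ¬ p ∣ orderOf x → Commute (y : G) x → (θ : G → ℂ) ((y : G) * x) = (ζ : D → ℂ) y * (χ : G → ℂ) x) ∧ (∀ z : G, (∀ y : G, Cfsg.IsPPart p z y → y ∉ D) → (θ : G → ℂ) z = 0) := by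
  have hp := hM.1
  have h := CF.BlockB.canon_of_defectGroup hM hB hBD hG hχ
    fun x hx => (CF.Char.mem_charKer_iff (CF.Char.irr_isCharacter χ.2)).2 (hχD x hx)
  have key : ∀ (θ : G → ℂ) (ζ : D → ℂ), θ = CF.BlockB.tw p D ζ χ ↔
      (∀ (y : D) (x : G), ¬ p ∣ orderOf x → Commute (y : G) x →
        θ ((y : G) * x) = ζ y * (χ : G → ℂ) x) ∧
      (∀ z : G, (∀ y : G, Cfsg.IsPPart p z y → y ∉ D) → θ z = 0) := by
    intro θ ζ
    constructor
    · rintro rfl
      exact ⟨fun y x hx hc => CF.BlockB.tw_mul hp _ _ y (CF.BlockB.exists_orderOf_of_mem hp hD y.2) hx hc,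
        fun z hz => CF.BlockB.tw_of_notMem _ _ (hz _ (CF.BlockB.isPPart_pPart hp z))⟩
    · rintro ⟨h1, h2⟩
      ext g
      by_cases hg : CF.BlockB.pPart p g ∈ D
      · rw [CF.BlockB.tw, CF.Char.extendByZero_of_mem D _ hg, ← h1 ⟨_, hg⟩ _
          (CF.BlockB.pReg_pRegular hp g) (CF.BlockB.commute_pPart_pReg g), CF.BlockB.pPart_mul_pReg]
      · rw [CF.BlockB.tw_of_notMem _ _ hg, h2 g fun y hy => (CF.BlockB.isPPart_iff hp).1 hy ▸ hg]
  have hB' := CF.BlockB.block_eq_blockOf hM hB hχ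
  refine ⟨fun θ => ?_, fun ζ => ⟨h.twIrr hp ζ, hB' ▸ (h.mem_iff hM).2 ⟨ζ, rfl⟩, (key _ _).1 rfl⟩⟩
  rw [hB', h.mem_iff hM]
  exact exists_congr fun ζ => key _ _

end Cfsg.Agent.S4714
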