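import Cfsg.Statements.S4715
import Cfsg.Agent.Block.Sub
import Cfsg.Agent.Block.CoverRed

set_option autoImplicit false
open Cfsg

namespace Cfsg.Agent.S4715

open CF.Block CF Subgroup

/-- Let p be a prime, M a maximal ideal of the algebraic integers containing p, B a p-block of the finite group G with defect group D of order p^d, H = D·C_G(D), b a block of H inducing B, T the stabilizer of b in N_G(D) and e = [T : H] the inertial index of B; let n be the integer with p^n ≤ e < p^(n+1) and p^c the order of the centre of D. Then every irreducible character in B has height h with h + c ≤ n + d. -/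
theorem result {G : Type*} [Group G] [Finite G] (p : ℕ) [Fact p.Prime] (M : Ideal Cfsg.AlgInt) (hM : Cfsg.IsPModular p M) (B : Set (Cfsg.IrrCharacter G)) (hB : Cfsg.IsPBlock M B) (D : Subgroup G) (hBD : Cfsg.IsDefectGroup p M B D) (d : ℕ) (hDd : Nat.card D = p ^ d) (H : Subgroup G) (hH : H = D ⊔ Subgroup.centralizer (D : Set G)) (b : Set (Cfsg.IrrCharacter H)) (hind : Cfsg.IsInducedBlock M H b B) (T : Subgroup G) (hT : ∀ g : G, g ∈ T ↔ (g ∈ Subgroup.normalizer (D : Set G) ∧ ∀ θ ∈ b, ∀ θ' : Cfsg.IrrCharacter H, (∀ h h' : H, (h' : G) = g * h * g⁻¹ → (θ' : H → ℂ) h' = (θ : H → ℂ) h) → θ' ∈ b)) (e : ℕ) (he : H.relIndex T = e) (n : ℕ) (hn : p ^ n ≤ e ∧ e < p ^ (n + 1)) (c : ℕ) (hc : Nat.card (Subgroup.center D) = p ^ c) : ∀ χ ∈ B, Cfsg.blockHeight p B (χ : G → ℂ) + c ≤ n + d := by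
  classical
  have := BlockB.charP_k hM
  have := Fintype.ofFinite G
  have := Fintype.ofFinite D
  subst hH
  intro χ hχ
  have hD := (isDefectGroup_iff hM hB D).1 hBD
  have h1 := IsInducedBlock.induces hM hind
  set f := ebs M _ b with hf
  have hm : MaxPair p ⊤ (eb M B) D f :=
    (Induces.bPair_of_sup (by rwa [Cz_top]) hD.isP).maxPair hD
  have hT' : T = stab (Nz ⊤ D) f := by
    ext g
    rw [hT, mem_stab, Nz_top]
    refine and_congr_right fun hg => stabB_iff hM hind.1 ?_
    exact normalizer_inf_le_normalizer_sup _ _ ⟨hg, normalizer_le_normalizer_centralizer D hg⟩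
  obtain rfl : d = blockDefect p B :=
    Nat.pow_right_injective hM.1.two_le (hDd.symm.trans (BlockB.card_defectGroup hM hB hBD))
  set Z := D ⊓ centralizer (D : Set G) with hZ
  have := Fintype.ofFinite Z
  have hZc : Nat.card Z = p ^ c := by
    rw [← hc, ← card_map_of_injective D.subtype_injective]
    congr 2
    ext x
    exact ⟨fun hx => ⟨⟨x, hx.1⟩, mem_center_iff.2 fun y => Subtype.ext (hx.2 y y.2), rfl⟩,
      fun ⟨y, hy, h⟩ => h ▸ ⟨y.2, fun z hz => congrArg Subtype.val (mem_center_iff.1 hy ⟨z, hz⟩)⟩⟩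
  have hcen : ∀ {u : G}, u ∈ Z → D ≤ BlockB.Cen u := fun hu => le_centralizer_singleton_iff.2 hu.2
  have hel : ∀ {u : G}, u ∈ D → ∃ k, orderOf u = p ^ k := BlockB.exists_orderOf_of_mem hM.1 hD.isP
  have hbl : ∀ {u : G}, u ∈ D → IsPBlock M (sbl p D f u) := fun hu =>
    (sbl_spec hM hm.bpair.pair hu).1
  set F : G → ℝ := fun u => ‖BlockB.cm p (sbl p D f u) u χ χ‖ with hF
  have h2 : (Nat.card Z : ℝ) * (p : ℝ) ^ blockHeight p B (χ : G → ℂ) ≤
      ∑ u : Z, (p : ℝ) ^ blockDefect p B * F u :=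
    card_mul_le_sum_of_gens Z (F := fun u => (p : ℝ) ^ blockDefect p B * F u) fun x hx => by
      have h3 := blockDefect_sbl_of_le hM hB hm hx.1 (hcen hx)
      have h4 := BlockB.card_mul_le_sum_norm_gen hM (BlockB.gen_cm hM
        (BlockB.nrm_eSet_le_one hM (hbl hx.1)) (BlockB.commute_zpowers_of_le le_rfl)
        (Char.gen_of_irr χ.2) (Char.gen_of_irr χ.2)) _ BlockB.gens_pow (fun u hu =>
          mul_ne_zero (pow_ne_zero _ (Nat.cast_ne_zero.2 hM.1.ne_zero))
            (BlockB.cm_self_ne_zero_of_major hM (hel (zpowers_le_of_mem hx.1 u.2))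
              (BlockB.cen_eq_of_mem_gens hu).symm (isInducedBlock_sbl hM hB hm.bpair hx.1) h3 hχ))
        (k := blockHeight p B (χ : G → ℂ)) fun u hu => h3 ▸ BlockB.v_cm_le_pow_height hM
          (hel (zpowers_le_of_mem hx.1 u.2)) (BlockB.cen_eq_of_mem_gens hu).symm
          (Char.gen_of_irr χ.2) hχ
      refine h4.trans_eq (Finset.sum_congr rfl fun u hu => ?_)
      rw [norm_mul, norm_pow, Complex.norm_natCast, h3, hF]
      simp only [cm_sbl_of_zpowers_eq hM hm.bpair.pair hx.1 (BlockB.zpowers_eq_of_mem_gens hu)]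
  have h3 : ∑ u : D, F u / fcard p D f u = 1 := by
    have h4 := sum_cm_div_fcard hM hB hm (BlockB.inSpan_irr hχ) (Char.irr_isClassFunction χ.2)
    rw [Char.inner_irr_self χ.2, Finset.sum_congr rfl fun u _ => by
      rw [BlockB.cm_self_eq_norm hM (BlockB.nrm_eSet_le_one hM (hbl u.2))]] at h4
    exact_mod_cast h4
  have h4 : ∑ u : Z, F u ≤ e := by
    have h5 : ∀ u : Z, F u = ∑ w : D, if FConj p D f u w then F w / fcard p D f w else 0 := by
      intro u
      rw [← Finset.sum_filter, Finset.sum_congr rfl fun w hw => (?_ : _ = F u / fcard p D f u),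
        Finset.sum_const, nsmul_eq_mul, ← Fintype.card_subtype, ← Nat.card_eq_fintype_card,
        ← fcard, mul_div_cancel₀ _ (Nat.cast_ne_zero.2 (fcard_ne_zero hM hm.bpair.pair u.2.1))]
      have hw := (Finset.mem_filter.1 hw).2
      simp only [hF]
      rw [hw.cm_eq hM hm.bpair.pair (Char.irr_isClassFunction χ.2) (Char.irr_isClassFunction χ.2),
        hw.fcard_eq hM hm.bpair.pair]
    rw [Finset.sum_congr rfl fun u _ => h5 u, Finset.sum_comm, ← mul_one (e : ℝ), ← h3,
      Finset.mul_sum]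
    refine Finset.sum_le_sum fun w _ => ?_
    rw [← Finset.sum_filter, Finset.sum_const, nsmul_eq_mul]
    refine mul_le_mul_of_nonneg_right (Nat.cast_le.2 ?_) (by positivity)
    rcases (Finset.univ.filter fun u : Z => FConj p D f u w).eq_empty_or_nonempty with h | ⟨u, hu⟩
    · simp [h]
    have hu := (Finset.mem_filter.1 hu).2
    have h6 : Nat.card (ccl T (u : G)) ≤ e := by
      rw [card_ccl, ← he]
      exact relIndex_le_of_le_left (sup_le (hcen u.2) (centralizer_le (by simpa using u.2.1)))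
        (relIndex_ne_zero' _ _)
    refine le_trans ?_ h6
    rw [← Fintype.card_subtype, ← Nat.card_eq_fintype_card]
    refine Nat.card_le_card_of_injective (fun w => ⟨w.1, ?_⟩) fun a b h =>
      Subtype.ext (Subtype.ext (Subtype.mk.inj h))
    rw [hT']
    exact (hu.trans hM hm.bpair.pair w.2.symm).exists_stab hM hm (hcen u.2) (hcen w.1.2)
  rw [← Finset.mul_sum, hZc] at h2
  have h5 := h2.trans (mul_le_mul_of_nonneg_left h4 (by positivity))
  have h6 : p ^ c * p ^ blockHeight p B (χ : G → ℂ) < p ^ blockDefect p B * p ^ (n + 1) :=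
    lt_of_le_of_lt (by exact_mod_cast h5) (Nat.mul_lt_mul_of_pos_left hn.2 (pow_pos hM.1.pos _))
  rw [← pow_add, ← pow_add, Nat.pow_lt_pow_iff_right hM.1.one_lt] at h6
  omega

end Cfsg.Agent.S4715
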