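import Cfsg.Statements.S4717
import Cfsg.Agent.Block.Ker
import Cfsg.Agent.Char.PB

set_option autoImplicit false
open Cfsg

namespace Cfsg.Agent.S4717

open CF.Block CF Subgroup

/-- Let p be a prime, M a maximal ideal of the algebraic integers containing p, and r a natural number; say that a finite group X has deficiency class r when X has no non-principal p-block of defect ≥ r. If G has deficiency class r then so does the centralizer of every p-element of G; conversely, if r > 0 and the centralizer of every element of order p has deficiency class r, then G has deficiency class r. -/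
theorem result {G : Type*} [Group G] [Finite G] (p : ℕ) [Fact p.Prime] (M : Ideal Cfsg.AlgInt) (hM : Cfsg.IsPModular p M) (r : ℕ) : ((∀ B' : Set (Cfsg.IrrCharacter G), Cfsg.IsPBlock M B' → B' ≠ Cfsg.principalBlock M G → Cfsg.blockDefect p B' < r) → ∀ y : G, (∃ k : ℕ, orderOf y = p ^ k) → (∀ B' : Set (Cfsg.IrrCharacter ↥(Subgroup.centralizer ({y} : Set G))), Cfsg.IsPBlock M B' → B' ≠ Cfsg.principalBlock M ↥(Subgroup.centralizer ({y} : Set G)) → Cfsg.blockDefect p B' < r)) ∧ (0 < r → (∀ y : G, orderOf y = p → (∀ B' : Set (Cfsg.IrrCharacter ↥(Subgroup.centralizer ({y} : Set G))), Cfsg.IsPBlock M B' → B' ≠ Cfsg.principalBlock M ↥(Subgroup.centralizer ({y} : Set G)) → Cfsg.blockDefect p B' < r)) → (∀ B' : Set (Cfsg.IrrCharacter G), Cfsg.IsPBlock M B' → B' ≠ Cfsg.principalBlock M G → Cfsg.blockDefect p B' < r)) := by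
  have := CF.BlockB.charP_k hM
  have hp := hM.1
  refine ⟨fun h y hy b hb hb1 => ?_, fun hr h B hB hB1 => ?_⟩
  · obtain ⟨B, hB⟩ := BlockB.inducedBlockDefined_Cen hM hy hb
    have hI := IsInducedBlock.induces hM hB
    obtain ⟨D, hD⟩ := hI.blk.exists_isDefGrp (p := p)
    obtain ⟨E, hE⟩ := hI.blk'.exists_isDefGrp (p := p)
    have h1 := hI.card_defGrp_le hD hE
    rw [hD.card_eq_pow_sub hM hb, hE.card_eq_pow hM hB.2.1, Nat.pow_le_pow_iff_right hp.one_lt] at h1
    exact h1.trans_lt (h B hB.2.1 fun h2 => hb1 ((Char.third_main hM hB).1 h2))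
  · obtain ⟨D, hD⟩ := (isBlk_eb hM hB).exists_isDefGrp (p := p)
    by_contra h1
    have h2 := hD.card_eq_pow hM hB
    have : Nontrivial D := hD.isP.nontrivial_iff_card.2 ⟨_, by omega, h2⟩
    obtain ⟨n, hn, h3⟩ := IsPGroup.card_center_eq_prime_pow h2 (by omega)
    obtain ⟨z, hz⟩ := exists_prime_orderOf_dvd_card' (G := center D) p (h3 ▸ dvd_pow_self p hn.ne')
    obtain ⟨e, he⟩ := hD.exists_maxPair (isBlk_eb hM hB)
    have hDz : D ≤ BlockB.Cen ((z : D) : G) := fun y hy =>
      BlockB.mem_Cen.2 (congrArg Subtype.val (mem_center_iff.1 z.2 ⟨y, hy⟩))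
    have hc : Cz ⊤ (zpowers ((z : D) : G)) = BlockB.Cen ((z : D) : G) := by
      rw [Cz_top, centralizer_zpowers]
    obtain ⟨f, hf⟩ := he.bpair.pair.exists_nle (Q := zpowers ((z : D) : G)) (zpowers_le.2 z.1.2)
      (hDz.trans ((centralizer_zpowers _).ge.trans (centralizer_le_normalizer' _)))
    have hI := (he.bpair.of_ple hf.ple).induces
    rw [hc] at hI
    obtain ⟨b, hb, rfl⟩ := exists_isInducedBlock_of_induces' hM hB hI
    have h4 := h _ (by rw [orderOf_coe, orderOf_coe, hz]) b hb.1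
      fun h2 => hB1 ((Char.third_main hM hb).2 h2)
    obtain ⟨E, hE⟩ := hI.blk.exists_isDefGrp (p := p)
    have h5 := hE.card_le hI.blk hD.isP hDz hf.Br_ne_zero
    rw [hE.card_eq_pow_sub hM hb.1, h2, Nat.pow_le_pow_iff_right hp.one_lt] at h5
    omega

end Cfsg.Agent.S4717
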