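import Cfsg.Statements.S4719
import Cfsg.Agent.BlockB.Landau
import Cfsg.Agent.Solv.FrattiniP
import Cfsg.Agent.Block.Pair
-- import your own Cfsg.Agent.* helpers here

set_option autoImplicit false
universe u
open Cfsg

namespace Cfsg.Agent.S4719

/-- For every natural number a there is a bound N with the following property. Let G be a finite group with Sylow 2-subgroups of order 2^a and r ≥ 0 such that G has no non-principal 2-block (relative to a maximal ideal of the algebraic integers containing 2) of defect ≥ r, and suppose a Sylow 2-subgroup of G contains an elementary abelian subgroup of order 2^(r+1). Then the order of G is at most N. -/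
theorem result (a : ℕ) : ∃ N : ℕ, ∀ (G : Type u) [Group G] [Finite G] (M : Ideal Cfsg.AlgInt) (r : ℕ) (P : Sylow 2 G), Cfsg.IsPModular 2 M → Nat.card P = 2 ^ a → (∀ B : Set (Cfsg.IrrCharacter G), Cfsg.IsPBlock M B → B ≠ Cfsg.principalBlock M G → Cfsg.blockDefect 2 B < r) → (∃ E : Subgroup G, E ≤ (P : Subgroup G) ∧ IsMulCommutative E ∧ (∀ x ∈ E, x * x = 1) ∧ Nat.card E = 2 ^ (r + 1)) → Nat.card G ≤ N := by
  open CF.BlockB Subgroup in
  have key : ∀ i : ℕ, ∃ N : ℕ, ∀ (G : Type u) [Group G] [Finite G] (M : Ideal Cfsg.AlgInt) (r : ℕ)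
      (E Q : Subgroup G), Cfsg.IsPModular 2 M → (Nat.card G).factorization 2 ≤ a →
      (∀ B, Cfsg.IsPBlock M B → B ≠ Cfsg.principalBlock M G → Cfsg.blockDefect 2 B < r) →
      IsElementaryAbelian 2 E → Nat.card E = 2 ^ (r + 1) → Q ≤ E → 2 ^ r ≤ Nat.card Q * 2 ^ i →
      Nat.card (centralizer (Q : Set G)) ≤ N := fun i => by
    have hfac : ∀ (G : Type u) [Group G] [Finite G] (H : Subgroup G),
        (Nat.card H).factorization 2 ≤ (Nat.card G).factorization 2 := fun G _ _ H =>
      (Nat.factorization_le_iff_dvd Nat.card_pos.ne' Nat.card_pos.ne').2 (card_subgroup_dvd_card _) 2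
    induction i with
    | zero =>
      obtain ⟨N, hN⟩ := exists_card_le_of_single_block.{u} 2 a
      refine ⟨N, fun G _ _ M r E Q hM ha h hE _ hQE hQ => hN _ M hM ((hfac G _).trans ha)
        fun b hb => ?_⟩
      have hs := CF.Block.BrSetup.centralizer_top
        ((CF.Solv.isElementaryAbelian_isPGroup hE).to_le hQE)
      have hdef := inducedBlockDefined_of_brSetup hM hs hb
      obtain ⟨B, hB⟩ := hdef
      obtain ⟨D, hD, hQD⟩ := (exists_induced_iff_of_brSetup hM hs hB.2.1).1 ⟨b, hB⟩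
      have h1 := (hQ.trans_eq (mul_one _)).trans (card_le_of_le hQD)
      rw [card_defectGroup hM hB.2.1 hD, Nat.pow_le_pow_iff_right one_lt_two] at h1
      obtain rfl : B = _ := by_contra fun h2 => (h B hB.2.1 h2).not_ge h1
      exact (third_main hM ⟨_, hB⟩).1 hB
    | succ i ih =>
      obtain ⟨c, hc⟩ := ih
      obtain ⟨N, hN⟩ := exists_card_le_of_four.{u} a c
      refine ⟨max c N, fun G _ _ M r E Q hM ha h hE hEc hQE hQ => ?_⟩
      rcases le_or_gt (2 ^ r) (Nat.card Q * 2 ^ i) with h1 | h1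
      · exact le_max_of_le_left (hc G M r E Q hM ha h hE hEc hQE h1)
      have hEp := CF.Solv.isElementaryAbelian_isPGroup hE
      obtain ⟨K, hKE, hQK, hQK'⟩ := CF.Solv.exists_complement_of_isElementaryAbelian hE hQE
      obtain ⟨q, hq⟩ := (hEp.to_le hQE).exists_card_eq
      obtain ⟨k, hk⟩ := (hEp.to_le hKE).exists_card_eq
      have hcomm : ∀ x ∈ E, ∀ y ∈ E, x * y = y * x := fun x hx y hy =>
        congrArg Subtype.val (hE.1.is_comm.comm (⟨x, hx⟩ : E) ⟨y, hy⟩)
      have h2 : Nat.card E ≤ Nat.card Q * Nat.card K := by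
        rw [← Nat.card_prod, ← hQK']
        refine Nat.card_le_card_of_surjective (fun x => ⟨x.1 * x.2, mul_mem_sup x.1.2 x.2.2⟩)
          fun ⟨y, hy⟩ => ?_
        rw [← SetLike.mem_coe, coe_mul_of_left_le_normalizer_right _ _
          (fun x hx => centralizer_le_normalizer _ (mem_centralizer_iff.2 fun y hy =>
            hcomm y (hKE hy) x (hQE hx)))] at hy
        obtain ⟨x, hx, z, hz, e⟩ := hy
        exact ⟨(⟨x, hx⟩, ⟨z, hz⟩), Subtype.ext e⟩
      rw [hq, ← pow_add, Nat.pow_lt_pow_iff_right one_lt_two] at h1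
      rw [hEc, hq, hk, ← pow_add, Nat.pow_le_pow_iff_right one_lt_two] at h2
      obtain ⟨V, hV⟩ := Sylow.exists_subgroup_card_pow_prime (G := K) 2 (n := 2)
        (hk ▸ pow_dvd_pow 2 (by omega))
      have hVK : V.map K.subtype ≤ K := map_subtype_le _
      have hEC : E ≤ centralizer (Q : Set G) := fun x hx => mem_centralizer_iff.2 fun y hy =>
        hcomm y (hQE hy) x hx
      refine le_max_of_le_right (hN _ ((V.map K.subtype).subgroupOf _) ((hfac G _).trans ha)
        ⟨⟨⟨fun x y => Subtype.ext (Subtype.ext (hcomm _ (hKE (hVK x.2)) _ (hKE (hVK y.2))))⟩⟩,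
          fun x hx => Subtype.ext (hE.2 _ (hKE (hVK hx)))⟩ ?_ fun v hv hv1 => ?_)
      · rw [Nat.card_congr (subgroupOfEquivOfLe (hVK.trans (hKE.trans hEC))).toEquiv,
          card_map_of_injective K.subtype_injective, hV]
        rfl
      have hvE : Q ⊔ zpowers (v : G) ≤ E := sup_le hQE (zpowers_le.2 (hKE (hVK hv)))
      have h4 : ∀ g : Cen v, g.1.1 ∈ centralizer ((Q ⊔ zpowers (v : G) : Subgroup G) : Set G) :=
        fun g => by
          rw [CF.Block.centralizer_sup', CF.Block.centralizer_zpowers]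
          exact ⟨g.1.2, mem_Cen.2 (congrArg Subtype.val (mem_Cen.1 g.2))⟩
      refine le_trans (Nat.card_le_card_of_injective (fun g => ⟨g.1.1, h4 g⟩) fun x y e =>
        Subtype.ext (Subtype.ext (Subtype.mk.inj e))) (hc G M r E _ hM ha h hE hEc hvE ?_)
      obtain ⟨s, hs⟩ := (hEp.to_le hvE).exists_card_eq
      have h3 : Nat.card Q < Nat.card (Q ⊔ zpowers (v : G) : Subgroup G) :=
        lt_of_not_ge fun h3 => hv1 (Subtype.ext (mem_bot.1 (hQK ▸ mem_inf.2 ⟨
          (CF.Block.eq_of_le_of_card_le le_sup_left h3).ge (mem_sup_right (mem_zpowers _)),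
          hVK hv⟩)))
      rw [hq, ← pow_add, Nat.pow_le_pow_iff_right one_lt_two] at hQ
      rw [hq, hs, Nat.pow_lt_pow_iff_right one_lt_two] at h3
      rw [hs, ← pow_add]
      exact Nat.pow_le_pow_right two_pos (by omega)
  obtain ⟨N, hN⟩ := key a
  refine ⟨N, fun G _ _ M r P hM hP h ⟨E, hEP, h1, h2, h3⟩ => ?_⟩
  have h4 := card_le_of_le hEP
  rw [h3, hP, Nat.pow_le_pow_iff_right one_lt_two] at h4
  have := hN G M r E ⊥ hM (by
    rw [P.card_eq_multiplicity] at hP
    exact (Nat.pow_right_injective le_rfl hP).le) h ⟨h1, fun x hx => by rw [sq, h2 x hx]⟩ h3 bot_le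
    (by rw [card_bot, one_mul]; exact Nat.pow_le_pow_right two_pos (by omega))
  rwa [show centralizer ((⊥ : Subgroup G) : Set G) = ⊤ by simp, card_top] at this

end Cfsg.Agent.S4719
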