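import Cfsg.Statements.S4720
import Cfsg.Agent.BlockB.Column
-- import your own Cfsg.Agent.* helpers here

set_option autoImplicit false
open Cfsg

namespace Cfsg.Agent.S4720

/-- Let p be a prime, M a maximal ideal of the algebraic integers containing p, P a p-subgroup of the finite group G, N a subgroup with P ≤ N ≤ N_G(P), and U a nonempty subset of P normalized by N such that an element of U and an element of P that are conjugate in G are already conjugate in N, and such that λ(C_G(y)) = w·#C_N(y) for every y ∈ U with one rational number w, where λ(X) denotes the sum of the squares of the degrees of the irreducible characters in the principal p-block of X. For a complex function θ on P and χ in the principal block of G put a_χ(θ) = #P⁻¹ Σ_{y ∈ P} χ(y) θ(y⁻¹). Then for generalized characters θ, η of P with θ vanishing outside U, Σ_χ a_χ(θ)·conj(a_χ(η)) = (w/#P²)·Σ_{y ∈ P} θ(y)·conj(Σ_{x ∈ N} η(x y x⁻¹)) (η extended by zero off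 P; the conjugates lie in P), the first sum over the principal p-block of G. -/
theorem result {G : Type*} [Group G] [Finite G] (p : ℕ) [Fact p.Prime] (M : Ideal Cfsg.AlgInt) (hM : Cfsg.IsPModular p M) (P : Subgroup G) (hP : IsPGroup p P) (N : Subgroup G) (hPN : P ≤ N) (hNN : N ≤ Subgroup.normalizer (P : Set G)) (U : Set G) (hUne : U.Nonempty) (hUP : U ⊆ (P : Set G)) (hUN : ∀ n ∈ N, ∀ u ∈ U, n * u * n⁻¹ ∈ U) (hfus : ∀ u ∈ U, ∀ g : G, g * u * g⁻¹ ∈ (P : Set G) → ∃ n ∈ N, n * u * n⁻¹ = g * u * g⁻¹) (w : ℚ) (hw : ∀ y ∈ U, ((∑ᶠ ψ ∈ Cfsg.principalBlock M ↥(Subgroup.centralizer ({y} : Set G)), Cfsg.charDegree (ψ : ↥(Subgroup.centralizer ({y} : Set G)) → ℂ) ^ 2) : ℚ) = w * Nat.card ↥(N ⊓ Subgroup.centralizer ({y} : Set G))) (θ η : ↥P → ℂ) (hθ : Cfsg.IsGeneralizedCharacter ↥P θ) (hη : Cfsg.IsGeneralizedCharacter ↥P η) (hθU : ∀ y : ↥P, (y : G) ∉ U → θ y = 0) : ∑ᶠ χ ∈ Cfsg.principalBlock M G, ((Nat.card ↥P : ℂ)⁻¹ * ∑ᶠ y : ↥P, (χ : G → ℂ)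 (y : G) * θ y⁻¹) * (starRingEnd ℂ) ((Nat.card ↥P : ℂ)⁻¹ * ∑ᶠ y : ↥P, (χ : G → ℂ) (y : G) * η y⁻¹) = ((w : ℂ) / ((Nat.card ↥P : ℂ) ^ 2)) * ∑ᶠ y : ↥P, θ y * (starRingEnd ℂ) (∑ᶠ x : ↥N, Cfsg.extendByZero P η ((x : G) * (y : G) * (x : G)⁻¹)) := by
  classical
  have := Fintype.ofFinite G
  simp only [CF.Char.finsum_pb] at hw ⊢
  simp only [finsum_eq_sum_of_fintype]
  have hp : ∀ y : P, ∃ k : ℕ, orderOf (y : G) = p ^ k := fun y =>
    CF.BlockB.exists_orderOf_of_mem hM.1 hP y.2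
  have h1 : ∀ (χ : IrrCharacter G) (f : P → ℂ), ∑ y : P, (χ : G → ℂ) y * f y⁻¹ =
      ∑ y : P, starRingEnd ℂ ((χ : G → ℂ) y) * f y := fun χ f =>
    Fintype.sum_equiv (Equiv.inv P) _ _ fun y => by simp [CF.Char.irr_inv χ.2]
  have h2 : ∀ y : P, θ y * ∑ z : P, starRingEnd ℂ (η z) * ∑ χ ∈ CF.Char.pb M G,
      (χ : G → ℂ) z * starRingEnd ℂ ((χ : G → ℂ) y) =
      w * (θ y * starRingEnd ℂ (∑ x : N, extendByZero P η (x * y * (x : G)⁻¹))) := by
    intro y
    by_cases hy : (y : G) ∈ U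
    swap
    · rw [hθU y hy, zero_mul, zero_mul, mul_zero]
    have h3 := CF.BlockB.sum_pb_mul_conj_self hM (hp y)
    have h4 := congrArg (Rat.cast : ℚ → ℂ) (hw y hy)
    push_cast at h3 h4
    rw [h4] at h3
    let y' : N := ⟨y, hPN y.2⟩
    have h5 := CF.Char.sum_conj_eq (fun n : N => extendByZero P η n) y'
    have h6 : Nat.card (Subgroup.centralizer ({y'} : Set N)) =
        Nat.card (N ⊓ Subgroup.centralizer ({(y : G)} : Set G) : Subgroup G) := by
      refine Nat.card_congr ⟨fun c => ⟨c.1, c.1.2, ?_⟩, fun c => ⟨⟨c.1, c.2.1⟩, ?_⟩,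
        fun _ => rfl, fun _ => rfl⟩
      · exact CF.BlockB.mem_Cen.2 (congrArg Subtype.val (CF.BlockB.mem_Cen.1 c.2))
      · exact CF.BlockB.mem_Cen.2 (Subtype.ext (CF.BlockB.mem_Cen.1 c.2.2))
    simp only [Subgroup.coe_mul, InvMemClass.coe_inv, y'] at h5
    rw [h5, h6, nsmul_eq_mul, map_mul, map_natCast, mul_left_comm (w : ℂ), ← mul_assoc (w : ℂ),
      ← h3, map_sum]
    congr 1
    rw [Finset.mul_sum, ← Finset.sum_subset (Finset.subset_univ (Finset.univ.filter fun z : P => IsConj (y : G) z))]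
    · refine Finset.sum_bij (fun (z : P) _ => (⟨z, hPN z.2⟩ : N)) (fun z hz => ?_)
        (fun _ _ _ _ h => Subtype.ext (congrArg (Subtype.val : N → G) h)) (fun n hn => ?_) fun z hz => ?_
      · obtain ⟨g, hg⟩ := isConj_iff.1 (Finset.mem_filter.1 hz).2
        obtain ⟨n, hn, hng⟩ := hfus y hy g (hg ▸ z.2)
        exact Finset.mem_filter.2 ⟨Finset.mem_univ _,
          isConj_iff.2 ⟨⟨n, hn⟩, Subtype.ext (hng.trans hg)⟩⟩
      · obtain ⟨g, hg⟩ := isConj_iff.1 (Finset.mem_filter.1 hn).2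
        have hg' : (g : G) * y * (g : G)⁻¹ = n := congrArg Subtype.val hg
        exact ⟨⟨n, hUP (hg' ▸ hUN g g.2 y hy)⟩,
          Finset.mem_filter.2 ⟨Finset.mem_univ _, isConj_iff.2 ⟨g, hg'⟩⟩, rfl⟩
      · rw [CF.Char.extendByZero_coe, mul_comm]
        congr 1
        exact Finset.sum_congr rfl fun χ _ => by
          rw [CF.Char.classFun_of_isConj (CF.Char.irr_isClassFunction χ.2)
            (Finset.mem_filter.1 hz).2]
    · intro z _ hz
      rw [CF.Char.pb_orth hM, mul_zero]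
      rw [CF.BlockB.pPart_of_pElement hM.1 (hp y), CF.BlockB.pPart_of_pElement hM.1 (hp z)]
      exact fun h => hz (by simpa using h.symm)
  rw [div_eq_inv_mul, mul_assoc, Finset.mul_sum Finset.univ _ (w : ℂ),
    ← Finset.sum_congr rfl fun y _ => h2 y]
  simp only [h1, map_mul, map_inv₀, map_natCast, map_sum, Complex.conj_conj, Finset.mul_sum,
    Finset.sum_mul]
  rw [Finset.sum_comm, Finset.sum_comm (γ := P) (α := P)]
  refine Finset.sum_congr rfl fun z _ => ?_
  rw [Finset.sum_comm]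
  exact Finset.sum_congr rfl fun y _ => Finset.sum_congr rfl fun χ _ => by ring

end Cfsg.Agent.S4720
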