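import Cfsg.Statements.S4721
import Cfsg.Agent.Block.FrobPB
import Cfsg.Agent.Char.Galois
import Cfsg.Agent.BlockB.Ord1

set_option autoImplicit false
open Cfsg

namespace Cfsg.Agent.S4721

open CF.Block CF Subgroup
open scoped ComplexConjugate

theorem sq_aux {d₂ d₃ d₄ : ℕ} {x₂ x₃ x₄ : ℤ} (h1 : (1 : ℤ) + d₂ - d₃ - d₄ = 0)
    (h2 : 1 + x₂ - x₃ - x₄ = 0)
    (h3 : d₂ * d₃ * d₄ + x₂ ^ 2 * d₃ * d₄ - x₃ ^ 2 * d₂ * d₄ - x₄ ^ 2 * d₂ * d₃ = 0)
    (hx : x₂ ≠ d₂) : IsSquare (d₂ * d₃ * d₄) := by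
  have h4 : ((d₂ : ℤ) - x₂) ^ 2 * d₃ * d₄ = d₂ * (x₃ * d₄ - x₄ * d₃) ^ 2 := by
    have e1 : (d₄ : ℤ) = 1 + d₂ - d₃ := by linarith
    have e2 : x₄ = 1 + x₂ - x₃ := by linarith
    rw [e1, e2] at h3 ⊢
    linear_combination (1 + (d₂ : ℤ)) * h3
  rw [← Rat.isSquare_natCast_iff]
  have h5 : ((d₂ : ℚ) - x₂) ≠ 0 := by
    rw [sub_ne_zero]; exact_mod_cast hx.symm
  refine ⟨d₂ * (x₃ * d₄ - x₄ * d₃) / (d₂ - x₂), ?_⟩
  have h6 : ((d₂ : ℚ) - x₂) ^ 2 * d₃ * d₄ = d₂ * (x₃ * d₄ - x₄ * d₃) ^ 2 := by exact_mod_cast h4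
  field_simp
  push_cast
  linear_combination (d₂ : ℚ) * h6

theorem cs_aux {d₂ d₃ d₄ : ℕ} {x₂ x₃ x₄ : ℤ} (hd : 0 < d₃) (h1 : (1 : ℤ) + d₂ + d₃ - d₄ = 0)
    (h2 : 1 + x₂ + x₃ - x₄ = 0)
    (h3 : d₂ * d₃ * d₄ + x₂ ^ 2 * d₃ * d₄ + x₃ ^ 2 * d₂ * d₄ - x₄ ^ 2 * d₂ * d₃ = 0) :
    x₂ = d₂ := by
  have h4 : d₃ * (x₂ - d₂) ^ 2 + d₂ * (x₃ - d₃) ^ 2 + (x₂ * d₃ - x₃ * d₂) ^ 2 = 0 := by
    have e1 : (d₄ : ℤ) = 1 + d₂ + d₃ := by linarith
    have e2 : x₄ = 1 + x₂ + x₃ := by linarith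
    rw [e1, e2] at h3
    linear_combination h3
  have h5 : (0 : ℤ) ≤ d₂ * (x₃ - d₃) ^ 2 := by positivity
  have h6 : (0 : ℤ) ≤ d₃ * (x₂ - d₂) ^ 2 := by positivity
  have h7 : d₃ * (x₂ - d₂) ^ 2 = 0 := by nlinarith [sq_nonneg (x₂ * d₃ - x₃ * d₂)]
  rw [mul_eq_zero, sq_eq_zero_iff, sub_eq_zero] at h7
  omega

theorem arith {d₂ d₃ d₄ : ℕ} {x₂ x₃ x₄ s₂ s₃ s₄ : ℤ} (hd₂ : 0 < d₂) (hd₃ : 0 < d₃) (hd₄ : 0 < d₄)
    (hs₂ : s₂ = 1 ∨ s₂ = -1) (hs₃ : s₃ = 1 ∨ s₃ = -1) (hs₄ : s₄ = 1 ∨ s₄ = -1)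
    (h1 : (1 : ℤ) + s₂ * d₂ + s₃ * d₃ + s₄ * d₄ = 0) (h2 : 1 + s₂ * x₂ + s₃ * x₃ + s₄ * x₄ = 0)
    (h3 : d₂ * d₃ * d₄ + s₂ * x₂ ^ 2 * d₃ * d₄ + s₃ * x₃ ^ 2 * d₂ * d₄ +
      s₄ * x₄ ^ 2 * d₂ * d₃ = 0) (hx₂ : x₂ ≠ d₂) (hx₃ : x₃ ≠ d₃) (hx₄ : x₄ ≠ d₄) :
    (if s₂ = -1 then 1 else 0) + (if s₃ = -1 then 1 else 0) + (if s₄ = -1 then 1 else 0) = 2 ∧
      IsSquare (d₄ * (d₂ * d₃)) := by
  rcases hs₂ with rfl | rfl <;> rcases hs₃ with rfl | rfl <;> rcases hs₄ with rfl | rfl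
  · omega
  · exact (hx₂ (cs_aux (d₄ := d₄) (x₃ := x₃) (x₄ := x₄) hd₃ (by linarith) (by linarith)
      (by linarith))).elim
  · exact (hx₂ (cs_aux (d₄ := d₃) (x₃ := x₄) (x₄ := x₃) hd₄ (by linarith) (by linarith)
      (by linarith))).elim
  · refine ⟨by simp, ?_⟩
    rw [show d₄ * (d₂ * d₃) = d₂ * d₃ * d₄ by ring]
    exact sq_aux (x₃ := x₃) (x₄ := x₄) (by linarith) (by linarith) (by linarith) hx₂
  · exact (hx₃ (cs_aux (d₄ := d₂) (x₃ := x₄) (x₄ := x₂) hd₄ (by linarith) (by linarith)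
      (by linarith))).elim
  · refine ⟨by simp, ?_⟩
    rw [show d₄ * (d₂ * d₃) = d₃ * d₂ * d₄ by ring]
    exact sq_aux (x₃ := x₂) (x₄ := x₄) (by linarith) (by linarith) (by linarith) hx₃
  · refine ⟨by simp, ?_⟩
    rw [← mul_assoc]
    exact sq_aux (x₃ := x₂) (x₄ := x₃) (by linarith) (by linarith) (by linarith) hx₄
  · omega

theorem exists_sub {A : Type*} [Group A] [Finite A] (hc : ∀ a b : A, a * b = b * a)
    {E : Subgroup (MulAut A)} (hE : EFree E) (h3 : Nat.card E = 3) (h4 : 4 < Nat.card A) {t : A}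
    (ht : t * t = 1) : ∃ V : Subgroup A, t ∈ V ∧ V ≠ ⊤ ∧ ∀ σ ∈ E, ∀ x ∈ V, σ x ∈ V := by
  classical
  let _ : CommGroup A := { (inferInstance : Group A) with mul_comm := hc }
  have : Fact (Nat.Prime 3) := ⟨by norm_num⟩
  have : Nontrivial E := Finite.one_lt_card_iff_nontrivial.1 (by omega)
  obtain ⟨γ, hγ⟩ := exists_ne (1 : E)
  have hγ3 : ∀ x, (γ : MulAut A) ((γ : MulAut A) ((γ : MulAut A) x)) = x := fun x => by
    have h1 : γ ^ 3 = 1 := h3 ▸ pow_card_eq_one'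
    have := congrArg (fun σ : E => (σ : MulAut A) x) h1
    simpa [pow_succ] using this
  set b := (γ : MulAut A) t with hb
  have hbb : b * b = 1 := by rw [hb, ← map_mul, ht, map_one]
  have h1 : t * b * (γ : MulAut A) b = 1 := by
    by_contra h1
    refine hγ (Subtype.ext (hE _ γ.2 _ h1 ?_))
    rw [map_mul, map_mul, ← hb, hb, hγ3, mul_comm _ t, ← mul_assoc]
  have htb : t * b * (t * b) = 1 := by rw [mul_mul_mul_comm, ht, hbb, one_mul]
  have h2 : (γ : MulAut A) b = t * b := mul_left_cancel (h1.trans htb.symm)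
  let V : Subgroup A :=
    { carrier := {x | x = 1 ∨ x = t ∨ x = b ∨ x = t * b}
      one_mem' := Or.inl rfl
      mul_mem' := by
        rintro x y (rfl | rfl | rfl | rfl) (rfl | rfl | rfl | rfl) <;>
          simp [ht, hbb, htb, ← mul_assoc, mul_comm b, mul_right_comm _ b, mul_assoc _ b b]
      inv_mem' := by
        rintro x (rfl | rfl | rfl | rfl)
        · simp
        · simp [inv_eq_of_mul_eq_one_right ht]
        · simp [inv_eq_of_mul_eq_one_right hbb]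
        · rw [inv_eq_of_mul_eq_one_right htb]; simp }
  refine ⟨V, Or.inr (Or.inl rfl), fun h => ?_, fun σ hσ => ?_⟩
  · have := Fintype.ofFinite A
    have h5 : (Finset.univ : Finset A) ⊆ {1, t, b, t * b} := fun x _ => by
      have : x = 1 ∨ x = t ∨ x = b ∨ x = t * b := show x ∈ V from h ▸ mem_top x
      simpa using this
    have := (Finset.card_le_card h5).trans Finset.card_le_four
    rw [Finset.card_univ, ← Nat.card_eq_fintype_card] at this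
    omega
  obtain ⟨n, hn⟩ := mem_powers_of_prime_card h3 hγ (g' := ⟨σ, hσ⟩)
  obtain rfl : (γ : MulAut A) ^ n = σ := congrArg Subtype.val hn
  clear hn hσ
  induction n with
  | zero => exact fun x hx => hx
  | succ n ih =>
    intro x hx
    rw [pow_succ', MulAut.mul_apply]
    rcases ih x hx with h | h | h | h <;> rw [h]
    · exact Or.inl (map_one _)
    · exact Or.inr (Or.inr (Or.inl rfl))
    · exact Or.inr (Or.inr (Or.inr h2))
    · rw [map_mul, h2, ← hb, mul_left_comm, hbb, mul_one]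
      exact Or.inr (Or.inl rfl)

theorem isConj_mul_pPart {G : Type*} [Group G] [Finite G] {s t : G} (hs : s * s = 1)
    (ht : t * t = 1) (h : BlockB.pPart 2 (s * t) * BlockB.pPart 2 (s * t) = 1) :
    IsConj (s * BlockB.pPart 2 (s * t)) t := by
  set c := BlockB.pPart 2 (s * t) with hc
  set m := BlockB.pReg 2 (s * t) with hm
  have h1 : c * m = s * t := BlockB.pPart_mul_pReg _
  have h2 : s * m * s⁻¹ = m⁻¹ := by
    rw [hm, ← BlockB.pReg_conj, ← BlockB.pReg_inv, mul_inv_rev, inv_eq_of_mul_eq_one_right ht,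
      ← mul_assoc, hs, one_mul]
  have h3 : Commute c m := BlockB.commute_pPart_pReg _
  obtain ⟨j, hj⟩ : Odd (orderOf m) :=
    Nat.not_even_iff_odd.1 fun h => BlockB.pReg_pRegular Nat.prime_two _ h.two_dvd
  have h4 : s * c * m ^ (j + 1) = (m ^ (j + 1))⁻¹ * (s * c) := by
    rw [mul_assoc, (h3.pow_right _).eq, ← inv_pow, ← h2, conj_pow]
    group
  have h5 : m ^ (j + 1) * m ^ (j + 1) = m := by
    rw [← pow_add, show j + 1 + (j + 1) = orderOf m + 1 by omega, pow_succ, pow_orderOf_eq_one,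
      one_mul]
  refine isConj_iff.2 ⟨(m ^ (j + 1))⁻¹, ?_⟩
  rw [← h4, inv_inv, mul_assoc, h5, mul_assoc, h1, ← mul_assoc, hs, one_mul]

theorem sum_sq {p : ℕ} {M : Ideal AlgInt} {G : Type*} [Group G] [Finite G] [Fintype G]
    {B : Set (IrrCharacter G)} {P : Subgroup G} {e : MonoidAlgebra (BlockB.k M) G} {w : G → ℂ}
    {ζ : (P →* ℂˣ) → IrrCharacter G} {a : IrrCharacter G → ℤ} {d δ : ℤ}
    (h : FD p B P e w ζ a d δ) (F : IrrCharacter G → ℂ) {c : ℂ} {n : ℕ} {t y : P}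
    (hF : ∀ ψ, ψ ≠ 1 → F (ζ ψ) = c * orbS (FE P e) ψ t ^ n * orbS (FE P e) ψ y)
    (V : Subgroup P) (ht : t ∈ V) (hy : y ∉ V) (hV : ∀ σ ∈ FE P e, ∀ x ∈ V, σ x ∈ V) :
    ∑ᶠ η ∈ FY ζ, F η = -c * Nat.card (FE P e) ^ n := by
  classical
  have := Fintype.ofFinite (P →* ℂˣ)
  have := Fintype.ofFinite (FE P e)
  have key : ∀ n : ℕ, ∀ z ∉ V, ∑ ψ : P →* ℂˣ with ψ ≠ 1, orbS (FE P e) ψ t ^ n * ψ z =
      -(Nat.card (FE P e) : ℂ) ^ n := fun n => by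
    induction n with
    | zero =>
      intro z hz
      simpa using sum_lin_ne_one h.fs.mul_comm (u := z) fun h => hz (h ▸ V.one_mem)
    | succ n ih =>
      intro z hz
      rw [Finset.sum_congr rfl fun ψ _ => show _ = ∑ σ : FE P e,
        orbS (FE P e) ψ t ^ n * ψ ((σ : MulAut P) t * z) by
          rw [pow_succ, mul_assoc, orbS_eq ψ t, Finset.sum_mul, Finset.mul_sum]
          simp, Finset.sum_comm, Finset.sum_congr rfl fun σ _ => ih _ fun h1 => hz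
            ((V.mul_mem_cancel_left (hV _ σ.2 _ ht)).1 h1)]
      simp [pow_succ, mul_comm]
  apply mul_left_cancel₀ (card_FE_ne_zero (P := P) (e := e))
  rw [← h.sum_FY, Finset.sum_congr rfl fun ψ hψ => show _ = c * ∑ σ : FE P e,
    orbS (FE P e) ψ t ^ n * ψ ((σ : MulAut P) y) by
      rw [hF ψ (Finset.mem_filter.1 hψ).2, mul_assoc, orbS_eq ψ y, Finset.mul_sum],
    ← Finset.mul_sum, Finset.sum_comm, Finset.sum_congr rfl fun σ _ => key n _ fun h1 => hy (by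
      simpa using hV _ (inv_mem σ.2) _ h1)]
  simp
  ring

section
variable {G : Type*} [Group G] [Finite G] [Fintype G] {p : ℕ} [Fact p.Prime] {M : Ideal AlgInt}
  {P : Sylow p G} {ζ : ((P : Subgroup G) →* ℂˣ) → IrrCharacter G} {a : IrrCharacter G → ℤ}
  {d δ : ℤ}

omit [Finite G] [Fintype G] in
theorem hp1 : ¬ p ∣ orderOf (1 : G) := by simpa using (Fact.out : p.Prime).one_lt.ne'

omit [Finite G] [Fintype G] in
theorem hself (y : (P : Subgroup G)) : IsPPart p (y : G) y :=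
  ⟨1, mul_one _, Commute.one_right _, BlockB.exists_orderOf_of_mem Fact.out P.isPGroup' y.2, hp1⟩

theorem hone (h : FD p (principalBlock M G) P (pbe M P) (fun _ => 1) ζ a d δ)
    (hr : 2 ≤ (Nat.card (P : Subgroup G) - 1) / Nat.card (FE (P : Subgroup G) (pbe M P))) :
    Char.oneIrr G ∈ principalBlock M G \ FY ζ ∧ a (Char.oneIrr G) = 1 := by
  have hfs := h.fs
  have hP : (P : Subgroup G) ≠ ⊥ := fun h1 => by simp [h1] at hr
  have h1 := h.notMem_FY (χ := Char.oneIrr G) hr fun u hu => hfs.Dv_self hfs.glue_pb hu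
  obtain ⟨u, hu⟩ := ne_bot_iff_exists_ne_one.1 hP
  exact ⟨⟨BlockB.oneIrr_mem_principalBlock hfs.mod, h1⟩, by
    exact_mod_cast (h.Dv_X h1 hu).symm.trans (hfs.Dv_self hfs.glue_pb hu)⟩

theorem hX (h : FD p (principalBlock M G) P (pbe M P) (fun _ => 1) ζ a d δ)
    (χ : IrrCharacter G) (hχ : χ ∈ principalBlock M G \ FY ζ) (z : G) (y : (P : Subgroup G))
    (hz : IsPPart p z y) (hy : y ≠ 1) : (χ : G → ℂ) z = a χ := by
  rw [h.fs.apply_eq_Dv (BlockB.inSpan_irr hχ.1) hz hy, h.Dv_X hχ.2 hy]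

theorem hY (h : FD p (principalBlock M G) P (pbe M P) (fun _ => 1) ζ a 0 δ)
    (ψ : (P : Subgroup G) →* ℂˣ) (hψ : ψ ≠ 1) (z : G) (y : (P : Subgroup G))
    (hz : IsPPart p z y) (hy : y ≠ 1) :
    (ζ ψ : G → ℂ) z = δ * orbS (FE (P : Subgroup G) (pbe M P)) ψ y := by
  rw [h.fs.apply_eq_Dv (BlockB.inSpan_irr (h.mem ψ hψ)) hz hy, h.Dv_Y hψ hy]
  simp

theorem exists_fd (hfs : FS p (principalBlock M G) P (pbe M P))
    (hE : Nat.card (FE (P : Subgroup G) (pbe M P)) = 3) (hm2 : 3 + 1 < Nat.card P) :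
    ∃ ζ a δ, FD p (principalBlock M G) P (pbe M P) (fun _ => 1) ζ a 0 δ := by
  have hM := hfs.mod
  have hr0 := hfs.two_le (hE ▸ hm2)
  have hr := hr0
  have hP : (P : Subgroup G) ≠ ⊥ := fun h1 => by simp [h1] at hr
  obtain ⟨ζ, a, d, δ, h⟩ := hfs.exists_fD hfs.glue_pb
  by_cases hd : d = 0
  · exact ⟨ζ, a, δ, hd ▸ h⟩
  have hn := h.norm_eq hP
  have hle := h.card_FX_le_sum hP
  have hpos : 0 < Nat.card (principalBlock M G \ FY ζ : Set _) :=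
    @Nat.card_pos _ ⟨⟨_, (hone h hr0).1⟩⟩ _
  obtain ⟨r, hr'⟩ := hfs.dvd_sub_one
  have hrr : (Nat.card (P : Subgroup G) - 1) / Nat.card (FE (P : Subgroup G) (pbe M P)) = r := by
    rw [hr', Nat.mul_div_cancel_left _ Nat.card_pos]
  obtain ⟨ψ, hψ, -⟩ := h.exists_ne hr (Char.oneIrr G)
  have hrel := h.relation ⟨ψ, hψ, rfl⟩ hp1
  rw [hrr] at hn hr hrel
  rw [hE] at hn hr'
  push_cast at hn
  have hpos' : (1 : ℤ) ≤ Nat.card (principalBlock M G \ FY ζ : Set _) := by omega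
  have hd2 := sq_pos_of_ne_zero hd
  have hr2 : (1 : ℤ) ≤ r - 1 := by omega
  have h1 : d ^ 2 < 4 := by nlinarith [sq_nonneg (d - δ)]
  have h2 : d = δ := by
    have : d < 2 := by nlinarith
    have : -2 < d := by nlinarith
    rcases h.sign with h3 | h3 <;> subst h3 <;> interval_cases d <;> omega
  have hδ : δ ^ 2 = 1 := by rcases h.sign with h3 | h3 <;> simp [h3]
  rw [h2, hδ, sub_self, zero_pow two_ne_zero] at hn
  obtain h3 | h3 | h3 : r = 2 ∨ r = 3 ∨ r = 4 := by omega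
  · obtain ⟨ζ', h', -⟩ := h.norm_two (hrr.trans h3) h2
    exact ⟨ζ', a, _, h'⟩
  · obtain ⟨n, hn⟩ := IsPGroup.iff_card.1 P.isPGroup'
    have h10 : p ^ n = 2 * 5 := by omega
    have h4 := (Nat.prime_dvd_prime_iff_eq Nat.prime_two hM.1).1
      (Nat.prime_two.dvd_of_dvd_pow (h10 ▸ dvd_mul_right 2 5))
    have h5 := (Nat.prime_dvd_prime_iff_eq Nat.prime_five hM.1).1
      (Nat.prime_five.dvd_of_dvd_pow (h10 ▸ dvd_mul_left 5 2))
    omega
  · have h4 : principalBlock M G \ FY ζ = {Char.oneIrr G} := by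
      have : Nat.card (principalBlock M G \ FY ζ : Set _) = 1 := by omega
      rw [Nat.card_coe_set_eq, Set.ncard_eq_one] at this
      obtain ⟨x, hx⟩ := this
      have h5 := (hone h hr0).1
      rw [hx] at h5 ⊢
      rw [h5]
    rw [h4, finsum_mem_singleton, (hone h hr0).2, ← BlockB.irr_charDegree_eq, h3, h2,
      Char.coe_oneIrr] at hrel
    generalize charDegree (ζ ψ : G → ℂ) = n at hrel
    have h6 : 3 * (δ * n) + 1 = 0 :=
      Int.cast_injective (α := ℂ) (by push_cast at hrel ⊢; linear_combination hrel)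
    omega

theorem sum_eq (h : FD p (principalBlock M G) P (pbe M P) (fun _ => 1) ζ a 0 δ)
    (hE : Nat.card (FE (P : Subgroup G) (pbe M P)) = 3) (hm2 : 3 + 1 < Nat.card P) :
    (∀ χ ∈ principalBlock M G \ FY ζ, a χ = 1 ∨ a χ = -1) ∧
      Nat.card (principalBlock M G \ FY ζ : Set _) = 3 := by
  have hP : (P : Subgroup G) ≠ ⊥ := fun h1 => by simp [h1] at hm2
  have hδ : δ ^ 2 = 1 := by rcases h.sign with h3 | h3 <;> simp [h3]
  have hn := h.norm_eq hP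
  rw [hE, zero_sub, neg_sq, hδ] at hn
  have hsgn := fun χ hχ => h.sign_of_le hP (by omega) (χ := χ) hχ
  have := h.card_FX_eq hsgn
  exact ⟨hsgn, by omega⟩

omit [Fintype G] in
theorem hfus (hM : IsPModular p M) (hab : IsMulCommutative P) (u w : (P : Subgroup G))
    (huw : IsConj (u : G) w) : ∃ σ ∈ FE (P : Subgroup G) (pbe M P), σ u = w := by
  obtain ⟨g, hg⟩ := isConj_iff.1 huw
  obtain ⟨n, hn, h1⟩ := P.conj_eq_normalizer_conj_of_mem u g⁻¹ u.2 (by simp [hg])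
  have h3 : n⁻¹ ∈ stab (Nz ⊤ (P : Subgroup G)) (pbe M P) := by
    rw [stab_pbe hM]; exact inv_mem hn
  obtain ⟨σ, hσ, h2⟩ := exists_autE stab_le_normalizer h3
  exact ⟨σ, hσ, Subtype.ext (by rw [h2, inv_inv, ← h1, inv_inv, hg])⟩

omit [Fintype G] in
theorem hreal (hfs : FS p (principalBlock M G) P (pbe M P)) (hab : IsMulCommutative P)
    (hE : Nat.card (FE (P : Subgroup G) (pbe M P)) = 3) (y : (P : Subgroup G)) (s s' : G)
    (hs : s * s = 1) (hs' : s' * s' = 1) (hy : IsConj (y : G) (BlockB.pPart p (s * s'))) :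
    y * y = 1 := by
  have h1 : IsConj (BlockB.pPart p (s * s')) (BlockB.pPart p (s * s'))⁻¹ :=
    isConj_iff.2 ⟨s, BlockB.invol_inverts_pPart hs hs'⟩
  obtain ⟨g, hg⟩ := isConj_iff.1 hy
  obtain ⟨σ, hσ, h2⟩ := hfus hfs.mod hab y y⁻¹ ((hy.trans h1).trans (IsConj.symm
    (isConj_iff.2 ⟨g, by rw [← hg]; simp [mul_assoc]⟩)))
  by_contra h3
  have h4 : σ * σ = 1 := hfs.eFree _ (mul_mem hσ hσ) y (by rintro rfl; simp at h3)
    (by rw [MulAut.mul_apply, h2, map_inv, h2, inv_inv])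
  have h5 : σ ^ 3 = 1 := by
    have := pow_card_eq_one' (x := (⟨σ, hσ⟩ : FE _ _))
    rw [hE] at this
    exact congrArg Subtype.val this
  rw [pow_succ, sq, h4, one_mul] at h5
  rw [h5, MulAut.one_apply] at h2
  exact h3 (eq_inv_iff_mul_eq_one.1 h2)

theorem exists_y (h : FD p (principalBlock M G) P (pbe M P) (fun _ => 1) ζ a 0 δ)
    (hab : IsMulCommutative P)
    (hE : Nat.card (FE (P : Subgroup G) (pbe M P)) = 3) (hm2 : 3 + 1 < Nat.card P) {t : G}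
    (ht : orderOf t = 2) : ∃ y : (P : Subgroup G), y ≠ 1 ∧
      ∃ η₀ ∈ FY ζ, ∃ z : ℤ, (η₀ : G → ℂ) t = z ∧
      -δ * z + ∑ᶠ χ ∈ principalBlock M G \ FY ζ, (a χ : ℂ) * (χ : G → ℂ) t = 0 ∧
      ∑ᶠ η ∈ FY ζ, (η : G → ℂ) t ^ 2 * (η : G → ℂ) y = -δ * z ^ 2 ∧
      ∀ x x' : G, ¬ IsConj ((y⁻¹ : (P : Subgroup G)) : G)
        (BlockB.pPart p (x * t * x⁻¹ * (x' * t * x'⁻¹))) := by
  have hfs := h.fs
  have hM := hfs.mod
  have hr := hfs.two_le (hE ▸ hm2)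
  have hP : (P : Subgroup G) ≠ ⊥ := fun h1 => by simp [h1] at hm2
  have hδ : δ ^ 2 = 1 := by rcases h.sign with h3 | h3 <;> simp [h3]
  obtain ⟨hsgn, hcard⟩ := sum_eq h hE hm2
  have htt : t * t = 1 := by rw [← sq, ← ht, pow_orderOf_eq_one]
  have hcj : ∀ x : G, x * t * x⁻¹ * (x * t * x⁻¹) = 1 := fun x => by
    rw [conj_mul, htt]; simp
  have hfus := hfus hM hab
  have hreal := hreal hfs hab hE
  by_cases hp2 : p = 2
  swap
  · have hpt : ¬ p ∣ orderOf t := fun h1 =>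
      hp2 ((Nat.prime_dvd_prime_iff_eq hM.1 Nat.prime_two).1 (ht ▸ h1))
    obtain ⟨y, hy⟩ := ne_bot_iff_exists_ne_one.1 hP
    obtain ⟨ψ, hψ, -⟩ := h.exists_ne hr (Char.oneIrr G)
    obtain ⟨z, hz⟩ := Char.gen_eq_int_of_sq_eq_one (Char.gen_of_irr (ζ ψ).2) (g := t)
      (by rw [sq, htt])
    refine ⟨y, hy, ζ ψ, ⟨ψ, hψ, rfl⟩, z, hz, ?_, ?_, fun x x' h1 => ?_⟩
    · simpa [hz] using h.relation ⟨ψ, hψ, rfl⟩ hpt
    · rw [sum_sq h _ (c := z ^ 2 * δ) (n := 0) (t := 1) (y := y) (fun μ hμ => by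
        rw [h.reg_eq ⟨μ, hμ, rfl⟩ ⟨ψ, hψ, rfl⟩ hpt, hz, hY h μ hμ y y (hself y) hy]; ring)
        ⊥ (one_mem _) hy (fun σ _ x hx => by rw [mem_bot.1 hx, map_one]; exact one_mem _)]
      ring
    · have h2 := hreal _ _ _ (hcj x) (hcj x') h1
      rw [← mul_inv_rev, inv_eq_one, ← sq, ← orderOf_dvd_iff_pow_eq_one,
        Nat.dvd_prime Nat.prime_two, orderOf_eq_one_iff, or_iff_right hy] at h2
      obtain ⟨n, hn⟩ := BlockB.exists_orderOf_of_mem hM.1 P.isPGroup' y.2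
      rw [orderOf_coe, h2] at hn
      exact hp2 ((Nat.prime_dvd_prime_iff_eq Nat.prime_two hM.1).1
        (Nat.prime_two.dvd_of_dvd_pow hn.dvd)).symm
  subst hp2
  have hinv : ∀ s : G, s * s = 1 → IsPGroup 2 (zpowers s) := fun s hs =>
    BlockB.isPGroup_zpowers (by
      rcases (Nat.dvd_prime Nat.prime_two).1 (orderOf_dvd_of_pow_eq_one ((sq s).trans hs))
        with h1 | h1
      exacts [⟨0, h1⟩, ⟨1, h1⟩])
  obtain ⟨g, -, hg⟩ := (isSyl_sylow P).exists_le_cjs (hinv t htt) le_top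
  set t₀ : (P : Subgroup G) := ⟨g⁻¹ * t * g, mem_cjs.1 (hg (mem_zpowers t))⟩ with ht₀
  have hct : IsConj t (t₀ : G) := isConj_iff.2 ⟨g⁻¹, by simp [ht₀]⟩
  have ht1 : t₀ ≠ 1 := fun h1 => by
    rw [h1, OneMemClass.coe_one, isConj_one_left] at hct
    simp [hct] at ht
  obtain ⟨V, hV1, hV2, hV3⟩ := exists_sub hfs.mul_comm hfs.eFree hE hm2 (t := t₀)
    (Subtype.ext (by simpa [ht₀] using hcj g⁻¹))
  obtain ⟨y, hy⟩ : ∃ y, y ∉ V := by
    by_contra h1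
    push Not at h1
    exact hV2 (eq_top_iff.2 fun y _ => h1 y)
  have hy1 : y ≠ 1 := fun h1 => hy (h1 ▸ V.one_mem)
  obtain ⟨ψ, hψV, hψ⟩ := Char.exists_linear_of_not_mem_of_comm hfs.mul_comm V hy
  have hψ : ψ ≠ 1 := fun h1 => hψ (h1 ▸ rfl)
  have hval : ∀ χ : IrrCharacter G, (χ : G → ℂ) t = (χ : G → ℂ) t₀ := fun χ =>
    Char.classFun_of_isConj (Char.irr_isClassFunction χ.2) hct
  have hδ' : (δ : ℂ) ^ 2 = 1 := by exact_mod_cast hδ
  refine ⟨y, hy1, ζ ψ, ⟨ψ, hψ, rfl⟩, 3 * δ, ?_, ?_, ?_, fun x x' h1 => ?_⟩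
  · have := Fintype.ofFinite (FE (P : Subgroup G) (pbe M P))
    rw [hval, hY h ψ hψ _ t₀ (hself _) ht1, orbS_eq, Finset.sum_congr rfl fun σ _ => by
      rw [MonoidHom.mem_ker.1 (hψV (hV3 _ σ.2 _ hV1))], Finset.sum_const, Finset.card_univ,
      ← Nat.card_eq_fintype_card, hE]
    simp [mul_comm]
  · rw [finsum_mem_congr rfl fun χ hχ => show _ = ((a χ ^ 2 : ℤ) : ℂ) by
      rw [hval, hX h χ hχ _ t₀ (hself _) ht1]; push_cast; ring,
      finsum_mem_eq_finite_toFinset_sum _ (Set.toFinite _), ← Int.cast_sum,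
      ← finsum_mem_eq_finite_toFinset_sum _ (Set.toFinite _), h.card_FX_eq hsgn, hcard]
    push_cast
    linear_combination -3 * hδ'
  · rw [sum_sq h _ (c := δ) (n := 2) (t := t₀) (y := y) (fun μ hμ => by
      rw [hval, hY h μ hμ _ t₀ (hself _) ht1, hY h μ hμ y y (hself y) hy1, mul_pow, hδ']; ring)
      V hV1 hy hV3, hE]
    push_cast
    linear_combination 9 * δ * hδ'
  have h2 := hreal _ _ _ (hcj x) (hcj x') h1
  obtain ⟨c, hc⟩ := isConj_iff.1 h1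
  have h3 : BlockB.pPart 2 (x * t * x⁻¹ * (x' * t * x'⁻¹)) *
      BlockB.pPart 2 (x * t * x⁻¹ * (x' * t * x'⁻¹)) = 1 := by
    rw [← hc, conj_mul, ← coe_mul, h2]; simp
  have h4 := isConj_mul_pPart (hcj x) (hcj x') h3
  have h5 := BlockB.invol_inverts_pPart (p := 2) (hcj x) (hcj x')
  generalize BlockB.pPart 2 (x * t * x⁻¹ * (x' * t * x'⁻¹)) = u at h1 h3 h4 h5
  rw [inv_eq_of_mul_eq_one_right h3] at h5
  obtain ⟨g', -, hg'⟩ := (isSyl_sylow P).exists_le_cjs (isPGroup_sup_of_le_normalizer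
    (hinv u h3) (hinv _ (hcj x)) (zpowers_le.2 (centralizer_le_normalizer' _ (by
      rw [centralizer_zpowers]
      exact BlockB.mem_Cen.2 (mul_inv_eq_iff_eq_mul.1 h5))))) le_top
  have hs := mem_cjs.1 (hg' (mem_sup_left (mem_zpowers _)))
  have hu := mem_cjs.1 (hg' (mem_sup_right (mem_zpowers _)))
  have hcg : ∀ a : G, IsConj a (g'⁻¹ * a * g') := fun a => isConj_iff.2 ⟨g'⁻¹, by simp⟩
  obtain ⟨σ, hσ, e1⟩ := hfus t₀ ⟨_, hs⟩
    (hct.symm.trans ((isConj_iff.2 ⟨x, rfl⟩).trans (hcg _)))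
  obtain ⟨τ, hτ, e2⟩ := hfus t₀ (⟨_, hs⟩ * ⟨_, hu⟩)
    (hct.symm.trans ((isConj_iff.2 ⟨x', rfl⟩).trans (h4.symm.trans (by
      convert hcg _ using 1; simp [mul_assoc]))))
  obtain ⟨ρ, hρ, e3⟩ := hfus y⁻¹ ⟨_, hu⟩ (h1.trans (hcg _))
  have h6 := (V.mul_mem_cancel_left (e1 ▸ hV3 σ hσ _ hV1)).1 (e2 ▸ hV3 τ hτ _ hV1)
  exact hy (by simpa [← e3] using hV3 _ (inv_mem hρ) _ h6)

theorem final (h : FD p (principalBlock M G) P (pbe M P) (fun _ => 1) ζ a 0 δ)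
    (hab : IsMulCommutative P)
    (hE : Nat.card (FE (P : Subgroup G) (pbe M P)) = 3) (hm2 : 3 + 1 < Nat.card P) {t : G}
    (ht : orderOf t = 2) (hK : ∀ K : Subgroup G, K.Normal → t ∈ K → K = ⊤) :
    Nat.card {χ : IrrCharacter G // χ ∈ principalBlock M G \ FY ζ ∧ (χ : G → ℂ) ≠ (fun _ => 1) ∧
      a χ = -1} + (if δ = 1 then 1 else 0) = 2 ∧ ∀ η ∈ FY ζ, IsSquare (charDegree (η : G → ℂ) *
        ∏ᶠ χ ∈ {χ : IrrCharacter G | χ ∈ principalBlock M G \ FY ζ ∧ (χ : G → ℂ) ≠ fun _ => 1},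
          charDegree (χ : G → ℂ)) := by
  classical
  have hfs := h.fs
  have hM := hfs.mod
  have hr := hfs.two_le (hE ▸ hm2)
  have htt : t * t = 1 := by rw [← sq, ← ht, pow_orderOf_eq_one]
  obtain ⟨hsgn, hcard⟩ := sum_eq h hE hm2
  obtain ⟨y, hy, η₀, hη₀, z, hz, hlin, hsum, hvan⟩ := exists_y h hab hE hm2 ht
  obtain ⟨χ₂, χ₃, h23, hX23⟩ := Set.ncard_eq_two.1 (show ((principalBlock M G \ FY ζ) \
      {Char.oneIrr G}).ncard = 2 by
    rw [Set.ncard_sdiff_singleton_of_mem (hone h hr).1, ← Nat.card_coe_set_eq, hcard])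
  have h2 : χ₂ ∈ (principalBlock M G \ FY ζ) \ {Char.oneIrr G} := hX23 ▸ Or.inl rfl
  have h3 : χ₃ ∈ (principalBlock M G \ FY ζ) \ {Char.oneIrr G} := hX23 ▸ Or.inr rfl
  have hsumX : ∀ F : IrrCharacter G → ℂ, ∑ᶠ χ ∈ principalBlock M G \ FY ζ, F χ =
      F (Char.oneIrr G) + (F χ₂ + F χ₃) := fun F => by
    rw [← Set.insert_sdiff_self_of_mem (hone h hr).1, finsum_mem_insert _ (by simp)
      (Set.toFinite _), hX23, finsum_mem_pair h23]
  have hne : ∀ χ : IrrCharacter G, χ ≠ Char.oneIrr G → ∀ x : ℤ, (χ : G → ℂ) t = x →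
      x ≠ charDegree (χ : G → ℂ) := fun χ hχ x hx h1 => by
    have := Char.charKer_normal (Char.irr_isClassFunction χ.2)
    refine hχ (Subtype.ext (Char.irr_eq_one_of_charKer_eq_top χ.2 (hK _ this
      ((Char.mem_charKer_iff (Char.irr_isCharacter χ.2)).2 ?_))))
    rw [hx, h1, ← BlockB.irr_charDegree_eq, Int.cast_natCast]
  obtain ⟨x₂, hx₂⟩ := Char.gen_eq_int_of_sq_eq_one (Char.gen_of_irr χ₂.2) (g := t)
    (by rw [sq, htt])
  obtain ⟨x₃, hx₃⟩ := Char.gen_eq_int_of_sq_eq_one (Char.gen_of_irr χ₃.2) (g := t)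
    (by rw [sq, htt])
  have hrel := h.relation hη₀ hp1
  have hq := BlockB.sum_block_mul_mul_eq_zero hM (BlockB.nrm_eSet_le_one hM hfs.blk)
    (a := t) (b := t) (u := ((y⁻¹ : (P : Subgroup G)) : G)) (by
      rwa [BlockB.pPart_of_pElement hM.1 (BlockB.exists_orderOf_of_mem hM.1 P.isPGroup' y⁻¹.2)])
  rw [Finset.sum_congr rfl fun χ _ => by
    rw [coe_inv, Char.gen_inv (Char.gen_of_irr χ.2), Complex.conj_conj], ← finsum_mem_coe_finset,
    show ((Finset.univ.filter (· ∈ principalBlock M G) : Finset _) : Set (IrrCharacter G)) =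
      (principalBlock M G \ FY ζ) ∪ FY ζ by
        rw [Set.sdiff_union_of_subset h.FY_subset]; ext; simp,
    finsum_mem_union Set.disjoint_sdiff_left (Set.toFinite _) (Set.toFinite _),
    finsum_mem_congr (s := FY ζ) rfl fun η hη => show _ = (η : G → ℂ) t ^ 2 * (η : G → ℂ) y *
      ((η₀ : G → ℂ) 1)⁻¹ by rw [h.reg_eq hη hη₀ hp1]; ring,
    finsum_mem_eq_finite_toFinset_sum _ (Set.toFinite (FY ζ)), ← Finset.sum_mul,
    ← finsum_mem_eq_finite_toFinset_sum _ (Set.toFinite (FY ζ)), hsum, hsumX,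
    hX h _ h2.1 _ y (hself y) hy, hX h _ h3.1 _ y (hself y) hy] at hq
  rw [hsumX] at hrel hlin
  simp only [Char.coe_oneIrr] at hrel hlin hq
  simp only [← BlockB.irr_charDegree_eq, hx₂, hx₃, (hone h hr).2] at hrel hlin hq
  have hd₂ := BlockB.Ord.irr_deg_pos χ₂.2
  have hd₃ := BlockB.Ord.irr_deg_pos χ₃.2
  have hd₄ := BlockB.Ord.irr_deg_pos η₀.2
  obtain ⟨hA, hB⟩ := arith (s₄ := -δ) (x₂ := x₂) (x₃ := x₃) (x₄ := z) hd₂ hd₃ hd₄ (hsgn _ h2.1)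
    (hsgn _ h3.1) (by have := h.sign; omega)
    (Int.cast_injective (α := ℂ) (by push_cast at hrel ⊢; linear_combination hrel))
    (Int.cast_injective (α := ℂ) (by push_cast at hlin ⊢; linear_combination hlin))
    (Int.cast_injective (α := ℂ) (by
      have : (charDegree (χ₂ : G → ℂ) : ℂ) ≠ 0 := Nat.cast_ne_zero.2 hd₂.ne'
      have : (charDegree (χ₃ : G → ℂ) : ℂ) ≠ 0 := Nat.cast_ne_zero.2 hd₃.ne'
      have : (charDegree (η₀ : G → ℂ) : ℂ) ≠ 0 := Nat.cast_ne_zero.2 hd₄.ne'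
      field_simp at hq
      push_cast
      linear_combination hq))
    (hne _ h2.2 _ hx₂) (hne _ h3.2 _ hx₃) (hne _ (fun h1 => (hone h hr).1.2 (h1 ▸ hη₀)) _ hz)
  have hset : ∀ χ : IrrCharacter G, (χ ∈ principalBlock M G \ FY ζ ∧
      (χ : G → ℂ) ≠ fun _ => 1) ↔ χ = χ₂ ∨ χ = χ₃ := fun χ => by
    change _ ↔ χ ∈ ({χ₂, χ₃} : Set _)
    rw [← hX23, Set.mem_sdiff_singleton]
    exact and_congr_right fun _ => not_congr ⟨fun h1 => Subtype.ext h1, fun h1 => h1 ▸ rfl⟩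
  refine ⟨?_, fun η hη => ?_⟩
  · rw [Nat.card_eq_fintype_card, Fintype.card_subtype, show Finset.univ.filter _ =
      ({χ₂, χ₃} : Finset _).filter (a · = -1) by ext χ; simp only [Finset.mem_filter,
        Finset.mem_univ, true_and, ← and_assoc, hset, Finset.mem_insert, Finset.mem_singleton],
      Finset.card_filter, Finset.sum_pair h23, ← hA]
    simp [neg_inj]
  · rw [show {χ : IrrCharacter G | χ ∈ principalBlock M G \ FY ζ ∧ (χ : G → ℂ) ≠ fun _ => 1} =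
      {χ₂, χ₃} from Set.ext hset, finprod_mem_pair h23, charDegree, h.reg_eq hη hη₀ hp1]
    exact hB

end

/-- Let p be a prime, M a maximal ideal of the algebraic integers containing p, and G a finite group with a nontrivial abelian Sylow p-subgroup P, N = N_G(P), C = C_G(P), such that N/C is cyclic of order 3, #P > 4, and C_G(y) ∩ N = C for every non-identity y ∈ P. Then the principal p-block is the disjoint union of a set X of exactly 3 characters containing the principal character and a set Y of (#P − 1)/3 characters, with signs a_χ = ±1 (χ ∈ X, a = 1 at the principal character) and δ = ±1 such that every χ ∈ X takes the value a_χ at every element whose p-part is a non-identity element of P, and there is a map ζ from the non-principal linear characters of P onto Y, constant on N-conjugacy classes, with ζ_ψ(z) = δ·Σ ψ'(y) over the N-orbit of ψ, for z with p-part y ≠ 1 in P.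 If moreover G has an involution lying in no proper normal subgroup of G, then exactly two of the three numbers −δ and a_χ (χ ∈ X non-principal) equal −1, and the product of the degrees of the two non-principal members of X and of any member of Y is a perfect square. -/
theorem result {G : Type*} [Group G] [Finite G] (p : ℕ) [Fact p.Prime] (M : Ideal Cfsg.AlgInt) (hM : Cfsg.IsPModular p M) (P : Sylow p G) (hab : IsMulCommutative P) (hP1 : Nat.card P ≠ 1) (hCN : (Subgroup.centralizer ((P : Subgroup G) : Set G)).relIndex (Subgroup.normalizer ((P : Subgroup G) : Set G)) = 3) (hcyc : ∃ g : G, g ∈ Subgroup.normalizer ((P : Subgroup G) : Set G) ∧ Subgroup.centralizer ((P : Subgroup G) : Set G) ⊔ Subgroup.zpowers g = Subgroup.normalizer ((P : Subgroup G) : Set G)) (hm2 : 3 + 1 < Nat.card P) (hfrob : ∀ y : G, y ∈ (P : Subgroup G) → y ≠ 1 → Subgroup.centralizer ({y} : Set G) ⊓ Subgroup.normalizer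 ((P : Subgroup G) : Set G) = Subgroup.centralizer ((P : Subgroup G) : Set G)) : ∃ (X Y : Set (Cfsg.IrrCharacter G)), Cfsg.principalBlock M G = X ∪ Y ∧ Disjoint X Y ∧ Nat.card X = 3 ∧ Nat.card Y = (Nat.card P - 1) / 3 ∧ (∃ χ₁ ∈ X, (χ₁ : G → ℂ) = fun _ => 1) ∧ ∃ (a : Cfsg.IrrCharacter G → ℤ) (δ : ℤ) (ζ : (↥(P : Subgroup G) →* ℂˣ) → Cfsg.IrrCharacter G), (δ = 1 ∨ δ = -1) ∧ (∀ χ ∈ X, (a χ = 1 ∨ a χ = -1) ∧ ∀ z y : G, Cfsg.IsPPart p z y → y ∈ (P : Subgroup G) → y ≠ 1 → (χ : G → ℂ) z = (a χ : ℂ)) ∧ (∀ ψ : ↥(P : Subgroup G) →* ℂˣ, ψ ≠ 1 → ζ ψ ∈ Y) ∧ (∀ η ∈ Y, ∃ ψ : ↥(P : Subgroup G) →* ℂˣ, ψ ≠ 1 ∧ ζ ψ = η) ∧ (∀ ψ ψ' : ↥(P : Subgroup G) →* ℂˣ, ψ ≠ 1 → (∃ n : G, n ∈ Subgroup.normalizer ((P : Subgroup G) : Set G) ∧ ∀ w w' : ↥(P : Subgroup G), (w' : G) = n * w * n⁻¹ → ψ' w' = ψ w) → ζ ψ' = ζ ψ) ∧ (∀ ψ : ↥(P : Subgroup G) →* ℂˣ, ψ ≠ 1 → ∀ (z : G) (y : ↥(P : Subgroup G)), Cfsg.IsPPart p z (y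 : G) → (y : G) ≠ 1 → (ζ ψ : G → ℂ) z = (δ : ℂ) * ∑ᶠ ψ' ∈ {ψ' : ↥(P : Subgroup G) →* ℂˣ | ∃ n : G, n ∈ Subgroup.normalizer ((P : Subgroup G) : Set G) ∧ ∀ w w' : ↥(P : Subgroup G), (w' : G) = n * w * n⁻¹ → ψ' w' = ψ w}, ((ψ' y : ℂˣ) : ℂ)) ∧ ((∃ t : G, orderOf t = 2 ∧ ∀ K : Subgroup G, K.Normal → t ∈ K → K = ⊤) → Nat.card {χ : Cfsg.IrrCharacter G // χ ∈ X ∧ (χ : G → ℂ) ≠ (fun _ => 1) ∧ a χ = -1} + (if δ = 1 then 1 else 0) = 2 ∧ ∀ η ∈ Y, IsSquare (Cfsg.charDegree (η : G → ℂ) * ∏ᶠ χ ∈ {χ : Cfsg.IrrCharacter G | χ ∈ X ∧ (χ : G → ℂ) ≠ fun _ => 1}, Cfsg.charDegree (χ : G → ℂ))) := by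
  have := Fintype.ofFinite G
  have hfs := fS_pb hM P hab hfrob
  have hE : Nat.card (FE (P : Subgroup G) (pbe M P)) = 3 := by rw [card_FE, stab_pbe hM, hCN]
  have hr := hfs.two_le (hE ▸ hm2)
  obtain ⟨ζ, a, δ, h⟩ := exists_fd hfs hE hm2
  obtain ⟨hsgn, hcard⟩ := sum_eq h hE hm2
  refine ⟨principalBlock M G \ FY ζ, FY ζ, (Set.sdiff_union_of_subset h.FY_subset).symm,
    Set.disjoint_sdiff_left, hcard, hE ▸ h.card_FY, ⟨Char.oneIrr G, (hone h hr).1, rfl⟩, a, δ, ζ,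
    h.sign, fun χ hχ => ⟨hsgn χ hχ, fun z y hz hy hy1 =>
      hX h χ hχ z ⟨y, hy⟩ hz fun h1 => hy1 (congrArg Subtype.val h1)⟩,
    fun ψ hψ => ⟨ψ, hψ, rfl⟩, fun η hη => hη, fun ψ ψ' hψ hψ' => ?_, fun ψ hψ z y hz hy => ?_,
    ?_⟩
  · have h1 : ERel (FE (P : Subgroup G) (pbe M P)) ψ ψ' := by
      rw [eRel_autE_iff stab_le_normalizer, stab_pbe hM]; exact hψ'
    exact ((h.eq_iff ψ hψ ψ' (h1.ne_one hψ)).2 h1).symm
  · rw [hY h ψ hψ z y hz fun h1 => hy (congrArg Subtype.val h1),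
      hfs.finsum_orbit (stab_pbe hM _) hψ]
  rintro ⟨t, ht, hK⟩
  exact final h hab hE hm2 ht hK

end Cfsg.Agent.S4721
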