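import Cfsg.Statements.S4722
import Cfsg.Agent.BlockB.Column
-- import your own Cfsg.Agent.* helpers here

set_option autoImplicit false
open Cfsg

namespace Cfsg.Agent.S4722

/-- Let M be a maximal ideal of the algebraic integers containing 2, P a 2-subgroup of the finite group G, U a subset of P, and t an involution of G such that no element of U is inverted by any conjugate of t. Let θ be a generalized character of P vanishing outside U, and for χ in the principal 2-block B₀ put a_χ = #P⁻¹ Σ_{y ∈ P} χ(y) θ(y⁻¹). Then Σ_{χ ∈ B₀} a_χ χ(t)^2/χ(1) = 0, Σ_{χ ∈ B₀} a_χ χ(1) = 0 and Σ_{χ ∈ B₀} a_χ χ(t) = 0. If moreover #P⁻¹ Σ_{y ∈ P} θ(y) ≠ 0, then either at least two of the a_χ have positive real part and at least two have negative real part, or G has a proper normal subgroup containing O_2'(G) and t. -/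
theorem result {G : Type*} [Group G] [Finite G] (M : Ideal Cfsg.AlgInt) (hM : Cfsg.IsPModular 2 M) (P : Subgroup G) (hP : IsPGroup 2 P) (U : Set G) (hUP : U ⊆ (P : Set G)) (t : G) (ht : orderOf t = 2) (hinv : ∀ u ∈ U, ∀ g : G, (g * t * g⁻¹) * u * (g * t * g⁻¹)⁻¹ ≠ u⁻¹) (θ : ↥P → ℂ) (hθ : Cfsg.IsGeneralizedCharacter ↥P θ) (hθU : ∀ y : ↥P, (y : G) ∉ U → θ y = 0) : (∑ᶠ χ ∈ Cfsg.principalBlock M G, ((Nat.card ↥P : ℂ)⁻¹ * ∑ᶠ y : ↥P, (χ : G → ℂ) (y : G) * θ y⁻¹) * (χ : G → ℂ) t ^ 2 / (χ : G → ℂ) 1 = 0) ∧ (∑ᶠ χ ∈ Cfsg.principalBlock M G, ((Nat.card ↥P : ℂ)⁻¹ * ∑ᶠ y : ↥P, (χ : G → ℂ) (y : G) * θ y⁻¹) * (χ : G → ℂ) 1 = 0) ∧ (∑ᶠ χ ∈ Cfsg.principalBlock M G, ((Nat.card ↥P : ℂ)⁻¹ * ∑ᶠ y : ↥P, (χ : G → ℂ) (y : G) * θ y⁻¹) * (χ : G → ℂ) t = 0) ∧ ((Nat.card ↥P : ℂ)⁻¹ * ∑ᶠ y : ↥P, θ y ≠ 0 → (2 ≤ Nat.card {χ : Cfsg.IrrCharacter G // χ ∈ Cfsg.principalBlock M G ∧ 0 < (((Nat.card ↥P : ℂ)⁻¹ * ∑ᶠ y : ↥P, (χ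 : G → ℂ) (y : G) * θ y⁻¹)).re} ∧ 2 ≤ Nat.card {χ : Cfsg.IrrCharacter G // χ ∈ Cfsg.principalBlock M G ∧ (((Nat.card ↥P : ℂ)⁻¹ * ∑ᶠ y : ↥P, (χ : G → ℂ) (y : G) * θ y⁻¹)).re < 0}) ∨ ∃ K : Subgroup G, K.Normal ∧ K ≠ ⊤ ∧ Cfsg.pPrimeCore 2 G ≤ K ∧ t ∈ K) := by
  classical
  have := Fintype.ofFinite G
  simp only [CF.Char.finsum_pb]
  simp only [finsum_eq_sum_of_fintype]
  have htt : t * t = 1 := by rw [← pow_two, ← ht, pow_orderOf_eq_one]
  have hp : ∀ y : P, CF.BlockB.pPart 2 (y : G) = y := fun y =>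
    CF.BlockB.pPart_of_pElement hM.1 (CF.BlockB.exists_orderOf_of_mem hM.1 hP y.2)
  have key : ∀ F : IrrCharacter G → ℂ, (∀ y : P, (y : G) ∈ U →
      ∑ χ ∈ CF.Char.pb M G, starRingEnd ℂ ((χ : G → ℂ) y) * F χ = 0) →
      ∑ χ ∈ CF.Char.pb M G, ((Nat.card P : ℂ)⁻¹ * ∑ y : P, (χ : G → ℂ) y * θ y⁻¹) * F χ = 0 := by
    intro F hF
    simp only [mul_assoc, ← Finset.mul_sum, Finset.sum_mul]
    rw [Finset.sum_comm, Finset.sum_eq_zero, mul_zero]
    intro y _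
    by_cases hy : ((y⁻¹ : P) : G) ∈ U
    · have := hF _ hy
      simp only [InvMemClass.coe_inv, CF.Char.irr_inv (Subtype.prop _), Complex.conj_conj] at this
      simp only [mul_left_comm _ (θ y⁻¹), ← Finset.mul_sum, this, mul_zero]
    · simp [hθU _ hy]
  have e1 := key (fun χ => (χ : G → ℂ) t ^ 2 / (χ : G → ℂ) 1) fun y hy => by
    rw [CF.BlockB.sum_pb_eq_filter, ← CF.BlockB.sum_block_mul_mul_eq_zero hM
      (CF.Char.nrm_eSet_pb hM) (a := t) (b := t) (u := y) fun x z h => ?_]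
    · exact Finset.sum_congr rfl fun χ _ => by ring
    · obtain ⟨c, hc⟩ := isConj_iff.1 h
      have := CF.BlockB.invol_inverts_pPart (p := 2) (s := x * t * x⁻¹) (t := z * t * z⁻¹)
        (by rw [show x * t * x⁻¹ * (x * t * x⁻¹) = x * (t * t) * x⁻¹ by group, htt]; group)
        (by rw [show z * t * z⁻¹ * (z * t * z⁻¹) = z * (t * t) * z⁻¹ by group, htt]; group)
      rw [← hc, hp] at this
      refine hinv y hy (c⁻¹ * x) ?_
      calc _ = c⁻¹ * (x * t * x⁻¹ * (c * y * c⁻¹) * (x * t * x⁻¹)⁻¹) * c := by group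
        _ = _ := by rw [this]; group
  have e2 := key (fun χ => (χ : G → ℂ) 1) fun y hy => by
    rw [← CF.Char.pb_orth hM (g := 1) (h := (y : G)) fun h => hinv y hy 1 ?_]
    · exact Finset.sum_congr rfl fun χ _ => mul_comm _ _
    · rw [hp, CF.BlockB.pPart_of_pRegular hM.1 (by simp), isConj_one_right] at h
      simp [h]
  have e3 := key (fun χ => (χ : G → ℂ) t) fun y hy => by
    rw [← CF.Char.pb_orth hM (g := t) (h := y) fun h => ?_]
    · exact Finset.sum_congr rfl fun χ _ => mul_comm _ _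
    · rw [hp, CF.BlockB.pPart_of_pElement hM.1 ⟨1, ht⟩] at h
      obtain ⟨c, hc⟩ := isConj_iff.1 h
      refine hinv y hy c ?_
      rw [hc, mul_inv_cancel_right, ← hc, mul_inv_rev, mul_inv_rev, inv_inv,
        inv_eq_of_mul_eq_one_right htt, mul_assoc]
  refine ⟨by simpa only [mul_div_assoc] using e1, e2, e3, fun h0 => ?_⟩
  choose a ha using fun χ : IrrCharacter G => CF.Char.inner_gen_eq_int
    (CF.Char.gen_restrict (CF.Char.gen_of_irr χ.2) P) hθ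
  simp only [CF.Char.inner_eq_sum_inv hθ] at ha
  choose τ hτ using fun χ : IrrCharacter G => CF.Char.gen_eq_int_of_sq_eq_one
    (CF.Char.gen_of_irr χ.2) (g := t) (by rwa [pow_two])
  choose d hd0 hd using fun χ : IrrCharacter G => CF.Char.irr_one_eq_nat χ.2
  have ha1 : a (CF.Char.oneIrr G) ≠ 0 := by
    intro h
    have := ha (CF.Char.oneIrr G)
    simp only [CF.Char.oneIrr_apply, one_mul, h, Int.cast_zero] at this
    exact h0 (by rw [← this, ← Equiv.sum_comp (Equiv.inv P)]; rfl)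
  have hτ1 : τ (CF.Char.oneIrr G) = 1 := by
    have := hτ (CF.Char.oneIrr G)
    rw [CF.Char.oneIrr_apply] at this
    exact_mod_cast this.symm
  have hd1 : d (CF.Char.oneIrr G) = 1 := by
    have := hd (CF.Char.oneIrr G)
    rw [CF.Char.oneIrr_apply] at this
    exact_mod_cast this.symm
  simp only [ha, hτ, hd, Complex.intCast_re, Int.cast_pos, Int.cast_lt_zero] at e1 e2 e3 ⊢
  by_contra hc
  rw [not_or] at hc
  have hne : ∀ χ ∈ CF.Char.pb M G, χ ≠ CF.Char.oneIrr G → τ χ ≠ d χ := fun χ hχ h1 h =>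
    hc.2 ⟨CF.Char.charKer (χ : G → ℂ), CF.Char.charKer_normal (CF.Char.irr_isClassFunction χ.2),
      fun h' => h1 (Subtype.ext (CF.Char.irr_eq_one_of_charKer_eq_top χ.2 h')),
      CF.Char.pPrimeCore_le_charKer_of_mem_pb hM (CF.Char.mem_pb.1 hχ),
      (CF.Char.mem_charKer_iff (CF.Char.irr_isCharacter χ.2)).2 (by rw [hτ, hd, h, Int.cast_natCast])⟩
  have e4 : ∀ α β : ℚ, ∑ χ ∈ CF.Char.pb M G, a χ * ((α * d χ + β * τ χ) ^ 2 / d χ) = 0 := by
    intro α β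
    rw [← Rat.cast_inj (α := ℂ)]
    push_cast
    rw [show (0 : ℂ) = α ^ 2 * 0 + 2 * α * β * 0 + β ^ 2 * 0 by ring]
    conv_rhs => rw [← e1]; arg 1; rw [e1, ← e3]; arg 1; rw [e3, ← e2]
    simp only [Finset.mul_sum, ← Finset.sum_add_distrib]
    refine Finset.sum_congr rfl fun χ _ => ?_
    have : (d χ : ℂ) ≠ 0 := Nat.cast_ne_zero.2 (hd0 χ).ne'
    field_simp
    ring
  have main : ∀ a : IrrCharacter G → ℤ, 0 < a (CF.Char.oneIrr G) →
      (∀ α β : ℚ, ∑ χ ∈ CF.Char.pb M G, a χ * ((α * d χ + β * τ χ) ^ 2 / d χ) = 0) →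
      2 ≤ Nat.card {χ // χ ∈ principalBlock M G ∧ 0 < a χ} ∧
        2 ≤ Nat.card {χ // χ ∈ principalBlock M G ∧ a χ < 0} := by
    intro a ha1 e4
    have o1 := CF.Char.oneIrr_mem_pb (G := G) hM
    have hq : ∀ (α β : ℚ) χ, 0 ≤ (α * d χ + β * τ χ) ^ 2 / d χ := fun _ _ _ => by positivity
    have f1 : ∀ α β : ℚ, α + β ≠ 0 →
        ∃ χ ∈ CF.Char.pb M G, a χ < 0 ∧ α * d χ + β * τ χ ≠ 0 := by
      intro α β h
      by_contra! h'
      refine (Finset.sum_pos' (fun χ hχ => ?_) ⟨_, o1, ?_⟩).ne' (e4 α β)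
      · rcases lt_or_ge (a χ) 0 with h1 | h1
        · simp [h' χ hχ h1]
        · exact mul_nonneg (by exact_mod_cast h1) (hq _ _ _)
      · rw [hd1, hτ1]
        have : 0 < (α + β) ^ 2 := by positivity
        simpa using mul_pos (by exact_mod_cast ha1 : (0 : ℚ) < a _) this
    obtain ⟨χ, hχ, h1, -⟩ := f1 1 0 (by simp)
    have hχ1 : χ ≠ CF.Char.oneIrr G := fun h => by rw [h] at h1; omega
    have h2 : (τ χ : ℚ) ≠ d χ := by exact_mod_cast hne χ hχ hχ1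
    obtain ⟨ψ, hψ, h3, h4⟩ := f1 (τ χ) (-d χ) (by rwa [← sub_eq_add_neg, sub_ne_zero])
    obtain ⟨ξ, hξ, h5, h6⟩ : ∃ ξ ∈ CF.Char.pb M G, 0 < a ξ ∧ ξ ≠ CF.Char.oneIrr G := by
      by_contra! h'
      refine (Finset.sum_neg' (fun ξ hξ => ?_) ⟨_, hχ, ?_⟩).ne (e4 1 (-1))
      · rcases lt_or_ge 0 (a ξ) with h1 | h1
        · simp [h' ξ hξ h1, hd1, hτ1]
        · exact mul_nonpos_of_nonpos_of_nonneg (by exact_mod_cast h1) (hq _ _ _)
      · refine mul_neg_of_neg_of_pos (by exact_mod_cast h1) (div_pos ?_ (by exact_mod_cast hd0 χ))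
        exact sq_pos_of_ne_zero (by rw [one_mul, neg_one_mul, ← sub_eq_add_neg, sub_ne_zero]; exact h2.symm)
    constructor
    · exact Finite.one_lt_card_iff_nontrivial.2 ⟨⟨ξ, CF.Char.mem_pb.1 hξ, h5⟩,
        ⟨_, CF.Char.mem_pb.1 o1, ha1⟩, fun h => h6 (congrArg Subtype.val h)⟩
    · refine Finite.one_lt_card_iff_nontrivial.2 ⟨⟨ψ, CF.Char.mem_pb.1 hψ, h3⟩,
        ⟨χ, CF.Char.mem_pb.1 hχ, h1⟩, fun h => h4 ?_⟩
      rw [show ψ = χ from congrArg Subtype.val h]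
      ring
  refine hc.1 ?_
  rcases ha1.lt_or_gt with h | h
  · have := main (-a) (by simpa using h) fun α β => by
      simp only [Pi.neg_apply, Int.cast_neg, neg_mul, Finset.sum_neg_distrib, e4, neg_zero]
    simpa only [Pi.neg_apply, neg_pos, neg_lt_zero] using this.symm
  · exact main a h e4

end Cfsg.Agent.S4722
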