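import Cfsg.Statements.S4723
import Cfsg.Agent.Block.Prin
import Cfsg.Agent.Clifford.Extend

set_option autoImplicit false
open Cfsg

namespace Cfsg.Agent.S4723

open CF.Block CF Subgroup

/-- Let p be a prime, M a maximal ideal of the algebraic integers containing p, H a normal subgroup of the finite group G and b a p-block of H. Let T be the stabilizer of b in G. Then b contains a character θ of height zero whose own stabilizer in G (the elements g with θ(g h g⁻¹) = θ(h) for all h ∈ H) has index prime to p in T, i.e. contains a Sylow p-subgroup of T. -/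
theorem result {G : Type*} [Group G] [Finite G] (p : ℕ) [Fact p.Prime] (M : Ideal Cfsg.AlgInt) (hM : Cfsg.IsPModular p M) (H : Subgroup G) [H.Normal] (b : Set (Cfsg.IrrCharacter ↥H)) (hb : Cfsg.IsPBlock M b) (T : Subgroup G) (hT : (∀ g : G, g ∈ T ↔ ∀ θ ∈ b, ∀ θ' : Cfsg.IrrCharacter ↥H, (∀ h h' : ↥H, (h' : G) = g * h * g⁻¹ → (θ' : ↥H → ℂ) h' = (θ : ↥H → ℂ) h) → θ' ∈ b)) : ∃ θ ∈ b, Cfsg.blockHeight p b (θ : ↥H → ℂ) = 0 ∧ ∃ S : Subgroup G, S ≤ T ∧ (∀ g : G, g ∈ S ↔ (g ∈ T ∧ ∀ h h' : ↥H, (h' : G) = g * h * g⁻¹ → (θ : ↥H → ℂ) h' = (θ : ↥H → ℂ) h)) ∧ ¬ p ∣ S.relIndex T := by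
  classical
  have := BlockB.charP_k hM
  have hp : p.Prime := Fact.out
  have := Fintype.ofFinite G
  have := Fintype.ofFinite H
  have hTs : T = stab ⊤ (ebs M H b) := by
    ext g
    rw [hT, stabB_iff hM hb (le_normalizer_of_normal' ⊤ H (mem_top g)), mem_stab]
    simp
  obtain ⟨P, hP⟩ := exists_isSyl (p := p) T
  have hb' := isBlk_ebs hM hb
  set L := P ⊔ H with hL
  have := Fintype.ofFinite L
  have hHL : H ≤ L := le_sup_right
  have hLN : L ≤ normalizer (H : Set G) := le_normalizer_of_normal' _ _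
  have hst : ebs M H b ∈ fix (BlockB.k M) L :=
    mem_fix_sup (fix_anti (hTs ▸ hP.le) (mem_fix_stab _ _)) hb'.mem_fix
  have hbL : IsBlk L (ebs M H b) := (regSupp hM).isBlk_of_stable
    (fun x hx hxp => mem_of_mem_sup_of_reg hP.isP (le_normalizer_of_normal' _ _) hx hxp)
    hb' hHL hst
  obtain ⟨F, hF, hFe, -⟩ := exists_block_of_isBlk hM hHL hb hbL
  obtain ⟨D, hD⟩ := hbL.exists_isDefGrp
  obtain ⟨n, hn⟩ := exists_relIndex_eq_pow hP.isP H
  rw [← relIndex_sup_of_norm (le_normalizer_of_normal' _ _)] at hn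
  have hDH : D ⊔ H = L := eq_of_not_dvd_relIndex le_sup_right (sup_le hD.le hHL) hn
    (hD.fong hbL hb' hLN hHL)
  have h1 := (hD.inf_of_isBlk hbL hb' hLN hHL).card_eq_pow_sub hM hb
  have h2 := (hFe ▸ hD : IsDefGrp p L (ebs M L F) D).card_eq_pow_sub hM hF
  have h3 := card_inf_mul_relIndex D H
  rw [← relIndex_sup_of_norm (le_normalizer_of_normal' _ _), hDH, hn, h1, h2, ← pow_add] at h3
  have h4 := Nat.pow_right_injective hp.two_le h3
  have h5 := card_mul_relIndex hHL
  have h6 : (Nat.card H).factorization p + n = (Nat.card L).factorization p := by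
    rw [← h5, hn, Nat.factorization_mul Nat.card_pos.ne' (pow_ne_zero _ hp.ne_zero),
      hp.factorization_pow]
    simp
  have h7 := BlockB.blockDefect_add_minExp (p := p) (BlockB.block_nonempty hM hF)
  have h8 := BlockB.blockDefect_add_minExp (p := p) (BlockB.block_nonempty hM hb)
  have hmin : BlockB.minExp p F = BlockB.minExp p b := by omega
  obtain ⟨χ, hχ, hχ0⟩ := BlockB.exists_minExp_eq (p := p) (BlockB.block_nonempty hM hF)
  let E : Clifford.NormalEmb H L := (Clifford.NormalEmb.sub H).restrict L fun n => hHL n.2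
  obtain ⟨θ, hθ, hi⟩ := Clifford.exists_irr_constituent_comp E.ι χ.2
  have hθb : (⟨θ, hθ⟩ : Cfsg.IrrCharacter H) ∈ b :=
    mem_of_under_stable_sub hM hHL hLN hF hb hst (by rw [hFe, hb'.idem]; exact hb'.ne) hχ hi
  obtain ⟨j, hj, hjd⟩ := E.exists_deg_eq_mul hθ χ.2 hi
  rw [Clifford.NormalEmb.index_restrict_sub, hn] at hj
  obtain ⟨i, -, rfl⟩ := (Nat.dvd_prime_pow hp).1 hj
  have hdeg : Cfsg.charDegree (χ : L → ℂ) = p ^ i * Cfsg.charDegree θ := by
    apply BlockB.charDegree_of_eq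
    rw [hjd, Nat.cast_mul, BlockB.charDegree_eq (Char.irr_isCharacter hθ)]
  have hle := BlockB.minExp_le (p := p) hθb
  rw [hdeg, Nat.factorization_mul (pow_ne_zero _ hp.ne_zero)
    (BlockB.irr_charDegree_ne_zero ⟨θ, hθ⟩), hp.factorization_pow] at hχ0
  simp only [Finsupp.coe_add, Pi.add_apply, Finsupp.single_eq_same] at hχ0 hle
  have hi0 : i = 0 := by omega
  have hres : (fun n => (χ : L → ℂ) (E.ι n)) = θ :=
    Clifford.eq_of_inner_ne_zero_of_one_eq (Char.char_comp (Char.irr_isCharacter χ.2) E.ι) hθ hi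
      (by simpa [hi0] using hjd)
  have hinv : E.Invariant θ :=
    E.invariant_of_ext (Char.irr_isClassFunction χ.2) (congrFun hres)
  refine ⟨⟨θ, hθ⟩, hθb, (BlockB.height_zero_iff hθb).2 (by simp only; omega),
    T ⊓ (Clifford.NormalEmb.sub H).inertia θ, inf_le_left, fun g => ?_, fun h => ?_⟩
  · rw [mem_inf, Clifford.NormalEmb.mem_inertia']
    refine and_congr_right fun _ => ⟨fun h x y hxy => ?_, fun h x => h _ _ rfl⟩
    change θ y = θ x
    rw [← h x]; congr 1; exact Subtype.ext hxy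
  · refine hP.not_dvd_relIndex (h.trans (relIndex_dvd_of_le_left _ (le_inf hP.le ?_)))
    intro g hg
    rw [Clifford.NormalEmb.mem_inertia']
    intro n
    exact congrFun (hinv.cj_eq ⟨g, (le_sup_left : P ≤ L) hg⟩) n

end Cfsg.Agent.S4723
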