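import Cfsg.Statements.S4726
import Cfsg.Agent.Block.Ker

set_option autoImplicit false
open Cfsg

namespace Cfsg.Agent.S4726

open CF.Block CF Subgroup

/-- Let p be a prime, M a maximal ideal of the algebraic integers containing p, H a subgroup of the finite group G and b a p-block of H with defect group D₀ such that C_G(D₀) ≤ H. Then b induces a block of G, and for every block B of G induced by b there is a defect group D of B with Z(D) ≤ Z(D₀) ≤ D₀ ≤ D (as subgroups of G). In particular, if the defect groups of B are abelian then D₀ is a defect group of B. -/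
theorem result {G : Type*} [Group G] [Finite G] (p : ℕ) [Fact p.Prime] (M : Ideal Cfsg.AlgInt) (hM : Cfsg.IsPModular p M) (H : Subgroup G) (b : Set (Cfsg.IrrCharacter ↥H)) (hb : Cfsg.IsPBlock M b) (D₀ : Subgroup ↥H) (hD₀ : Cfsg.IsDefectGroup p M b D₀) (hC : Subgroup.centralizer ((D₀.map H.subtype : Subgroup G) : Set G) ≤ H) : Cfsg.InducedBlockDefined M H b ∧ ∀ B : Set (Cfsg.IrrCharacter G), Cfsg.IsInducedBlock M H b B → (∃ D : Subgroup G, Cfsg.IsDefectGroup p M B D ∧ (Subgroup.center ↥D).map D.subtype ≤ ((Subgroup.center ↥D₀).map D₀.subtype).map H.subtype ∧ ((Subgroup.center ↥D₀).map D₀.subtype).map H.subtype ≤ D₀.map H.subtype ∧ D₀.map H.subtype ≤ D) ∧ (∀ D : Subgroup G, Cfsg.IsDefectGroup p M B D → IsMulCommutative ↥D → Cfsg.IsDefectGroup p M B (D₀.map H.subtype)) := by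
  have := CF.BlockB.charP_k hM
  obtain ⟨f, hf⟩ := ((isDefectGroup_iff_sub hM hb D₀).1 hD₀).exists_maxPair (isBlk_ebs hM hb)
  have hC' := (Cz_top _).le.trans hC
  refine ⟨?_, fun B hB => ?_⟩
  · obtain ⟨E, hE⟩ := hf.exists_induces le_top hC'
    obtain ⟨B, hB, -⟩ := exists_isInducedBlock_of_induces hM hb hE
    exact ⟨B, hB⟩
  have hI := IsInducedBlock.induces hM hB
  obtain ⟨D, e, he, hle⟩ := ((hf.induces_iff le_top hC' hI.blk').1 hI).exists_maxPair
  have h1 := hf.inf_centralizer_le le_top hC' hle he.bpair.pair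
  refine ⟨⟨D, (isDefectGroup_iff hM hB.2.1 D).2 he.isDefGrp, ?_,
    map_mono (map_subtype_le _), hle.le⟩, fun E hE hab => ?_⟩
  · rintro _ ⟨z, hz, rfl⟩
    have h2 : (z : G) ∈ centralizer (D₀.map H.subtype : Set G) := fun y hy =>
      congrArg Subtype.val (mem_center_iff.1 hz ⟨y, hle.le hy⟩)
    obtain ⟨w, hw, h3⟩ := h1 ⟨z.2, h2⟩
    refine ⟨w, ⟨⟨w, hw⟩, mem_center_iff.2 fun y => Subtype.ext (Subtype.ext ?_), rfl⟩, h3⟩
    have h4 := h2 _ (mem_map_of_mem _ y.2)
    rw [← show (w : G) = z from h3] at h4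
    exact h4
  · obtain ⟨g, -, rfl⟩ := ((isDefectGroup_iff hM hB.2.1 E).1 hE).conj he.isDefGrp hI.blk'
    have h2 : cjs g E ≤ centralizer (cjs g E : Set G) := by
      rw [centralizer_cjs]
      exact cjs_mono g fun a ha b hb => congrArg Subtype.val (hab.is_comm.comm ⟨b, hb⟩ ⟨a, ha⟩)
    rw [isDefectGroup_iff hM hB.2.1, le_antisymm hle.le
      ((le_inf le_rfl (h2.trans (centralizer_anti hle.le))).trans h1)]
    exact he.isDefGrp

end Cfsg.Agent.S4726
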