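import Cfsg.Statements.S4727
import Cfsg.Agent.Block.Ker

set_option autoImplicit false
open Cfsg

namespace Cfsg.Agent.S4727

open CF.Block CF Subgroup

/-- Let p be a prime, π a set of primes containing p, M a maximal ideal of the algebraic integers containing p, and B a p-block of the finite group G with defect group D; let B₁ be the block of N_G(D) with defect group D that induces B (the Brauer correspondent of B). Suppose every element of O_π'(N_G(D)), the largest normal subgroup of N_G(D) whose order has no prime divisor in π, lies in the kernel of every member of B₁. If y is a p-element whose centralizer C has a normal Hall π'-subgroup (every element of C whose order has no prime divisor in π lies in O_π'(C)), then χ(y x) = χ(y) for every χ ∈ B and every x ∈ C whose order has no prime divisor in π. -/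
theorem result {G : Type*} [Group G] [Finite G] (p : ℕ) [Fact p.Prime] (M : Ideal Cfsg.AlgInt) (hM : Cfsg.IsPModular p M) (π : Set ℕ) (hpπ : p ∈ π) (B : Set (Cfsg.IrrCharacter G)) (hB : Cfsg.IsPBlock M B) (D : Subgroup G) (hBD : Cfsg.IsDefectGroup p M B D) (B₁ : Set (Cfsg.IrrCharacter ↥(Subgroup.normalizer (D : Set G)))) (hB₁ : Cfsg.IsInducedBlock M (Subgroup.normalizer (D : Set G)) B₁ B) (hB₁D : Cfsg.IsDefectGroup p M B₁ (D.subgroupOf (Subgroup.normalizer (D : Set G)))) (hker : ∀ n : ↥(Subgroup.normalizer (D : Set G)), n ∈ Cfsg.piCore {q | q ∉ π} ↥(Subgroup.normalizer (D : Set G)) → n ∈ Cfsg.blockKer B₁) (y : G) (hy : ∃ k : ℕ, orderOf y = p ^ k) (hC : ∀ x : ↥(Subgroup.centralizer ({y} : Set G)), (∀ q : ℕ, q.Prime → q ∣ orderOf x → q ∉ π) → x ∈ Cfsg.piCore {q | q ∉ π} ↥(Subgroup.centralizer ({y} : Set G))) : ∀ χ ∈ B, ∀ x : G, x ∈ Subgroup.centralizer ({y} : Set G) → (∀ q : ℕ, q.Prime → q ∣ orderOf x → q ∉ π) → (χ : G → ℂ) (y * x) = (χ : G → ℂ) y := by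
  have := CF.BlockB.charP_k hM
  have hp : p ∉ {q | q ∉ π} := fun h => h hpπ
  obtain ⟨e, he⟩ := ((isDefectGroup_iff hM hB D).1 hBD).exists_maxPair (isBlk_eb hM hB)
  have h1 := (kerIn_Br_iff hM hp he hB₁).1 hker
  intro χ hχ x hx h
  have h2 := BlockB.blockPart_indSet_of_mem hM hy hB hχ (y := ⟨x, hx⟩)
    (by rw [← orderOf_coe]; exact fun h3 => h p Fact.out h3 hpπ)
  have h3 := BlockB.blockPart_indSet_of_mem hM hy hB hχ (y := 1)
    (by rw [orderOf_one]; exact hM.1.one_lt.ne' ∘ Nat.dvd_one.1)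
  rw [OneMemClass.coe_one, mul_one] at h3
  rw [← h2, ← h3, blockPart, blockPart]
  refine finsum_mem_congr rfl fun ξ hξ => congrArg _ ?_
  have hI := IsInducedBlock.induces hM hξ
  have hc : Cz ⊤ (zpowers y) = BlockB.Cen y := by rw [Cz_top, centralizer_zpowers]
  have h4 := he.kerIn hp h1 ((bPair_iff_induces
    ⟨le_top, BlockB.isPGroup_zpowers hy, by rw [hc]; exact hI.blk⟩ hI.blk').2 (by rw [hc]; exact hI))
  rw [hc, kerIn_O_iff hM hp hξ.1] at h4
  exact h4 _ (hC ⟨x, hx⟩ (by rwa [← orderOf_coe])) ξ (BlockB.mem_blockOf_self hM ξ)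

end Cfsg.Agent.S4727
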