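import Cfsg.Statements.S4728
import Cfsg.Agent.Block.Ker

set_option autoImplicit false
open Cfsg

namespace Cfsg.Agent.S4728

open CF.Block CF Subgroup

/-- Let p be a prime, π a set of primes containing p, M a maximal ideal of the algebraic integers containing p, B a p-block of the finite group G with defect group D, and B₁ the block of N_G(D) with defect group D inducing B. Let D₀ be a p-subgroup, H₀ = D₀·C_G(D₀), and b a block of H₀ inducing B. Write O_π'(X) for the largest normal subgroup of X whose order has no prime divisor in π. Suppose that O_π'(C_G(D₀)) is a normal Hall π'-subgroup of C_G(D₀) (it contains every element of C_G(D₀) whose order has no prime divisor in π) and that every element of it lies in the kernel of every member of b. Then every element of O_π'(N_G(D)) lies in the kernel of every member of B₁. -/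
theorem result {G : Type*} [Group G] [Finite G] (p : ℕ) [Fact p.Prime] (M : Ideal Cfsg.AlgInt) (hM : Cfsg.IsPModular p M) (π : Set ℕ) (hpπ : p ∈ π) (B : Set (Cfsg.IrrCharacter G)) (hB : Cfsg.IsPBlock M B) (D : Subgroup G) (hBD : Cfsg.IsDefectGroup p M B D) (B₁ : Set (Cfsg.IrrCharacter ↥(Subgroup.normalizer (D : Set G)))) (hB₁ : Cfsg.IsInducedBlock M (Subgroup.normalizer (D : Set G)) B₁ B) (hB₁D : Cfsg.IsDefectGroup p M B₁ (D.subgroupOf (Subgroup.normalizer (D : Set G)))) (D₀ : Subgroup G) (hD₀ : IsPGroup p D₀) (H₀ : Subgroup G) (hH₀ : H₀ = D₀ ⊔ Subgroup.centralizer (D₀ : Set G)) (b : Set (Cfsg.IrrCharacter ↥H₀)) (hb : Cfsg.IsInducedBlock M H₀ b B) (hcompl : ∀ x : ↥(Subgroup.centralizer (D₀ : Set G)), (∀ q : ℕ, q.Prime → q ∣ orderOf x → q ∉ π) → x ∈ Cfsg.piCore {q | q ∉ π} ↥(Subgroup.centralizer (D₀ : Set G))) (hkerb : ∀ x : ↥(Subgroup.centralizer (D₀ : Set G)), x ∈ Cfsg.piCore {q | q ∉ π} ↥(Subgroup.centralizer (D₀ : Set G)) → ∀ θ ∈ b,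 ∀ h : ↥H₀, (h : G) = (x : G) → (θ : ↥H₀ → ℂ) h = (θ : ↥H₀ → ℂ) 1) : ∀ n : ↥(Subgroup.normalizer (D : Set G)), n ∈ Cfsg.piCore {q | q ∉ π} ↥(Subgroup.normalizer (D : Set G)) → n ∈ Cfsg.blockKer B₁ := by
  have := CF.BlockB.charP_k hM
  have hp : p ∉ {q | q ∉ π} := fun h => h hpπ
  obtain ⟨e, he⟩ := ((isDefectGroup_iff hM hB D).1 hBD).exists_maxPair (isBlk_eb hM hB)
  refine (kerIn_Br_iff hM hp he hB₁).2 ?_
  have hH : H₀ = D₀ ⊔ Cz ⊤ D₀ := by rw [Cz_top, hH₀]
  have hI := IsInducedBlock.induces hM hb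
  have hf : BPair p ⊤ (eb M B) D₀ (ebs M H₀ b) := by
    generalize ebs M H₀ b = f at hI
    exact (hH ▸ hI).bPair_of_sup hD₀
  obtain ⟨P, g, hg, hle⟩ := hf.exists_maxPair
  refine hg.kerIn hp (hle.kerIn_up hp ?_ ?_) he.bpair
  · rw [Cz_top]
    exact fun x hx h => mem_map_of_mem _ (hcompl ⟨x, hx⟩ (by rwa [← orderOf_coe]))
  · rw [kerIn_ebs_iff hM hb.1 ((BG.O_le _ _).trans (hH ▸ le_sup_right))
      (le_trans (hH ▸ sup_le (le_inf le_normalizer le_top) (Cz_le_Nz _ _)) (Nz_le_normalizer_O _ _ _))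
      (not_dvd_card_O hp _), Cz_top]
    rintro x ⟨y, hy, h⟩ θ hθ
    exact hkerb y hy θ hθ x h.symm

end Cfsg.Agent.S4728
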