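import Cfsg.Statements.S4729
import Cfsg.Agent.Block.PRat

set_option autoImplicit false
open Cfsg

namespace Cfsg.Agent.S4729

open CF.Block CF Subgroup CF.BlockB

theorem sum_pow_eq {z : ℂ} {m : ℕ} (h : z ^ m = 1) :
    ∑ j ∈ Finset.range m, z ^ j = if z = 1 then (m : ℂ) else 0 := by
  split_ifs with h1
  · simp [h1]
  · exact (mul_eq_zero.1 ((geom_sum_mul z m).trans (by rw [h, sub_self]))).resolve_right
      (sub_ne_zero.2 h1)

/-- Let p be a prime, M a maximal ideal of the algebraic integers containing p, G a finite perfect group and P a Sylow p-subgroup. If the principal p-block of G contains a faithful irreducible character of degree less than 2p, then the centralizer of P is a p-group. -/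
theorem result {G : Type*} [Group G] [Finite G] (p : ℕ) [Fact p.Prime] (M : Ideal Cfsg.AlgInt) (hM : Cfsg.IsPModular p M) (hperf : commutator G = ⊤) (P : Sylow p G) (χ : Cfsg.IrrCharacter G) (hχ : χ ∈ Cfsg.principalBlock M G) (hfaith : ∀ g : G, (χ : G → ℂ) g = (χ : G → ℂ) 1 → g = 1) (hdeg : Cfsg.charDegree (χ : G → ℂ) < 2 * p) : IsPGroup p ↥(Subgroup.centralizer ((P : Subgroup G) : Set G)) := by
  classical
  have hp := hM.1
  have hc := Char.irr_isCharacter χ.2
  have h1 : ∀ x ∈ centralizer ((P : Subgroup G) : Set G),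
      v M ((χ : G → ℂ) x - (χ : G → ℂ) 1) < 1 := fun x hx => by
    have h1 := (sameBlock_iff hM Char.irr_one χ.2).1 hχ x
    have h2 : ¬ p ∣ (centralizer ({x} : Set G)).index := fun h2 => P.not_dvd_index
      (h2.trans (index_dvd_of_le fun y hy => mem_centralizer_singleton_iff.2 (hx y hy)))
    have h3 : (χ : G → ℂ) x - (χ : G → ℂ) 1 = -(centralChar (fun _ => 1) x - centralChar χ x) *
        (χ : G → ℂ) 1 / (centralizer ({x} : Set G)).index := by
      have := Char.irr_one_ne_zero χ.2
      have : ((centralizer ({x} : Set G)).index : ℂ) ≠ 0 := by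
        exact_mod_cast FiniteIndex.index_ne_zero
      simp only [centralChar]
      field_simp
      ring
    rw [h3, map_div₀, (v_natCast_eq_one_iff hM _).2 h2, div_one, map_mul, Valuation.map_neg]
    exact (mul_le_of_le_one_right' (v_irr_le_one χ 1)).trans_lt h1
  have h2 : ∀ x ∈ centralizer ((P : Subgroup G) : Set G), ¬ p ∣ orderOf x → x = 1 := by
    intro x hx hxp
    obtain ⟨n, ω, h2, h3, h4⟩ := Char.char_exists_roots hc x
    have h5 : ∀ k : ℕ, (χ : G → ℂ) (x ^ k) = ∑ i, ω i ^ k := fun k => by simpa using h4 k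
    have h0 : ∀ i, ω i ≠ 0 := fun i h => by simpa [h, (orderOf_pos x).ne'] using h3 i
    have h6 : ∀ i, ω i ≠ 1 → p ∣ (Finset.univ.filter fun l => ω l = ω i).card := fun i hi => by
      have h6 : ∑ j ∈ Finset.range (orderOf x), ((χ : G → ℂ) (x ^ j) - (χ : G → ℂ) 1) *
          (ω i)⁻¹ ^ j = (orderOf x * (Finset.univ.filter fun l => ω l = ω i).card : ℕ) := by
        simp only [sub_mul, Finset.sum_sub_distrib, h5, Finset.sum_mul, ← mul_pow,
          ← Finset.mul_sum]
        rw [Finset.sum_comm, sum_pow_eq (by rw [inv_pow, h3, inv_one]), if_neg (by simpa using hi),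
          Finset.sum_congr rfl fun l _ => sum_pow_eq (by rw [mul_pow, inv_pow, h3, h3]; simp)]
        simp [mul_inv_eq_one₀ (h0 i), Finset.sum_ite, mul_comm]
      refine (hp.dvd_mul.1 ((v_natCast_lt_one_iff hM _).1 (h6 ▸ ?_))).resolve_left hxp
      refine Valuation.map_sum_lt _ one_ne_zero fun j _ => ?_
      rw [map_mul, map_pow, map_inv₀, v_eq_one_of_pow_eq_one (orderOf_pos x).ne' (h3 i), inv_one,
        one_pow, mul_one]
      exact h1 _ (pow_mem hx j)
    have hn : n < 2 * p := by rwa [charDegree_of_eq h2] at hdeg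
    refine hfaith x ?_
    by_contra h7
    obtain ⟨i, hi⟩ : ∃ i, ω i ≠ 1 := by
      by_contra! h8
      exact h7 (by simpa [h8, h2] using h5 1)
    have h8 : ∀ l, ω l ≠ 1 → p ≤ (Finset.univ.filter fun j => ω j = ω l).card := fun l hl =>
      Nat.le_of_dvd (Finset.card_pos.2 ⟨l, by simp⟩) (h6 l hl)
    have h9 : ∀ l, ω l ≠ ω i → ω l = 1 := fun l hl => by
      by_contra h9
      have := Finset.card_le_univ ((Finset.univ.filter fun j => ω j = ω l) ∪
        Finset.univ.filter fun j => ω j = ω i)
      rw [Finset.card_union_of_disjoint (Finset.disjoint_filter.2 fun j _ a b =>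
        hl (a.symm.trans b)), Fintype.card_fin] at this
      linarith [h8 l h9, h8 i hi]
    have h10 : (Finset.univ.filter fun j => ω j = ω i).card = p := by
      obtain ⟨c, hc⟩ := h6 i hi
      have h10 := Finset.card_le_univ (Finset.univ.filter fun j => ω j = ω i)
      have h11 := h8 i hi
      rw [Fintype.card_fin] at h10
      rw [hc] at h10 h11 ⊢
      have : c = 1 := by
        rcases c with _ | _ | c
        · exact absurd h11 (by simpa using hp.ne_zero)
        · rfl
        · nlinarith
      rw [this, mul_one]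
    have h11 := Clifford.detChar_eq_prod hc ω h0 h5
    rw [← Finset.prod_filter_mul_prod_filter_not _ fun j => ω j = ω i,
      Finset.prod_eq_one (s := Finset.univ.filter fun j => ¬ ω j = ω i) fun j hj =>
        h9 j (Finset.mem_filter.1 hj).2, mul_one,
      Finset.prod_congr rfl fun j hj => (Finset.mem_filter.1 hj).2, Finset.prod_const, h10] at h11
    have h12 : Clifford.detHom hc x = 1 :=
      Abelianization.commutator_subset_ker (Clifford.detHom hc) (hperf ▸ mem_top x)
    have h13 : ω i ^ p = 1 := h11.symm.trans (congrArg Units.val h12)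
    exact hi (orderOf_eq_one_iff.1 (Nat.eq_one_of_dvd_coprimes
      ((Nat.Prime.coprime_iff_not_dvd hp).2 hxp) (orderOf_dvd_of_pow_eq_one h13)
      (orderOf_dvd_of_pow_eq_one (h3 i))))
  intro x
  obtain ⟨n, hn⟩ := exists_pPart_pow hp (x : G)
  refine ⟨n, Subtype.ext ?_⟩
  have h3 := pPart_mul_pReg (p := p) (x : G)
  rw [h2 _ (pReg_mem x.2) (pReg_pRegular hp _), mul_one] at h3
  rw [h3] at hn
  exact hn

end Cfsg.Agent.S4729
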