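import Cfsg.Statements.S4730
import Cfsg.Agent.Block.Prin2
import Cfsg.Agent.Char.Integral

set_option autoImplicit false
open Cfsg

namespace Cfsg.Agent.S4730

open CF.Block CF Subgroup

/-- Let p be a prime, M a maximal ideal of the algebraic integers containing p, and G a finite group with trivial centre, Sylow p-subgroup P of order p^a and centre Z(P) of order p^b. If χ is a faithful irreducible character of G whose degree is a power of p, then the p-block of χ has defect at most a − b; in particular, if P is abelian then χ lies in a block of defect zero. -/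
theorem result {G : Type*} [Group G] [Finite G] (p : ℕ) [Fact p.Prime] (M : Ideal Cfsg.AlgInt) (hM : Cfsg.IsPModular p M) (hZ : Subgroup.center G = ⊥) (P : Sylow p G) (a b : ℕ) (ha : Nat.card P = p ^ a) (hb : Nat.card (Subgroup.center ↥(P : Subgroup G)) = p ^ b) (χ : Cfsg.IrrCharacter G) (hfaith : ∀ g : G, (χ : G → ℂ) g = (χ : G → ℂ) 1 → g = 1) (n : ℕ) (hdeg : Cfsg.charDegree (χ : G → ℂ) = p ^ n) : Cfsg.blockDefect p (Cfsg.blockOf M (χ : G → ℂ)) ≤ a - b ∧ (IsMulCommutative ↥(P : Subgroup G) → Cfsg.blockDefect p (Cfsg.blockOf M (χ : G → ℂ)) = 0) := by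
  classical
  have := BlockB.charP_k hM
  have hp : p.Prime := Fact.out
  have hB := BlockB.isPBlock_blockOf (M := M) χ
  have hχB := BlockB.mem_blockOf_self hM χ
  set B := Cfsg.blockOf M (χ : G → ℂ)
  set Z : Subgroup G := (P : Subgroup G) ⊓ centralizer (P : Set G) with hZdef
  have hZc : Nat.card Z = p ^ b := by
    rw [← hb, ← card_map_of_injective (K := center (P : Subgroup G))
      (P : Subgroup G).subtype_injective]
    congr 2
    ext x
    simp only [hZdef, mem_inf, mem_map, mem_centralizer_iff, mem_center_iff]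
    constructor
    · rintro ⟨h1, h2⟩
      exact ⟨⟨x, h1⟩, fun g => Subtype.ext (h2 g g.2), rfl⟩
    · rintro ⟨y, hy, rfl⟩
      exact ⟨y.2, fun g hg => congrArg Subtype.val (hy ⟨g, hg⟩)⟩
  suffices key : Cfsg.blockDefect p B ≤ a - b by
    refine ⟨key, fun hc => ?_⟩
    have : center (P : Subgroup G) = ⊤ := by
      rw [eq_top_iff]; intro x _
      exact mem_center_iff.2 fun g => hc.is_comm.comm g x
    rw [this, card_top] at hb
    have : a = b := Nat.pow_right_injective hp.two_le (ha.symm.trans hb)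
    omega
  set N := normalizer ((P : Subgroup G) : Set G)
  have hNZ : N ≤ normalizer (Z : Set G) :=
    le_trans (le_inf le_rfl (normalizer_le_normalizer_centralizer _))
      (normalizer_inf_le_normalizer_inf _ _)
  have hker : Char.charKer (χ : G → ℂ) = ⊥ := by
    rw [eq_bot_iff]; intro g hg
    exact hfaith g ((Char.mem_charKer_iff (Char.irr_isCharacter χ.2)).1 hg)
  have hev : BlockB.ev (χ : G → ℂ) (setSum ℂ (Z : Set G)) = (χ : G → ℂ) 1 := by
    have := Fintype.ofFinite Z
    rw [ev_setSum_subgroup, Finset.sum_eq_single 1 _ (by simp)]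
    · rfl
    · intro z _ hz
      rcases Char.irr_eq_zero_or_mem_charCenter χ.2 (BlockB.irr_charDegree_eq χ).symm (z : G)
        (by
          rw [hdeg]
          refine Nat.Coprime.pow_left _ ((Nat.Prime.coprime_iff_not_dvd hp).2 fun h => ?_)
          exact P.not_dvd_index (h.trans (index_dvd_of_le
            (le_centralizer_singleton_iff.2 z.2.2)))) with h | h
      · exact h
      · rw [Char.charCenter_eq_center_of_faithful χ.2 hker, hZ, mem_bot] at h
        exact absurd (Subtype.ext h) hz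
  have hy := tr_mem_Zc (R := ℂ) (H := ⊤) (setSum_mem_fix hNZ) (mem_sub_top _)
  have hom : BlockB.omega (χ : G → ℂ) (tr N ⊤ (setSum ℂ (Z : Set G))) = N.index := by
    rw [BlockB.omega_apply]
    have := map_tr_of_invariant (K := N) (H := ⊤) (a := setSum ℂ (Z : Set G))
      (BlockB.ev (χ : G → ℂ)).toAddMonoidHom fun g _ => by
        change BlockB.ev _ _ = BlockB.ev _ _
        rw [cj_eq, BlockB.ev_mul_comm (Char.irr_isClassFunction χ.2), ← mul_assoc,
          MonoidAlgebra.single_mul_single, inv_mul_cancel, one_mul, ← MonoidAlgebra.one_def,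
          one_mul]
    simp only [LinearMap.toAddMonoidHom_coe] at this
    rw [this, hev, relIndex_top_right, nsmul_eq_mul, mul_div_assoc,
      div_self (Char.irr_one_ne_zero χ.2), mul_one]
  have hl := lam_eb hM hB hχB (mem_Zc_top_iff_Z.1 hy) ((nrm_tr_le _).trans (nrm_setSum_le _))
  rw [hom, red_tr (nrm_setSum_le _), red_setSum, BlockB.resC_natCast] at hl
  have hl' : (lam (eb M B) (tr N ⊤ (setSum (BlockB.k M) (Z : Set G))) : BlockB.k M) ≠ 0 := by
    rw [hl, Ne, CharP.cast_eq_zero_iff _ p]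
    exact fun h => P.not_dvd_index (h.trans (index_dvd_of_le le_normalizer))
  have hy' := tr_mem_Zc (R := BlockB.k M) (H := ⊤) (setSum_mem_fix hNZ) (mem_sub_top _)
  obtain ⟨D, hD⟩ := (isBlk_eb hM hB).exists_isDefGrp
  obtain ⟨e, he⟩ := hD.exists_maxPair (isBlk_eb hM hB)
  rw [← he.bpair.lam_eq hy'] at hl'
  have hmem : Br D (tr N ⊤ (setSum (BlockB.k M) (Z : Set G))) ∈ Zc (BlockB.k M) (Cz ⊤ D) :=
    Br_mem_Zc_Cz (mem_sub_top _) (fix_anti le_top (mem_Zc.1 hy').2)
  obtain ⟨w, hw, hwe⟩ := (he.bpair.pair.blk.lam_ne_zero_iff hmem).1 hl'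
  set ZD : Subgroup G := D ⊓ centralizer (D : Set G)
  have h1 := mul_setSum_ne_zero (S := ZD) (hD.isP.to_le inf_le_left)
    (fix_anti inf_le_left he.bpair.pair.mem_fix) he.bpair.pair.blk.idem he.bpair.pair.blk.ne
  have h2 : Br D (tr N ⊤ (setSum (BlockB.k M) (Z : Set G))) * setSum _ (ZD : Set G) ≠ 0 := by
    intro h
    rw [← hwe, he.bpair.pair.blk.comm _ hmem _ hw, mul_assoc, h, mul_zero] at h1
    exact h1 rfl
  obtain ⟨g, -, hg1, hg2⟩ := exists_of_Br_tr_mul_ne_zero hD.isP le_top (setSum_mem_fix hNZ) h2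
  have hS := (isSyl_sylow P).cjs g
  rw [cjs_top] at hS
  set S := cjs g (P : Subgroup G)
  have hDS : D ≤ S := by
    rw [← normalizer_cjs] at hg1
    have := hS.max (D ⊔ S) (isPGroup_sup_of_le_normalizer hS.isP hD.isP hg1) le_sup_right le_top
    rw [← this]; exact le_sup_left
  have hZ' : cjs g Z = S ⊓ centralizer (S : Set G) := by rw [cjs_inf, centralizer_cjs]; rfl
  have hZD : cjs g Z ≤ centralizer (D : Set G) := by
    rw [hZ']; exact inf_le_right.trans (centralizer_anti hDS)
  rw [cj_setSum, Br_setSum, inf_eq_left.2 hZD] at hg2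
  have h3 : ¬ p ∣ Nat.card (cjs g Z ⊓ ZD : Subgroup G) := fun h =>
    hg2 (setSum_mul_setSum_eq_zero h)
  have h4 : cjs g Z ⊓ ZD = cjs g Z ⊓ D := by
    rw [← inf_assoc, inf_right_comm, inf_eq_left.2 hZD]
  rw [h4] at h3
  obtain ⟨i, hi⟩ := (hD.isP.to_le (inf_le_right : cjs g Z ⊓ D ≤ D)).exists_card_eq
  have hi0 : Nat.card (cjs g Z ⊓ D : Subgroup G) = 1 := by
    rcases i with _ | i
    · simpa using hi
    · exact absurd (hi ▸ dvd_pow_self p i.succ_ne_zero) h3
  have h5 := card_inf_mul_relIndex (cjs g Z) D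
  have h6 := card_mul_relIndex (le_sup_right : D ≤ cjs g Z ⊔ D)
  rw [relIndex_sup_of_norm (hZD.trans (centralizer_le_normalizer' D))] at h6
  rw [hi0, one_mul, card_cjs, hZc] at h5
  rw [h5, hD.card_eq_pow hM hB, ← pow_add] at h6
  have h7 : Nat.card (cjs g Z ⊔ D : Subgroup G) ≤ Nat.card S :=
    card_le_of_le (sup_le (hZ' ▸ inf_le_left) hDS)
  rw [← h6, card_cjs, show Nat.card (P : Subgroup G) = p ^ a from ha,
    Nat.pow_le_pow_iff_right hp.one_lt] at h7
  omega

end Cfsg.Agent.S4730
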