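import Cfsg.Statements.S4734
import Cfsg.Agent.Block.Ker

set_option autoImplicit false
open Cfsg

namespace Cfsg.Agent.S4734

open CF.Block CF Subgroup

/-- Let p be a prime, π a set of primes containing p, M a maximal ideal of the algebraic integers containing p, B a p-block of the finite group G with defect group D, and B₁ the block of N_G(D) with defect group D inducing B. Write O_π'(X) for the largest normal subgroup of X whose order has no prime divisor in π, and suppose every element of O_π'(N_G(D)) lies in the kernel of every member of B₁. Let G₀ be a subgroup and B₀ a block of G₀ with defect group D₀ such that C_G(D₀) ≤ G₀ and B₀ induces B. Then every element of O_π'(G₀) lies in the kernel of every member of B₀. -/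
theorem result {G : Type*} [Group G] [Finite G] (p : ℕ) [Fact p.Prime] (M : Ideal Cfsg.AlgInt) (hM : Cfsg.IsPModular p M) (π : Set ℕ) (hpπ : p ∈ π) (B : Set (Cfsg.IrrCharacter G)) (hB : Cfsg.IsPBlock M B) (D : Subgroup G) (hBD : Cfsg.IsDefectGroup p M B D) (B₁ : Set (Cfsg.IrrCharacter ↥(Subgroup.normalizer (D : Set G)))) (hB₁ : Cfsg.IsInducedBlock M (Subgroup.normalizer (D : Set G)) B₁ B) (hB₁D : Cfsg.IsDefectGroup p M B₁ (D.subgroupOf (Subgroup.normalizer (D : Set G)))) (hker : ∀ n : ↥(Subgroup.normalizer (D : Set G)), n ∈ Cfsg.piCore {q | q ∉ π} ↥(Subgroup.normalizer (D : Set G)) → n ∈ Cfsg.blockKer B₁) (G₀ : Subgroup G) (B₀ : Set (Cfsg.IrrCharacter ↥G₀)) (hB₀ : Cfsg.IsInducedBlock M G₀ B₀ B) (D₀ : Subgroup ↥G₀) (hD₀ : Cfsg.IsDefectGroup p M B₀ D₀) (hC : Subgroup.centralizer ((D₀.map G₀.subtype : Subgroup G) : Set G) ≤ G₀) : ∀ x : ↥G₀, x ∈ Cfsg.piCore {q | q ∉ π} ↥G₀ → x ∈ Cfsg.blockKer B₀ := by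
  have := CF.BlockB.charP_k hM
  have hp : p ∉ {q | q ∉ π} := fun h => h hpπ
  obtain ⟨e, he⟩ := ((isDefectGroup_iff hM hB D).1 hBD).exists_maxPair (isBlk_eb hM hB)
  have h1 := (kerIn_Br_iff hM hp he hB₁).1 hker
  obtain ⟨f, hf⟩ := ((isDefectGroup_iff_sub hM hB₀.1 D₀).1 hD₀).exists_maxPair
    (isBlk_ebs hM hB₀.1)
  have hC' := (Cz_top _).le.trans hC
  have h2 := he.kerIn hp h1 ((hf.induces_iff le_top hC' (isBlk_eb hM hB)).1
    (IsInducedBlock.induces hM hB₀))
  rw [← kerIn_O_iff hM hp hB₀.1, hf.bpair.kerIn_iff (BG.O_le _ _) (BG.O_normal _ _).norm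
    (not_dvd_card_O hp _)]
  exact h2.mono ((inf_le_inf_left _ (Cz_top _).ge).trans (BG.O_inf_le hC' _))

end Cfsg.Agent.S4734
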