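import Cfsg.Statements.S4735
import Cfsg.Agent.Block.Prin

set_option autoImplicit false
open Cfsg

namespace Cfsg.Agent.S4735

open CF.Block CF Subgroup

/-- Let p be a prime, M a maximal ideal of the algebraic integers containing p, G a finite group, H = O_p'(G) and Ḡ = G/H. For x ∈ G write λ(G, x) for the sum of |χ(x)|^2 over the irreducible characters χ in the principal p-block of G. Then λ(G, x) is a positive integer, λ(G, x) = λ(Ḡ, x̄) where x̄ is the image of x, and λ(G, x) ≤ #C_Ḡ(x̄). Moreover λ(G, 1) = [G : H] if and only if the principal block is the only p-block of Ḡ. -/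
theorem result {G : Type*} [Group G] [Finite G] (p : ℕ) [Fact p.Prime] (M : Ideal Cfsg.AlgInt) (hM : Cfsg.IsPModular p M) (x : G) : (∃ n : ℕ, 0 < n ∧ ∑ᶠ χ ∈ Cfsg.principalBlock M G, Complex.normSq ((χ : G → ℂ) x) = n) ∧ ∑ᶠ χ ∈ Cfsg.principalBlock M G, Complex.normSq ((χ : G → ℂ) x) = ∑ᶠ ψ ∈ Cfsg.principalBlock M (G ⧸ Cfsg.pPrimeCore p G), Complex.normSq ((ψ : G ⧸ Cfsg.pPrimeCore p G → ℂ) (QuotientGroup.mk x)) ∧ ∑ᶠ χ ∈ Cfsg.principalBlock M G, Complex.normSq ((χ : G → ℂ) x) ≤ (Nat.card ↥(Subgroup.centralizer ({(QuotientGroup.mk x : G ⧸ Cfsg.pPrimeCore p G)} : Set (G ⧸ Cfsg.pPrimeCore p G))) : ℝ) ∧ ((∑ᶠ χ ∈ Cfsg.principalBlock M G, Cfsg.charDegree (χ : G → ℂ) ^ 2) = (Cfsg.pPrimeCore p G).index ↔ ∀ B : Set (Cfsg.IrrCharacter (G ⧸ Cfsg.pPrimeCore p G)), Cfsg.IsPBlock M B → B = Cfsg.principalBlock M (G ⧸ Cfsg.pPrimeCore p G)) := by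
  classical
  have hp : p.Prime := Fact.out
  have hO : ¬ p ∣ Nat.card (Cfsg.pPrimeCore p G) := Solv.not_dvd_card_pPrimeCore
  have e1 : ∑ᶠ χ ∈ Cfsg.principalBlock M G, Complex.normSq ((χ : G → ℂ) x) =
      ∑ᶠ ψ ∈ Cfsg.principalBlock M (G ⧸ Cfsg.pPrimeCore p G),
        Complex.normSq ((ψ : G ⧸ Cfsg.pPrimeCore p G → ℂ) (QuotientGroup.mk x)) := by
    rw [Char.finsum_pb, Char.finsum_pb]
    exact sum_pb_eq_sum_pb_quot hM _ hO fun χ => Complex.normSq (χ x)
  refine ⟨?_, e1, ?_, ?_⟩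
  · rw [Char.finsum_pb]
    have hint : IsIntegral ℤ (∑ χ ∈ Char.pb M G, (χ : G → ℂ) x * (starRingEnd ℂ) ((χ : G → ℂ) x)) :=
      IsIntegral.sum _ fun χ _ => (Char.char_isIntegral (Char.irr_isCharacter χ.2) x).mul
        (Char.isIntegral_conj (Char.char_isIntegral (Char.irr_isCharacter χ.2) x))
    obtain ⟨n, hn⟩ := Char.int_of_fixed hint fun σ => by
      rw [map_sum]
      refine Finset.sum_bij (fun χ _ => (⟨fun g => (σ : ℂ →+* ℂ) ((χ : G → ℂ) g),
        Char.irr_map χ.2 σ⟩ : Cfsg.IrrCharacter G)) ?_ ?_ ?_ ?_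
      · intro χ hχ
        rw [Char.mem_pb] at hχ ⊢
        exact map_mem_pb hM hχ _
      · intro χ _ ψ _ h
        apply Subtype.ext; funext g
        exact σ.injective (congrFun (congrArg Subtype.val h) g)
      · intro χ hχ
        rw [Char.mem_pb] at hχ
        refine ⟨_, Char.mem_pb.2 (map_mem_pb hM hχ (σ.symm : ℂ →+* ℂ)), ?_⟩
        apply Subtype.ext; funext g
        simp
      · intro χ _
        rw [map_mul]
        congr 1
        exact Char.gen_map_conj (Char.gen_of_irr χ.2) (σ : ℂ →+* ℂ) x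
    have hn' : ∑ χ ∈ Char.pb M G, Complex.normSq ((χ : G → ℂ) x) = n := by
      have : ((∑ χ ∈ Char.pb M G, Complex.normSq ((χ : G → ℂ) x) : ℝ) : ℂ) = ((n : ℝ) : ℂ) := by
        push_cast
        rw [← hn]
        simp only [Complex.mul_conj]
      exact_mod_cast this
    have hpos : (1 : ℝ) ≤ ∑ χ ∈ Char.pb M G, Complex.normSq ((χ : G → ℂ) x) := by
      have := Finset.single_le_sum (f := fun χ : Cfsg.IrrCharacter G =>
        Complex.normSq ((χ : G → ℂ) x)) (fun _ _ => Complex.normSq_nonneg _)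
        (Char.oneIrr_mem_pb hM)
      simpa using this
    have hn1 : (1 : ℤ) ≤ n := by rw [hn'] at hpos; exact_mod_cast hpos
    refine ⟨n.toNat, by omega, ?_⟩
    rw [hn']
    have : ((n.toNat : ℤ) : ℝ) = n := by rw [Int.toNat_of_nonneg (by omega)]
    exact_mod_cast this.symm
  · rw [e1, Char.finsum_pb, ← Char.sum_irr_norm_sq]
    simp only [Complex.normSq_eq_norm_sq]
    exact Finset.sum_le_sum_of_subset_of_nonneg (Finset.subset_univ _) fun _ _ _ => sq_nonneg _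
  · rw [Char.finsum_pb, sum_pb_eq_sum_pb_quot hM _ hO fun χ => Cfsg.charDegree χ ^ 2]
    have hall : ∑ ψ : Cfsg.IrrCharacter (G ⧸ Cfsg.pPrimeCore p G),
        Cfsg.charDegree (ψ : G ⧸ Cfsg.pPrimeCore p G → ℂ) ^ 2 = (Cfsg.pPrimeCore p G).index := by
      have := Char.sum_irr_one_sq (G := G ⧸ Cfsg.pPrimeCore p G)
      simp only [← BlockB.irr_charDegree_eq] at this
      exact_mod_cast this
    change ∑ ψ ∈ Char.pb M (G ⧸ Cfsg.pPrimeCore p G),
      Cfsg.charDegree (ψ : G ⧸ Cfsg.pPrimeCore p G → ℂ) ^ 2 = _ ↔ _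
    rw [← hall]
    constructor
    · intro h B hB
      obtain ⟨ψ, hψ⟩ := BlockB.block_nonempty hM hB
      refine BlockB.block_eq_of_mem_of_mem hM hB BlockB.isPBlock_principalBlock hψ ?_
      by_contra hn
      refine (Finset.sum_lt_sum_of_subset (Finset.subset_univ _) (Finset.mem_univ ψ)
        (by rwa [Char.mem_pb]) ?_ fun _ _ _ => Nat.zero_le _).ne h
      exact pow_pos (Nat.pos_of_ne_zero (BlockB.irr_charDegree_ne_zero ψ)) 2
    · intro h
      congr 1
      refine Finset.eq_univ_of_forall fun ψ => ?_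
      rw [Char.mem_pb, ← h _ (BlockB.isPBlock_blockOf ψ)]
      exact BlockB.mem_blockOf_self hM ψ

end Cfsg.Agent.S4735
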