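import Cfsg.Statements.S4736
import Cfsg.Agent.Block.Ito

set_option autoImplicit false
open Cfsg

namespace Cfsg.Agent.S4736

open CF.Block CF Subgroup

/-- Let p be a prime, M a maximal ideal of the algebraic integers containing p, and G a finite p-solvable group with Sylow p-subgroup P. Then P is abelian if and only if every irreducible character in the principal p-block of G has height zero. -/
theorem result {G : Type*} [Group G] [Finite G] (p : ℕ) [Fact p.Prime] (M : Ideal Cfsg.AlgInt) (hM : Cfsg.IsPModular p M) (hsolv : Cfsg.IsPSolvable p G) (P : Sylow p G) : IsMulCommutative P ↔ ∀ χ ∈ Cfsg.principalBlock M G, Cfsg.blockHeight p (Cfsg.principalBlock M G) (χ : G → ℂ) = 0 := by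
  set K := Cfsg.pPrimeCore p G with hK
  have hs' := Solv.isPSolvable_quotient hsolv K
  have hc := isCharP_quot_of_isPSolvable hsolv
  set P' := P.mapSurjective (QuotientGroup.mk'_surjective K) with hP'
  have hP'c : (P' : Subgroup (G ⧸ K)) = (P : Subgroup G).map (QuotientGroup.mk' K) := rfl
  have h1 : (∀ χ ∈ Cfsg.principalBlock M G,
      Cfsg.blockHeight p (Cfsg.principalBlock M G) (χ : G → ℂ) = 0) ↔
      ∀ ψ : Cfsg.IrrCharacter (G ⧸ K), ¬ p ∣ Cfsg.charDegree (ψ : G ⧸ K → ℂ) := by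
    have hh : ∀ χ ∈ Cfsg.principalBlock M G,
        Cfsg.blockHeight p (Cfsg.principalBlock M G) (χ : G → ℂ) = 0 ↔
          ¬ p ∣ Cfsg.charDegree (χ : G → ℂ) := by
      intro χ hχ
      rw [BlockB.height_zero_iff hχ, BlockB.minExp_principal hM,
        Nat.factorization_eq_zero_iff]
      have := BlockB.Ord.irr_deg_pos χ.2
      have hp : p.Prime := Fact.out
      constructor
      · rintro (h | h | h)
        · exact absurd hp h
        · exact h
        · omega
      · exact fun h => Or.inr (Or.inl h)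
    constructor
    · intro h ψ
      have hm : (⟨_, Char.irr_inflate K ψ.2⟩ : Cfsg.IrrCharacter G) ∈ Cfsg.principalBlock M G :=
        (mem_pb_iff_of_isPSolvable hM hsolv _).2 (Char.le_charKer_inflate K _)
      have := (hh _ hm).1 (h _ hm)
      rwa [show Cfsg.charDegree (fun g : G => (ψ : G ⧸ K → ℂ) g) =
        Cfsg.charDegree (ψ : G ⧸ K → ℂ) from BlockB.Ord.deg_comp _ (QuotientGroup.mk' K)] at this
    · intro h χ hχ
      rw [hh χ hχ]
      obtain ⟨ψ, hψ, he⟩ := Char.exists_irr_quotient χ.2 K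
        ((mem_pb_iff_of_isPSolvable hM hsolv χ).1 hχ)
      rw [he, show Cfsg.charDegree (fun g : G => ψ g) = Cfsg.charDegree ψ from
        BlockB.Ord.deg_comp _ (QuotientGroup.mk' K)]
      exact h ⟨ψ, hψ⟩
  rw [h1, ← ito_iff hs' P']
  have hinf : (P : Subgroup G) ⊓ K = ⊥ :=
    Solv.inf_eq_bot_of_isPGroup_of_coprime P.2 Solv.pPrimeCore_coprime
  constructor
  · intro h
    have hcomm : ∀ a ∈ (P' : Subgroup (G ⧸ K)), ∀ b ∈ (P' : Subgroup (G ⧸ K)),
        a * b = b * a := by
      rintro _ ⟨a, ha, rfl⟩ _ ⟨b, hb, rfl⟩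
      rw [← map_mul, ← map_mul]
      exact congrArg _ (congrArg Subtype.val
        (h.is_comm.comm (⟨a, ha⟩ : (P : Subgroup G)) ⟨b, hb⟩))
    refine ⟨?_, hcomm⟩
    have h2 : (P' : Subgroup (G ⧸ K)) = Cfsg.pCore p (G ⧸ K) := by
      refine le_antisymm (le_trans ?_ (Loc.isCharP_top_iff.1 hc)) (Solv.pCore_le_sylow P')
      exact fun a ha b hb => hcomm b (Solv.pCore_le_sylow P' hb) a ha
    rw [h2]; infer_instance
  · rintro ⟨-, h⟩
    refine ⟨⟨fun a b => Subtype.ext ?_⟩⟩
    have h2 := h _ (mem_map_of_mem _ a.2) _ (mem_map_of_mem _ b.2)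
    have h3 : ((a : G) * b)⁻¹ * ((b : G) * a) ∈ (P : Subgroup G) ⊓ K :=
      mem_inf.2 ⟨mul_mem (inv_mem (mul_mem a.2 b.2)) (mul_mem b.2 a.2),
        QuotientGroup.eq.1 (by simpa using h2)⟩
    rw [hinf, mem_bot, inv_mul_eq_one] at h3
    exact h3

end Cfsg.Agent.S4736
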