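import Cfsg.Statements.S4955
import Cfsg.Agent.Char.KGV
import Cfsg.Agent.Clifford.Small

set_option autoImplicit false
open Cfsg

namespace Cfsg.Agent.S4955

open CF.Char CF.BG Subgroup in
/-- Let X be a finite group with an abelian normal Sylow p-subgroup V (a normal p-subgroup of index prime to p in which any two elements commute), and let G be a complement to V in X. Then for every v in V, writing C for the centralizer of v in G, the number k(X) of conjugacy classes of X satisfies k(X) ≤ (order of C)·(order of V) − ((order of G) − k(G)); the statement is written with the subtracted term moved to the left. In particular, if some v in V is centralized by no nonidentity element of G, then k(X) is at most the order of V. -/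
theorem result {X : Type*} [Group X] [Finite X] (p : ℕ) [Fact p.Prime] (V : Subgroup X) [V.Normal] (hVp : IsPGroup p V) (hidx : ¬ p ∣ V.index) (hab : ∀ a ∈ V, ∀ b ∈ V, a * b = b * a) (G : Subgroup X) (hGV : Subgroup.IsComplement' V G) (v : X) (hv : v ∈ V) : Nat.card (ConjClasses X) + Nat.card G ≤ Nat.card ↥(G ⊓ Subgroup.centralizer ({v} : Set X)) * Nat.card V + Nat.card (ConjClasses G) := by
  classical
  have := Fintype.ofFinite X
  have hp : p.Prime := Fact.out
  let S := Finset.univ.filter fun g => zpowers g = zpowers v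
  have hS : ∀ g ∈ S, zpowers g = zpowers v := fun g h => (Finset.mem_filter.1 h).2
  have S0 : (0 : ℝ) < S.card := Nat.cast_pos.2 (Finset.card_pos.2 ⟨v, by simp [S]⟩)
  have SV : ∀ g ∈ S, g ∈ V := fun g h => zpowers_le.1 ((hS g h).trans_le (zpowers_le.2 hv))
  have a : ∀ g ∈ S, ∑ χ : IrrCharacter X, ‖(χ : X → ℂ) g‖ ^ 2 = (♯(G ⊓ 𝐂₁ v) * ♯V : ℕ) := fun g h => by
    rw [sum_irr_norm_sq, ← cent_zpowers, hS g h, cent_zpowers, mul_comm, ((SDProd.of_isComplement'
      hGV).inf_of_left_le (le_cent1_iff.2 (abel_of_forall hab hv))).card, top_inf_eq]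
  have b : ∀ χ : IrrCharacter X, (S.card : ℝ) ≤ ∑ g ∈ S, ‖(χ : X → ℂ) g‖ ^ 2 := fun χ => by
    refine card_le_sum_norm_sq (gen_of_irr χ.2) S (fun m hm g h => Finset.mem_filter.2
      ⟨Finset.mem_univ _, (le_antisymm (zpowers_le.2 (npow_mem_zpowers g m)) (zpowers_le.2
        (mem_zpowers_pow_iff.2 (hm.coprime_dvd_right (orderOf_dvd_natCard g))))).trans (hS g h)⟩)
          fun g h e => hidx ?_
    obtain ⟨k, hk⟩ := hVp ⟨g, SV g h⟩
    obtain ⟨d, -, hd⟩ := irr_one_eq_nat χ.2
    obtain ⟨c, hc, f⟩ := char_pow_prime_pow (irr_isCharacter χ.2) hp k g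
    rw [e, zero_pow (pow_ne_zero _ hp.ne_zero), show g ^ p ^ k = 1 from congrArg Subtype.val hk, hd] at f
    refine (dvd_of_isIntegral_div hp.ne_zero ?_).trans
      (CF.Clifford.irr_one_dvd_index_of_normal_comm V hab χ.2 hd)
    rw [show (d : ℂ) / p = -c by
      field_simp [Nat.cast_ne_zero.2 hp.ne_zero]; linear_combination -f]
    exact hc.neg
  have e : ♯G = Nat.card (X ⧸ V) := hGV.symm.index_eq_card.symm
  have c : ∑ χ ∈ Finset.univ.filter (fun χ : IrrCharacter X => V ≤ charKer (χ : X → ℂ)),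
      (∑ g ∈ S, ‖(χ : X → ℂ) g‖ ^ 2 - S.card) = S.card * ((♯G : ℝ) - Nat.card (ConjClasses G)) := by
    rw [sum_irr_filter_le_charKer V fun χ => ∑ g ∈ S, ‖χ g‖ ^ 2 - (S.card : ℝ), Finset.sum_sub_distrib,
      Finset.sum_comm, Finset.sum_congr (g := fun _ => (♯G : ℝ)) rfl fun g h => by
        beta_reduce
        rw [(QuotientGroup.eq_one_iff g).2 (SV g h), sum_irr_norm_sq, cent1_one, card_top, ← e],
      card_conjClasses_congr hGV.symm.QuotientMulEquiv.symm, ← card_irr]
    simp
    ring
  have d := c.ge.trans (Finset.sum_le_sum_of_subset_of_nonneg (Finset.filter_subset _ _)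
    fun χ _ _ => sub_nonneg.2 (b χ))
  rw [Finset.sum_sub_distrib, Finset.sum_comm, Finset.sum_congr rfl a, Finset.sum_const,
    Finset.sum_const, Finset.card_univ, ← Nat.card_eq_fintype_card, card_irr] at d
  simp only [nsmul_eq_mul] at d
  exact_mod_cast (by nlinarith : (Nat.card (ConjClasses X) + ♯G : ℝ) ≤ (♯(G ⊓ 𝐂₁ v) * ♯V : ℕ) +
    Nat.card (ConjClasses G))

end Cfsg.Agent.S4955
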