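import Cfsg.Statements.S4957
import Cfsg.Agent.Crit.Tr5
import Cfsg.Agent.Char.KGV
import Cfsg.Agent.Fgs2.Base1
-- import your own Cfsg.Agent.* helpers here

set_option autoImplicit false
open Cfsg

namespace Cfsg.Agent.S4957

/-- Let X be a finite group and V a normal subgroup of X in which every element has order dividing the prime p, whose index in X is prime to p and which is its own centralizer in X; so V is an elementary abelian normal Sylow p-subgroup, and any complement G to V in X is a group of order prime to p acting faithfully on the vector space V by conjugation (the coprime linear setting of the k(GV) problem). Suppose a complement G to V in X is transitive by conjugation on the nonidentity elements of V. Then X has at most (order of V) conjugacy classes, and if equality holds then G is cyclic (hence, being transitive, a Singer cycle), or V has order 8 and G has order 21 (the nonabelian group of order 21 inside the simple group of order 168), or V has order 9 and G has order 16 (a semidihedral Sylow 2-subgroup of the 2-dimensional general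 linear group over the field with 3 elements). -/
theorem result {X : Type*} [Group X] [Finite X] (p : ℕ) [Fact p.Prime] (V : Subgroup X) [V.Normal] (hVexp : ∀ v ∈ V, v ^ p = 1) (hidx : ¬ p ∣ V.index) (hself : Subgroup.centralizer (V : Set X) = V) (G : Subgroup X) (hGV : Subgroup.IsComplement' V G) (htrans : ∀ v ∈ V, ∀ w ∈ V, v ≠ 1 → w ≠ 1 → ∃ g ∈ G, g * v * g⁻¹ = w) : Nat.card (ConjClasses X) ≤ Nat.card V ∧ (Nat.card (ConjClasses X) = Nat.card V → (IsCyclic G ∨ (Nat.card V = 8 ∧ Nat.card G = 21) ∨ (Nat.card V = 9 ∧ Nat.card G = 16))) := by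
  open Subgroup CF CF.Crit.Tr IsMulCommutative in
  classical
  have hc : IsMulCommutative V := le_centralizer_iff_isMulCommutative.1 hself.ge
  by_cases h0 : V = ⊥
  · have : Subsingleton X := by
      rw [h0, coe_bot, centralizer_eq_top_iff_subset.2 (by simp)] at hself
      exact subsingleton_iff.1 (subsingleton_of_bot_eq_top hself.symm)
    exact ⟨(classes_le_card X).trans (Nat.card_of_subsingleton (1 : X) ▸ Nat.card_pos),
      fun _ => .inl inferInstance⟩
  have := (nontrivial_iff_ne_bot V).2 h0
  obtain ⟨v, hv⟩ := exists_ne (1 : V)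
  have hv' : (v : X) ≠ 1 := fun e => hv (Subtype.ext e)
  let _ := Fgs2.Base.mulAct ((MulAut.conjNormal (H := V)).comp G.subtype)
  have hs : ∀ (g : G) (w : Additive V), ((g • w).toMul : X) = g * w.toMul * (g : X)⁻¹ :=
    fun _ _ => rfl
  have : FaithfulSMul G (Additive V) := ⟨fun {a b} e => by
    have h1 : (b : X)⁻¹ * a ∈ V := hself.le fun w hw => by
      have := (hs a _).symm.trans ((congrArg (fun t => (t.toMul : X)) (e (.ofMul ⟨w, hw⟩))).trans
        (hs b _))
      change a * w * _ = b * w * _ at this
      calc _ = (b : X)⁻¹ * (b * w * (b : X)⁻¹) * a := by group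
        _ = _ := by rw [← this]; group
    exact Subtype.ext (inv_mul_eq_one.1 (mem_bot.1 (hGV.disjoint.le_bot
      ⟨h1, (b⁻¹ * a).2⟩))).symm⟩
  have hG : ¬ p ∣ Nat.card G := hGV.symm.index_eq_card ▸ hidx
  have h1 := bound (G := G) (V := Additive V) hG (fun a b ha hb => by
    obtain ⟨g, h1, h2⟩ := htrans _ a.toMul.2 _ b.toMul.2 (fun e => ha (Subtype.ext e))
      fun e => hb (Subtype.ext e)
    exact ⟨⟨g, h1⟩, Subtype.ext h2⟩) (v := .ofMul v) hv fun w => Subtype.ext (hVexp _ w.toMul.2)
  have h2 := Char.card_classes_eq_sum (BG.Abel.of_comm hc) hGV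
    (Solv.coprime_card_of_isPGroup (p := p) (fun w => ⟨1, Subtype.ext (by simpa using hVexp _ w.2)⟩)
      ((Nat.Prime.coprime_iff_not_dvd Fact.out).2 hG).symm) {1, (v : X)} (by simp) fun w hw => by
    by_cases h : w = 1
    · exact ⟨1, ⟨by simp, 1, one_mem _, by simp [h]⟩, fun s ⟨_, g, _, e⟩ => by simp [← e, h]⟩
    · refine ⟨v, ⟨by simp, htrans w hw v v.2 h hv'⟩, fun s ⟨a, g, _, e⟩ => ?_⟩
      refine Finset.mem_singleton.1 ((Finset.mem_insert.1 a).resolve_left fun k => h ?_)
      simpa [k] using e
  rw [Finset.sum_pair hv'.symm, centralizer_eq_top_iff_subset.2 (by simp), inf_top_eq] at h2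
  have h3 : Nat.card (G ⊓ centralizer {(v : X)} : Subgroup X) ≤
      Nat.card (MulAction.stabilizer G (Additive.ofMul v)) :=
    Nat.card_le_card_of_injective (fun g => ⟨⟨g, g.2.1⟩, Subtype.ext
      (mul_inv_eq_iff_eq_mul.2 (mem_centralizer_singleton_iff.1 g.2.2))⟩)
      fun a b e => Subtype.ext (congrArg (fun t => t.1.1) e)
  have h4 := (classes_le_card _).trans h3
  change _ ≤ Nat.card V ∧ (_ = Nat.card V → _) at h1
  exact ⟨by omega, fun e => h1.2 (by omega)⟩

end Cfsg.Agent.S4957
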