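import Cfsg.Statements.S4964
import Cfsg.Agent.Block.Prin2
import Cfsg.Agent.BlockB.Central

set_option autoImplicit false
open Cfsg

namespace Cfsg.Agent.S4964

open CF.Block CF Subgroup

/-- Let D be a normal p-subgroup of the finite group G, let D′ be its commutator subgroup (normal in G), and fix a maximal ideal M of the algebraic integers containing p. Then (i) two irreducible characters of G ⧸ D′ lie in the same p-block if and only if their inflations to G do, and (ii) every p-block of G contains the inflation of some irreducible character of G ⧸ D′; so inflation induces a bijection between the p-blocks of G ⧸ D′ and the p-blocks of G. -/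
theorem result {G : Type*} [Group G] [Finite G] (p : ℕ) [Fact p.Prime] (M : Ideal Cfsg.AlgInt) (hM : Cfsg.IsPModular p M) (D : Subgroup G) [D.Normal] (hD : IsPGroup p D) : (∀ χ ψ : Cfsg.IrrCharacter (G ⧸ ⁅D, D⁆), Cfsg.SameBlock M (χ : G ⧸ ⁅D, D⁆ → ℂ) (ψ : G ⧸ ⁅D, D⁆ → ℂ) ↔ Cfsg.SameBlock M ((χ : G ⧸ ⁅D, D⁆ → ℂ) ∘ QuotientGroup.mk) ((ψ : G ⧸ ⁅D, D⁆ → ℂ) ∘ QuotientGroup.mk)) ∧ ∀ B : Set (Cfsg.IrrCharacter G), Cfsg.IsPBlock M B → ∃ χ : Cfsg.IrrCharacter (G ⧸ ⁅D, D⁆), ∃ θ ∈ B, (θ : G → ℂ) = (χ : G ⧸ ⁅D, D⁆ → ℂ) ∘ QuotientGroup.mk := by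
  have hφ : Function.Surjective (QuotientGroup.mk' ⁅D, D⁆) := QuotientGroup.mk'_surjective _
  refine ⟨fun χ ψ => ?_, fun B hB => ?_⟩
  · let χ' : Cfsg.IrrCharacter G := ⟨_, Char.irr_inflate ⁅D, D⁆ χ.2⟩
    let ψ' : Cfsg.IrrCharacter G := ⟨_, Char.irr_inflate ⁅D, D⁆ ψ.2⟩
    have h1 := (mem_iff_gmap_mul_ne_zero hM hφ (BlockB.isPBlock_blockOf χ)
      (BlockB.isPBlock_blockOf χ') (BlockB.mem_blockOf_self hM χ) (ψ := χ') rfl).1
      (BlockB.mem_blockOf_self hM χ')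
    constructor
    · intro h
      exact (mem_iff_gmap_mul_ne_zero hM hφ (BlockB.isPBlock_blockOf χ)
        (BlockB.isPBlock_blockOf χ') (χ := ψ) h (ψ := ψ') rfl).2 h1
    · intro h
      have h2 := (mem_iff_gmap_mul_ne_zero hM hφ (BlockB.isPBlock_blockOf ψ)
        (BlockB.isPBlock_blockOf χ') (BlockB.mem_blockOf_self hM ψ) (ψ := ψ') rfl).1 h
      have := IsBlk.eq_of_gmap_commutator hM hD (isBlk_eb hM (BlockB.isPBlock_blockOf χ'))
        (isBlk_eb hM (BlockB.isPBlock_blockOf χ)) (isBlk_eb hM (BlockB.isPBlock_blockOf ψ)) h1 h2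
      exact (mem_iff_eb_blockOf hM (BlockB.isPBlock_blockOf χ)).2 this.symm
  · obtain ⟨θ, hθ, hk⟩ := BlockB.exists_mem_le_charKer hM (BlockB.nrm_eSet_le_one hM hB)
      (BlockB.block_nonempty hM hB) ⁅D, D⁆ (hD.to_le (commutator_le_left _ _))
    obtain ⟨χ, hχ, e⟩ := Char.exists_irr_quotient θ.2 _ hk
    exact ⟨⟨χ, hχ⟩, θ, hθ, e⟩

end Cfsg.Agent.S4964
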