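import Cfsg.Statements.S4965
import Cfsg.Agent.Char.Classes

set_option autoImplicit false
open Cfsg

namespace Cfsg.Agent.S4965

/-- Let X be a finite group with an abelian normal subgroup V (any two elements of V commute), and let φ be the action of X ⧸ V on V induced by conjugation (well defined because V is abelian; the hypothesis hφ says that the class of x acts as conjugation by x). Then X has at most as many conjugacy classes as the semidirect product of V by X ⧸ V formed with this action: the split extension has the largest class number among extensions with the given action. -/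
theorem result {X : Type*} [Group X] [Finite X] (V : Subgroup X) [V.Normal] (hab : ∀ a ∈ V, ∀ b ∈ V, a * b = b * a) (φ : X ⧸ V →* MulAut ↥V) (hφ : ∀ (x : X) (v : ↥V), ((φ (QuotientGroup.mk x) v : ↥V) : X) = x * v * x⁻¹) : Nat.card (ConjClasses X) ≤ Nat.card (ConjClasses (SemidirectProduct ↥V (X ⧸ V) φ)) := by
  classical
  have c : Nat.card (SemidirectProduct V (X ⧸ V) φ) = Nat.card X := by
    rw [SemidirectProduct.card, mul_comm, ← Subgroup.card_eq_card_quotient_mul_card_subgroup]
  have := Nat.finite_of_card_ne_zero (c.trans_ne Nat.card_pos.ne')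
  refine Nat.le_of_mul_le_mul_right ?_ (Nat.card_pos (α := X))
  rw [← card_comm_eq_card_conjClasses_mul_card, ← c, ← card_comm_eq_card_conjClasses_mul_card]
  have k : ∀ a b : X ⧸ V, ∃ g h : X, ∀ x y : X, Commute x y → x = a → y = b →
      Commute g h ∧ g = a ∧ h = b := fun a b => by
    by_cases e : ∃ x y : X, Commute x y ∧ x = a ∧ y = b
    · exact e.imp fun _ e => e.imp fun _ e _ _ _ _ _ => e
    · exact ⟨1, 1, fun x y c d f => absurd ⟨x, y, c, d, f⟩ e⟩
  choose g h k using k
  have m : ∀ {x y : X}, (y : X ⧸ V) = x → x * y⁻¹ ∈ V := fun e =>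
    (QuotientGroup.eq_one_iff _).1 (by simp [e])
  refine Nat.card_le_card_of_injective (fun x => ⟨(⟨⟨_, m (k _ _ _ _ x.2 rfl rfl).2.1⟩, x.1.1⟩,
    ⟨⟨_, m (k _ _ _ _ x.2 rfl rfl).2.2⟩, x.1.2⟩), ?_⟩) ?_
  · obtain ⟨⟨x, y⟩, e⟩ := x
    obtain ⟨a, b, d⟩ := k _ _ _ _ e rfl rfl
    refine SemidirectProduct.ext (Subtype.ext ?_) (congrArg (QuotientGroup.mk' V) e)
    have t : ∀ u w : X, (u : X ⧸ V) = x → (w : X ⧸ V) = y → Commute u w → ∀ r s : V,
        r.1 = x * u⁻¹ → s.1 = y * w⁻¹ → (r * φ x s).1 = (s * φ y r).1 := fun u w b d a r s e f => by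
      rw [← b, ← d, Subgroup.coe_mul, Subgroup.coe_mul, hφ, hφ, e, f]
      calc _ = x * y * (u * w)⁻¹ := by group
        _ = _ := by rw [a.eq, show x * y = y * x from ‹Commute (x, y).1 _›]; group
    exact t _ _ b d a _ _ rfl rfl
  · rintro ⟨⟨x, y⟩, e⟩ ⟨⟨x', y'⟩, e'⟩ f
    simp only [Subtype.mk.injEq, Prod.mk.injEq, SemidirectProduct.ext_iff] at f ⊢
    obtain ⟨⟨a, b⟩, d, f⟩ := f
    rw [b, f] at a d
    exact ⟨mul_right_cancel a, mul_right_cancel d⟩

end Cfsg.Agent.S4965
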