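import Cfsg.Statements.S4966
import Cfsg.Agent.Known.SelfDual

set_option autoImplicit false
open Cfsg

namespace Cfsg.Agent.S4966

/-- Let F be a finite field of characteristic p, G a finite group of order prime to p, and V a finite-dimensional representation of G over F carrying a nondegenerate G-invariant bilinear form (equivalently, V is self-dual). Then V is the direct sum of two G-invariant subspaces U and W such that U carries a G-invariant alternating bilinear form that is nondegenerate on U and W carries a G-invariant symmetric bilinear form that is nondegenerate on W; moreover when p = 2 the decomposition can be chosen with G acting trivially on W. -/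
theorem result {F : Type*} [Field F] [Fintype F] (p : ℕ) [Fact p.Prime] [CharP F p] {G : Type*} [Group G] [Finite G] (hcop : ¬ p ∣ Nat.card G) {V : Type*} [AddCommGroup V] [Module F V] [FiniteDimensional F V] (ρ : Representation F G V) (B : LinearMap.BilinForm F V) (hB : B.Nondegenerate) (hBinv : ∀ g : G, ∀ x y : V, B (ρ g x) (ρ g y) = B x y) : ∃ U W : Submodule F V, IsCompl U W ∧ (∀ g : G, ∀ u ∈ U, ρ g u ∈ U) ∧ (∀ g : G, ∀ w ∈ W, ρ g w ∈ W) ∧ (∃ A : LinearMap.BilinForm F V, (∀ x : V, A x x = 0) ∧ (∀ g : G, ∀ x ∈ U, ∀ y ∈ U, A (ρ g x) (ρ g y) = A x y) ∧ (∀ x ∈ U, (∀ y ∈ U, A x y = 0) → x = 0)) ∧ (∃ S : LinearMap.BilinForm F V, (∀ x y : V, S x y = S y x) ∧ (∀ g : G, ∀ x ∈ W, ∀ y ∈ W, S (ρ g x) (ρ g y) = S x y) ∧ (∀ x ∈ W, (∀ y ∈ W, S x y = 0) → x = 0)) ∧ (p = 2 → ∀ g : G, ∀ w ∈ W, ρ g w = w) := by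
  haveI : NeZero (Nat.card G : F) := ⟨mt (CharP.cast_eq_zero_iff F p _).1 hcop⟩
  obtain ⟨U, W, d, e, ⟨A, a1, a2⟩, ⟨S, s1, s2⟩, t⟩ := CF.Known.goodSum_top _ ρ B rfl
    ⟨fun _ _ _ => trivial, fun g x _ y _ => hBinv g x y, fun x _ k => hB.1 x fun y => k y trivial⟩
  have c : IsCompl U W := ⟨d, codisjoint_iff.2 e⟩
  have p1 := fun {x} => Submodule.projection_apply_of_mem_left c (x := x)
  have p2 := fun {x} => Submodule.projection_apply_of_mem_left c.symm (x := x)
  refine ⟨U, W, c, a2.stab, s2.stab, ⟨A.comp (U.projection W c) (U.projection W c),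
    fun x => a1 _ (Submodule.projection_apply_mem c x), fun g x hx y hy => ?_, fun x hx k => ?_⟩,
    ⟨S.comp (W.projection U c.symm) (W.projection U c.symm), fun x y => s1 _
      (Submodule.projection_apply_mem _ x) _ (Submodule.projection_apply_mem _ y),
      fun g x hx y hy => ?_, fun x hx k => ?_⟩, fun h => t (by subst h; exact CharP.cast_eq_zero F 2)⟩
  · simp [p1 hx, p1 hy, p1 (a2.stab g x hx), p1 (a2.stab g y hy), a2.inv g x hx y hy]
  · exact a2.nd x hx fun y hy => by simpa [p1 hx, p1 hy] using k y hy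
  · simp [p2 hx, p2 hy, p2 (s2.stab g x hx), p2 (s2.stab g y hy), s2.inv g x hx y hy]
  · exact s2.nd x hx fun y hy => by simpa [p2 hx, p2 hy] using k y hy

end Cfsg.Agent.S4966
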