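import Cfsg.Statements.S4967
import Cfsg.Agent.Known.SelfDual

set_option autoImplicit false
open Cfsg

namespace Cfsg.Agent.S4967

/-- Let F be a finite field with r elements and of characteristic p, H a finite abelian group of order prime to p, and V a faithful irreducible representation of H over F of dimension n (faithful: distinct elements act differently; irreducible: the only H-invariant subspaces are 0 and V). Call V self-dual when it carries a nondegenerate H-invariant bilinear form. If n = 1 and V is self-dual then H has order at most 2. If n ≥ 2 then V is self-dual if and only if n is even and the order of H divides r^(n/2) + 1. -/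
theorem result {F : Type*} [Field F] [Fintype F] (p : ℕ) [Fact p.Prime] [CharP F p] {H : Type*} [CommGroup H] [Finite H] (hcop : ¬ p ∣ Nat.card H) {V : Type*} [AddCommGroup V] [Module F V] [FiniteDimensional F V] (ρ : Representation F H V) (hfaith : Function.Injective ρ) (hirr : ∀ U : Submodule F V, (∀ h : H, ∀ u ∈ U, ρ h u ∈ U) → U = ⊥ ∨ U = ⊤) : (Module.finrank F V = 1 → (∃ B : LinearMap.BilinForm F V, B.Nondegenerate ∧ ∀ h : H, ∀ x y : V, B (ρ h x) (ρ h y) = B x y) → Nat.card H ≤ 2) ∧ (2 ≤ Module.finrank F V → ((∃ B : LinearMap.BilinForm F V, B.Nondegenerate ∧ ∀ h : H, ∀ x y : V, B (ρ h x) (ρ h y) = B x y) ↔ (Even (Module.finrank F V) ∧ Nat.card H ∣ Fintype.card F ^ (Module.finrank F V / 2) + 1))) := by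
  rcases subsingleton_or_nontrivial V with h0 | h0
  · simp [Module.finrank_zero_of_subsingleton]
  obtain ⟨I, hI, e, he⟩ := CF.Known.exists_field_model ρ ((CF.Char.isIrreducible_iff ρ).2 ⟨h0, hirr⟩)
  letI := Ideal.Quotient.field I
  haveI := e.finiteDimensional
  have k := CF.Known.selfDual_field (F := F) (ι := (Ideal.Quotient.mk I).toMonoidHom.comp
    (MonoidAlgebra.of F H)) (fun g h k => hfaith (LinearMap.ext fun v => e.injective (by
      rw [he, he]; exact congrArg (· * _) k))) (eq_top_iff.2 fun x _ => by
    obtain ⟨x, rfl⟩ := Ideal.Quotient.mk_surjective x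
    induction x using MonoidAlgebra.induction_on with
    | of g => exact Submodule.subset_span ⟨g, rfl⟩
    | add _ _ h1 h2 => exact map_add (Ideal.Quotient.mk I) _ _ ▸ add_mem (h1 trivial) (h2 trivial)
    | smul r _ h1 => exact Submodule.smul_mem _ r (h1 trivial))
  rw [← e.finrank_eq] at k
  have k1 : (∃ B : LinearMap.BilinForm F V, B.Nondegenerate ∧ ∀ h x y, B (ρ h x) (ρ h y) = B x y) ↔
      ∃ B : LinearMap.BilinForm F (MonoidAlgebra F H ⧸ I), B.Nondegenerate ∧ ∀ g x y,
        B (Ideal.Quotient.mk I (.of F H g) * x) (Ideal.Quotient.mk I (.of F H g) * y) = B x y :=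
    ⟨fun ⟨B, h1, h2⟩ => ⟨_, h1.congr e, fun g x y => by
      obtain ⟨x, rfl⟩ := e.surjective x
      obtain ⟨y, rfl⟩ := e.surjective y
      simp [← he, h2, -MonoidAlgebra.of_apply]⟩, fun ⟨B, h1, h2⟩ => ⟨_, h1.congr e.symm, fun g x y => by
      simp [he, h2, -MonoidAlgebra.of_apply]⟩⟩
  rw [k1]
  exact k

end Cfsg.Agent.S4967
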