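import Cfsg.Statements.S5008
import Cfsg.Agent.Block.PBLin

set_option autoImplicit false
open Cfsg

namespace Cfsg.Agent.S5008

/-- Let `G` be a finite group and `p` a prime dividing the size of no vanishing conjugacy class of `G` (a class of an element on which some irreducible complex character takes the value zero). Then `G` has a normal `p`-complement and abelian Sylow `p`-subgroups. The known proof uses the classification of finite simple groups. -/
theorem result {G : Type*} [Group G] [Finite G] (p : ℕ) [Fact p.Prime]
    (h : ∀ x : G, (∃ χ : Cfsg.IrrCharacter G, (χ : G → ℂ) x = 0) → ¬ p ∣ (Subgroup.centralizer ({x} : Set G)).index) :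
    Cfsg.HasNormalPComplement p G ∧ ∀ P : Sylow p G, IsMulCommutative (P : Subgroup G) := by
  obtain ⟨M, hM⟩ := CF.BlockB.exists_isPModular (p := p) Fact.out
  refine CF.PBLin.npc_of_pb_linear hM fun χ hχ => ?_
  by_contra h1
  obtain ⟨x, hx⟩ := CF.Char.exists_irr_eq_zero χ.2 h1
  exact CF.PBLin.ne_zero_of_mem_pb hM hχ (h x ⟨χ, hx⟩) hx

end Cfsg.Agent.S5008
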