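import Cfsg.Statements.S5015
import Cfsg.Agent.Fisch.RankOne
-- import your own Cfsg.Agent.* helpers here

set_option autoImplicit false
open Cfsg

namespace Cfsg.Agent.S5015

open CF.Fisch


/-- Let a group Y act doubly transitively on a set Ω with at least three points, and suppose that the stabilizer of a point α contains a nilpotent subgroup A, normalized by that stabilizer, which acts regularly on the points other than α. Then for any y in Y moving α, the subgroups A and y A y⁻¹ are the unipotent subgroups of a rank one group, and the normal closure of A in Y (the subgroup generated by all conjugates of A) is generated by A and y A y⁻¹ alone. -/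
theorem result {Y Ω : Type*} [Group Y] [MulAction Y Ω]
    (h2 : MulAction.IsMultiplyPretransitive Y Ω 2) (hΩ : 3 ≤ ENat.card Ω) (α : Ω) (A : Subgroup Y)
    (hA : A ≤ MulAction.stabilizer Y α) (hAn : ∀ y ∈ MulAction.stabilizer Y α, Cfsg.conjBy A y = A)
    (hnil : Group.IsNilpotent A) (hreg : ∀ β γ : Ω, β ≠ α → γ ≠ α → ∃! a : Y, a ∈ A ∧ a • β = γ)
    (y : Y) (hy : y ∉ MulAction.stabilizer Y α) :
    Cfsg.IsRankOnePair A (Cfsg.conjBy A y) ∧ Subgroup.normalClosure (A : Set Y) = A ⊔ Cfsg.conjBy A y := by
  rw [MulAction.is_two_pretransitive_iff] at h2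
  -- the conjugate of `A` by `g` depends only on `g • α`
  have hdep : ∀ g g' : Y, g • α = g' • α → conjBy A g = conjBy A g' := by
    intro g g' e
    have : g'⁻¹ * g ∈ MulAction.stabilizer Y α := by
      rw [MulAction.mem_stabilizer_iff, mul_smul, e, inv_smul_smul]
    have := hAn _ this
    rw [← conjBy_conjBy, conjBy_eq_iff, inv_inv] at this
    exact this
  have hfix : ∀ a ∈ A, a • α = α := fun a ha => hA ha
  have hfree : ∀ a ∈ A, ∀ β : Ω, β ≠ α → a • β = β → a = 1 := by
    intro a ha β hβ e
    exact (hreg β β hβ hβ).unique ⟨ha, e⟩ ⟨A.one_mem, one_smul _ _⟩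
  have hy' : y • α ≠ α := hy
  -- one half of the rank one condition, for an arbitrary `y` moving `α`
  have half : ∀ y : Y, y • α ≠ α → ∀ a ∈ A, a ≠ 1 →
      ∃ b ∈ conjBy A y, b ≠ 1 ∧ conjBy A b = conjBy (conjBy A y) a := by
    intro y hy a ha ha1
    have h1 : y⁻¹ • α ≠ α := fun e => hy (by rw [inv_smul_eq_iff] at e; exact e.symm)
    have h3 : y⁻¹ • a • y • α ≠ α := by
      intro e
      rw [inv_smul_eq_iff] at e
      exact ha1 (hfree a ha _ hy e)
    obtain ⟨c, ⟨hc, e⟩, -⟩ := hreg _ _ h1 h3
    refine ⟨y * c * y⁻¹, conj_mem_conjBy y hc, ?_, ?_⟩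
    · intro e1
      have : c = 1 := by simpa using e1
      rw [this, one_smul, smul_left_cancel_iff] at e
      have e2 : y • α = a⁻¹ • α := by rw [eq_inv_smul_iff]; exact e.symm
      rw [hfix _ (A.inv_mem ha)] at e2
      exact hy e2
    · rw [conjBy_conjBy]
      apply hdep
      rw [mul_smul, mul_smul, e, smul_inv_smul, mul_smul]
  have hne : ∀ y : Y, y • α ≠ α → A ≠ conjBy A y := by
    intro y hy e
    have : ∃ γ : Ω, γ ≠ α ∧ γ ≠ y • α := by
      by_contra hc
      push Not at hc
      have hsub : (Set.univ : Set Ω) ⊆ {α, y • α} := by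
        intro γ _
        by_cases h : γ = α
        · exact Or.inl h
        · exact Or.inr (hc γ h)
      have := Set.encard_le_encard hsub
      rw [Set.encard_univ, Set.encard_pair hy.symm] at this
      have := hΩ.trans this
      norm_num at this
    obtain ⟨γ, h1, h3⟩ := this
    obtain ⟨a, ⟨ha, e2⟩, -⟩ := hreg _ _ hy h1
    rw [e] at ha
    obtain ⟨c, hc, rfl⟩ := exists_of_mem_conjBy ha
    rw [mul_smul, inv_smul_smul, mul_smul, hfix c hc] at e2
    exact h3 e2.symm
  have hro : IsRankOnePair A (conjBy A y) := by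
    refine ro_mk (hne y hy') hnil (conjBy_isNilpotent hnil y) (half y hy') ?_
    intro b hb hb1
    obtain ⟨c, hc, rfl⟩ := exists_of_mem_conjBy hb
    have h1 : y⁻¹ • α ≠ α := fun e => hy' (by rw [inv_smul_eq_iff] at e; exact e.symm)
    obtain ⟨d, hd, hd1, e⟩ := half y⁻¹ h1 c hc (by rintro rfl; simp at hb1)
    have e2 := rel_conj e y
    rw [conjBy_cancel_inv] at e2
    refine ⟨y * d * y⁻¹, ?_, by simpa using hd1, e2.symm⟩
    simpa using mem_conjBy.1 hd
  refine ⟨hro, le_antisymm ?_ (sup_le Subgroup.subset_normalClosure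
    ?_)⟩
  · rw [Subgroup.normalClosure, Subgroup.closure_le]
    intro x hx
    obtain ⟨a, ha, hc⟩ := Group.mem_conjugatesOfSet_iff.1 hx
    obtain ⟨g, rfl⟩ := isConj_iff.1 hc
    have : conjBy A g ≤ A ⊔ conjBy A y := by
      by_cases hg : g • α = α
      · rw [hAn g hg]; exact le_sup_left
      · obtain ⟨c, ⟨hc, e⟩, -⟩ := hreg _ _ hy' hg
        rw [hdep g (c * y) (by rw [mul_smul, e]), ← conjBy_conjBy]
        exact conjBy_le_of_mem le_sup_right (Subgroup.mem_sup_left hc)
    exact this (conj_mem_conjBy g ha)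
  · rw [← conjBy_normal (Subgroup.normalClosure (A : Set Y)) y]
    exact conjBy_mono y Subgroup.subset_normalClosure

end Cfsg.Agent.S5015
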