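import Cfsg.Statements.S5020
import Cfsg.Agent.Fisch.SL2Prime
import Cfsg.Agent.Sig.Comp
-- import your own Cfsg.Agent.* helpers here

set_option autoImplicit false
open Cfsg

namespace Cfsg.Agent.S5020

open CF.Fisch


/-- Let X be a special rank one group with abelian unipotent subgroups A and B, and H = N(A) ∩ N(B) its diagonal subgroup. Then either A has at most three elements and X is isomorphic to SL₂(2), SL₂(3) or PSL₂(3); or X = X' A with the commutator subgroup X' quasisimple and the commutator subgroup ⁅A, H⁆ having more than three elements. -/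
theorem result {X : Type*} [Group X] {A B : Subgroup X} (h : Cfsg.IsRankOneGroup X A B)
    (hs : Cfsg.IsSpecialRankOnePair A B) (hab : Cfsg.HasAbelianUnipotents A B) :
    (ENat.card A ≤ 3 ∧ (Nonempty (X ≃* Matrix.SpecialLinearGroup (Fin 2) (ZMod 2)) ∨
        Nonempty (X ≃* Matrix.SpecialLinearGroup (Fin 2) (ZMod 3)) ∨
        Nonempty (X ≃* Matrix.ProjectiveSpecialLinearGroup (Fin 2) (ZMod 3)))) ∨
    (commutator X ⊔ A = ⊤ ∧ Cfsg.IsQuasisimple (commutator X) ∧
      3 < ENat.card ↥(⁅A, Cfsg.rankOneDiagonal A B⁆ : Subgroup X)) := by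
  by_cases h3 : 3 < ENat.card A
  · right
    have hp := sp_perfect hs hab.1 h3
    rw [h.1] at hp
    have hp' : commutator X = ⊤ := hp
    have hq := rog_quasisimple h (Group.isPerfect_def.2 hp')
    refine ⟨by rw [hp', top_sup_eq], ?_, by rwa [sp_commutator_diag hs hab.1 h3]⟩
    rw [hp']
    exact CF.Sig.qs_of_mulEquiv hq Subgroup.topEquiv.symm
  · left
    rw [not_lt] at h3
    refine ⟨h3, ?_⟩
    have hfin : Finite A := ENat.card_lt_top.1 (h3.trans_lt (ENat.natCast_lt_top 3))
    have hcard : Nat.card A ≤ 3 := by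
      rw [ENat.card_eq_coe_natCard] at h3; exact_mod_cast h3
    obtain ⟨a, ha, ha1⟩ := ro_exists_left h.2
    obtain ⟨b, hb, hb1, e⟩ := ro_partner h.2 ha ha1
    have hfo : IsOfFinOrder a := by
      have := isOfFinOrder_of_finite (⟨a, ha⟩ : A)
      exact A.subtype.isOfFinOrder this
    have hp := sp_prime_order hs ha ha1 hfo
    have hdvd : orderOf a ∣ Nat.card A := by
      have := orderOf_dvd_natCard (⟨a, ha⟩ : A)
      rwa [Subgroup.orderOf_mk] at this
    have hpos : 0 < Nat.card A := Nat.card_pos
    have heq : orderOf a = Nat.card A := by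
      have h2 := hp.two_le
      obtain ⟨c, hc⟩ := hdvd
      have : c = 1 := by
        rcases c with _ | _ | c
        · omega
        · rfl
        · nlinarith
      rw [hc, this, mul_one]
    have hAa : A = Subgroup.zpowers a :=
      (Subgroup.eq_of_le_of_card_ge (Subgroup.zpowers_le_of_mem ha)
        (by rw [Nat.card_zpowers, heq])).symm
    have hBb : B = Subgroup.zpowers b := by
      have h1 := sp_swap_left hs ha hb e
      have h2 := braid_conj (sp_braid hs ha hb e)
      rw [← h1]
      conv_lhs => rw [hAa]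
      delta conjBy
      rw [MonoidHom.map_zpowers, ← Subgroup.zpowers_inv (g := b)]
      exact congrArg Subgroup.zpowers h2
    have htop : Subgroup.closure {a, b} = ⊤ := by
      rw [← h.1, hAa, hBb, Set.insert_eq, Subgroup.closure_union, Subgroup.zpowers_eq_closure,
        Subgroup.zpowers_eq_closure]
    have key : ∀ p : ℕ, [Fact p.Prime] → a ^ p = 1 →
        Nonempty (X ≃* Matrix.SpecialLinearGroup (Fin 2) (ZMod p)) ∨
        (Subgroup.center (Matrix.SpecialLinearGroup (Fin 2) (ZMod p)) ≠ ⊥ ∧
          Nonempty (X ≃* Matrix.ProjectiveSpecialLinearGroup (Fin 2) (ZMod p))) := by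
      intro p _ hap
      obtain ⟨φ, -, -, hker, hr⟩ := sp_exists_hom_prime hs ha hb e hap
      have hsurj : Function.Surjective φ := MonoidHom.range_eq_top.1 (hr.trans htop)
      by_cases hk : φ.ker = ⊥
      · exact Or.inl ⟨(MulEquiv.ofBijective φ ⟨(MonoidHom.ker_eq_bot_iff φ).1 hk, hsurj⟩).symm⟩
      · have hk2 := (sl2_ker_cases hker).resolve_left hk
        exact Or.inr ⟨hk2 ▸ hk, ⟨(QuotientGroup.quotientKerEquivOfSurjective φ hsurj).symm.trans
          (QuotientGroup.quotientMulEquivOfEq hk2)⟩⟩
    have h23 : orderOf a = 2 ∨ orderOf a = 3 := by have := hp.two_le; omega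
    rcases h23 with h2 | h2
    · rcases key 2 (h2 ▸ pow_orderOf_eq_one a) with h4 | ⟨h4, -⟩
      · exact Or.inl h4
      · exfalso
        apply h4
        rw [Subgroup.eq_bot_iff_forall]
        intro z hz
        rcases sl2_center_cases hz with rfl | rfl
        · rfl
        · decide
    · rcases key 3 (h2 ▸ pow_orderOf_eq_one a) with h4 | ⟨-, h4⟩
      · exact Or.inr (Or.inl h4)
      · exact Or.inr (Or.inr h4)

end Cfsg.Agent.S5020
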