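import Cfsg.Statements.S5021
import Cfsg.Agent.Fisch.Special
-- import your own Cfsg.Agent.* helpers here

set_option autoImplicit false
open Cfsg

namespace Cfsg.Agent.S5021

open CF.Fisch


/-- In a special rank one group with abelian unipotent subgroups A and B, either A is an elementary abelian p-group for some prime p, or A is torsion-free and divisible (every element of A has an n-th root in A for every positive n). -/
theorem result {X : Type*} [Group X] {A B : Subgroup X} (h : Cfsg.IsRankOneGroup X A B)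
    (hs : Cfsg.IsSpecialRankOnePair A B) (hab : Cfsg.HasAbelianUnipotents A B) :
    (∃ p : ℕ, p.Prime ∧ Cfsg.IsElementaryAbelian p A) ∨
    ((∀ a ∈ A, a ≠ 1 → ¬ IsOfFinOrder a) ∧ ∀ a ∈ A, ∀ n : ℕ, 0 < n → ∃ c ∈ A, c ^ n = a) := by
  by_cases hc : ∃ a ∈ A, a ≠ 1 ∧ IsOfFinOrder a
  · obtain ⟨a, ha, ha1, hf⟩ := hc
    exact Or.inl ⟨orderOf a, sp_prime_order hs ha ha1 hf, hab.1,
      sp_pow_prime hs hab.1 ha ha1 (pow_orderOf_eq_one a)⟩
  · push Not at hc
    refine Or.inr ⟨hc, fun a ha n hn => ?_⟩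
    by_cases ha1 : a = 1
    · exact ⟨1, A.one_mem, by rw [ha1, one_pow]⟩
    · exact sp_exists_root hs ha fun e => hc a ha ha1 (isOfFinOrder_iff_pow_eq_one.2 ⟨n, hn, e⟩)

end Cfsg.Agent.S5021
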