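import Cfsg.Statements.S5023
import Cfsg.Agent.Fisch.Special
-- import your own Cfsg.Agent.* helpers here

set_option autoImplicit false
open Cfsg

namespace Cfsg.Agent.S5023

open CF.Fisch


/-- Let X be a rank one group with unipotent subgroups A and B that acts faithfully on an abelian group V (written additively) with A acting quadratically: a' • (a • v − v) = a • v − v for all a, a' in A and v in V. Then A is either torsion-free or an elementary abelian p-group for some prime p. -/
theorem result {X : Type*} [Group X] {A B : Subgroup X} (h : Cfsg.IsRankOneGroup X A B)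
    {V : Type*} [AddCommGroup V] [DistribMulAction X V] (hf : ∀ x : X, (∀ v : V, x • v = v) → x = 1)
    (hq : ∀ a ∈ A, ∀ a' ∈ A, ∀ v : V, a' • (a • v - v) = a • v - v) :
    (∀ a ∈ A, a ≠ 1 → ¬ IsOfFinOrder a) ∨ ∃ p : ℕ, p.Prime ∧ Cfsg.IsElementaryAbelian p A := by
  have hf' : ∀ x y : X, (∀ v : V, x • v = y • v) → x = y := by
    intro x y hxy
    have := hf (y⁻¹ * x) fun v => by rw [mul_smul, hxy, inv_smul_smul]
    exact (inv_mul_eq_one.1 this).symm
  have hcomm : ∀ x y : X, (∀ v : V, x • (y • v - v) = y • v - v) →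
      (∀ v : V, y • (x • v - v) = x • v - v) → Commute x y := by
    intro x y h1 h2
    refine hf' _ _ fun v => ?_
    have e1 := h1 v
    have e2 := h2 v
    rw [smul_sub] at e1 e2
    rw [mul_smul, mul_smul, sub_eq_iff_eq_add.1 e1, sub_eq_iff_eq_add.1 e2]
    abel
  have hA : IsMulCommutative A :=
    isMulCommutative_iff.2 fun a ha b hb => hcomm a b (hq b hb a ha) (hq a ha b hb)
  have hs : IsSpecialRankOnePair A B := by
    refine sp_of_quadratic_ring h (DistribMulAction.toAddMonoidEnd X V) (fun a ha a' ha' => ?_) ?_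
    · ext n
      exact sub_eq_zero.2 (hq a ha a' ha' n)
    · by_contra hc
      push Not at hc
      have hc' : ∀ x y : X, ∀ v : V, y • (x • v - v) = x • v - v := fun x y v =>
        sub_eq_zero.1 (DFunLike.congr_fun (hc x y) v)
      refine ro_not_commute h.2 (commutator_eq_bot_iff'.2 fun a _ b _ => ?_)
      exact hcomm a b (hc' b a) (hc' a b)
  by_cases hc : ∃ a ∈ A, a ≠ 1 ∧ IsOfFinOrder a
  · obtain ⟨a, ha, ha1, hf⟩ := hc
    exact Or.inr ⟨orderOf a, sp_prime_order hs ha ha1 hf, hA,
      sp_pow_prime hs hA ha ha1 (pow_orderOf_eq_one a)⟩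
  · push Not at hc
    exact Or.inl hc

end Cfsg.Agent.S5023
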