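import Cfsg.Statements.S5026
import Cfsg.Agent.Fisch.Root1
-- import your own Cfsg.Agent.* helpers here

set_option autoImplicit false
open Cfsg

namespace Cfsg.Agent.S5026

open CF.Fisch


/-- Let S be a degenerate set of abstract root subgroups of G (a set of abstract transvection groups) and let a, b be commuting non-identity elements of members of S with a b ≠ 1. Then the members of S centralizing a b are exactly those centralizing both a and b. -/
theorem result {G : Type*} [Group G] {S : Set (Subgroup G)} (hS : Cfsg.IsRootSubgroupSet S) (hdeg : Cfsg.IsDegenerateRootSet S)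
    {a b : G} (ha : a ∈ Cfsg.rootElements S) (hb : b ∈ Cfsg.rootElements S) (hab : a * b = b * a) (hab1 : a * b ≠ 1) :
    Cfsg.centralizingMembers S (Subgroup.zpowers (a * b)) =
      Cfsg.centralizingMembers S (Subgroup.zpowers a) ∩ Cfsg.centralizingMembers S (Subgroup.zpowers b) := by
  have hz : ∀ (x : G) (C : Subgroup G), C ∈ Cfsg.centralizingMembers S (Subgroup.zpowers x) ↔
      C ∈ S ∧ ∀ c ∈ C, Commute x c := by
    intro x C
    refine and_congr_right fun _ => ?_
    rw [cm_iff_le_centralizer]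
    refine ⟨fun h c hc => (h c hc x (Subgroup.mem_zpowers x)).symm, fun h c hc y hy => ?_⟩
    obtain ⟨n, rfl⟩ := Subgroup.mem_zpowers_iff.1 hy
    exact ((h c hc).zpow_left n).symm
  ext C
  rw [Set.mem_inter_iff, hz, hz, hz]
  obtain ⟨ha1, A, hA, ha⟩ := ha
  obtain ⟨hb1, B, hB, hb⟩ := hb
  constructor
  · rintro ⟨hC, h⟩
    have h1 : ∀ c ∈ C, Commute a c := by
      by_contra hn
      have hAC : IsRankOnePair A C := by
        rcases rs_cases hS hA hC with h1 | h1 | h1
        · exact absurd (h1 a ha) hn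
        · exact h1
        · exact absurd h1 (hdeg _ hA _ hC)
      have e0 : conjBy C a = conjBy C b⁻¹ := by
        rw [eq_comm, conjBy_eq_iff, conjBy_conjBy, inv_inv, ← hab, conjBy_of_commute h]
      have hBC : IsRankOnePair B C :=
        rs_ro_of_conj hS hB hC (inv_mem hb) (e0 ▸ ro_self_conj hAC ha ha1)
      obtain ⟨c, hc, -, e1⟩ := ro_partner hAC ha ha1
      obtain ⟨c', hc', -, e2⟩ := ro_partner hBC (inv_mem hb) (inv_ne_one.2 hb1)
      rw [← e0, ← e1, conjBy_eq_iff, conjBy_conjBy] at e2
      have hBu : B ∈ unipotentSubgroups A C :=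
        ⟨_, Subgroup.mem_sup_right (mul_mem (inv_mem hc') hc), e2⟩
      by_cases hAB : A = B
      · exact hab1 (ro_eq_one_of_commute hAC (mul_mem ha (hAB ▸ hb)) h)
      · exact ro_not_commute_elem (ro_of_unip hAC (left_mem_unip _ _) hBu hAB) ha hb ha1 hb1 hab
    refine ⟨⟨hC, h1⟩, hC, fun c hc => ?_⟩
    have := (h1 c hc).inv_left.mul_left (h c hc)
    rwa [inv_mul_cancel_left] at this
  · rintro ⟨⟨hC, h1⟩, -, h2⟩
    exact ⟨hC, fun c hc => (h1 c hc).mul_left (h2 c hc)⟩

end Cfsg.Agent.S5026
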