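import Cfsg.Statements.S5027
import Cfsg.Agent.Fisch.Root1
-- import your own Cfsg.Agent.* helpers here

set_option autoImplicit false
open Cfsg

namespace Cfsg.Agent.S5027

open CF.Fisch


/-- Let S be a set of abstract root subgroups of G such that every member of S has a rank one partner in S (the graph of rank one pairs on S has no isolated vertex). Then the second centre of G equals its centre. -/
theorem result {G : Type*} [Group G] {S : Set (Subgroup G)} (hS : Cfsg.IsRootSubgroupSet S)
    (hF : ∀ A ∈ S, ¬ Cfsg.IsIsolatedIn (Cfsg.FAdj S) S A) : Subgroup.upperCentralSeries G 2 = Subgroup.center G := by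
  refine le_antisymm (fun z hz => ?_) ?_
  · rw [Subgroup.mem_upperCentralSeries_succ_iff, Subgroup.upperCentralSeries_one] at hz
    refine rs_mem_center hS fun A hA a ha => ?_
    by_cases ha1 : a = 1
    · rw [ha1]; exact Commute.one_right z
    obtain ⟨B, hB, h⟩ := exists_ro_of_not_isolated hA (hF A hA)
    have hc : ∀ x, Commute (z * a * z⁻¹ * a⁻¹) x := fun x =>
      (Subgroup.mem_center_iff.1 (hz a) x).symm
    have := rs_central_translate hS hA hB h (fun x _ => hc x) (fun x _ => hc x) ha ha1
      (hS.conj_mem _ hA z) (by rw [inv_mul_cancel_right]; exact conj_mem_conjBy z ha)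
      (by rw [inv_mul_cancel_right]; simpa using ha1)
    exact commutatorElement_eq_one_iff_commute.1 this
  · rw [← Subgroup.upperCentralSeries_one]
    exact Subgroup.upperCentralSeries_mono G (by norm_num)

end Cfsg.Agent.S5027
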