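import Cfsg.Statements.S5029
import Cfsg.Agent.Fisch.Root1
-- import your own Cfsg.Agent.* helpers here

set_option autoImplicit false
open Cfsg

namespace Cfsg.Agent.S5029

open CF.Fisch
open scoped commutatorElement


/-- Let S be a set of abstract root subgroups of G, A ∈ S having a rank one partner in S, and B ∈ S with C = ⁅A, B⁆ ∈ S. Then the members of S contained in AC are the conjugates of A by elements of B together with C, they partition AC, the members of S inside AC partition AC so that A is a line partner of C, and for every non-identity a ∈ A the map b ↦ a⁻¹ b⁻¹ a b is an isomorphism from B onto C. -/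
theorem result {G : Type*} [Group G] {S : Set (Subgroup G)} (hS : Cfsg.IsRootSubgroupSet S)
    {A B : Subgroup G} (hA : ¬ Cfsg.IsIsolatedIn (Cfsg.FAdj S) S A) (hAS : A ∈ S) (hB : B ∈ S) (hC : ⁅A, B⁆ ∈ S) :
    Cfsg.membersIn S (A ⊔ ⁅A, B⁆) = (fun b : G => Cfsg.conjBy A b) '' (B : Set G) ∪ {⁅A, B⁆} ∧
    Cfsg.IsSubgroupPartition (A ⊔ ⁅A, B⁆) (Cfsg.membersIn S (A ⊔ ⁅A, B⁆)) ∧
    A ∈ Cfsg.linePartners S ⁅A, B⁆ ∧
    ∀ a ∈ A, a ≠ 1 → ∃ φ : ↥B ≃* ↥⁅A, B⁆, ∀ b : ↥B, (φ b : G) = a⁻¹ * (b : G)⁻¹ * a * b := by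
  obtain ⟨D, hD, hr⟩ := exists_ro_of_not_isolated hAS hA
  have h := cc_of_mem hS hAS hB hC
  refine ⟨?_, cc_partition hS hAS hD hr h, line_symm hAS (cc_line hS hAS hD hr h), fun a ha ha1 => ?_⟩
  · ext E
    rw [cc_members hS hAS hD hr h, or_comm]
    simp only [Set.mem_union, Set.mem_image, SetLike.mem_coe, Set.mem_singleton_iff, eq_comm]
  · have hm : ∀ b : B, a⁻¹ * (b : G)⁻¹ * a * b ∈ ⁅A, B⁆ := fun b => by
      have := comm_mem A B (inv_mem ha) (inv_mem b.2)
      rwa [commutatorElement_def, inv_inv, inv_inv] at this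
    have he : ∀ b : G, a⁻¹ * b⁻¹ * a * b = ⁅a⁻¹, b⁻¹⁆ := fun b => by
      rw [commutatorElement_def, inv_inv, inv_inv]
    let f : B →* ↥⁅A, B⁆ := MonoidHom.mk' (fun b => ⟨_, hm b⟩) fun b b' => Subtype.ext <| by
      simp only [Subgroup.coe_mul, he]
      rw [(rs_cm hS hB _ b.2 _ b'.2).eq, mul_inv_rev]
      exact cc_mul h (inv_mem ha) (inv_mem b.2) (inv_mem b'.2)
    refine ⟨MulEquiv.ofBijective f ⟨fun b b' e => ?_, fun c => ?_⟩, fun b => rfl⟩
    · have e1 := congrArg Subtype.val e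
      simp only [f, MonoidHom.mk'_apply, he] at e1
      exact Subtype.ext (inv_injective (cc_inj' hS hAS hD hr h (inv_mem ha) (inv_ne_one.2 ha1)
        (inv_mem b.2) (inv_mem b'.2) e1))
    · obtain ⟨b, hb, e⟩ := cc_surj h (inv_mem ha) (inv_ne_one.2 ha1) c.2
      refine ⟨⟨b⁻¹, inv_mem hb⟩, Subtype.ext ?_⟩
      simp only [f, MonoidHom.mk'_apply, he, inv_inv]
      exact e.symm

end Cfsg.Agent.S5029
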