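import Cfsg.Statements.S5030
import Cfsg.Agent.Fisch.Root4
-- import your own Cfsg.Agent.* helpers here

set_option autoImplicit false
open Cfsg

namespace Cfsg.Agent.S5030

open CF.Fisch
open scoped commutatorElement


/-- Let S be a set of abstract root subgroups of G and A, B, C ∈ S with ⁅A, B⁆ ∈ S and ⁅B, C⁆ ∈ S, where A and C are different and commute. For a non-identity b ∈ B put X = ⟨A, b⁻¹ C b⟩ and Y = ⟨b⁻¹ A b, C⟩ and R = ⟨A, B, C⟩. Then X and Y are either both abelian or both nilpotent of class exactly two; X and Y commute elementwise; XY is normal in R with R = (XY) B; and R is nilpotent. -/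
theorem result {G : Type*} [Group G] {S : Set (Subgroup G)} (hS : Cfsg.IsRootSubgroupSet S)
    {A B C : Subgroup G} (hA : A ∈ S) (hB : B ∈ S) (hC : C ∈ S) (hAB : ⁅A, B⁆ ∈ S) (hBC : ⁅B, C⁆ ∈ S)
    (hAC : C ∈ Cfsg.commutingPartners S A)
    {b : G} (hb : b ∈ B) (hb1 : b ≠ 1) :
    ((IsMulCommutative ↥(A ⊔ Cfsg.conjBy C b⁻¹) ∧ IsMulCommutative ↥(Cfsg.conjBy A b⁻¹ ⊔ C)) ∨
      ((¬ IsMulCommutative ↥(A ⊔ Cfsg.conjBy C b⁻¹) ∧
          ⁅⁅A ⊔ Cfsg.conjBy C b⁻¹, A ⊔ Cfsg.conjBy C b⁻¹⁆, A ⊔ Cfsg.conjBy C b⁻¹⁆ = ⊥) ∧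
        (¬ IsMulCommutative ↥(Cfsg.conjBy A b⁻¹ ⊔ C) ∧
          ⁅⁅Cfsg.conjBy A b⁻¹ ⊔ C, Cfsg.conjBy A b⁻¹ ⊔ C⁆, Cfsg.conjBy A b⁻¹ ⊔ C⁆ = ⊥))) ∧
    ⁅A ⊔ Cfsg.conjBy C b⁻¹, Cfsg.conjBy A b⁻¹ ⊔ C⁆ = ⊥ ∧
    (∀ r ∈ A ⊔ B ⊔ C, Cfsg.conjBy ((A ⊔ Cfsg.conjBy C b⁻¹) ⊔ (Cfsg.conjBy A b⁻¹ ⊔ C)) r =
      (A ⊔ Cfsg.conjBy C b⁻¹) ⊔ (Cfsg.conjBy A b⁻¹ ⊔ C)) ∧
    ((A ⊔ Cfsg.conjBy C b⁻¹) ⊔ (Cfsg.conjBy A b⁻¹ ⊔ C)) ⊔ B = A ⊔ B ⊔ C ∧
    Group.IsNilpotent ↥(A ⊔ B ⊔ C) := by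
  have h1 := cc_of_mem hS hA hB hAB
  have h2 := cc_symm (cc_of_mem hS hB hC hBC)
  have hc : Cm A C := cm_iff.1 hAC.2.2
  have hb' := inv_mem hb
  have hb1' := inv_ne_one.2 hb1
  have n1 := chain_not_ro hS hA hB hC h1 hc hb' hb1'
  have n2 := chain_not_ro hS hC hB hA h2 hc.symm hb' hb1'
  have hA' := hS.conj_mem _ hA b⁻¹
  have hC' := hS.conj_mem _ hC b⁻¹
  have c1 := class_two_of_not_ro hS hA hC' n1
  have c2 := class_two_of_not_ro hS hA' hC fun h => n2 (ro_symm h)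
  have hXY : Cm (A ⊔ conjBy C b⁻¹) (conjBy A b⁻¹ ⊔ C) :=
    ((rs_cm_conj hS hB hA (cc_not_ro hS hA (cc_symm h1)) hb').symm.sup_right hc).sup_left
      ((hc.symm.conj b⁻¹).sup_right (rs_cm_conj hS hB hC (cc_not_ro hS hC (cc_symm h2)) hb'))
  have eN : (A ⊔ conjBy C b⁻¹) ⊔ (conjBy A b⁻¹ ⊔ C) = (A ⊔ ⁅A, B⁆) ⊔ (C ⊔ ⁅C, B⁆) := by
    rw [← cc_sup_conj h1 hb' hb1', ← cc_sup_conj h2 hb' hb1']
    ac_rfl
  have hiff : Cm A (conjBy C b⁻¹) ↔ Cm (conjBy A b⁻¹) C := by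
    rw [cm_conj_iff_of_cc hc h2 hb' hb1', ← cm_conj_iff_of_cc hc h2 hb hb1]
    constructor
    · intro h; have := h.conj b⁻¹; rwa [conjBy_inv_cancel] at this
    · intro h; have := h.conj b; rwa [conjBy_cancel_inv] at this
  have hAN : A ≤ (A ⊔ conjBy C b⁻¹) ⊔ (conjBy A b⁻¹ ⊔ C) := le_sup_of_le_left le_sup_left
  have hCN : C ≤ (A ⊔ conjBy C b⁻¹) ⊔ (conjBy A b⁻¹ ⊔ C) := le_sup_of_le_right le_sup_right
  refine ⟨?_, cm_iff.2 hXY, ?_, ?_, ?_⟩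
  · rw [abelian_sup_iff hS hA hC', abelian_sup_iff hS hA' hC]
    by_cases h : Cm A (conjBy C b⁻¹)
    · exact Or.inl ⟨h, hiff.1 h⟩
    · exact Or.inr ⟨⟨h, cm_iff.2 c1⟩, fun h' => h (hiff.2 h'), cm_iff.2 c2⟩
  · refine conjBy_eq_of_mem_sup (conjBy_eq_of_mem_sup (fun a ha => conjBy_of_mem (hAN ha))
      fun b hb => ?_) fun c hc => conjBy_of_mem (hCN hc)
    rw [eN, conjBy_sup, cc_line_conj h1 hb, cc_line_conj h2 hb]
  · refine le_antisymm (sup_le (sup_le (sup_le (le_sup_of_le_left le_sup_left) ?_)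
      (sup_le ?_ le_sup_right)) (le_sup_of_le_left le_sup_right))
      (sup_le (sup_le (le_sup_of_le_left hAN) le_sup_right) (le_sup_of_le_left hCN))
    · exact conjBy_le_of_mem le_sup_right (Subgroup.mem_sup_left (Subgroup.mem_sup_right hb'))
    · exact conjBy_le_of_mem (le_sup_of_le_left le_sup_left)
        (Subgroup.mem_sup_left (Subgroup.mem_sup_right hb'))
  · set R := A ⊔ B ⊔ C
    have l1 : A ≤ R := le_sup_of_le_left le_sup_left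
    have l2 : B ≤ R := le_sup_of_le_left le_sup_right
    have l3 : C ≤ R := le_sup_right
    refine nilpotent_of_chain (A := A.subgroupOf R) (B := B.subgroupOf R) (C := C.subgroupOf R)
      (D := ⁅A, B⁆.subgroupOf R) (E := ⁅C, B⁆.subgroupOf R)
      (N := ((A ⊔ conjBy C b⁻¹) ⊔ (conjBy A b⁻¹ ⊔ C)).subgroupOf R) ?_
      ((rs_cm hS hA).subgroupOf R) ((rs_cm hS hB).subgroupOf R) ((rs_cm hS hC).subgroupOf R)
      (hc.subgroupOf R) (fun a ha b hb => comm_mem A B ha hb) (fun a ha b hb => comm_mem C B ha hb)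
      ((cc_left h1).subgroupOf R) ((cc_right h1).subgroupOf R) ((cc_left h2).subgroupOf R)
      ((cc_right h2).subgroupOf R) (fun x hx => hAN hx) (fun x hx => hCN hx) (fun x hx => ?_)
      (fun x hx => ?_) fun x hx y hy z hz => Subtype.ext (class_two_sup hXY c1 c2 _ hx _ hy _ hz)
    · rw [← Subgroup.subgroupOf_sup l1 l2, ← Subgroup.subgroupOf_sup (sup_le l1 l2) l3,
        Subgroup.subgroupOf_self]
    · rw [eN]; exact Subgroup.mem_sup_left (Subgroup.mem_sup_right hx)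
    · rw [eN]; exact Subgroup.mem_sup_right (Subgroup.mem_sup_right hx)

end Cfsg.Agent.S5030
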