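import Cfsg.Statements.S5035
import Cfsg.Agent.Fisch.Root2
-- import your own Cfsg.Agent.* helpers here

set_option autoImplicit false
open Cfsg

namespace Cfsg.Agent.S5035

open CF.Fisch
open scoped commutatorElement


/-- Let S be a set of abstract root subgroups of G whose graph of rank one pairs is connected, and f a homomorphism from G onto a group H. Then either the images of the members of S form a set of abstract root subgroups of H whose graph of rank one pairs is again connected, or H equals the image of a member of S. -/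
theorem result {G H : Type*} [Group G] [Group H] {S : Set (Subgroup G)} (hS : Cfsg.IsRootSubgroupSet S)
    (hc : Cfsg.IsConnectedFamily (Cfsg.FAdj S) S) (f : G →* H) (hf : Function.Surjective f) :
    (Cfsg.IsRootSubgroupSet ((fun A : Subgroup G => A.map f) '' S) ∧
      Cfsg.IsConnectedFamily (Cfsg.FAdj ((fun A : Subgroup G => A.map f) '' S)) ((fun A : Subgroup G => A.map f) '' S)) ∨
    ∃ A ∈ S, A.map f = ⊤ := by
  by_cases h0 : ∃ A ∈ S, A.map f = ⊥
  · right
    obtain ⟨A, hA, h0⟩ := h0
    refine ⟨A, hA, ?_⟩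
    have : f.ker = ⊤ := rs_eq_top hS fun B hB => by
      obtain ⟨g, rfl⟩ := fconn_conj (hc A hA B hB)
      rw [← Subgroup.map_eq_bot_iff, conjBy_map, h0, conjBy_bot]
    rw [h0, ← Subgroup.map_top_of_surjective f hf, eq_comm, Subgroup.map_eq_bot_iff, this]
  left
  push Not at h0
  have key : ∀ A B : Subgroup G, IsRankOnePair A B →
      A.map f = B.map f ∨ IsRankOnePair (A.map f) (B.map f) := by
    intro A B h
    rcases ro_dichotomy h (N := f.ker ⊓ (A ⊔ B)) inf_le_right (fun x hx n hn =>
      ⟨f.normal_ker.conj_mem n hn.1 x, Subgroup.mul_mem _ (Subgroup.mul_mem _ hx hn.2) (Subgroup.inv_mem _ hx)⟩) with h1 | h1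
    · left
      have e : (f.ker ⊓ (A ⊔ B)).map f = ⊥ := (Subgroup.map_eq_bot_iff _).2 inf_le_left
      have e1 := congrArg (Subgroup.map f) (h1 A (left_mem_unip A B))
      have e2 := congrArg (Subgroup.map f) (h1 B (ro_right_mem_unip h))
      rw [Subgroup.map_sup, e, bot_sup_eq] at e1 e2
      rw [e1, e2]
    · exact Or.inr (ro_map h f fun x hx e => h1 x ⟨e, hx⟩)
  have hcm : ∀ A B : Subgroup G, Cm A B → Cm (A.map f) (B.map f) := by
    rintro A B h _ ⟨a, ha, rfl⟩ _ ⟨b, hb, rfl⟩
    exact (h a ha b hb).map f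
  refine ⟨⟨?_, ?_, ?_, ?_, ?_⟩, ?_⟩
  · rintro _ ⟨A, hA, rfl⟩
    exact isMulCommutative_iff.2 (hcm A A (rs_cm hS hA))
  · rintro _ ⟨A, hA, rfl⟩
    exact h0 A hA
  · rw [iSup_image, ← Subgroup.map_top_of_surjective f hf, ← hS.generates]
    simp only [Subgroup.map_iSup]
  · rintro _ ⟨A, hA, rfl⟩ g
    obtain ⟨g, rfl⟩ := hf g
    exact ⟨_, hS.conj_mem _ hA g, conjBy_map _ _ _⟩
  · rintro _ ⟨A, hA, rfl⟩ _ ⟨B, hB, rfl⟩
    rcases rs_cases hS hA hB with h | h | h
    · exact Or.inl (cm_iff.2 (hcm A B h))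
    · rcases key A B h with h1 | h1
      · left
        simp only [← h1]
        exact cm_iff.2 (hcm A A (rs_cm hS hA))
      · exact Or.inr (Or.inl h1)
    · refine Or.inr (Or.inr ⟨⟨_, h.1, Subgroup.map_commutator _ _ _⟩, ?_, ?_, ?_⟩)
      · have := hcm _ _ ((cc_left h).sup_right (cc_right h))
        rwa [Subgroup.map_commutator, Subgroup.map_sup] at this
      · rintro _ ⟨a, ha, rfl⟩ ha1
        rw [← Subgroup.map_commutator, ← h.2.2.1 a ha (by rintro rfl; simp at ha1),
          MonoidHom.map_closure, Subgroup.coe_map, Set.image_image, Set.image_image]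
        simp
      · rintro _ ⟨b, hb, rfl⟩ hb1
        rw [← Subgroup.map_commutator, ← h.2.2.2 b hb (by rintro rfl; simp at hb1),
          MonoidHom.map_closure, Subgroup.coe_map, Set.image_image, Set.image_image]
        simp
  · rintro _ ⟨A, hA, rfl⟩ _ ⟨B, hB, rfl⟩
    have := hc A hA B hB
    clear hB
    induction this with
    | refl => exact .refl
    | tail _ h ih =>
      rcases key _ _ h.2.2 with h1 | h1
      · simp only [← h1]; exact ih
      · exact ih.tail ⟨⟨_, h.1, rfl⟩, ⟨_, h.2.1, rfl⟩, h1⟩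

end Cfsg.Agent.S5035
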