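import Cfsg.Statements.S5036
import Cfsg.Agent.Fisch.Root2
-- import your own Cfsg.Agent.* helpers here

set_option autoImplicit false
open Cfsg

namespace Cfsg.Agent.S5036

open CF.Fisch
open scoped commutatorElement


/-- Let S be a set of abstract root subgroups of G, A, B ∈ S with C = ⁅A, B⁆ ∈ S, and D ∈ S with ⁅D, C⁆ = A. Put X = ⟨B, D⟩ and N = AC. Then B, D form a rank one pair; the conjugates of A under X are the conjugates of C under X, namely the conjugates of A by elements of B together with C, equally the conjugates of C by elements of D together with A, and they partition N; and the centralizer of N in X is central in X. -/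
theorem result {G : Type*} [Group G] {S : Set (Subgroup G)} (hS : Cfsg.IsRootSubgroupSet S)
    {A B D : Subgroup G} (hA : A ∈ S) (hB : B ∈ S) (hC : ⁅A, B⁆ ∈ S) (hD : D ∈ S) (hDC : ⁅D, ⁅A, B⁆⁆ = A) :
    Cfsg.IsRankOnePair B D ∧
    {E | ∃ x ∈ B ⊔ D, E = Cfsg.conjBy A x} = {E | ∃ x ∈ B ⊔ D, E = Cfsg.conjBy ⁅A, B⁆ x} ∧
    {E | ∃ x ∈ B ⊔ D, E = Cfsg.conjBy A x} = (fun b : G => Cfsg.conjBy A b) '' (B : Set G) ∪ {⁅A, B⁆} ∧
    {E | ∃ x ∈ B ⊔ D, E = Cfsg.conjBy A x} = (fun d : G => Cfsg.conjBy ⁅A, B⁆ d) '' (D : Set G) ∪ {A} ∧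
    Cfsg.IsSubgroupPartition (A ⊔ ⁅A, B⁆) {E | ∃ x ∈ B ⊔ D, E = Cfsg.conjBy A x} ∧
    ∀ x ∈ (B ⊔ D) ⊓ Subgroup.centralizer ((A ⊔ ⁅A, B⁆ : Subgroup G) : Set G), ∀ y ∈ B ⊔ D, x * y = y * x := by
  rw [Subgroup.commutator_comm] at hDC
  have h := cc_of_mem hS hA hB hC
  have h2 : RootCommutatorCase S ⁅A, B⁆ D := cc_of_mem hS h.1 hD (hDC.symm ▸ hA)
  have hr := cc_opp_ro hS hA hB hD h hDC
  set C := ⁅A, B⁆ with hCdef
  have hN : ∀ x ∈ B ⊔ D, conjBy (A ⊔ C) x = A ⊔ C := by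
    refine conjBy_eq_of_mem_sup (fun b hb => cc_line_conj h hb) fun d hd => ?_
    have := cc_line_conj h2 hd
    rwa [hDC, sup_comm] at this
  have hND := cc_commutator_line_left h2
  rw [hDC, sup_comm] at hND
  have hNB : ⁅A ⊔ C, B⁆ = C := cc_commutator_line_left h
  have cA : ∀ x ∈ B ⊔ D, conjBy A x = ⁅A ⊔ C, conjBy D x⁆ := fun x hx => by
    have := conjBy_commutator (A ⊔ C) D x
    rwa [hND, hN x hx] at this
  have cC : ∀ x ∈ B ⊔ D, conjBy C x = ⁅A ⊔ C, conjBy B x⁆ := fun x hx => by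
    have := conjBy_commutator (A ⊔ C) B x
    rwa [hNB, hN x hx] at this
  have oC : ∀ E, (∃ x ∈ B ⊔ D, E = conjBy C x) ↔ ∃ U ∈ unipotentSubgroups B D, E = ⁅A ⊔ C, U⁆ := by
    intro E
    constructor
    · rintro ⟨x, hx, rfl⟩
      exact ⟨_, ⟨x, hx, rfl⟩, cC x hx⟩
    · rintro ⟨_, ⟨x, hx, rfl⟩, rfl⟩
      exact ⟨x, hx, (cC x hx).symm⟩
  have oA : ∀ E, (∃ x ∈ B ⊔ D, E = conjBy A x) ↔ ∃ U ∈ unipotentSubgroups B D, E = ⁅A ⊔ C, U⁆ := by
    intro E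
    rw [ro_unip_symm hr]
    constructor
    · rintro ⟨x, hx, rfl⟩
      exact ⟨_, ⟨x, sup_comm B D ▸ hx, rfl⟩, cA x hx⟩
    · rintro ⟨_, ⟨x, hx, rfl⟩, rfl⟩
      rw [sup_comm] at hx
      exact ⟨x, hx, (cA x hx).symm⟩
  have o1 : ∀ E, (∃ x ∈ B ⊔ D, E = conjBy A x) ↔ (∃ b ∈ B, E = conjBy A b) ∨ E = C := by
    intro E
    rw [oA]
    constructor
    · rintro ⟨U, hU, rfl⟩
      rcases (ro_mem_unip_iff hr).1 hU with rfl | ⟨b, hb, rfl⟩
      · exact Or.inr hNB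
      · exact Or.inl ⟨b, hb, (cA b (Subgroup.mem_sup_left hb)).symm⟩
    · rintro (⟨b, hb, rfl⟩ | rfl)
      · exact (oA _).1 ⟨b, Subgroup.mem_sup_left hb, rfl⟩
      · exact ⟨B, left_mem_unip _ _, hNB.symm⟩
  refine ⟨hr, Set.ext fun E => (oA E).trans (oC E).symm, Set.ext fun E => (o1 E).trans ?_,
    Set.ext fun E => (oA E).trans ?_, ⟨?_, fun x hx _ => ?_, fun E hE F hF hne => ?_⟩, ?_⟩
  · simp only [Set.mem_union, Set.mem_image, SetLike.mem_coe, Set.mem_singleton_iff, eq_comm]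
  · simp only [Set.mem_union, Set.mem_image, SetLike.mem_coe, Set.mem_singleton_iff]
    constructor
    · rintro ⟨U, hU, rfl⟩
      rw [ro_unip_symm hr] at hU
      rcases (ro_mem_unip_iff (ro_symm hr)).1 hU with rfl | ⟨d, hd, rfl⟩
      · exact Or.inr hND
      · exact Or.inl ⟨d, hd, cC d (Subgroup.mem_sup_right hd)⟩
    · rintro (⟨d, hd, rfl⟩ | rfl)
      · exact (oC _).1 ⟨d, Subgroup.mem_sup_right hd, rfl⟩
      · exact ⟨D, ro_right_mem_unip hr, hND.symm⟩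
  · rintro _ ⟨x, hx, rfl⟩
    rw [← hN x hx]
    exact conjBy_mono x le_sup_left
  · rcases cc_mem_line h hx with h1 | ⟨b, hb, h1⟩
    · exact ⟨C, (o1 _).2 (Or.inr rfl), h1⟩
    · exact ⟨_, ⟨b, Subgroup.mem_sup_left hb, rfl⟩, h1⟩
  · obtain ⟨U, hU, rfl⟩ := (oA E).1 hE
    obtain ⟨V, hV, rfl⟩ := (oA F).1 hF
    obtain ⟨x, hx, rfl, rfl⟩ := ro_exists_conj_pair hr hU hV (by rintro rfl; exact hne rfl)
    rw [← cC x hx, ← cA x hx, ← conjBy_inf, conjBy_eq_bot, Subgroup.eq_bot_iff_forall]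
    exact fun y hy => cc_inf hS h hy.2 hy.1
  · intro x hx y hy
    have hnorm : ∀ x ∈ B ⊔ D, ∀ n ∈ (B ⊔ D) ⊓ Subgroup.centralizer ((A ⊔ C : Subgroup G) : Set G),
        x * n * x⁻¹ ∈ (B ⊔ D) ⊓ Subgroup.centralizer ((A ⊔ C : Subgroup G) : Set G) := by
      refine fun x hx n hn => ⟨Subgroup.mul_mem _ (Subgroup.mul_mem _ hx hn.1)
        (Subgroup.inv_mem _ hx), fun z hz => ?_⟩
      rw [← hN x hx] at hz
      obtain ⟨w, hw, rfl⟩ := exists_of_mem_conjBy hz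
      exact commute_conj (hn.2 w hw) x
    rcases ro_dichotomy hr inf_le_left hnorm with h1 | h1
    · exfalso
      have h3 := h1 B (left_mem_unip _ _)
      refine cc_not_cm hS h2 (Cm.mono (Cm.sup_right ?_ (cc_right h)) le_rfl
        (le_sup_right.trans h3.ge))
      exact fun c hc n hn => hn.2 c (Subgroup.mem_sup_right hc)
    · exact h1 x hx y hy

end Cfsg.Agent.S5036
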