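import Cfsg.Statements.S5037
import Cfsg.Agent.Fisch.Root3
-- import your own Cfsg.Agent.* helpers here

set_option autoImplicit false
open Cfsg

namespace Cfsg.Agent.S5037

open CF.Fisch
open scoped commutatorElement


/-- Let S be a class of abstract root subgroups of G that is either degenerate or non-degenerate (so either the commutator case never occurs, or all three cases occur), and A ≠ C members of S. If every member of S commuting with A commutes with C, then A and C have the same commuting members of S; and if every rank one partner of A is a rank one partner of C, then A and C commute and have the same rank one partners. -/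
theorem result {G : Type*} [Group G] {S : Set (Subgroup G)} (hS : Cfsg.IsRootSubgroupClass S)
    (hdn : Cfsg.IsDegenerateRootSet S ∨ Cfsg.IsNondegenerateRootSet S)
    {A C : Subgroup G} (hA : A ∈ S) (hC : C ∈ S) (hAC : A ≠ C) :
    (Cfsg.centralizingMembers S A ⊆ Cfsg.centralizingMembers S C →
      Cfsg.centralizingMembers S A = Cfsg.centralizingMembers S C) ∧
    (Cfsg.rankOnePartners S A ⊆ Cfsg.rankOnePartners S C →
      ⁅A, C⁆ = ⊥ ∧ Cfsg.rankOnePartners S A = Cfsg.rankOnePartners S C) := by
  have hc : ∀ U E : Subgroup G, E ∈ Cfsg.centralizingMembers S U ↔ E ∈ S ∧ Cm E U :=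
    fun U E => and_congr_right fun _ => cm_iff_le_centralizer
  by_cases hex : ∃ A ∈ S, ∃ B ∈ S, IsRankOnePair A B
  · obtain ⟨U, hU, V, hV, r⟩ := hex
    have hF := class_partner hS.1.conj_mem hS.2 hU hV r
    refine ⟨fun h => Set.Subset.antisymm h fun E hE => ?_, fun h => ?_⟩
    · rw [hc] at hE ⊢
      exact ⟨hE.1, centralizing_symm hS.1 hF hA hC
        (fun F hF h1 => ((hc _ _).1 (h ((hc _ _).2 ⟨hF, h1⟩))).2) E hE.1 hE.2⟩
    · obtain ⟨h1, h2⟩ := partners_symm hS.1 hF hA hC fun E hE h1 => (h ⟨hE, h1⟩).2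
      exact ⟨cm_iff.2 h1, Set.Subset.antisymm h fun E hE => ⟨hE.1, h2 E hE.1 hE.2⟩⟩
  · have hdeg := hdn.resolve_right fun h => hex h.2.1
    have hall : ∀ U ∈ S, ∀ V ∈ S, Cm U V := fun U hU V hV => by
      rcases rs_cases hS.1 hU hV with h | h | h
      · exact h
      · exact absurd ⟨U, hU, V, hV, h⟩ hex
      · exact absurd h (hdeg U hU V hV)
    refine ⟨fun h => Set.Subset.antisymm h fun E hE => (hc _ _).2 ⟨hE.1, hall _ hE.1 _ hA⟩,
      fun h => ⟨cm_iff.2 (hall _ hA _ hC), Set.Subset.antisymm h fun E hE => ?_⟩⟩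
    exact absurd ⟨C, hC, E, hE.1, hE.2⟩ hex

end Cfsg.Agent.S5037
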