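import Cfsg.Statements.S5038
import Cfsg.Agent.Fisch.Root3
-- import your own Cfsg.Agent.* helpers here

set_option autoImplicit false
open Cfsg

namespace Cfsg.Agent.S5038

open CF.Fisch
open scoped commutatorElement


/-- Let S be a set of abstract root subgroups of G in which every member has a rank one partner, A ∈ S and B a line partner of A. Then the subgroup generated by the members of S normalizing AB permutes the members of S inside AB doubly transitively by conjugation. -/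
theorem result {G : Type*} [Group G] {S : Set (Subgroup G)} (hS : Cfsg.IsRootSubgroupSet S)
    (hF : ∀ A ∈ S, ¬ Cfsg.IsIsolatedIn (Cfsg.FAdj S) S A) {A B : Subgroup G} (hA : A ∈ S) (hB : B ∈ Cfsg.linePartners S A) :
    ∀ C₁ ∈ Cfsg.membersIn S (A ⊔ B), ∀ C₂ ∈ Cfsg.membersIn S (A ⊔ B), ∀ D₁ ∈ Cfsg.membersIn S (A ⊔ B),
      ∀ D₂ ∈ Cfsg.membersIn S (A ⊔ B), C₁ ≠ C₂ → D₁ ≠ D₂ →
        ∃ x ∈ ⨆ E ∈ Cfsg.normalizingMembers S (A ⊔ B), E, Cfsg.conjBy C₁ x = D₁ ∧ Cfsg.conjBy C₂ x = D₂ := by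
  obtain ⟨C, h⟩ := line_two_trans hS (fun B hB => exists_ro_of_not_isolated hB (hF B hB)) hA hB
    (H := ⨆ E ∈ Cfsg.normalizingMembers S (A ⊔ B), E) fun R hR hn =>
      le_iSup₂_of_le (f := fun E (_ : E ∈ Cfsg.normalizingMembers S (A ⊔ B)) => E) R
        ⟨hR, fun r hr => conjBy_eq_self_iff.1 (hn r hr)⟩ le_rfl
  intro C₁ h1 C₂ h2 D₁ h3 D₂ h4 hC hD
  obtain ⟨x, hx, e1, e2⟩ := h C₁ h1 C₂ h2 hC
  obtain ⟨y, hy, e3, e4⟩ := h D₁ h3 D₂ h4 hD
  refine ⟨y⁻¹ * x, mul_mem (inv_mem hy) hx, ?_, ?_⟩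
  · rw [← conjBy_conjBy, e1, ← e3, conjBy_inv_cancel]
  · rw [← conjBy_conjBy, e2, ← e4, conjBy_inv_cancel]

end Cfsg.Agent.S5038
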