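import Cfsg.Statements.S5043
import Cfsg.Agent.QP.LinSL

set_option autoImplicit false
open Matrix
open Cfsg

namespace Cfsg.Agent.S5043
open CF.QP CF.Fisch

/-- Let k be a field and n a natural number. In SL_{n+3}(k) (so in every dimension at least 3) the conjugates of the root subgroup of elementary transvections 1 + c E₁₂ (c ∈ k) — that is, the groups of transvections attached to an incident point–hyperplane pair — form a non-degenerate class of abstract k-root subgroups of SL_{n+3}(k) whose graph of rank one pairs is connected. -/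
theorem result (k : Type*) [Field k] (n : ℕ) :
    Cfsg.IsRootSubgroupClass {A : Subgroup (Matrix.SpecialLinearGroup (Fin (n + 3)) k) |
        ∃ g : Matrix.SpecialLinearGroup (Fin (n + 3)) k,
          A = Cfsg.conjBy (Subgroup.closure {t : Matrix.SpecialLinearGroup (Fin (n + 3)) k |
            ∃ c : k, (t : Matrix (Fin (n + 3)) (Fin (n + 3)) k) = Matrix.transvection 0 1 c}) g} ∧
    Cfsg.IsNondegenerateRootSet {A : Subgroup (Matrix.SpecialLinearGroup (Fin (n + 3)) k) |
        ∃ g : Matrix.SpecialLinearGroup (Fin (n + 3)) k,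
          A = Cfsg.conjBy (Subgroup.closure {t : Matrix.SpecialLinearGroup (Fin (n + 3)) k |
            ∃ c : k, (t : Matrix (Fin (n + 3)) (Fin (n + 3)) k) = Matrix.transvection 0 1 c}) g} ∧
    Cfsg.IsKRootSubgroupSet k {A : Subgroup (Matrix.SpecialLinearGroup (Fin (n + 3)) k) |
        ∃ g : Matrix.SpecialLinearGroup (Fin (n + 3)) k,
          A = Cfsg.conjBy (Subgroup.closure {t : Matrix.SpecialLinearGroup (Fin (n + 3)) k |
            ∃ c : k, (t : Matrix (Fin (n + 3)) (Fin (n + 3)) k) = Matrix.transvection 0 1 c}) g} ∧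
    Cfsg.IsConnectedFamily (Cfsg.FAdj {A : Subgroup (Matrix.SpecialLinearGroup (Fin (n + 3)) k) |
        ∃ g : Matrix.SpecialLinearGroup (Fin (n + 3)) k,
          A = Cfsg.conjBy (Subgroup.closure {t : Matrix.SpecialLinearGroup (Fin (n + 3)) k |
            ∃ c : k, (t : Matrix (Fin (n + 3)) (Fin (n + 3)) k) = Matrix.transvection 0 1 c}) g})
      {A : Subgroup (Matrix.SpecialLinearGroup (Fin (n + 3)) k) |
        ∃ g : Matrix.SpecialLinearGroup (Fin (n + 3)) k,
          A = Cfsg.conjBy (Subgroup.closure {t : Matrix.SpecialLinearGroup (Fin (n + 3)) k |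
            ∃ c : k, (t : Matrix (Fin (n + 3)) (Fin (n + 3)) k) = Matrix.transvection 0 1 c}) g} := by
    have S := linSys_SL (n := Fin (n + 3)) (F := k)
    have h01 : el k (0 : Fin (n + 3)) 1 ∈ tSL k _ := el_mem (by simp)
    have hc := S.rootClass gen_SL ⟨_, h01⟩ tSL_conn
    have e : {A : Subgroup (Matrix.SpecialLinearGroup (Fin (n + 3)) k) |
          ∃ g : Matrix.SpecialLinearGroup (Fin (n + 3)) k,
            A = Cfsg.conjBy (Subgroup.closure {t : Matrix.SpecialLinearGroup (Fin (n + 3)) k |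
              ∃ c : k, (t : Matrix (Fin (n + 3)) (Fin (n + 3)) k) = Matrix.transvection 0 1 c}) g} =
        ln k (slι _ k) '' tSL k _ := by
      simp only [coe_eq_transvection]
      ext A
      exact ⟨fun ⟨g, hg⟩ => hg ▸ S.conj_mem ⟨_, h01, rfl⟩ g, fun hA => hc.2.2 _ ⟨_, h01, rfl⟩ A hA⟩
    rw [e]
    refine ⟨hc, nondeg_of_cc hc.1 ?_ fun hd => ?_, S.kRootSet gen_SL, S.conn tSL_conn⟩
    · rintro _ ⟨a, ha, rfl⟩
      obtain ⟨c, h1, h2, -⟩ := tSL_conn a ha a ha
      exact ⟨_, ⟨c, h1, rfl⟩, S.ro_of_ne ha h1 h2⟩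
    · have h12 : el k (1 : Fin (n + 3)) 2 ∈ tSL k _ := el_mem (by simp [Fin.ext_iff, Nat.mod_eq_of_lt (show 2 < n + 3 by omega)])
      have h02 : el k (0 : Fin (n + 3)) 2 ∈ tSL k _ := el_mem (by simp [Fin.ext_iff, Nat.mod_eq_of_lt (show 2 < n + 3 by omega)])
      have n20 : (2 : Fin (n + 3)) ≠ 0 := by simp [Fin.ext_iff, Nat.mod_eq_of_lt (show 2 < n + 3 by omega)]
      refine hd _ ⟨_, h01, rfl⟩ _ ⟨_, h12, rfl⟩ ((S.pt _ h01).cc S.inj (S.pt _ h12) ?_ ?_ ?_)
      · simp [el, tv_aba, n20]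
      · simp [el, tv_aba, n20]
      · simpa [el, tv_mul, n20] using h02

end Cfsg.Agent.S5043
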