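import Cfsg.Statements.S5045
import Cfsg.Agent.RI.Two

set_option autoImplicit false
open Cfsg

namespace Cfsg.Agent.S5045

/-- Let G be a finite group generated by a set D of root involutions, and W the set of members of D whose product with every other member of D has even order or is trivial (the isolated vertices of the odd-order-product graph on D). Then W is conjugation-invariant and generates a normal 2-subgroup of G meeting D in exactly W; the commutator of two members of D lying in different connected components of that graph, each with more than one member, lies in the subgroup generated by W; and for a in such a component, every member of D commuting with a, different from a and with product with a in D, lies in that component or in W. -/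
theorem result {G : Type*} [Group G] [Finite G] {D : Set G} (hD : Cfsg.IsRootInvolutionSet D) :
    (∀ w ∈ {w | Cfsg.IsIsolatedElem (Cfsg.OddAdj D) D w}, ∀ g : G, g * w * g⁻¹ ∈ {w | Cfsg.IsIsolatedElem (Cfsg.OddAdj D) D w}) ∧
    (Subgroup.closure {w | Cfsg.IsIsolatedElem (Cfsg.OddAdj D) D w}).Normal ∧
    IsPGroup 2 ↥(Subgroup.closure {w | Cfsg.IsIsolatedElem (Cfsg.OddAdj D) D w}) ∧
    (Subgroup.closure {w | Cfsg.IsIsolatedElem (Cfsg.OddAdj D) D w} : Set G) ∩ D = {w | Cfsg.IsIsolatedElem (Cfsg.OddAdj D) D w} ∧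
    (∀ a ∈ D, ∀ b ∈ D, (∃ a' ∈ Cfsg.elemComponentOf (Cfsg.OddAdj D) D a, a' ≠ a) →
      (∃ b' ∈ Cfsg.elemComponentOf (Cfsg.OddAdj D) D b, b' ≠ b) →
      Cfsg.elemComponentOf (Cfsg.OddAdj D) D a ≠ Cfsg.elemComponentOf (Cfsg.OddAdj D) D b →
        a * b * a⁻¹ * b⁻¹ ∈ Subgroup.closure {w | Cfsg.IsIsolatedElem (Cfsg.OddAdj D) D w}) ∧
    (∀ a ∈ D, (∃ a' ∈ Cfsg.elemComponentOf (Cfsg.OddAdj D) D a, a' ≠ a) →
      Cfsg.productPartners D a ⊆ Cfsg.elemComponentOf (Cfsg.OddAdj D) D a ∪ {w | Cfsg.IsIsolatedElem (Cfsg.OddAdj D) D w}) := by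
  open CF.BG CF.Rt Subgroup in
  have h := ri_of hD
  have cj : ∀ w ∈ {w | IsIsolatedElem (OddAdj D) D w}, ∀ g : G,
      g * w * g⁻¹ ∈ {w | IsIsolatedElem (OddAdj D) D w} := fun w hw g => by
    have hw := isolated_iff.1 hw
    refine isolated_iff.2 ⟨hD.3 _ hw.1 g, fun x hx o => hw.2 _ (hD.3 _ hx g⁻¹) ?_⟩
    simpa [mul_assoc] using o.conj g⁻¹
  have nW : (closure {w | IsIsolatedElem (OddAdj D) D w}).Normal :=
    normalizer_eq_top_iff.1 (eq_top_iff.2 fun g _ => norm_closure fun t ht => cj t ht g)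
  have p : PiGrp {2} (closure {w | IsIsolatedElem (OddAdj D) D w}) :=
    h.bs (fun _ k => k.1) (fun {d e} hd he => by simpa [h.inv he.1] using cj d hd e)
      fun a ha b hb => (isolated_iff.1 ha).2 b hb.1
  have X : ∀ a b, Ln D a b → (∃ a' ∈ elemComponentOf (OddAdj D) D a, a' ≠ a) →
      b ∈ elemComponentOf (OddAdj D) D a ∪ {w | IsIsolatedElem (OddAdj D) D w} :=
    fun a b l ⟨a', k, n⟩ => by
      obtain ⟨x, hx, o⟩ := RF.exists_op k.2 n
      by_cases i : ∃ y ∈ D, Op b y
      · obtain ⟨y, hy, o'⟩ := i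
        exact .inl ⟨l.r, h.ln_rf l hx o hy o'⟩
      · exact .inr (isolated_iff.2 ⟨l.r, fun y hy o' => i ⟨y, hy, o'⟩⟩)
  have E : ∀ a b, RF D a b → elemComponentOf (OddAdj D) D a = elemComponentOf (OddAdj D) D b :=
    fun a b k => Set.ext fun x => and_congr_right fun _ => ⟨k.symm.trans, k.trans⟩
  refine ⟨cj, nW, p.isPGroup, Set.Subset.antisymm (fun w hw => isolated_iff.2 ⟨hw.2, fun x hx o => ?_⟩)
    fun w hw => ⟨subset_closure hw, hw.1⟩, fun a ha b hb na nb n => ?_, fun a ha na b hb =>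
      X a b ⟨ha, hb.1.1, hb.1.2.1.symm, hb.1.2.1 ▸ hb.2⟩ na⟩
  · refine o.not_mem (h.sq hw.2) (h.sq hx) p ?_
    have := mul_mem hw.1 (nW.conj_mem _ hw.1 x)
    rwa [h.inv hx, ← mul_assoc, ← mul_assoc, mul_assoc _ w] at this
  · rw [h.inv ha, h.inv hb, mul_assoc (a * b)]
    rcases h.tri ha hb with k | k | k
    · rw [← cm, cm_eq_one (h.sq ha) (h.sq hb) k]; exact one_mem _
    · exact absurd (E _ _ (k.rf ha hb)) n
    · rcases X _ _ (h.ln_l ha hb k) na with q | q
      · rcases X _ _ (h.ln_r ha hb k) nb with q' | q'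
        · exact absurd ((E _ _ q.2).trans (E _ _ q'.2).symm) n
        · exact subset_closure q'
      · exact subset_closure q

end Cfsg.Agent.S5045
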