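import Cfsg.Statements.S5046
import Cfsg.Agent.RI.Two

set_option autoImplicit false
open Cfsg

namespace Cfsg.Agent.S5046

/-- Let G be a finite group generated by a set D of root involutions whose odd-order-product graph is connected, and d ∈ D. Then the members e of D with the same commuting members as d are exactly those for which the union of the commuting members of d and the members whose product with d has order 4 equals the corresponding union for e. -/
theorem result {G : Type*} [Group G] [Finite G] {D : Set G} (hD : Cfsg.IsRootInvolutionSet D)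
    (hc : Cfsg.IsConnectedSet (Cfsg.OddAdj D) D) {d : G} (hd : d ∈ D) :
    Cfsg.sameCommutingClass D d =
      {e | e ∈ D ∧ Cfsg.commutingMembers D d ∪ Cfsg.fourPartners D d = Cfsg.commutingMembers D e ∪ Cfsg.fourPartners D e} := by
  open CF.BG CF.Rt Subgroup in
  have h := ri_of hD
  have E : ∀ {d x}, d ∈ D → (x ∈ commutingMembers D d ∪ fourPartners D d ↔ x ∈ D ∧ x ∉ AA D d) :=
    fun {d x} hd => ⟨fun k => k.elim (fun k => ⟨k.1, fun o => h.op_nc hd k.1 o.2 k.2.symm⟩) fun k =>
      ⟨k.1, fun o => h.not_op k.1 ((h.four_iff hd k.1).1 k.2) o.2⟩, fun k =>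
        (h.tri hd k.1).elim (fun c => .inl ⟨k.1, c.symm⟩) fun q => .inr ⟨k.1,
          (h.four_iff hd k.1).2 (q.resolve_left fun o => k.2 ⟨k.1, o⟩)⟩⟩
  refine Set.ext fun e => and_congr_right fun he => ⟨fun k => Set.ext fun x => ?_, fun k => ?_⟩
  · have c : ∀ y ∈ D, Commute d y ↔ Commute e y := fun y hy =>
      ⟨fun q => (k ▸ (⟨hy, q.symm⟩ : y ∈ commutingMembers D d) : y ∈ commutingMembers D e).2.symm,
        fun q => (k ▸ (⟨hy, q.symm⟩ : y ∈ commutingMembers D e) : y ∈ commutingMembers D d).2.symm⟩
    rw [E hd, E he, h.AA_eq (hc _ hd _ he) (h.AA_of_comm hd he c)]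
  · have A : AA D d = AA D e := Set.ext fun x => by
      have := Set.ext_iff.1 k x
      rw [E hd, E he] at this
      exact ⟨fun q => by_contra fun n => (this.2 ⟨q.1, n⟩).2 q,
        fun q => by_contra fun n => (this.1 ⟨q.1, n⟩).2 q⟩
    exact Set.ext fun y => and_congr_right fun hy =>
      ⟨fun c => (h.comm_of_AA hc hd he A hy c.symm).symm,
        fun c => (h.comm_of_AA hc he hd A.symm hy c.symm).symm⟩

end Cfsg.Agent.S5046
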