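import Cfsg.Statements.S5047
import Cfsg.Agent.RI.Two

set_option autoImplicit false
open Cfsg

namespace Cfsg.Agent.S5047

/-- Let G be a finite group generated by a set D of root involutions whose odd-order-product graph is connected, a ∈ D, and b a member of D different from a, commuting with a, with ab ∈ D, but not having the same commuting members as a. Then some member x of D with bx of order 4 has ax of order 3. -/
theorem result {G : Type*} [Group G] [Finite G] {D : Set G} (hD : Cfsg.IsRootInvolutionSet D)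
    (hc : Cfsg.IsConnectedSet (Cfsg.OddAdj D) D) {a b : G} (ha : a ∈ D) (hb : b ∈ Cfsg.productPartners D a)
    (hbE : b ∉ Cfsg.sameCommutingClass D a) : ∃ x ∈ Cfsg.fourPartners D b, orderOf (a * x) = 3 := by
  open CF.BG CF.Rt Subgroup in
  have h := ri_of hD
  have l : Ln D a b := ⟨ha, hb.1.1, hb.1.2.1.symm, hb.1.2.1 ▸ hb.2⟩
  obtain ⟨c, hc', rfl⟩ := h.k1 hc l fun A => hbE ⟨l.r, Set.ext fun y => and_congr_right fun hy =>
    ⟨fun c => (h.comm_of_AA hc ha l.r A hy c.symm).symm,
      fun c => (h.comm_of_AA hc l.r ha A.symm hy c.symm).symm⟩⟩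
  obtain ⟨x, hx, e, -, o⟩ := h.k2 hc ha hc' l.r
  exact ⟨x, ⟨hx, (h.four_iff l.r hx).2 (h.cm_symm hx l.r (by rwa [e]))⟩, o⟩

end Cfsg.Agent.S5047
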