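import Cfsg.Statements.S5049
import Cfsg.Agent.RI.Two

set_option autoImplicit false
open Cfsg

namespace Cfsg.Agent.S5049

/-- Let G be a finite group generated by a set D of odd transpositions (root involutions with no product of order 4), Q = O₂(G), and for a ∈ D let Q_a be the commutator subgroup of Q with a. Then every member of D commuting with a centralizes Q_a; and for b ∈ D with ab of odd order greater than 1, the centralizer of ab in Q is the intersection of the centralizers of a and b in Q. -/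
theorem result {G : Type*} [Group G] [Finite G] {D : Set G} (hD : Cfsg.IsOddTranspositionSet D) {a : G} (ha : a ∈ D) :
    (∀ e ∈ Cfsg.commutingMembers D a, ∀ q ∈ ⁅Cfsg.pCore 2 G, Subgroup.zpowers a⁆, e * q = q * e) ∧
    (∀ b ∈ Cfsg.oddPartners D a,
      Cfsg.pCore 2 G ⊓ Subgroup.centralizer {a * b} = Cfsg.pCore 2 G ⊓ Subgroup.centralizer {a} ⊓ Subgroup.centralizer {b}) := by
  open CF.BG CF.Rt Subgroup in
  have h := ri_of hD.1
  have p : PiGrp {2} (pCore 2 G) := by rw [pCore_eq Nat.prime_two]; exact O_pi _ _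
  have nQ : (pCore 2 G).Normal := by
    rw [pCore_eq Nat.prime_two]; exact normalIn_top.1 (O_normal _ _)
  have key : ∀ {a e q : G}, a ∈ D → e ∈ D → Commute e a → q ∈ pCore 2 G →
      Commute e (q * a * q⁻¹) := fun {a e q} ha he c hq => by
    have hx := hD.1.3 _ ha q
    refine ((h.tri he hx).resolve_right fun k => k.elim (fun o => ?_) fun k =>
      hD.2 _ he _ hx ((h.four_iff he hx).2 k))
    refine o.not_mem (h.sq he) (h.sq hx) p ?_
    have m : a * (q * a * q⁻¹) ∈ pCore 2 G := by
      have := mul_mem (nQ.conj_mem _ hq a) (inv_mem hq)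
      rwa [h.inv ha, mul_assoc, mul_assoc, ← mul_assoc q] at this
    have := mul_mem (nQ.conj_mem _ m (e * a)) m
    rwa [show e * a * (a * (q * a * q⁻¹)) * (e * a)⁻¹ * (a * (q * a * q⁻¹)) = cm e (q * a * q⁻¹) by
      simp [mul_assoc, h.inv ha, h.inv he, ← c.left_comm, mm (h.sq ha)]] at this
  refine ⟨fun e he q hq => ?_, fun b hb => le_antisymm (fun q hq => ?_) fun q hq => ⟨hq.1.1, ?_⟩⟩
  · refine mem_cent1.1 (mem_cent1_comm.1 ((commutator_le.2 fun x hx y hy => ?_ : _ ≤ 𝐂₁ e) hq))
    have c : Commute e a := he.2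
    classical
    rcases (mem_zpowers_iff_mem_range_orderOf.1 hy) with hy
    rw [h.ord ha] at hy
    obtain ⟨n, hn, rfl⟩ := Finset.mem_image.1 hy
    obtain rfl | rfl : n = 0 ∨ n = 1 := by have := Finset.mem_range.1 hn; omega
    · simp
    · rw [pow_one]
      exact mem_cent1.2 ((key ha he.1 c hx).mul_right c.inv_right).symm
  · have c := mem_cent1.1 hq.2
    have hb := mem_oddPartners.1 hb
    have e : a * (q * a * q⁻¹) = b * (q * b * q⁻¹) := by
      calc _ = a * (q * (a * b) * q⁻¹) * (q * b⁻¹ * q⁻¹) := by group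
        _ = _ := by rw [c, h.inv hb.1]; simp [mul_assoc, mm (h.sq ha)]
    have c1 := key ha ha (Commute.refl a) hq.1
    have c2 := key hb.1 hb.1 (Commute.refl b) hq.1
    have z := h.lemB ha hb.1 hb.2 (z := a * (q * a * q⁻¹)) (cm_eq_one (h.sq ha) (h.sq (hD.1.3 _ ha q)) c1)
      ((Commute.refl a).mul_right c1) (e ▸ (Commute.refl b).mul_right c2)
      (by rw [mm (h.sq ha)]; exact hD.1.3 _ ha q)
    have f : ∀ {a : G}, a ∈ D → a * (q * a * q⁻¹) = 1 → q ∈ 𝐂₁ a := fun {a} ha k => mem_cent1.2 (by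
      have := eq_inv_of_mul_eq_one_right k
      rw [h.inv ha] at this
      exact mul_inv_eq_iff_eq_mul.1 this)
    exact ⟨⟨hq.1, f ha z⟩, f hb.1 (e ▸ z)⟩
  · exact mem_cent1.2 (Commute.mul_right (mem_cent1.1 hq.1.2) (mem_cent1.1 hq.2))

end Cfsg.Agent.S5049
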