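import Cfsg.Statements.S5052
import Cfsg.Agent.RI.Od5

set_option autoImplicit false
open Cfsg

namespace Cfsg.Agent.S5052

/-- Let G be a finite group with O₂(G) = 1 and trivial centre, generated by a class D of odd transpositions whose commuting graph is connected, with some product of two different commuting members again in D. Then for each d ∈ D the members of D with the same commuting members as d, together with 1, form a subgroup E(d); and for every x ∈ D with dx of odd order greater than 1, the subgroup generated by E(d) and x is isomorphic to L₂(q) where q is the order of E(d). -/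
theorem result {G : Type*} [Group G] [Finite G] {D : Set G} (hD : Cfsg.IsOddTranspositionSet D) (hcl : Cfsg.IsRootInvolutionClass D)
    (hO : Cfsg.pCore 2 G = ⊥) (hZ : Subgroup.center G = ⊥) (hDD : (D ∩ Cfsg.commutingProducts D).Nonempty)
    (hc : Cfsg.IsConnectedSet (Cfsg.CommAdj D) D) {d : G} (hd : d ∈ D) :
    (Cfsg.sameCommutingSubgroup D d : Set G) = Cfsg.sameCommutingClass D d ∪ {1} ∧
    ∀ x ∈ Cfsg.oddPartners D d, ∃ (F : Type) (_ : Field F) (_ : Fintype F),
      Fintype.card F = Nat.card ↥(Cfsg.sameCommutingSubgroup D d) ∧
      Nonempty (↥(Subgroup.closure (Cfsg.sameCommutingClass D d ∪ {x})) ≃* Matrix.ProjectiveSpecialLinearGroup (Fin 2) F) := by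
  open CF.BG CF.Rt Subgroup in
  have h := oc_of hD hcl hDD
  rw [pCore_eq Nat.prime_two] at hO
  rw [sameCommutingSubgroup, sameCommutingClass_eq]
  refine ⟨Set.Subset.antisymm (fun y hy => ?_) ?_, fun x hx => h.main hc hO hZ hd
    (mem_oddPartners.1 hx).1 (mem_oddPartners.1 hx).2⟩
  · have key : ∀ s ∈ EV D d, ∀ y ∈ EV D d ∪ {1}, s * y ∈ EV D d ∪ {1} := fun s hs y hy => by
      rcases hy with hy | rfl
      · by_cases e : s = y
        · exact .inr (by rw [e, h.sq hy.1]; rfl)
        · have l := h.ln_of_EV hc hO hZ hd hs hy e
          exact .inl ⟨l.m, hs.2.trans (h.ln_eq (l.third h.toRI))⟩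
      · exact .inl (by rwa [mul_one])
    induction hy using closure_induction_left with
    | one => exact .inr rfl
    | mul_left s hs y _ ih => exact key s hs y ih
    | inv_mul_cancel s hs y _ ih => rw [h.inv hs.1]; exact key s hs y ih
  · rintro y (k | rfl); exacts [subset_closure k, one_mem _]

end Cfsg.Agent.S5052
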