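import Cfsg.Statements.S5053
import Cfsg.Agent.RI.ND3

set_option autoImplicit false
open Cfsg

namespace Cfsg.Agent.S5053

/-- Let G be a finite group generated by a non-degenerate conjugacy class D of root involutions (some two different members commute, some two have product of odd order, some two have product of order 4) and T a weak TI-subset of D: a subset with more than one element, different from D, whose conjugate by any member of D equals T or is disjoint from it. Then T generates an abelian subgroup. -/
theorem result {G : Type*} [Group G] [Finite G] {D : Set G} (hD : Cfsg.IsNondegenerateRootInvolutionSet D)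
    (hcl : Cfsg.IsRootInvolutionClass D)     {T : Set G} (hT : Cfsg.IsWeakTISubsetOfElements D T) : IsMulCommutative ↥(Subgroup.closure T) := by
  open CF.BG CF.Rt Subgroup in
  have h := nc_of hD hcl
  obtain ⟨l, -, ne, ti⟩ := hT
  have fx : ∀ t ∈ T, ∀ d ∈ D, Commute d t → d ∈ normalizer T := fun t ht d hd c => by
    rcases ti d hd with k | k
    · refine mem_set_normalizer_iff.2 fun x => ⟨fun hx => k ▸ ⟨x, hx, rfl⟩, fun hx => ?_⟩
      obtain ⟨y, hy, e⟩ := k.symm ▸ hx
      obtain rfl : y = x := by simpa using e
      exact hy
    · exact absurd ht (Set.disjoint_left.1 k ⟨t, ht, c.mul_inv_cancel⟩)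
  have no : ∀ t ∈ T, ∀ x ∈ D, x ∈ normalizer T → ¬ Op t x := fun t ht x hx m o => ne (l.antisymm fun d hd => by
    obtain ⟨g, hg, rfl⟩ := h.rf_conj (h.fc t (l ht) d hd)
    exact (mem_set_normalizer_iff.1 ((closure_le _).2 (fun e he => h.gen h.ec (l ht) hx o m
      (fun b q => fx t ht b q.r q.c.symm) he) hg) t).1 ht)
  have c : ∀ s ∈ T, ∀ t ∈ T, Commute s t := fun s hs t ht => by
    rcases h.tri (l hs) (l ht) with k | k | k
    · exact k
    · exact absurd k (no s hs t (l ht) (fx t ht t (l ht) (Commute.refl t)))
    · obtain ⟨x, hx, e, o, -⟩ := h.k2 h.fc (l ht) (l hs) k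
      exact absurd o (no t ht x hx (fx s hs x hx (e ▸ (h.ln_l hx k (by rw [e]; exact l hs)).c)))
  exact Abel.comm ((closure_le _).2 fun s hs => le_cent1_iff.1 ((closure_le _).2 fun t ht =>
    mem_cent1.2 (c t ht s hs)))

end Cfsg.Agent.S5053
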