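import Cfsg.Statements.S5055
import Cfsg.Agent.RI2.D

set_option autoImplicit false
open Cfsg

namespace Cfsg.Agent.S5055

/-- The Root Structure Theorem for root involutions. Let G be a finite group with O₂(G) = 1 and trivial centre, generated by a non-degenerate class D of root involutions such that for every d ∈ D the members of D with the same commuting members as d, together with 1, form a subgroup E(d). For d ∈ D let M_d be the subgroup generated by d and the members e ≠ d of D commuting with d with ed ∈ D, let W_d be the set of members of D commuting with d that have no partner with product of odd order among the members commuting with d, and let N_d be the subgroup generated by W_d. Then N_d = M_d; the members of D in N_d are d and the e just described; the commutator subgroup of N_d is E(d); and the members of D central in N_d are exactly those with the same commuting members as d. -/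
theorem result {G : Type*} [Group G] [Finite G] {D : Set G} (hD : Cfsg.IsNondegenerateRootInvolutionSet D)
    (hcl : Cfsg.IsRootInvolutionClass D) (hO : Cfsg.pCore 2 G = ⊥) (hZ : Subgroup.center G = ⊥)
    (hE : ∀ d ∈ D, (Cfsg.sameCommutingSubgroup D d : Set G) = Cfsg.sameCommutingClass D d ∪ {1}) {d : G} (hd : d ∈ D) :
    Subgroup.closure {w | Cfsg.IsIsolatedElem (Cfsg.OddAdj (Cfsg.commutingMembers D d)) (Cfsg.commutingMembers D d) w} =
      Subgroup.closure (Cfsg.productPartners D d ∪ {d}) ∧
    D ∩ (Subgroup.closure (Cfsg.productPartners D d ∪ {d}) : Set G) = Cfsg.productPartners D d ∪ {d} ∧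
    ⁅Subgroup.closure (Cfsg.productPartners D d ∪ {d}), Subgroup.closure (Cfsg.productPartners D d ∪ {d})⁆ =
      Cfsg.sameCommutingSubgroup D d ∧
    Cfsg.sameCommutingClass D d = {e | e ∈ D ∧ e ∈ Subgroup.closure (Cfsg.productPartners D d ∪ {d}) ∧
      ∀ y ∈ Subgroup.closure (Cfsg.productPartners D d ∪ {d}), e * y = y * e} := by
  open CF.BG CF.Rt CF.Rt2 Subgroup in
  have h := nt_of hD hcl
  have he : HE D := fun a b ha hb s n => by
    have : a * b ∈ (sameCommutingSubgroup D a : Set G) :=
      mul_mem (subset_closure ((h.mem_scc ha).2 ⟨ha, rfl⟩)) (subset_closure ((h.mem_scc ha).2 ⟨hb, s.symm⟩))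
    rw [hE a ha] at this
    exact this.elim (·.1) fun e => absurd (by rw [← mm (h.sq ha) b, Set.mem_singleton_iff.1 e, mul_one]) n
  have e : productPartners D d ∪ {d} = {w | W D d w} := Set.ext fun w => (h.w_iff he hd).symm
  rw [e]
  refine ⟨by simp only [iso_iff], Set.ext fun w => ⟨fun k => h.w_of_mem k.1 k.2,
    fun k => ⟨k.m, subset_closure k⟩⟩, h.der hd, Set.ext fun w => (h.mem_scc hd).trans
    (and_congr_right fun hw => ⟨fun s => ⟨subset_closure (h.w_sm s hd hw), fun y hy =>
      (h.ce_w (h.sm_ce s hd hw) hy).symm⟩, fun k => h.sm_of_w hd (h.w_of_mem hw k.1)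
        fun y l => k.2 y (subset_closure (h.w_ln l))⟩)⟩

end Cfsg.Agent.S5055
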