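import Cfsg.Statements.S5058
import Cfsg.Agent.QP.LinSL

set_option autoImplicit false
open Matrix
open Cfsg

namespace Cfsg.Agent.S5058
open CF.QP CF.Fisch

/-- Let F be a finite field of characteristic 2 and n a natural number. Then the transvections of SL_{n+3}(F) (so in every dimension at least 3) (the conjugates of the elementary matrices 1 + c E₁₂, c ≠ 0) form a class of root involutions of SL_{n+3}(F); when F has two elements they form a class of {3,4}⁺-transpositions (every product of odd order has order 1 or 3). -/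
theorem result (F : Type*) [Field F] [Fintype F] [CharP F 2] (n : ℕ) :
    Cfsg.IsRootInvolutionClass {t : Matrix.SpecialLinearGroup (Fin (n + 3)) F | ∃ c : F, c ≠ 0 ∧
        ∃ g : Matrix.SpecialLinearGroup (Fin (n + 3)) F, ((g⁻¹ * t * g : Matrix.SpecialLinearGroup (Fin (n + 3)) F) :
          Matrix (Fin (n + 3)) (Fin (n + 3)) F) = Matrix.transvection 0 1 c} ∧
    (Fintype.card F = 2 → Cfsg.IsThreeFourPlusTranspositionSet {t : Matrix.SpecialLinearGroup (Fin (n + 3)) F | ∃ c : F, c ≠ 0 ∧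
        ∃ g : Matrix.SpecialLinearGroup (Fin (n + 3)) F, ((g⁻¹ * t * g : Matrix.SpecialLinearGroup (Fin (n + 3)) F) :
          Matrix (Fin (n + 3)) (Fin (n + 3)) F) = Matrix.transvection 0 1 c}) := by
    have S := linSys_SL (n := Fin (n + 3)) (F := F)
    have h01 : el F (0 : Fin (n + 3)) 1 ∈ tSL F _ := el_mem (by simp)
    have hc := S.rootClass gen_SL ⟨_, h01⟩ tSL_conn
    have e : {t : Matrix.SpecialLinearGroup (Fin (n + 3)) F | ∃ c : F, c ≠ 0 ∧
          ∃ g : Matrix.SpecialLinearGroup (Fin (n + 3)) F, ((g⁻¹ * t * g : Matrix.SpecialLinearGroup (Fin (n + 3)) F) :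
            Matrix (Fin (n + 3)) (Fin (n + 3)) F) = Matrix.transvection 0 1 c} =
        {t | ∃ a ∈ tSL F _, slι _ F t = 1 + a} := by
      simp only [coe_eq_transvection]
      ext t
      constructor
      · rintro ⟨c, hc, g, hg⟩
        refine ⟨_, S.conj _ (tSL_smul h01 hc) g, ?_⟩
        rw [show t = g * (g⁻¹ * t * g) * g⁻¹ by group, map_mul, map_mul, hg, mul_add, add_mul, mul_one,
          ← map_mul, mul_inv_cancel, map_one]
      · rintro ⟨a, ha, ht⟩
        obtain ⟨g, hg⟩ := hc.2.2 _ ⟨_, h01, rfl⟩ _ ⟨a, ha, rfl⟩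
        have h1 : t ∈ ln F (slι _ F) a := Subgroup.subset_closure ⟨1, by rw [ht, one_smul]⟩
        rw [hg, mem_conjBy, mem_ln (S.pt _ h01).sq] at h1
        obtain ⟨c, h1⟩ := h1
        refine ⟨c, ((S.pt _ h01).ne_one S.inj h1).1 fun e => ?_, g, h1⟩
        exact ((S.pt _ ha).ne_one S.inj (c := 1) (by rw [ht, one_smul])).2 one_ne_zero
          (by rw [show t = g * (g⁻¹ * t * g) * g⁻¹ by group, e, mul_one, mul_inv_cancel])
    rw [e]
    have h := S.inv_class closure_SL ⟨_, h01⟩ tSL_conn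
    refine ⟨h, fun h2 => ⟨h.1, fun g ⟨a, ha, hg⟩ g' ⟨b, hb, hg'⟩ => S.inv_three (fun l hl => ?_) ha hb hg hg'⟩⟩
    have := FiniteField.pow_card_sub_one_eq_one l hl
    rwa [h2, pow_one] at this

end Cfsg.Agent.S5058
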