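import Cfsg.Statements.S5059
import Cfsg.Agent.QP.Link

set_option autoImplicit false
universe u
open Cfsg

namespace Cfsg.Agent.S5059
open CF.QP CF.Fisch

/-- Let k be a field of characteristic not 2 with k not of order 3, M a finite-dimensional k-vector space and G ≤ GL(M) such that (G, M) is a quadratic pair (M irreducible for G, and G generated by its quadratically acting elements σ whose scalar family 1 + c(σ − 1), c ∈ k, lies in G). Write 𝒬_d for the quadratic elements of G of minimal commutator rank, E(σ) for the subgroup generated by the members of 𝒬_d with the same fixed space and commutator space as σ, and Σ for the set of these subgroups. Then for σ ∈ 𝒬_d the subgroup E(σ) consists exactly of those members together with the identity, it is abelian, and if k has prime characteristic p every element of E(σ) has order dividing p. -/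
theorem result {k : Type u} [Field k] (hk2 : ringChar k ≠ 2) (hk3 : Nat.card k ≠ 3)
    {M : Type u} [AddCommGroup M] [Module k M] [FiniteDimensional k M]
    {G : Subgroup (LinearMap.GeneralLinearGroup k M)} (hG : Cfsg.IsQuadraticPair G)
    {σ : LinearMap.GeneralLinearGroup k M} (hσ : σ ∈ Cfsg.minimalQuadraticElements G) :
    (Cfsg.sameActionSubgroup G σ : Set (LinearMap.GeneralLinearGroup k M)) = Cfsg.sameActionClass G σ ∪ {1} ∧
    IsMulCommutative ↥(Cfsg.sameActionSubgroup G σ) ∧
    (∀ p : ℕ, p.Prime → ringChar k = p → ∀ x ∈ Cfsg.sameActionSubgroup G σ, x ^ p = 1) := by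
  have h := mem_minq.1 hσ
  rw [sameSub_eq h]
  refine ⟨?_, rt_comm, fun p hp hk x hx => ?_⟩
  · ext τ
    simp only [Set.mem_union, mem_sameClass h, Set.mem_singleton_iff, SetLike.mem_coe]
    exact ⟨fun h1 => (em (τ = 1)).elim Or.inr fun h2 => Or.inl ⟨h1, h2⟩,
      fun h1 => h1.elim And.left fun h2 => h2 ▸ one_mem _⟩
  · obtain ⟨b, hb, rfl⟩ := exists_of_mem_rt hx
    have h1 : ∀ n : ℕ, (ex b (eS_mul hb hb) ^ n).val = 1 + (n : k) • b := fun n => by
      induction n with
      | zero => simp
      | succ n ih =>
        rw [pow_succ, Units.val_mul, ih, ex_coe, mul_add, add_mul, add_mul, smul_mul_assoc,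
          smul_mul_assoc, eS_mul hb hb]
        simp [add_smul, add_assoc]
    refine Units.ext ?_
    rw [h1, ← hk, ringChar.Nat.cast_ringChar, zero_smul, add_zero, Units.val_one]

end Cfsg.Agent.S5059
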