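import Cfsg.Statements.S5060
import Cfsg.Agent.QP.FieldCase
import Cfsg.Agent.Fisch.Conj

set_option autoImplicit false
open Cfsg

namespace Cfsg.Agent.S5060
open CF.QP CF.Fisch

/-- Let k ⊆ K be fields with the characteristic of k not 2 and k not of order 3, and let α ∈ K be a non-zero element algebraic over k. Then the subgroup of SL₂(K) generated by the upper unitriangular matrices with entry c and the lower unitriangular matrices with entry cα, c ranging over k, is exactly the group of matrices of SL₂(K) with all entries in k(α). -/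
theorem result {k K : Type*} [Field k] [Field K] [Algebra k K] (hk2 : ringChar k ≠ 2) (hk3 : Nat.card k ≠ 3)
    (α : K) (hα : IsAlgebraic k α) (hα0 : α ≠ 0) :
    (Subgroup.closure ({g : Matrix.SpecialLinearGroup (Fin 2) K | ∃ c : k, (g : Matrix (Fin 2) (Fin 2) K) = !![1, algebraMap k K c; 0, 1]} ∪
        {g : Matrix.SpecialLinearGroup (Fin 2) K | ∃ c : k, (g : Matrix (Fin 2) (Fin 2) K) = !![1, 0; algebraMap k K c * α, 1]}) :
      Set (Matrix.SpecialLinearGroup (Fin 2) K)) =
    {g : Matrix.SpecialLinearGroup (Fin 2) K | ∀ i j : Fin 2, (g : Matrix (Fin 2) (Fin 2) K) i j ∈ IntermediateField.adjoin k ({α} : Set K)} := by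
  have hk := BigF.mk' hk2 hk3
  have e : ({g : Matrix.SpecialLinearGroup (Fin 2) K | ∃ c : k, (g : Matrix (Fin 2) (Fin 2) K) = !![1, algebraMap k K c; 0, 1]} ∪
        {g : Matrix.SpecialLinearGroup (Fin 2) K | ∃ c : k, (g : Matrix (Fin 2) (Fin 2) K) = !![1, 0; algebraMap k K c * α, 1]}) =
      (Set.range fun c : k => eU (algebraMap k K c)) ∪ Set.range fun c : k => eL (algebraMap k K c * α) := by
    congr 1 <;> ext g <;> exact exists_congr fun c => ⟨fun h => Subtype.ext h.symm, fun h => h ▸ rfl⟩
  rw [e]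
  let L := IntermediateField.adjoin k ({α} : Set K)
  let β : L := IntermediateField.AdjoinSimple.gen k α
  have : FiniteDimensional k L := IntermediateField.adjoin.finiteDimensional hα.isIntegral
  have hβ : β ≠ 0 := fun h => hα0 (congrArg Subtype.val h)
  have hgen : Algebra.adjoin k {β} = ⊤ := by
    have := (IntermediateField.adjoin.powerBasis hα.isIntegral).adjoin_gen_eq_top
    rwa [IntermediateField.adjoin.powerBasis_gen] at this
  have h1 := map_gam (k := k) L.val β
  rw [gam_eq_top hk hβ hgen] at h1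
  change ((gam k (L.val β) : Subgroup (Matrix.SpecialLinearGroup (Fin 2) K)) : Set (Matrix.SpecialLinearGroup (Fin 2) K)) = _
  rw [← h1]
  ext g
  constructor
  · rintro ⟨x, -, rfl⟩ i j
    exact (x i j).2
  · intro hg
    refine ⟨m2 ⟨g 0 0, hg 0 0⟩ ⟨g 0 1, hg 0 1⟩ ⟨g 1 0, hg 1 0⟩ ⟨g 1 1, hg 1 1⟩
      (Subtype.ext (s2_det g)), trivial, ?_⟩
    apply s2_ext <;> rfl

end Cfsg.Agent.S5060
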