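import Cfsg.Statements.S5063
import Cfsg.Agent.QP.Decomp

set_option autoImplicit false
universe u
open Cfsg

namespace Cfsg.Agent.S5063
open CF.QP CF.Fisch

/-- Let k be a field of characteristic not 2 with k not of order 3, M a finite-dimensional k-vector space and G ≤ GL(M) such that (G, M) is a quadratic pair (M irreducible for G, and G generated by its quadratically acting elements σ whose scalar family 1 + c(σ − 1), c ∈ k, lies in G). Write 𝒬_d for the quadratic elements of G of minimal commutator rank, E(σ) for the subgroup generated by the members of 𝒬_d with the same fixed space and commutator space as σ, and Σ for the set of these subgroups. Then G is a central product of finitely many quasisimple normal subgroups G₁, …, G_s (pairwise commuting and together generating G), each generated by the quadratic elements of G it contains, and every quadratic element of G lies in one of them. -/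
theorem result {k : Type u} [Field k] (hk2 : ringChar k ≠ 2) (hk3 : Nat.card k ≠ 3)
    {M : Type u} [AddCommGroup M] [Module k M] [FiniteDimensional k M]
    {G : Subgroup (LinearMap.GeneralLinearGroup k M)} (hG : Cfsg.IsQuadraticPair G) :
    ∃ (s : ℕ) (Gi : Fin s → Subgroup (LinearMap.GeneralLinearGroup k M)),
      (∀ i, Gi i ≤ G ∧ ∀ g ∈ G, Cfsg.conjBy (Gi i) g = Gi i) ∧ (∀ i j, i ≠ j → ⁅Gi i, Gi j⁆ = ⊥) ∧ (⨆ i, Gi i) = G ∧
      (∀ i, Cfsg.IsQuasisimple ↥(Gi i) ∧ Subgroup.closure (Cfsg.quadraticElements G ∩ (Gi i : Set (LinearMap.GeneralLinearGroup k M))) = Gi i) ∧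
      Cfsg.quadraticElements G ⊆ ⋃ i, (Gi i : Set (LinearMap.GeneralLinearGroup k M)) := by
  have hk := BigF.mk' hk2 hk3
  obtain ⟨F, f1, f2, f3, f4, f5⟩ := (QG.of_pair hG).exists_factors hk
  have := f1.to_subtype
  let e := (Finite.equivFin F).symm
  refine ⟨_, fun i => (e i).1, fun i => ⟨(f2 _ (e i).2).1, (f2 _ (e i).2).2.1⟩,
    fun i j h => cm_iff.2 (f3 _ (e i).2 _ (e j).2 fun h' => h (e.injective (Subtype.ext h'))),
    ?_, fun i => (f2 _ (e i).2).2.2, fun g hg => ?_⟩
  · rw [← f4, iSup_subtype', e.iSup_comp (g := fun H : F => H.1)]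
  · obtain ⟨h1, h2⟩ := mem_quad.1 hg
    have h3 := f5 _ h1
    obtain ⟨y, ⟨hy, H, hH, hyH⟩, hy0⟩ : ∃ y ∈ {y | y ∈ eS G (g.val - 1) ∧ ∃ H ∈ F, InA k H y},
        y ≠ 0 := by
      by_contra hc
      push Not at hc
      exact h2 (((AddSubgroup.closure_le ⊥).2 hc) h3)
    have h4 := (inA_of_closure (H := H) (fun z hz => ⟨hz.1, by
      obtain ⟨H', hH', h5⟩ := hz.2
      by_cases e' : H' = H
      · exact e' ▸ h5
      · rw [eq_zero_of_irr hG.1 f3 f4 hH' hH e' h5 hyH hy0 (eS_mul hz.1 hy)]
        exact InA.zero⟩) h3).2.ex_mem'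
    rw [← eq_ex] at h4
    exact Set.mem_iUnion.2 ⟨e.symm ⟨H, hH⟩, by dsimp only; rwa [e.apply_symm_apply]⟩

end Cfsg.Agent.S5063
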