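import Cfsg.Statements.S5064
import Cfsg.Agent.QP.Link

set_option autoImplicit false
universe u
open Cfsg

namespace Cfsg.Agent.S5064
open CF.QP CF.Fisch

/-- Let k be a field of characteristic not 2 with k not of order 3, M a finite-dimensional k-vector space and G ≤ GL(M) such that (G, M) is a quadratic pair (M irreducible for G, and G generated by its quadratically acting elements σ whose scalar family 1 + c(σ − 1), c ∈ k, lies in G). Write 𝒬_d for the quadratic elements of G of minimal commutator rank, E(σ) for the subgroup generated by the members of 𝒬_d with the same fixed space and commutator space as σ, and Σ for the set of these subgroups. If σ, τ ∈ 𝒬_d and the subgroup H generated by their two scalar families does not act unipotently on M, then H is isomorphic to SL₂ over a simple algebraic extension k(λ) of k. -/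
theorem result {k : Type u} [Field k] (hk2 : ringChar k ≠ 2) (hk3 : Nat.card k ≠ 3)
    {M : Type u} [AddCommGroup M] [Module k M] [FiniteDimensional k M]
    {G : Subgroup (LinearMap.GeneralLinearGroup k M)} (hG : Cfsg.IsQuadraticPair G)
    {σ τ : LinearMap.GeneralLinearGroup k M} (hσ : σ ∈ Cfsg.minimalQuadraticElements G) (hτ : τ ∈ Cfsg.minimalQuadraticElements G)
    (hH : ¬ Cfsg.IsUnipotentOn (Subgroup.closure (Cfsg.scalarFamily σ ∪ Cfsg.scalarFamily τ))) :
    ∃ (K : Type u) (_ : Field K) (_ : Algebra k K) (lam : K), IsAlgebraic k lam ∧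
      IntermediateField.adjoin k ({lam} : Set K) = ⊤ ∧
      Nonempty (↥(Subgroup.closure (Cfsg.scalarFamily σ ∪ Cfsg.scalarFamily τ)) ≃* Matrix.SpecialLinearGroup (Fin 2) K) := by
  have hk := BigF.mk' hk2 hk3
  have ha := mem_minq.1 hσ
  have hb := mem_minq.1 hτ
  rw [eq_ex ha.sq, eq_ex hb.sq] at hH ⊢
  generalize σ.val - 1 = a at ha hH ⊢
  generalize τ.val - 1 = b at hb hH ⊢
  have h : a * b * a ≠ 0 := fun e => hH (isUnipotentOn_iff.2 ((ha.unip_sup hk hb e).mono
    ((Subgroup.closure_le _).2 fun g hg => by
      rcases hg with hg | hg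
      · obtain ⟨c, rfl⟩ := (mem_scalarFamily _).1 hg
        exact Subgroup.mem_sup_left (ex_mem_rt.2 (Submodule.smul_mem _ c ha.inA.self_mem))
      · obtain ⟨c, rfl⟩ := (mem_scalarFamily _).1 hg
        exact Subgroup.mem_sup_right (ex_mem_rt.2 (Submodule.smul_mem _ c hb.inA.self_mem)))))
  obtain ⟨K, _, _, _, lam, φ, h0, h1, h2, -, -, h3, h4⟩ := ha.exists_sl2 hk hb h
  refine ⟨K, inferInstance, inferInstance, lam, IsAlgebraic.of_finite k lam,
    IntermediateField.adjoin_eq_top_of_algebra k _ h1, ⟨?_⟩⟩
  refine (MulEquiv.subgroupCongr ?_).trans (MonoidHom.ofInjective h2).symm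
  rw [MonoidHom.range_eq_map, ← gam_eq_top hk h0 h1, gam, MonoidHom.map_closure, Set.image_union,
    ← Set.range_comp, ← Set.range_comp]
  congr 2 <;> ext g <;> rw [mem_scalarFamily] <;> refine exists_congr fun c => ?_
  · rw [Function.comp, h3, eq_comm]
  · rw [Function.comp, h4, eq_comm]

end Cfsg.Agent.S5064
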