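import Cfsg.Statements.S5065
import Cfsg.Agent.QP.Link

set_option autoImplicit false
universe u
open Cfsg

namespace Cfsg.Agent.S5065
open CF.QP CF.Fisch

/-- Let k be a field of characteristic not 2 with k not of order 3, M a finite-dimensional k-vector space and G ≤ GL(M) such that (G, M) is a quadratic pair (M irreducible for G, and G generated by its quadratically acting elements σ whose scalar family 1 + c(σ − 1), c ∈ k, lies in G). Write 𝒬_d for the quadratic elements of G of minimal commutator rank, E(σ) for the subgroup generated by the members of 𝒬_d with the same fixed space and commutator space as σ, and Σ for the set of these subgroups. For σ, τ ∈ 𝒬_d put A = E(σ), B = E(τ) and X = ⟨A, B⟩. Then either X acts unipotently on M, or A and B are the unipotent subgroups of a special rank one group X; in the latter case X contains exactly one central involution acting as −1 on the commutator space [M, X] and trivially on the fixed space C_M(X), and M is the direct sum of C_M(X) and [M, X]. -/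
theorem result {k : Type u} [Field k] (hk2 : ringChar k ≠ 2) (hk3 : Nat.card k ≠ 3)
    {M : Type u} [AddCommGroup M] [Module k M] [FiniteDimensional k M]
    {G : Subgroup (LinearMap.GeneralLinearGroup k M)} (hG : Cfsg.IsQuadraticPair G)
    {σ τ : LinearMap.GeneralLinearGroup k M} (hσ : σ ∈ Cfsg.minimalQuadraticElements G) (hτ : τ ∈ Cfsg.minimalQuadraticElements G) :
    Cfsg.IsUnipotentOn (Cfsg.sameActionSubgroup G σ ⊔ Cfsg.sameActionSubgroup G τ) ∨
    (Cfsg.IsSpecialRankOnePair (Cfsg.sameActionSubgroup G σ) (Cfsg.sameActionSubgroup G τ) ∧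
      (∃! i : LinearMap.GeneralLinearGroup k M, i ∈ Cfsg.sameActionSubgroup G σ ⊔ Cfsg.sameActionSubgroup G τ ∧ i ≠ 1 ∧ i * i = 1 ∧
        (∀ x ∈ Cfsg.sameActionSubgroup G σ ⊔ Cfsg.sameActionSubgroup G τ, i * x = x * i) ∧
        (∀ m ∈ Cfsg.commutatorSubmodule (Cfsg.sameActionSubgroup G σ ⊔ Cfsg.sameActionSubgroup G τ), (i : M →ₗ[k] M) m = -m) ∧
        (∀ m ∈ Cfsg.fixedSubmodule (Cfsg.sameActionSubgroup G σ ⊔ Cfsg.sameActionSubgroup G τ), (i : M →ₗ[k] M) m = m)) ∧
      IsCompl (Cfsg.fixedSubmodule (Cfsg.sameActionSubgroup G σ ⊔ Cfsg.sameActionSubgroup G τ))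
        (Cfsg.commutatorSubmodule (Cfsg.sameActionSubgroup G σ ⊔ Cfsg.sameActionSubgroup G τ))) := by
  have hk := BigF.mk' hk2 hk3
  have ha := mem_minq.1 hσ
  have hb := mem_minq.1 hτ
  rw [sameSub_eq ha, sameSub_eq hb]
  generalize σ.val - 1 = a at ha
  generalize τ.val - 1 = b at hb
  by_cases h : a * b * a = 0
  · exact Or.inl (isUnipotentOn_iff.2 (ha.unip_sup hk hb h))
  obtain ⟨π, h1, h2, ⟨i, hi, h3⟩, h4, h5, h6⟩ := ha.exists_proj hk hb h
  refine Or.inr ⟨ha.sp hk hb h, ?_, ?_⟩
  · rw [h5, h6]
    refine ⟨i, ⟨hi, fun e => h2 ?_, Units.ext ?_, fun x hx => Units.ext ?_, ?_, fun m hm => ?_⟩,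
      fun j hj => Units.ext (LinearMap.ext fun m => ?_)⟩
    · rw [e, Units.val_one, eq_comm, sub_eq_self, two_mul, ← two_smul k, smul_eq_zero] at h3
      exact h3.resolve_left hk.two
    · rw [Units.val_mul, h3, Units.val_one, two_mul]
      simp only [mul_sub, sub_mul, add_mul, mul_add, h1, one_mul, mul_one]
      abel
    · obtain ⟨e1, e2⟩ := h4 x hx
      rw [mul_sub, mul_one, sub_eq_iff_eq_add] at e1
      rw [sub_mul, one_mul, sub_eq_iff_eq_add] at e2
      rw [Units.val_mul, Units.val_mul, h3, two_mul, sub_mul, mul_sub, add_mul, mul_add, e1, e2,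
        one_mul, mul_one]
    · rintro _ ⟨m, rfl⟩
      have := LinearMap.congr_fun h1 m
      rw [Module.End.mul_apply] at this
      simp [h3, two_mul, this]
    · simp [h3, two_mul, LinearMap.mem_ker.1 hm]
    · have e1 := hj.2.2.2.2.1 (π m) ⟨m, rfl⟩
      have e2 := hj.2.2.2.2.2 (m - π m) (by
        rw [LinearMap.mem_ker, map_sub, ← Module.End.mul_apply, h1, sub_self])
      rw [map_sub, e1, sub_eq_iff_eq_add] at e2
      rw [e2, h3, two_mul]
      simp only [LinearMap.sub_apply, LinearMap.add_apply, Module.End.one_apply]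
      abel
  · rw [h5, h6]
    exact (LinearMap.IsIdempotentElem.isCompl (show IsIdempotentElem π from h1)).symm

end Cfsg.Agent.S5065
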