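import Cfsg.Statements.S5067
import Cfsg.Agent.Fisch.Root1

set_option autoImplicit false
open Cfsg

namespace Cfsg.Agent.S5067
open CF.Fisch

/-- Let P be a non-abelian nilpotent p-group (every element of p-power order; P possibly infinite) generated by two abelian subgroups E and F. Then the normal closure of E in P, and likewise that of F, has nilpotency class strictly smaller than that of P. -/
theorem result {P : Type*} [Group P] {p : ℕ} [Fact p.Prime] (hP : IsPGroup p P) [Group.IsNilpotent P]
    (hna : ¬ IsMulCommutative P) {E F : Subgroup P} (hE : IsMulCommutative ↥E) (hF : IsMulCommutative ↥F) (hgen : E ⊔ F = ⊤) :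
    Group.nilpotencyClass ↥(Subgroup.normalClosure (E : Set P)) < Group.nilpotencyClass P ∧
    Group.nilpotencyClass ↥(Subgroup.normalClosure (F : Set P)) < Group.nilpotencyClass P := by
  have key : ∀ E : Subgroup P, IsMulCommutative E →
      Group.nilpotencyClass ↥(Subgroup.normalClosure (E : Set P)) < Group.nilpotencyClass P := by
    intro E hE
    set N := Subgroup.normalClosure (E : Set P)
    let L := (⊤ : Subgroup P).lowerCentralSeries
    have h1 : ∀ x ∈ N, ∃ e ∈ E, e⁻¹ * x ∈ L 1 := fun x hx => by
      have h2 : N ≤ E ⊔ commutator P := by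
        have : (E ⊔ commutator P).Normal := Subgroup.Normal.of_commutator_le _ le_sup_right
        exact Subgroup.normalClosure_le_normal fun y hy => Subgroup.mem_sup_left hy
      have h3 : x ∈ ((E ⊔ commutator P : Subgroup P) : Set P) := h2 hx
      rw [Subgroup.mul_normal] at h3
      obtain ⟨e, he, c, hc, rfl⟩ := h3
      exact ⟨e, he, by rw [inv_mul_cancel_left]; exact hc⟩
    have h2 : ∀ n, N.lowerCentralSeries (n + 1) ≤ L (n + 2) := fun n => by
      induction n with
      | zero =>
        refine Subgroup.commutator_le.2 fun x hx y hy => ?_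
        obtain ⟨e, he, h3⟩ := h1 x hx
        obtain ⟨f, hf, h4⟩ := h1 y hy
        have h5 : ∀ c ∈ L 1, ∀ z, Commute (QuotientGroup.mk' (L 2) c) (QuotientGroup.mk' (L 2) z) :=
          fun c hc z => by
            rw [← commutatorElement_eq_one_iff_commute, ← map_commutatorElement]
            exact (QuotientGroup.eq_one_iff _).2 (Subgroup.commutator_mem_commutator hc trivial)
        rw [← QuotientGroup.eq_one_iff]
        change QuotientGroup.mk' (L 2) _ = 1
        rw [map_commutatorElement, commutatorElement_eq_one_iff_commute,
          ← mul_inv_cancel_left e x, ← mul_inv_cancel_left f y, map_mul _ e, map_mul _ f]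
        exact (((CF.Fisch.isMulCommutative_iff.1 hE e he f hf).map _).mul_right (h5 _ h4 _).symm).mul_left
          ((h5 _ h3 _).mul_right (h5 _ h3 _))
      | succ n ih => exact Subgroup.commutator_mono ih le_top
    have h3 : 2 ≤ Group.nilpotencyClass P := by
      by_contra h
      exact hna (Group.IsNilpotent.nilpotencyClass_le_one_iff.1 (by omega))
    obtain ⟨c, hc⟩ : ∃ c, Group.nilpotencyClass P = c + 2 := ⟨_, (Nat.sub_add_cancel h3).symm⟩
    have h4 : N.lowerCentralSeries (c + 1) = ⊥ :=
      le_bot_iff.1 ((h2 c).trans (hc ▸ Subgroup.lowerCentralSeries_nilpotencyClass).le)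
    rw [← Subgroup.top_subtype_lowerCentralSeries, Subgroup.map_eq_bot_iff_of_injective _
      N.subtype_injective, Subgroup.lowerCentralSeries_eq_bot_iff_nilpotencyClass_le] at h4
    omega
  exact ⟨key E hE, key F hF⟩

end Cfsg.Agent.S5067
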