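import Cfsg.Statements.S5069
import Cfsg.Agent.QP.Comp

set_option autoImplicit false
universe u
open Cfsg

namespace Cfsg.Agent.S5069
open CF.QP CF.Fisch

/-- Let k be a field of characteristic not 2 with k not of order 3, M a finite-dimensional k-vector space and G ≤ GL(M) such that (G, M) is a quadratic pair (M irreducible for G, and G generated by its quadratically acting elements σ whose scalar family 1 + c(σ − 1), c ∈ k, lies in G). Write 𝒬_d for the quadratic elements of G of minimal commutator rank, E(σ) for the subgroup generated by the members of 𝒬_d with the same fixed space and commutator space as σ, and Σ for the set of these subgroups. Then Σ is a disjoint union of finitely many parts Σ₁, …, Σ_r such that the subgroups G_i generated by the Σ_i commute pairwise, each G_i is quasisimple, and inside G_i the members of Σ_i form a class of abstract root subgroups in which every rank one pair A, B contains subgroups A₀ ≤ A, B₀ ≤ B generating an image of SL₂(k₁) with central kernel on unitriangular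 subgroups for some field k₁ with at least four elements. -/
theorem result {k : Type u} [Field k] (hk2 : ringChar k ≠ 2) (hk3 : Nat.card k ≠ 3)
    {M : Type u} [AddCommGroup M] [Module k M] [FiniteDimensional k M]
    {G : Subgroup (LinearMap.GeneralLinearGroup k M)} (hG : Cfsg.IsQuadraticPair G) :
    ∃ (r : ℕ) (part : Fin r → Set (Subgroup (LinearMap.GeneralLinearGroup k M))),
      (⋃ i, part i) = Cfsg.quadraticRootSubgroups G ∧ (∀ i j, i ≠ j → Disjoint (part i) (part j)) ∧ (∀ i, (part i).Nonempty) ∧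
      (∀ i j, i ≠ j → ⁅(⨆ A ∈ part i, A), (⨆ A ∈ part j, A)⁆ = ⊥) ∧
      (∀ i, Cfsg.IsQuasisimple ↥(⨆ A ∈ part i, A) ∧
        Cfsg.IsRootSubgroupClass ((fun A : Subgroup (LinearMap.GeneralLinearGroup k M) => A.subgroupOf (⨆ B ∈ part i, B)) '' (part i)) ∧
        ∀ A ∈ part i, ∀ B ∈ Cfsg.rankOnePartners (part i) A, ∃ A₀ B₀ : Subgroup (LinearMap.GeneralLinearGroup k M), A₀ ≤ A ∧ B₀ ≤ B ∧
          ∃ (k₁ : Type u) (_ : Field k₁), 3 < ENat.card k₁ ∧ Cfsg.IsPSL2PairOver k₁ A₀ B₀) := by
  have hk := BigF.mk' hk2 hk3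
  have hQ := QG.of_pair hG
  have := (hQ.finite_cp hk).to_subtype
  let e := (Finite.equivFin {C | ∃ A ∈ Rt G, C = cp G A}).symm
  choose v hv he using fun i => (e i).2
  have hne : ∀ i j, i ≠ j → cp G (v i) ≠ cp G (v j) := fun i j h h' =>
    h (e.injective (Subtype.ext (by rw [he, he, h'])))
  refine ⟨_, fun i => cp G (v i), ?_, fun i j h => ?_, fun i => ⟨_, hv i, .refl⟩,
    fun i j h => cm_iff.2 (hQ.gp_cm hk (hne i j h)), fun i => ?_⟩
  · ext A
    refine Set.mem_iUnion.trans ⟨fun ⟨i, hi⟩ => hi.1, fun hA => ⟨e.symm ⟨_, A, hA, rfl⟩, ?_⟩⟩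
    rw [← he, e.apply_symm_apply]
    exact ⟨hA, .refl⟩
  · exact Set.disjoint_left.2 fun C hA hB => hne i j h (cp_eq (hA.2.trans (Cn.symm hB.2)))
  · refine ⟨hQ.gp_quasisimple hk (hv i), hQ.rootClass hk (hv i), fun B hB C hC => ?_⟩
    obtain ⟨a, ha, rfl⟩ := mem_roots.1 hB.1
    obtain ⟨b, hb, rfl⟩ := mem_roots.1 hC.1.1
    exact ha.exists_psl2 hk hb (ha.opp_of_ro hk hb hC.2)

end Cfsg.Agent.S5069
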