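import Cfsg.Statements.S5070
import Cfsg.Agent.QP.LinForm

set_option autoImplicit false
open Matrix
open Cfsg

namespace Cfsg.Agent.S5070
open CF.QP CF.Fisch

/-- Let F be a field, m a natural number and V = F^{2(m+1)} with the standard non-degenerate alternating form f(u, v) = uᵀ J v. For a non-zero vector p let T(p) be the group of symplectic transvections v ↦ v + c f(v, p) p, c ∈ F. Then the subgroups T(p), p ≠ 0, generate the symplectic group Sp_{2(m+1)}(F) and form a degenerate class of abstract F-root subgroups of it (any two of them either commute elementwise or are the unipotent subgroups of a rank one group that is an image of SL₂(F) with central kernel, never the commutator case), and their graph of rank one pairs is connected. -/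
theorem result (F : Type*) [Field F] (m : ℕ) :
    Cfsg.IsRootSubgroupClass {A : Subgroup ↥(Matrix.symplecticGroup (Fin (m + 1)) F) | ∃ p : Fin (m + 1) ⊕ Fin (m + 1) → F, p ≠ 0 ∧
        A = Subgroup.closure {g : ↥(Matrix.symplecticGroup (Fin (m + 1)) F) | ∃ c : F, ∀ v : Fin (m + 1) ⊕ Fin (m + 1) → F,
          (g : Matrix (Fin (m + 1) ⊕ Fin (m + 1)) (Fin (m + 1) ⊕ Fin (m + 1)) F) *ᵥ v =
            v + (c * (v ⬝ᵥ (Matrix.J (Fin (m + 1)) F *ᵥ p))) • p}} ∧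
    Cfsg.IsDegenerateRootSet {A : Subgroup ↥(Matrix.symplecticGroup (Fin (m + 1)) F) | ∃ p : Fin (m + 1) ⊕ Fin (m + 1) → F, p ≠ 0 ∧
        A = Subgroup.closure {g : ↥(Matrix.symplecticGroup (Fin (m + 1)) F) | ∃ c : F, ∀ v : Fin (m + 1) ⊕ Fin (m + 1) → F,
          (g : Matrix (Fin (m + 1) ⊕ Fin (m + 1)) (Fin (m + 1) ⊕ Fin (m + 1)) F) *ᵥ v =
            v + (c * (v ⬝ᵥ (Matrix.J (Fin (m + 1)) F *ᵥ p))) • p}} ∧
    Cfsg.IsKRootSubgroupSet F {A : Subgroup ↥(Matrix.symplecticGroup (Fin (m + 1)) F) | ∃ p : Fin (m + 1) ⊕ Fin (m + 1) → F, p ≠ 0 ∧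
        A = Subgroup.closure {g : ↥(Matrix.symplecticGroup (Fin (m + 1)) F) | ∃ c : F, ∀ v : Fin (m + 1) ⊕ Fin (m + 1) → F,
          (g : Matrix (Fin (m + 1) ⊕ Fin (m + 1)) (Fin (m + 1) ⊕ Fin (m + 1)) F) *ᵥ v =
            v + (c * (v ⬝ᵥ (Matrix.J (Fin (m + 1)) F *ᵥ p))) • p}} ∧
    Cfsg.IsConnectedFamily (Cfsg.FAdj {A : Subgroup ↥(Matrix.symplecticGroup (Fin (m + 1)) F) | ∃ p : Fin (m + 1) ⊕ Fin (m + 1) → F, p ≠ 0 ∧
        A = Subgroup.closure {g : ↥(Matrix.symplecticGroup (Fin (m + 1)) F) | ∃ c : F, ∀ v : Fin (m + 1) ⊕ Fin (m + 1) → F,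
          (g : Matrix (Fin (m + 1) ⊕ Fin (m + 1)) (Fin (m + 1) ⊕ Fin (m + 1)) F) *ᵥ v =
            v + (c * (v ⬝ᵥ (Matrix.J (Fin (m + 1)) F *ᵥ p))) • p}})
      {A : Subgroup ↥(Matrix.symplecticGroup (Fin (m + 1)) F) | ∃ p : Fin (m + 1) ⊕ Fin (m + 1) → F, p ≠ 0 ∧
        A = Subgroup.closure {g : ↥(Matrix.symplecticGroup (Fin (m + 1)) F) | ∃ c : F, ∀ v : Fin (m + 1) ⊕ Fin (m + 1) → F,
          (g : Matrix (Fin (m + 1) ⊕ Fin (m + 1)) (Fin (m + 1) ⊕ Fin (m + 1)) F) *ᵥ v =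
            v + (c * (v ⬝ᵥ (Matrix.J (Fin (m + 1)) F *ᵥ p))) • p}} := by
  have hA := CF.Geom.sympBilin_isAlt (F := F) (m + 1)
  have H : SkewH (CF.Geom.sympBilin (m + 1) F).flip := ⟨fun p h => (CF.Geom.sympBilin_nondegenerate _).2 p
    (LinearMap.congr_fun h), fun x y => (hA.neg_eq y x).symm, fun v => ⟨0, by simpa using hA v⟩⟩
  let ι := mι (Matrix.symplecticGroup (Fin (m + 1)) F).subtype
  have hι : ∀ g p (c : F), ι g = 1 + c • tv ((CF.Geom.sympBilin (m + 1) F).flip p) p ↔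
      ∀ v, g.1 *ᵥ v = v + (c * (v ⬝ᵥ (Matrix.J (Fin (m + 1)) F *ᵥ p))) • p := fun g p c => by
    rw [LinearMap.ext_iff]
    refine forall_congr' fun v => ?_
    rw [← smul_smul]
    exact Eq.congr_right (congrArg (fun t => v + c • t • p) (CF.Geom.sympBilin_apply _ v p))
  have S : LinSys F ι (tF (CF.Geom.sympBilin (m + 1) F).flip) := H.linSys (fun x y => ⟨_, rfl⟩)
    (mι_inj Subtype.val_injective) (fun g x y => by
      exact (CF.Geom.sympBilin_apply ..).trans ((CF.Geom.mem_symplecticGroup_iff.1 g.2 y x).trans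
        (CF.Geom.sympBilin_apply ..).symm))
    fun p _ c => ⟨⟨_, CF.Geom.sympTransvection_mem _ p c⟩, (hι _ p c).2 (CF.Geom.sympTransvection_mulVec _ p c)⟩
  have gen : ⨆ A ∈ ln F ι '' tF (CF.Geom.sympBilin (m + 1) F).flip, A = ⊤ :=
    gen_of_closure (CF.Geom.closure_sympTransvection _) fun g ⟨p, c, e⟩ => by
      by_cases hp : p = 0
      · exact .inl (Subtype.ext (by simp [e, hp, sympTransvection]))
      · exact .inr ⟨_, ⟨p, hp, hA p, rfl⟩, c, (hι g p c).2 (e ▸ CF.Geom.sympTransvection_mulVec _ p c)⟩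
  have e : {A : Subgroup ↥(Matrix.symplecticGroup (Fin (m + 1)) F) | ∃ p : Fin (m + 1) ⊕ Fin (m + 1) → F, p ≠ 0 ∧
      A = Subgroup.closure {g : ↥(Matrix.symplecticGroup (Fin (m + 1)) F) | ∃ c : F, ∀ v : Fin (m + 1) ⊕ Fin (m + 1) → F,
        (g : Matrix (Fin (m + 1) ⊕ Fin (m + 1)) (Fin (m + 1) ⊕ Fin (m + 1)) F) *ᵥ v =
          v + (c * (v ⬝ᵥ (Matrix.J (Fin (m + 1)) F *ᵥ p))) • p}} =
      ln F ι '' tF (CF.Geom.sympBilin (m + 1) F).flip := by
    simp only [← hι]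
    ext A
    exact ⟨fun ⟨p, hp, e⟩ => ⟨_, ⟨p, hp, hA p, rfl⟩, e.symm⟩,
      fun ⟨_, ⟨p, hp, _, e⟩, e'⟩ => ⟨p, hp, by rw [← e', e]; rfl⟩⟩
  rw [e]
  exact ⟨S.rootClass gen ⟨_, 1, one_ne_zero, hA 1, rfl⟩ H.conn, S.degenerate gen H.comm, S.kRootSet gen,
    S.conn H.conn⟩

end Cfsg.Agent.S5070
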