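import Cfsg.Statements.S5071
import Cfsg.Agent.QP.LinForm

set_option autoImplicit false
open Matrix
open Cfsg

namespace Cfsg.Agent.S5071
open CF.QP CF.Fisch

/-- Let F be a finite field with q² elements, n a natural number, and h the Hermitian form Σ uᵢ vᵢ^q on F^{n+2}. For a non-zero isotropic vector p let T(p) be the group of unitary transvections with centre ⟨p⟩: the elements of SU_{n+2}(q) moving every vector by a multiple of p and fixing every vector perpendicular to p. Let Σ be the set of these T(p) and G₀ the subgroup they generate. Then, viewed inside G₀, the members of Σ form a degenerate class of abstract k-root subgroups of G₀ for some field k with q elements (any two commute or are the unipotent subgroups of a rank one group that is an image of SL₂(k) with central kernel, never the commutator case), and their graph of rank one pairs is connected. -/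
theorem result (F : Type*) [Field F] [Fintype F] (q n : ℕ) (hF : Fintype.card F = q ^ 2) :
    Cfsg.IsRootSubgroupClass ((fun A : Subgroup ↥(Cfsg.SU (n + 2) F q) => A.subgroupOf (⨆ B ∈ {A : Subgroup ↥(Cfsg.SU (n + 2) F q) | ∃ p : Fin (n + 2) → F, p ≠ 0 ∧ Cfsg.hermForm (n + 2) F q p p = 0 ∧
          A = Subgroup.closure {g : ↥(Cfsg.SU (n + 2) F q) |
            (∀ v : Fin (n + 2) → F, ∃ c : F, ((g : Matrix.SpecialLinearGroup (Fin (n + 2)) F) : Matrix (Fin (n + 2)) (Fin (n + 2)) F) *ᵥ v = v + c • p) ∧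
            ∀ v : Fin (n + 2) → F, Cfsg.hermForm (n + 2) F q v p = 0 →
              ((g : Matrix.SpecialLinearGroup (Fin (n + 2)) F) : Matrix (Fin (n + 2)) (Fin (n + 2)) F) *ᵥ v = v}}, B)) ''
      {A : Subgroup ↥(Cfsg.SU (n + 2) F q) | ∃ p : Fin (n + 2) → F, p ≠ 0 ∧ Cfsg.hermForm (n + 2) F q p p = 0 ∧
          A = Subgroup.closure {g : ↥(Cfsg.SU (n + 2) F q) |
            (∀ v : Fin (n + 2) → F, ∃ c : F, ((g : Matrix.SpecialLinearGroup (Fin (n + 2)) F) : Matrix (Fin (n + 2)) (Fin (n + 2)) F) *ᵥ v = v + c • p) ∧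
            ∀ v : Fin (n + 2) → F, Cfsg.hermForm (n + 2) F q v p = 0 →
              ((g : Matrix.SpecialLinearGroup (Fin (n + 2)) F) : Matrix (Fin (n + 2)) (Fin (n + 2)) F) *ᵥ v = v}}) ∧
    Cfsg.IsDegenerateRootSet ((fun A : Subgroup ↥(Cfsg.SU (n + 2) F q) => A.subgroupOf (⨆ B ∈ {A : Subgroup ↥(Cfsg.SU (n + 2) F q) | ∃ p : Fin (n + 2) → F, p ≠ 0 ∧ Cfsg.hermForm (n + 2) F q p p = 0 ∧
          A = Subgroup.closure {g : ↥(Cfsg.SU (n + 2) F q) |
            (∀ v : Fin (n + 2) → F, ∃ c : F, ((g : Matrix.SpecialLinearGroup (Fin (n + 2)) F) : Matrix (Fin (n + 2)) (Fin (n + 2)) F) *ᵥ v = v + c • p) ∧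
            ∀ v : Fin (n + 2) → F, Cfsg.hermForm (n + 2) F q v p = 0 →
              ((g : Matrix.SpecialLinearGroup (Fin (n + 2)) F) : Matrix (Fin (n + 2)) (Fin (n + 2)) F) *ᵥ v = v}}, B)) ''
      {A : Subgroup ↥(Cfsg.SU (n + 2) F q) | ∃ p : Fin (n + 2) → F, p ≠ 0 ∧ Cfsg.hermForm (n + 2) F q p p = 0 ∧
          A = Subgroup.closure {g : ↥(Cfsg.SU (n + 2) F q) |
            (∀ v : Fin (n + 2) → F, ∃ c : F, ((g : Matrix.SpecialLinearGroup (Fin (n + 2)) F) : Matrix (Fin (n + 2)) (Fin (n + 2)) F) *ᵥ v = v + c • p) ∧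
            ∀ v : Fin (n + 2) → F, Cfsg.hermForm (n + 2) F q v p = 0 →
              ((g : Matrix.SpecialLinearGroup (Fin (n + 2)) F) : Matrix (Fin (n + 2)) (Fin (n + 2)) F) *ᵥ v = v}}) ∧
    (∃ (L : Type) (_ : Field L) (_ : Fintype L), Fintype.card L = q ∧ Cfsg.IsKRootSubgroupSet L ((fun A : Subgroup ↥(Cfsg.SU (n + 2) F q) => A.subgroupOf (⨆ B ∈ {A : Subgroup ↥(Cfsg.SU (n + 2) F q) | ∃ p : Fin (n + 2) → F, p ≠ 0 ∧ Cfsg.hermForm (n + 2) F q p p = 0 ∧
          A = Subgroup.closure {g : ↥(Cfsg.SU (n + 2) F q) |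
            (∀ v : Fin (n + 2) → F, ∃ c : F, ((g : Matrix.SpecialLinearGroup (Fin (n + 2)) F) : Matrix (Fin (n + 2)) (Fin (n + 2)) F) *ᵥ v = v + c • p) ∧
            ∀ v : Fin (n + 2) → F, Cfsg.hermForm (n + 2) F q v p = 0 →
              ((g : Matrix.SpecialLinearGroup (Fin (n + 2)) F) : Matrix (Fin (n + 2)) (Fin (n + 2)) F) *ᵥ v = v}}, B)) ''
      {A : Subgroup ↥(Cfsg.SU (n + 2) F q) | ∃ p : Fin (n + 2) → F, p ≠ 0 ∧ Cfsg.hermForm (n + 2) F q p p = 0 ∧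
          A = Subgroup.closure {g : ↥(Cfsg.SU (n + 2) F q) |
            (∀ v : Fin (n + 2) → F, ∃ c : F, ((g : Matrix.SpecialLinearGroup (Fin (n + 2)) F) : Matrix (Fin (n + 2)) (Fin (n + 2)) F) *ᵥ v = v + c • p) ∧
            ∀ v : Fin (n + 2) → F, Cfsg.hermForm (n + 2) F q v p = 0 →
              ((g : Matrix.SpecialLinearGroup (Fin (n + 2)) F) : Matrix (Fin (n + 2)) (Fin (n + 2)) F) *ᵥ v = v}})) ∧
    Cfsg.IsConnectedFamily (Cfsg.FAdj ((fun A : Subgroup ↥(Cfsg.SU (n + 2) F q) => A.subgroupOf (⨆ B ∈ {A : Subgroup ↥(Cfsg.SU (n + 2) F q) | ∃ p : Fin (n + 2) → F, p ≠ 0 ∧ Cfsg.hermForm (n + 2) F q p p = 0 ∧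
          A = Subgroup.closure {g : ↥(Cfsg.SU (n + 2) F q) |
            (∀ v : Fin (n + 2) → F, ∃ c : F, ((g : Matrix.SpecialLinearGroup (Fin (n + 2)) F) : Matrix (Fin (n + 2)) (Fin (n + 2)) F) *ᵥ v = v + c • p) ∧
            ∀ v : Fin (n + 2) → F, Cfsg.hermForm (n + 2) F q v p = 0 →
              ((g : Matrix.SpecialLinearGroup (Fin (n + 2)) F) : Matrix (Fin (n + 2)) (Fin (n + 2)) F) *ᵥ v = v}}, B)) ''
      {A : Subgroup ↥(Cfsg.SU (n + 2) F q) | ∃ p : Fin (n + 2) → F, p ≠ 0 ∧ Cfsg.hermForm (n + 2) F q p p = 0 ∧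
          A = Subgroup.closure {g : ↥(Cfsg.SU (n + 2) F q) |
            (∀ v : Fin (n + 2) → F, ∃ c : F, ((g : Matrix.SpecialLinearGroup (Fin (n + 2)) F) : Matrix (Fin (n + 2)) (Fin (n + 2)) F) *ᵥ v = v + c • p) ∧
            ∀ v : Fin (n + 2) → F, Cfsg.hermForm (n + 2) F q v p = 0 →
              ((g : Matrix.SpecialLinearGroup (Fin (n + 2)) F) : Matrix (Fin (n + 2)) (Fin (n + 2)) F) *ᵥ v = v}})) ((fun A : Subgroup ↥(Cfsg.SU (n + 2) F q) => A.subgroupOf (⨆ B ∈ {A : Subgroup ↥(Cfsg.SU (n + 2) F q) | ∃ p : Fin (n + 2) → F, p ≠ 0 ∧ Cfsg.hermForm (n + 2) F q p p = 0 ∧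
          A = Subgroup.closure {g : ↥(Cfsg.SU (n + 2) F q) |
            (∀ v : Fin (n + 2) → F, ∃ c : F, ((g : Matrix.SpecialLinearGroup (Fin (n + 2)) F) : Matrix (Fin (n + 2)) (Fin (n + 2)) F) *ᵥ v = v + c • p) ∧
            ∀ v : Fin (n + 2) → F, Cfsg.hermForm (n + 2) F q v p = 0 →
              ((g : Matrix.SpecialLinearGroup (Fin (n + 2)) F) : Matrix (Fin (n + 2)) (Fin (n + 2)) F) *ᵥ v = v}}, B)) ''
      {A : Subgroup ↥(Cfsg.SU (n + 2) F q) | ∃ p : Fin (n + 2) → F, p ≠ 0 ∧ Cfsg.hermForm (n + 2) F q p p = 0 ∧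
          A = Subgroup.closure {g : ↥(Cfsg.SU (n + 2) F q) |
            (∀ v : Fin (n + 2) → F, ∃ c : F, ((g : Matrix.SpecialLinearGroup (Fin (n + 2)) F) : Matrix (Fin (n + 2)) (Fin (n + 2)) F) *ᵥ v = v + c • p) ∧
            ∀ v : Fin (n + 2) → F, Cfsg.hermForm (n + 2) F q v p = 0 →
              ((g : Matrix.SpecialLinearGroup (Fin (n + 2)) F) : Matrix (Fin (n + 2)) (Fin (n + 2)) F) *ᵥ v = v}}) := by
  obtain ⟨σ, hσ, h1, h2⟩ := CF.Geom.exists_conj hF
  obtain ⟨s, s0, hs⟩ := CF.Geom.exists_skew_ne_zero h1 h2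
  have hS := CF.Geom.hermSesq_isSymm (ι := Fin (n + 2)) h2
  set B := s • CF.Geom.hermSesq (Fin (n + 2)) σ with hB
  have hB' : ∀ x y, B x y = s * CF.Geom.hermSesq (Fin (n + 2)) σ x y := fun _ _ => rfl
  have hz : ∀ x y, hermForm (n + 2) F q y x = 0 ↔ B x y = 0 := fun x y => by
    simp [hB', CF.Geom.hermForm_eq hσ, s0]
  have H : SkewH B := ⟨fun p h => (CF.Geom.hermSesq_nondegenerate σ).1 p fun y =>
    (mul_eq_zero.1 (LinearMap.congr_fun h y)).resolve_left s0,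
    fun x y => by rw [hB', hB', map_mul, hs, hS.eq, neg_mul, neg_neg], fun v => by
      obtain ⟨u, hu⟩ := CF.Geom.exists_trace_eq σ (.inl h1) h2 _ (hS.eq v v)
      exact ⟨-s * u, by rw [hB', ← hu, map_mul, map_neg, hs]; ring⟩⟩
  let K := σ.eqLocusField (RingHom.id F)
  let L := Shrink.{0} K
  let ε : L ≃+* K := (equivShrink.{0} K).symm.ringEquiv
  letI : Algebra L F := (K.subtype.comp ε.toRingHom).toAlgebra
  letI : Fintype L := @Fintype.ofFinite L (Finite.of_equiv K ε.symm.toEquiv)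
  have hL : ∀ x, σ x = x → ∃ l : L, algebraMap L F l = x := fun x hx =>
    ⟨ε.symm ⟨x, hx⟩, congrArg Subtype.val (ε.apply_symm_apply _)⟩
  have hL' : ∀ l : L, σ (algebraMap L F l) = algebraMap L F l := fun l => (ε l).2
  let ι := (slι (Fin (n + 2)) F).comp (SU (n + 2) F q).subtype
  have iso : ∀ g x y, B (ι g x) (ι g y) = B x y := fun g x y => by
    rw [hB', hB', ← CF.Geom.hermForm_eq hσ, ← CF.Geom.hermForm_eq hσ]
    exact congrArg _ (CF.Geom.mem_SU.1 g.2 y x)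
  have S : LinSys L ι (tF B) := H.linSys (fun x y => hL _ (by
      rw [map_mul, H.skew x y, map_neg, h2]; ring)) (slι_inj.comp Subtype.val_injective) iso
    fun p hp c => by
      obtain ⟨g, hg⟩ := exists_sl (f := algebraMap L F c • B p) (p := p) (by simp [hp])
      refine ⟨⟨g, CF.Geom.mem_SU.2 fun x y => mul_left_cancel₀ s0 ?_⟩, by
        rw [← algebraMap_smul F, ← smul_tv, ← hg]; rfl⟩
      rw [CF.Geom.hermForm_eq hσ, CF.Geom.hermForm_eq hσ, ← hB', ← hB', ← slι_apply, ← slι_apply, hg]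
      simp only [LinearMap.add_apply, Module.End.one_apply, tv_apply, LinearMap.smul_apply, map_add,
        LinearMap.map_smulₛₗ, smul_eq_mul, hp, hL', H.skew p y, map_mul, RingHom.id_apply]
      ring
  have key : ∀ p, p ≠ 0 → B p p = 0 → Subgroup.closure {g : ↥(SU (n + 2) F q) |
      (∀ v : Fin (n + 2) → F, ∃ c : F, ((g : Matrix.SpecialLinearGroup (Fin (n + 2)) F) : Matrix _ _ F) *ᵥ v = v + c • p) ∧
      ∀ v : Fin (n + 2) → F, hermForm (n + 2) F q v p = 0 →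
        ((g : Matrix.SpecialLinearGroup (Fin (n + 2)) F) : Matrix _ _ F) *ᵥ v = v} = ln L ι (tv (B p) p) := by
    intro p h0 hp
    unfold ln
    congr 1
    ext g
    refine ⟨fun hg => H.exists_eq_tv hL h0 hp (iso g) hg.1 fun v hv => hg.2 v ((hz p v).2 hv),
      fun ⟨c, e⟩ => ⟨fun v => ⟨c • B p v, (LinearMap.congr_fun e v).trans ?_⟩,
        fun v hv => (LinearMap.congr_fun e v).trans ?_⟩⟩
    · simp [tv_apply]
    · simp [tv_apply, (hz p v).1 hv]
  have e : {A : Subgroup ↥(SU (n + 2) F q) | ∃ p : Fin (n + 2) → F, p ≠ 0 ∧ hermForm (n + 2) F q p p = 0 ∧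
      A = Subgroup.closure {g : ↥(SU (n + 2) F q) |
      (∀ v : Fin (n + 2) → F, ∃ c : F, ((g : Matrix.SpecialLinearGroup (Fin (n + 2)) F) : Matrix _ _ F) *ᵥ v = v + c • p) ∧
      ∀ v : Fin (n + 2) → F, hermForm (n + 2) F q v p = 0 →
        ((g : Matrix.SpecialLinearGroup (Fin (n + 2)) F) : Matrix _ _ F) *ᵥ v = v}} = ln L ι '' tF B := by
    ext A
    exact ⟨fun ⟨p, h0, hp, e⟩ => ⟨_, ⟨p, h0, (hz p p).1 hp, rfl⟩, by rw [e, key p h0 ((hz p p).1 hp)]⟩,
      fun ⟨_, ⟨p, h0, hp, e⟩, e'⟩ => ⟨p, h0, (hz p p).2 hp, by rw [← e', e, key p h0 hp]⟩⟩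
  rw [e, S.image_subgroupOf]
  obtain ⟨v, v0, hv⟩ := CF.Geom.exists_isotropic_of_two_le h1 h2 hS (by simp)
  refine ⟨S.restrict_sup.rootClass S.gen_sup ⟨_, v, v0, by rw [hB', hv, mul_zero], rfl⟩ H.conn,
    S.restrict_sup.degenerate S.gen_sup H.comm, ⟨L, inferInstance, inferInstance, ?_,
    S.restrict_sup.kRootSet S.gen_sup⟩, S.restrict_sup.conn H.conn⟩
  rw [← Nat.card_eq_fintype_card, ← CF.Geom.card_fixed_eq hF, Nat.card_congr ε.toEquiv]
  exact Nat.card_congr (Equiv.subtypeEquivRight fun x => by rw [← hσ]; rfl)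

end Cfsg.Agent.S5071
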