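import Cfsg.Statements.S5072
import Cfsg.Agent.QP.LinForm

set_option autoImplicit false
open Matrix
open Cfsg

namespace Cfsg.Agent.S5072
open CF.QP CF.Fisch

/-- Let F be a field, m a natural number and V = F^{2(m+3)} with the hyperbolic quadratic form q(x, y) = Σ xᵢ yᵢ (non-degenerate, Witt index m + 3 ≥ 3). For a singular line ℓ (a 2-dimensional subspace on which q vanishes) let T(ℓ) be the group of isometries of q fixing every vector of ℓ^⊥ (the Siegel transvection group of ℓ), let Σ be the set of these groups and G₀ the subgroup they generate. Then, viewed inside G₀, the members of Σ form a set of abstract F-root subgroups of G₀ (any two commute, or are the unipotent subgroups of a rank one group that is an image of SL₂(F) with central kernel, or satisfy the commutator case), and their graph of rank one pairs is connected. -/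
theorem result (F : Type*) [Field F] (m : ℕ) :
    Cfsg.IsKRootSubgroupSet F ((fun A : Subgroup ↥(Cfsg.isometryGroup F (Cfsg.quadFormPlus (m + 3) F)) => A.subgroupOf (⨆ B ∈ {A : Subgroup ↥(Cfsg.isometryGroup F (Cfsg.quadFormPlus (m + 3) F)) | ∃ p r : Fin (m + 3) ⊕ Fin (m + 3) → F, LinearIndependent F ![p, r] ∧
          Cfsg.quadFormPlus (m + 3) F p = 0 ∧ Cfsg.quadFormPlus (m + 3) F r = 0 ∧
          Cfsg.quadFormPlus (m + 3) F (p + r) = 0 ∧
          A = Subgroup.closure {σ : ↥(Cfsg.isometryGroup F (Cfsg.quadFormPlus (m + 3) F)) | ∀ v : Fin (m + 3) ⊕ Fin (m + 3) → F,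
            Cfsg.quadFormPlus (m + 3) F (v + p) - Cfsg.quadFormPlus (m + 3) F v - Cfsg.quadFormPlus (m + 3) F p = 0 →
            Cfsg.quadFormPlus (m + 3) F (v + r) - Cfsg.quadFormPlus (m + 3) F v - Cfsg.quadFormPlus (m + 3) F r = 0 →
              ((σ : Matrix.GeneralLinearGroup (Fin (m + 3) ⊕ Fin (m + 3)) F) : Matrix (Fin (m + 3) ⊕ Fin (m + 3)) (Fin (m + 3) ⊕ Fin (m + 3)) F) *ᵥ v = v}}, B)) ''
      {A : Subgroup ↥(Cfsg.isometryGroup F (Cfsg.quadFormPlus (m + 3) F)) | ∃ p r : Fin (m + 3) ⊕ Fin (m + 3) → F, LinearIndependent F ![p, r] ∧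
          Cfsg.quadFormPlus (m + 3) F p = 0 ∧ Cfsg.quadFormPlus (m + 3) F r = 0 ∧
          Cfsg.quadFormPlus (m + 3) F (p + r) = 0 ∧
          A = Subgroup.closure {σ : ↥(Cfsg.isometryGroup F (Cfsg.quadFormPlus (m + 3) F)) | ∀ v : Fin (m + 3) ⊕ Fin (m + 3) → F,
            Cfsg.quadFormPlus (m + 3) F (v + p) - Cfsg.quadFormPlus (m + 3) F v - Cfsg.quadFormPlus (m + 3) F p = 0 →
            Cfsg.quadFormPlus (m + 3) F (v + r) - Cfsg.quadFormPlus (m + 3) F v - Cfsg.quadFormPlus (m + 3) F r = 0 →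
              ((σ : Matrix.GeneralLinearGroup (Fin (m + 3) ⊕ Fin (m + 3)) F) : Matrix (Fin (m + 3) ⊕ Fin (m + 3)) (Fin (m + 3) ⊕ Fin (m + 3)) F) *ᵥ v = v}}) ∧
    Cfsg.IsConnectedFamily (Cfsg.FAdj {A : Subgroup ↥(Cfsg.isometryGroup F (Cfsg.quadFormPlus (m + 3) F)) | ∃ p r : Fin (m + 3) ⊕ Fin (m + 3) → F, LinearIndependent F ![p, r] ∧
          Cfsg.quadFormPlus (m + 3) F p = 0 ∧ Cfsg.quadFormPlus (m + 3) F r = 0 ∧
          Cfsg.quadFormPlus (m + 3) F (p + r) = 0 ∧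
          A = Subgroup.closure {σ : ↥(Cfsg.isometryGroup F (Cfsg.quadFormPlus (m + 3) F)) | ∀ v : Fin (m + 3) ⊕ Fin (m + 3) → F,
            Cfsg.quadFormPlus (m + 3) F (v + p) - Cfsg.quadFormPlus (m + 3) F v - Cfsg.quadFormPlus (m + 3) F p = 0 →
            Cfsg.quadFormPlus (m + 3) F (v + r) - Cfsg.quadFormPlus (m + 3) F v - Cfsg.quadFormPlus (m + 3) F r = 0 →
              ((σ : Matrix.GeneralLinearGroup (Fin (m + 3) ⊕ Fin (m + 3)) F) : Matrix (Fin (m + 3) ⊕ Fin (m + 3)) (Fin (m + 3) ⊕ Fin (m + 3)) F) *ᵥ v = v}})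
      {A : Subgroup ↥(Cfsg.isometryGroup F (Cfsg.quadFormPlus (m + 3) F)) | ∃ p r : Fin (m + 3) ⊕ Fin (m + 3) → F, LinearIndependent F ![p, r] ∧
          Cfsg.quadFormPlus (m + 3) F p = 0 ∧ Cfsg.quadFormPlus (m + 3) F r = 0 ∧
          Cfsg.quadFormPlus (m + 3) F (p + r) = 0 ∧
          A = Subgroup.closure {σ : ↥(Cfsg.isometryGroup F (Cfsg.quadFormPlus (m + 3) F)) | ∀ v : Fin (m + 3) ⊕ Fin (m + 3) → F,
            Cfsg.quadFormPlus (m + 3) F (v + p) - Cfsg.quadFormPlus (m + 3) F v - Cfsg.quadFormPlus (m + 3) F p = 0 →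
            Cfsg.quadFormPlus (m + 3) F (v + r) - Cfsg.quadFormPlus (m + 3) F v - Cfsg.quadFormPlus (m + 3) F r = 0 →
              ((σ : Matrix.GeneralLinearGroup (Fin (m + 3) ⊕ Fin (m + 3)) F) : Matrix (Fin (m + 3) ⊕ Fin (m + 3)) (Fin (m + 3) ⊕ Fin (m + 3)) F) *ᵥ v = v}} := by
  have hQ := CF.Geom.qPlus_nondegenerate (F := F) (m + 3)
  rw [← CF.Geom.coe_qPlus]
  generalize CF.Geom.qPlus (m + 3) F = Q at hQ ⊢
  let ι := mι ((Units.coeHom _).comp (isometryGroup F Q).subtype)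
  have iso : ∀ g v, Q (ι g v) = Q v := fun g => CF.Geom.mem_isometryGroup.1 g.2
  have S : LinSys F ι (tO Q) := linSys_tO (mι_inj (Units.val_injective.comp Subtype.val_injective)) iso
    fun p r h c => ⟨(CF.Geom.oEquiv Q).symm ⟨LinearMap.GeneralLinearGroup.toLinearEquiv
      (ex _ (sq_smul h.sq c)), CF.Geom.mem_OG.2 (h.iso c)⟩,
        LinearMap.ext (CF.Geom.oEquiv_symm_mulVec Q _)⟩
  have key : ∀ p r, TS Q p r → sg Q p r ≠ 0 → Subgroup.closure {σ : ↥(isometryGroup F Q) | ∀ v,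
      Q (v + p) - Q v - Q p = 0 → Q (v + r) - Q v - Q r = 0 →
        σ.1.val *ᵥ v = v} = ln F ι (sg Q p r) := by
    intro p r h h0
    unfold ln
    congr 1
    ext g
    refine ⟨fun hg => exists_eq_sg hQ h h0 (iso g) fun v h1 h2 =>
      hg v ((QuadraticMap.polar_comm Q v p).trans h1) ((QuadraticMap.polar_comm Q v r).trans h2),
      fun ⟨c, e⟩ v h1 h2 => (LinearMap.congr_fun e v).trans ?_⟩
    simp [sg_apply, (QuadraticMap.polar_comm Q p v).trans h1, (QuadraticMap.polar_comm Q r v).trans h2]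
  have e : {A : Subgroup ↥(isometryGroup F Q) | ∃ p r : Fin (m + 3) ⊕ Fin (m + 3) → F,
      LinearIndependent F ![p, r] ∧ Q p = 0 ∧ Q r = 0 ∧ Q (p + r) = 0 ∧
      A = Subgroup.closure {σ : ↥(isometryGroup F Q) | ∀ v,
        Q (v + p) - Q v - Q p = 0 → Q (v + r) - Q v - Q r = 0 →
          σ.1.val *ᵥ v = v}} = ln F ι '' tO Q := by
    ext A
    constructor
    · rintro ⟨p, r, h0, h1, h2, h3, rfl⟩
      have h : TS Q p r := ⟨h1, h2, by simp [QuadraticMap.polar, h1, h2, h3]⟩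
      exact ⟨_, ⟨(sg_ne_zero_iff hQ).2 h0, p, r, h, rfl⟩, (key p r h ((sg_ne_zero_iff hQ).2 h0)).symm⟩
    · rintro ⟨_, ⟨h0, p, r, h, rfl⟩, rfl⟩
      exact ⟨p, r, (sg_ne_zero_iff hQ).1 h0, h.ql, h.qr, by simpa using h.comb 1 1, (key p r h h0).symm⟩
  rw [e, S.image_subgroupOf]
  exact ⟨S.restrict_sup.kRootSet S.gen_sup, S.conn (tO_conn hQ (by simp; omega))⟩

end Cfsg.Agent.S5072
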