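import Cfsg.Statements.S5073
import Cfsg.Agent.QP.Link

set_option autoImplicit false
universe u
open Cfsg

namespace Cfsg.Agent.S5073
open CF.QP CF.Fisch

/-- Let k be a field of characteristic not 2 with k not of order 3, M a finite-dimensional k-vector space and G ≤ GL(M) such that (G, M) is a quadratic pair (M irreducible for G, and G generated by its quadratically acting elements σ whose scalar family 1 + c(σ − 1), c ∈ k, lies in G). Write 𝒬_d for the quadratic elements of G of minimal commutator rank, E(σ) for the subgroup generated by the members of 𝒬_d with the same fixed space and commutator space as σ, and Σ for the set of these subgroups. Let E, F ∈ Σ. If some non-identity element of E commutes with some non-identity element of F, or some non-identity element of E normalizes F, then E and F commute elementwise. -/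
theorem result {k : Type u} [Field k] (hk2 : ringChar k ≠ 2) (hk3 : Nat.card k ≠ 3)
    {M : Type u} [AddCommGroup M] [Module k M] [FiniteDimensional k M]
    {G : Subgroup (LinearMap.GeneralLinearGroup k M)} (hG : Cfsg.IsQuadraticPair G)
    {E F : Subgroup (LinearMap.GeneralLinearGroup k M)} (hE : E ∈ Cfsg.quadraticRootSubgroups G) (hF : F ∈ Cfsg.quadraticRootSubgroups G)
    (h : (∃ e ∈ E, e ≠ 1 ∧ ∃ f ∈ F, f ≠ 1 ∧ e * f = f * e) ∨ E ⊓ Subgroup.normalizer (F : Set (LinearMap.GeneralLinearGroup k M)) ≠ ⊥) :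
    ⁅E, F⁆ = ⊥ := by
  have hk := BigF.mk' hk2 hk3
  obtain ⟨a, ha, rfl⟩ := mem_roots.1 hE
  obtain ⟨b, hb, rfl⟩ := mem_roots.1 hF
  have h0 : a * b * a = 0 := by
    by_contra h0
    have h1 := ha.ro hk hb h0
    rcases h with ⟨e, he, he1, f, hf, hf1, h⟩ | h
    · exact ro_not_commute_elem h1 he hf he1 hf1 h
    · obtain ⟨e, he, he1⟩ := exists_ne_one_of_ne_bot h
      exact he1 (ro_eq_one h1 he.1 (conjBy_eq_self_iff.2 he.2))
  refine cm_iff.2 (ha.cm_of_comm hk hb h0 ?_)
  by_contra hc
  rcases h with ⟨e, he, he1, f, hf, hf1, h⟩ | h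
  · exact ha.comm_ne_one hk hb h0 hc he hf he1 hf1 (commutatorElement_eq_one_iff_mul_comm.2 h)
  · obtain ⟨e, he, he1⟩ := exists_ne_one_of_ne_bot h
    have hf := ex_mem_rt (h := hb.sq).2 hb.inA.self_mem
    have h1 := ha.comm_elem hk hb h0 hc he.1 hf
    have h2 := mul_mem (conj_mem_of_conjBy_eq (conjBy_eq_self_iff.2 he.2) hf) (inv_mem hf)
    have h3 : _ ≠ _ := fun e' => ha.comm_ne_one hk hb h0 hc he.1 hf he1 (mt ex_eq_one.1 hb.ne)
      (Units.ext (sub_eq_zero.1 e'))
    have N := ha.nil2 hk hb h0 hc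
    have h4 := (N.mn.eS_eq h1 h3).symm.trans (hb.eS_eq h2 h3)
    have h5 := ha.comm_mul hk hb h0 (h4 ▸ hb.inA.self_mem) ha.inA.self_mem
    exact hc (by rw [h5.1, h5.2, sub_self])

end Cfsg.Agent.S5073
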