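import Cfsg.Statements.S5079
import Cfsg.Agent.Fus.Res

set_option autoImplicit false
open Cfsg

namespace Cfsg.Agent.S5079
open CF.Fus Cfsg.FusionSystem

/-- In any fusion system over a finite p-group S: if P is fully automized and receptive and Q is conjugate to P in the system, then there is a map of the system with source N_S(Q) and values in N_S(P) carrying Q onto P. -/
theorem result {Ω : Type*} [Group Ω] {S : Subgroup Ω} [Finite S] (p : ℕ) [Fact p.Prime] (hS : IsPGroup p S) (F : Cfsg.FusionSystem S) (P Q : Subgroup Ω) (h₁ : F.IsFullyAutomized p P) (h₂ : F.IsReceptive P) (hQ : F.IsConj Q P) : ∃ φ ∈ F.Hom (Cfsg.FusionSystem.normalizerIn S Q), (∀ x, φ x ∈ Cfsg.FusionSystem.normalizerIn S P) ∧ (Q.subgroupOf (Cfsg.FusionSystem.normalizerIn S Q)).map φ = P := by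
  obtain ⟨f, hf⟩ := conj_iso hQ
  obtain ⟨g, hg, e, -⟩ := exists_norm_map_of_fa_rec hS h₁ h₂ hf
  refine ⟨hg.mul.hom, hg.hom_mem', fun x => ?_, ?_⟩
  · have := hg.img_NS_le (le_NS hf.le) le_rfl NS_le_norm
    rw [e] at this
    exact this (mem_img_of_mem x.2)
  · rw [← img_eq_map (le_NS hf.le) hg.mul.hom (fun _ => rfl), e]

end Cfsg.Agent.S5079
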