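import Cfsg.Statements.S5088
import Cfsg.Agent.Fus.Alperin

set_option autoImplicit false
open Cfsg

namespace Cfsg.Agent.S5088
open CF.Fus Cfsg.FusionSystem

/-- In a saturated fusion system over a finite p-group, a subgroup Q is normal in the system if and only if there is a chain of subgroups 1 = Q₀ ≤ Q₁ ≤ ⋯ ≤ Qₙ = Q such that each Qᵢ with i ≥ 1 is strongly closed in the system and [Q, Qᵢ] ≤ Qᵢ₋₁. -/
theorem result {Ω : Type*} [Group Ω] {S : Subgroup Ω} [Finite S] (p : ℕ) [Fact p.Prime] (hS : IsPGroup p S) (F : Cfsg.FusionSystem S) (hF : F.IsSaturated p) (Q : Subgroup Ω) : F.IsNormal Q ↔ ∃ (n : ℕ) (Qs : Fin (n + 1) → Subgroup Ω), Qs 0 = ⊥ ∧ Qs (Fin.last n) = Q ∧ Monotone Qs ∧ ∀ i : Fin n, F.StronglyClosed (Qs i.succ) ∧ ⁅Q, Qs i.succ⁆ ≤ Qs (Fin.castSucc i) := by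
  have hF' := Sat.mk' hS hF
  constructor
  · intro h
    haveI := hF'.finite h.1
    obtain ⟨n, hn⟩ := exists_ucs_eq (hF'.pgroup h.1)
    exact ⟨n, fun i => ucs Q i, ucs_zero, hn, fun i j hij => ucs_mono hij, fun i =>
      ⟨sc_of_normal (normal_of_char h (ucs_le _) (ucs_char _)), by
        rw [Subgroup.commutator_comm]; exact ucs_comm i⟩⟩
  · rintro ⟨n, Qs, h0, hn, hm, h⟩
    have hsc : ∀ i, F.StronglyClosed (Qs i) := fun i =>
      Fin.cases (h0 ▸ sc_bot F) (fun i => (h i).1) i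
    refine hF'.normal_of_series' (hn ▸ hsc _) (fun j => Qs ⟨min j n, by omega⟩) n
      (by simpa [Fin.last] using hn) (by simpa using h0) (fun j hj => hm (by simp [Fin.le_def]))
      (fun j _ => wc_of_sc (hsc _)) fun j hj => ?_
    have := (h ⟨j, hj⟩).2
    rw [Subgroup.commutator_comm] at this
    convert this using 3
    · simp [Fin.ext_iff]; omega
    · simp [Fin.ext_iff]; omega

end Cfsg.Agent.S5088
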