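import Cfsg.Statements.S5092
import Cfsg.Agent.Fus.Hyp

set_option autoImplicit false
open Cfsg

namespace Cfsg.Agent.S5092
open CF.Fus Cfsg.FusionSystem

/-- For a saturated fusion system over a finite p-group S, the focal subgroup is the product of the hyperfocal subgroup and the derived subgroup of S. -/
theorem result {Ω : Type*} [Group Ω] {S : Subgroup Ω} [Finite S] (p : ℕ) [Fact p.Prime] (hS : IsPGroup p S) (F : Cfsg.FusionSystem S) (hF : F.IsSaturated p) : F.focalSubgroup = F.hyperfocalSubgroup p ⊔ ⁅(S : Subgroup Ω), (S : Subgroup Ω)⁆ := by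
  exact (Sat.mk' hS hF).focal_eq

end Cfsg.Agent.S5092
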