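import Cfsg.Statements.S5107
import Cfsg.Agent.Fus.PSol

set_option autoImplicit false
open Cfsg

namespace Cfsg.Agent.S5107
open CF.Fus Cfsg.FusionSystem

/-- If a Sylow p-subgroup S of a finite group G has nilpotency class at most two and its centre is strongly closed in S with respect to G, then every map of the fusion system of G on S is conjugation by an element of N_G(S), and S is the largest subgroup normal in that fusion system. -/
theorem result {G : Type*} [Group G] [Finite G] (p : ℕ) [Fact p.Prime] (S : Sylow p G) (hcl : ⁅(S : Subgroup G), (S : Subgroup G)⁆ ≤ (S : Subgroup G) ⊓ Subgroup.centralizer ((S : Subgroup G) : Set G)) (hZ : Cfsg.IsStronglyClosed ((S : Subgroup G) ⊓ Subgroup.centralizer ((S : Subgroup G) : Set G)) (S : Subgroup G)) : (∀ (P : Subgroup G) (φ : P →* G), φ ∈ (Cfsg.groupFusionSystem (S : Subgroup G)).Hom P → ∃ g ∈ Subgroup.normalizer ((S : Subgroup G) : Set G), ∀ x : P, φ x = g * (x : G) * g⁻¹) ∧ (Cfsg.groupFusionSystem (S : Subgroup G)).core = S := by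
  have hF := sat_group S
  have a : (groupFusionSystem (S : Subgroup G)).IsNormal S := by
    refine hF.normal_of_series' (sc_top _) (fun j => if j = 0 then ⊥ else if j = 1 then CS (S : Subgroup G) S else S) 2
      (by simp) (by simp) (fun j hj => ?_) (fun j hj => ?_) fun j hj => ?_
    · interval_cases j
      · simp
      · simpa using CS_le
    · interval_cases j
      · simpa using wc_of_sc (sc_bot _)
      · simp only [one_ne_zero, if_false, if_true]
        rw [group_eq_ofSubgroup]
        exact wc_of_sc (scG_iff.2 ⟨hZ.1, fun x hx s _ => hZ.2 x hx s⟩)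
    · interval_cases j
      · simpa using Subgroup.commutator_eq_bot_iff_le_centralizer.2 CS_le_cent
      · exact hcl
  refine ⟨fun P φ h => ?_, le_antisymm (core_le _) (le_core a)⟩
  obtain ⟨α, h1, h2⟩ := normal_ext_aut a (mor_ext h).le (mor_ext h)
  rw [autGroup_group le_rfl] at h1
  obtain ⟨g, -, h3, rfl⟩ := mem_autInducedBy.1 h1
  exact ⟨g, h3, fun x => by rw [← ext_of_mem φ x.2, ← h2 x x.2, fn_cA h3 ((mor_ext h).le x.2)]⟩

end Cfsg.Agent.S5107
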