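import Cfsg.Statements.S5110
import Cfsg.Agent.Fus.HSat

set_option autoImplicit false
open Cfsg

namespace Cfsg.Agent.S5110
open CF.Fus Cfsg.FusionSystem

/-- Saturation criterion: let F be a fusion system over a finite p-group S and H a family of subgroups of S closed under conjugacy in F, such that every conjugacy class inside H contains a fully automized receptive member, F is the smallest fusion system over S containing all its maps with source in H, and every centric subgroup outside H is conjugate in F to some P for which Aut_S(P) ∩ O_p(Aut_F(P)) is not contained in Inn(P). Then F is saturated. -/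
theorem result {Ω : Type*} [Group Ω] {S : Subgroup Ω} [Finite S] (p : ℕ) [Fact p.Prime] (hS : IsPGroup p S) (F : Cfsg.FusionSystem S) (ℋ : Set (Subgroup Ω)) (hℋS : ∀ P ∈ ℋ, P ≤ S) (hℋconj : ∀ P ∈ ℋ, ∀ Q, F.IsConj P Q → Q ∈ ℋ) (hsat : ∀ P ∈ ℋ, ∃ Q, F.IsConj P Q ∧ F.IsFullyAutomized p Q ∧ F.IsReceptive Q) (hgen : ∀ E : Cfsg.FusionSystem S, (∀ P ∈ ℋ, F.Hom P ⊆ E.Hom P) → F ≤ E) (hstar : ∀ P : Subgroup Ω, F.IsCentric P → P ∉ ℋ → ∃ Q, F.IsConj P Q ∧ ¬ (Cfsg.autInducedBy S Q ⊓ (Cfsg.pCore p ↥(F.autGroup Q)).map (F.autGroup Q).subtype ≤ Cfsg.Inn Q)) : F.IsSaturated p := by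
    refine (sat_of_family (ℋ := fun P => P ∈ ℋ) hS (fun P Q h => hℋconj P h Q) hsat
      (fun E h => hgen E fun P hP => hom_sub_at.2 fun f => h P f hP) fun P h1 h2 => ?_).sat
    obtain ⟨Q, hQ, h⟩ := hstar P h1 h2
    refine ⟨Q, hQ, fun h' => h fun α hα => ?_⟩
    obtain ⟨s, hs, hn, rfl⟩ := mem_autInducedBy.1 hα.1
    exact cA_mem_Inn (h' ⟨⟨hs, hn⟩, hα.2⟩)

end Cfsg.Agent.S5110
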