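import Cfsg.Statements.S5112
import Cfsg.Agent.Fus.PSol
import Cfsg.Agent.S3116
import Cfsg.Agent.Fgs2.DQS

set_option autoImplicit false
open Cfsg

namespace Cfsg.Agent.S5112
open CF.Fus Cfsg.FusionSystem

/-- If S is a dihedral or generalized quaternion 2-group of order at least 16, then in every saturated fusion system over S (at the prime 2) the automorphism group Aut_F(S) consists of the inner automorphisms of S. -/
theorem result {Ω : Type*} [Group Ω] {S : Subgroup Ω} [Finite S] (n : ℕ) (hn : 4 ≤ n) (hshape : Nonempty (S ≃* DihedralGroup (2 ^ (n - 1))) ∨ Nonempty (S ≃* QuaternionGroup (2 ^ (n - 2)))) (F : Cfsg.FusionSystem S) (hF : F.IsSaturated 2) : F.autGroup S = Cfsg.Inn S := by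
  have key : IsPGroup 2 S ∧ IsPGroup 2 (MulAut S) := by
    rcases hshape with ⟨⟨e⟩⟩ | ⟨⟨e⟩⟩
    · have a : IsPGroup 2 S := IsPGroup.of_card (n := n) (by
        rw [Nat.card_congr e.toEquiv, DihedralGroup.nat_card, ← pow_succ', Nat.sub_add_cancel (by omega)])
      refine ⟨a, Cfsg.Agent.S3116.result a (.inl ⟨_, ?_, ⟨e⟩⟩)⟩
      exact (by norm_num : 4 ≤ 2 ^ 3).trans (Nat.pow_le_pow_right two_pos (by omega))
    · obtain ⟨m, rfl⟩ : ∃ m, n = m + 4 := ⟨n - 4, by omega⟩
      have e' : S ≃* QuaternionGroup (2 ^ (m + 2)) := e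
      have c : Nat.card (QuaternionGroup (2 ^ (m + 2))) = 2 ^ (m + 4) := by
        rw [Nat.card_eq_fintype_card, QuaternionGroup.card]; ring
      have o : orderOf (QuaternionGroup.a 1 : QuaternionGroup (2 ^ (m + 2))) = 2 ^ (m + 3) := by
        rw [QuaternionGroup.orderOf_a_one]; ring
      refine ⟨IsPGroup.of_card (n := m + 4) (by rw [Nat.card_congr e'.toEquiv, c]),
        IsPGroup.of_equiv ?_ (MulAut.congr e'.symm)⟩
      by_contra h
      refine (CF.Fgs2.DQS_quaternion_of_not_isPGroup (n := m + 3) (a := QuaternionGroup.a 1)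
        (c := QuaternionGroup.xa 0) (.inr (.inl ⟨?_, ?_⟩)) (by omega) o ?_ ?_ h).elim fun f => ?_
      rotate_right
      · have := Nat.card_congr f.toEquiv
        rw [c, Nat.card_eq_fintype_card, QuaternionGroup.card, pow_add] at this
        have := Nat.one_le_two_pow (n := m)
        omega
      · rw [QuaternionGroup.xa_sq, QuaternionGroup.a_one_pow]; rfl
      · rw [mul_inv_eq_iff_eq_mul, eq_inv_mul_iff_mul_eq]; simp
      · have := (Subgroup.zpowers (QuaternionGroup.a 1 : QuaternionGroup (2 ^ (m + 2)))).card_mul_index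
        rw [Nat.card_zpowers, o, c, pow_succ 2 (m + 3)] at this
        exact Nat.eq_of_mul_eq_mul_left (by positivity) this
      · intro hc
        obtain ⟨k, hk⟩ := mem_powers_iff_mem_zpowers.2 hc
        simp only [QuaternionGroup.a_one_pow] at hk
        cases hk
  exact (Sat.mk' key.1 hF).autGroup_top_eq (key.2.to_subgroup _)

end Cfsg.Agent.S5112
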