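import Cfsg.Statements.S5121
import Cfsg.Agent.Fus.GrpN

set_option autoImplicit false
open Cfsg

namespace Cfsg.Agent.S5121
open CF.Fus Cfsg.FusionSystem

/-- Let G be a finite group with Sylow p-subgroup S and C_G(O_p(G)) ≤ O_p(G). For every subgroup T ≤ S and every normal subsystem E over T of the fusion system of G on S there is exactly one normal subgroup H of G containing T as a Sylow p-subgroup whose fusion system on T is E. -/
theorem result {G : Type*} [Group G] [Finite G] (p : ℕ) [Fact p.Prime] (S : Sylow p G) (hG : Subgroup.centralizer ((Cfsg.pCore p G : Subgroup G) : Set G) ≤ Cfsg.pCore p G) (T : Subgroup G) (hTS : T ≤ S) (E : Cfsg.FusionSystem T) (hE : E.IsNormalIn (Cfsg.groupFusionSystem (S : Subgroup G)) p) : ∃ H : Subgroup G, (∃ hTH : T ≤ H, H.Normal ∧ (∃ R : Sylow p H, (R : Subgroup H) = T.subgroupOf H) ∧ ∀ P : Subgroup G, E.Hom P = (Cfsg.fusionSystemOfSubgroup H T hTH).Hom P) ∧ ∀ H' : Subgroup G, (∃ hTH' : T ≤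 H', H'.Normal ∧ (∃ R : Sylow p H', (R : Subgroup H') = T.subgroupOf H') ∧ ∀ P : Subgroup G, E.Hom P = (Cfsg.fusionSystemOfSubgroup H' T hTH').Hom P) → H' = H := by
    have hS := sylIn_top S
    have hc : CS ⊤ (OpIn p (⊤ : Subgroup G)) ≤ OpIn p ⊤ := by rwa [CS_top, OpIn_top]
    have h : Nrm E (FG ⊤ S hS.le) p := (satG hS).nrm (group_eq_ofSubgroup (S := (S : Subgroup G)) ▸ hE)
    obtain ⟨K, -, h1, h2, rfl⟩ := h.exists_FG hS hc
    refine ⟨K, ⟨h2.le, Subgroup.normalizer_eq_top_iff.1 (top_le_iff.1 h1), (sylIn_iff h2.le).2 h2, fun _ => rfl⟩,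
      fun H ⟨a1, a2, a3, a4⟩ => ?_⟩
    have a5 := (sylIn_iff a1).1 a3
    have a6 : FG K T h2.le = FG H T a5.le := fs_ext a4
    rw [h.eq_of_FG hS hc le_top h1 h2, a6]
    exact Nrm.eq_of_FG hS hc le_top (Subgroup.normalizer_eq_top_iff.2 a2).ge a5 (a6 ▸ h)

end Cfsg.Agent.S5121
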