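import Cfsg.Statements.S5123
import Cfsg.Agent.Fus.Group

set_option autoImplicit false
open Cfsg

namespace Cfsg.Agent.S5123
open CF.Fus Cfsg.FusionSystem

/-- Let G be a finite group with Sylow p-subgroup S, P, Q ≤ S and g ∈ G with gPg⁻¹ = Q, and suppose N_S(Q) is a Sylow p-subgroup of N_G(Q). Let N be the set of x ∈ N_S(P) with gxg⁻¹ ∈ N_S(Q)C_G(Q). Then some h ∈ C_G(Q) satisfies (hg)N(hg)⁻¹ ≤ S. -/
theorem result {G : Type*} [Group G] [Finite G] (p : ℕ) [Fact p.Prime] (S : Sylow p G) (P Q : Subgroup G) (hP : P ≤ S) (hQ : Q ≤ S) (g : G) (hg : P.map (MulAut.conj g).toMonoidHom = Q) (hN : (∃ R : Sylow p ↥(Subgroup.normalizer (Q : Set G)), (R : Subgroup ↥(Subgroup.normalizer (Q : Set G))) = (Cfsg.FusionSystem.normalizerIn (S : Subgroup G) Q).subgroupOf (Subgroup.normalizer (Q : Set G)))) : ∃ h ∈ Subgroup.centralizer (Q : Set G), ((Cfsg.FusionSystem.normalizerIn (S : Subgroup G) P) ⊓ (Cfsg.FusionSystem.normalizerIn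 (S : Subgroup G) Q ⊔ Subgroup.centralizer (Q : Set G)).comap (MulAut.conj g).toMonoidHom).map (MulAut.conj (h * g)).toMonoidHom ≤ S := by
  rw [sylIn_iff NS_le_norm, ← NS_top] at hN
  obtain ⟨c, hc, h⟩ := syl_ext le_top hN (D := img (cj g) (NS S P ⊓ (NS S Q ⊔
    Subgroup.centralizer (Q : Set G)).comap (MulAut.conj g).toMonoidHom))
    ((piso_cj _ _).isPGroup S.2.to_inf_left.to_inf_left) (img_le_iff.2 fun x hx => by
      rw [CS_top]; exact hx.2)
  refine ⟨c, hc.2, ?_⟩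
  rintro _ ⟨x, hx, rfl⟩
  have := (h _ (mem_img_of_mem hx)).1
  show c * g * x * (c * g)⁻¹ ∈ (S : Subgroup G)
  rwa [cj_apply, show c * (g * x * g⁻¹) * c⁻¹ = c * g * x * (c * g)⁻¹ by group] at this

end Cfsg.Agent.S5123
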