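import Cfsg.Statements.S5130
import Cfsg.Agent.Fus.PSol

set_option autoImplicit false
open Cfsg

namespace Cfsg.Agent.S5130
open CF.Fus Cfsg.FusionSystem

/-- Let F be a saturated fusion system over a finite p-group S that is the direct product of two subgroups S₁ and S₂, each strongly closed in F. Let R be the full subsystem of F over S₁ (all maps of F between subgroups of S₁) and R′ the subsystem over S₁ of those maps that extend to the subgroup generated with S₂ fixing S₂ elementwise. Then R and R′ are saturated, R′ is normal in F and in R, and R is weakly normal in F. -/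
theorem result {Ω : Type*} [Group Ω] {S : Subgroup Ω} [Finite S] (p : ℕ) [Fact p.Prime] (hS : IsPGroup p S) (F : Cfsg.FusionSystem S) (hF : F.IsSaturated p) (S₁ S₂ : Subgroup Ω) (hprod : Cfsg.IsInternalDirectProduct S₁ S₂ S) (h₁ : F.StronglyClosed S₁) (h₂ : F.StronglyClosed S₂) (R R' : Cfsg.FusionSystem S₁) (hR : ∀ P : Subgroup Ω, P ≤ S₁ → R.Hom P = F.Hom P) (hR' : ∀ P : Subgroup Ω, P ≤ S₁ → R'.Hom P = F.centralizerHom S₂ P) : R.IsSaturated p ∧ R'.IsSaturated p ∧ R'.IsNormalIn F p ∧ R'.IsNormalIn R p ∧ R.IsWeaklyNormalIn F p := by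
  have hF' := Sat.mk' hS hF
  obtain ⟨a1, a2, a3, a4, a5⟩ := hprod
  have b1 : ∀ P f, Mor R P f ↔ Mor F P f ∧ P ≤ S₁ := fun P f =>
    ⟨fun h => ⟨((hom_eq_at.1 (hR P h.le)) f).1 h, h.le⟩, fun h => ((hom_eq_at.1 (hR P h.2)) f).2 h.1⟩
  have b2 : ∀ P f, Mor R' P f ↔ CMor F S₂ P f ∧ P ≤ S₁ := fun P f =>
    ⟨fun h => ⟨((hom_eq_centralizerHom.1 (hR' P h.le)) f).1 h, h.le⟩,
      fun h => ((hom_eq_centralizerHom.1 (hR' P h.2)) f).2 h.1⟩
  have c1 := hF'.restr_prod h₁ h₂ a4 a5 b1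
  have c2 := hF'.nrm_cent_prod h₁ h₂ a4 a5 (fun x hx => mem_CS.2 ⟨a1 hx, fun y hy => (a3 x hx y hy).symm⟩) b2
  have c3 : R.IsSubsystemOf F := sub_iff.2 fun P f h => ((b1 P f).1 h).1
  refine ⟨c1.sat, c2.satE.sat, c2.isN, (WNrm.nrm_top ⟨c2.toInv.of_sub c1 (sub_iff.2 fun P f h =>
    (b1 P f).2 ⟨((b2 P f).1 h).1.mor, h.le⟩) c3, c2.satE, c1⟩).isN, WNrm.isWN ⟨inv_of_strong hF' c3 h₁ ?_, c1, hF'⟩⟩
  intro P Q f ψ ψ' h1 h2 h3 h4 h5 h6
  refine (b1 _ _).2 ⟨(((h2.mono h4).symm.comp (h1.sub c3) fun x hx => (h2.mono h4).piso.pinv_mem hx).comp h2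
    fun x hx => h5 _ ((h2.mono h4).piso.pinv_mem hx)).congr fun y hy => ?_, sc_img_le h₁ h2 h4 (h4.trans h3)⟩
  obtain ⟨x, hx, rfl⟩ := (h2.mono h4).mem_img.1 hy
  simp only [Function.comp, (h2.mono h4).piso.pinv_apply hx, h6 x hx]

end Cfsg.Agent.S5130
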