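import Cfsg.Statements.S5139
import Cfsg.Agent.Fus.GrpN

set_option autoImplicit false
open Cfsg

namespace Cfsg.Agent.S5139
open CF.Fus Cfsg.FusionSystem

/-- Let G be a finite group with Sylow p-subgroup S and O^p(G) the subgroup generated by the elements of order prime to p. Then the p-residual subsystem of the fusion system of G on S — the saturated subsystem of p-power index over the hyperfocal subgroup — is the fusion system of O^p(G) on S ∩ O^p(G): its maps are exactly the conjugation maps by elements of O^p(G) between subgroups of S ∩ O^p(G). -/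
theorem result {G : Type*} [Group G] [Finite G] (p : ℕ) [Fact p.Prime] (S : Sylow p G) (E : Cfsg.FusionSystem ((Cfsg.groupFusionSystem (S : Subgroup G)).hyperfocalSubgroup p)) (hE : (Cfsg.groupFusionSystem (S : Subgroup G)).IsPResidual p E) : ∃ h : (S : Subgroup G) ⊓ Cfsg.pResidual p G ≤ Cfsg.pResidual p G, ∀ P : Subgroup G, E.Hom P = (Cfsg.fusionSystemOfSubgroup (Cfsg.pResidual p G) ((S : Subgroup G) ⊓ Cfsg.pResidual p G) h).Hom P := by
    have hS := sylIn_top S
    have e := group_eq_ofSubgroup (S := (S : Subgroup G))
    have a1 := hS.inf_norm' (N := Cfsg.pResidual p G) le_top (Subgroup.normalizer_eq_top _).ge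
    have a2 := ppiG hS le_top CF.Transfer.pRes_top.le a1.le inf_le_left (inf_le_inf_left _ CF.Transfer.pRes_top.le)
    obtain ⟨b1, b2⟩ := (sat_group S).pres_iff.1 hE
    exact ⟨inf_le_right, b2.hom_eq (e ▸ a2) b1 (satG a1) (by rw [e, hypG hS, CF.Transfer.pRes_top])⟩

end Cfsg.Agent.S5139
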