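import Cfsg.Statements.S5143
import Cfsg.Agent.Fus.CE

set_option autoImplicit false
open Cfsg

namespace Cfsg.Agent.S5143
open CF.Fus Cfsg.FusionSystem

/-- Let F be a saturated fusion system over a finite p-group S, E a normal subsystem over T, and R a subgroup with T ≤ R ≤ S. Then there is exactly one saturated subsystem D of F over R (exactly one family of map sets) whose p-residual subsystem is that of E: the hyperfocal subgroups of D and E coincide and the p-residual subsystems of D and of E have the same maps. -/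
theorem result {Ω : Type*} [Group Ω] {S : Subgroup Ω} [Finite S] (p : ℕ) [Fact p.Prime] (hS : IsPGroup p S) (F : Cfsg.FusionSystem S) (hF : F.IsSaturated p) {T : Subgroup Ω} (E : Cfsg.FusionSystem T) (hE : E.IsNormalIn F p) (R : Subgroup Ω) (hTR : T ≤ R) (hRS : R ≤ S) : ∃ D : Cfsg.FusionSystem R, (D.IsSaturated p ∧ D.IsSubsystemOf F ∧ D.hyperfocalSubgroup p = E.hyperfocalSubgroup p ∧ ∀ (D₁ : Cfsg.FusionSystem (D.hyperfocalSubgroup p)) (E₁ : Cfsg.FusionSystem (E.hyperfocalSubgroup p)), D.IsPResidual p D₁ → E.IsPResidual p E₁ → ∀ P : Subgroup Ω, D₁.Hom P = E₁.Hom P) ∧ ∀ D' : Cfsg.FusionSystem R, D'.IsSaturated p → D'.IsSubsystemOf F → D'.hyperfocalSubgroup p = E.hyperfocalSubgroup p → (∀ (D₁ : Cfsg.FusionSystem (D'.hyperfocalSubgroup p)) (E₁ : Cfsg.FusionSystem (E.hyperfocalSubgroup p)), D'.IsPResidual p D₁ → E.IsPResidual p E₁ → ∀ P : Subgroup Ω, D₁.Hom P = E₁.Hom P) → ∀ P : Subgroup Ω, D'.Hom P = D.Hom P := by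
    have hF' : Sat F p := ⟨‹_›, hS, hF⟩
    have h := hF'.nrm hE
    obtain ⟨E₀, a1, a2⟩ := h.satE.exists_pres
    have a3 := h.pres_nrm a1 a2
    have a4 := (hyp_le (p := p) E).trans hTR
    have b1 := a3.sat_prod a4 hRS
    have b2 := a3.ppi_prod a4 hRS
    have b3 := (b2.hyp_eq b1).symm.trans (a2.hyp_eq h.satE)
    refine ⟨prodF a3.toInv p a4 hRS, ⟨b1.sat, prodF_sub', b3, fun D₁ E₁ h1 h2 => ?_⟩, fun D' h1 h2 h3 h4 P => ?_⟩
    · obtain ⟨c1, c2⟩ := b1.pres_iff.1 h1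
      obtain ⟨c3, c4⟩ := h.satE.pres_iff.1 h2
      rw [c4.unique a2 c3 a1.satE]
      exact c2.hom_eq b2 c1 a1.satE b3
    · have c0 := hF'.of_le hRS h1
      obtain ⟨D₁, c1, c2⟩ := c0.exists_pres
      rw [a3.eq_prod c0 h2 (c2.congr (h4 D₁ E₀ (c0.pres_iff.2 ⟨c1.satE, c2⟩) (h.satE.pres_iff.2 ⟨a1.satE, a2⟩)))]

end Cfsg.Agent.S5143
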