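import Cfsg.Statements.S5160
import Cfsg.Agent.Fus.Cent

set_option autoImplicit false
open Cfsg

namespace Cfsg.Agent.S5160
open CF.Fus Cfsg.FusionSystem

/-- Let G be a finite group with nontrivial Sylow p-subgroup S and F its fusion system on S. Suppose (a) no nontrivial proper subgroup of S is strongly closed in F, and (b) the automorphisms of S induced by G are generated by those induced, for R running over the fully normalized radical centric subgroups of F, by the subgroup of N_G(R) generated by its elements of p-power order. Then F is simple. -/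
theorem result {G : Type*} [Group G] [Finite G] (p : ℕ) [Fact p.Prime] (S : Sylow p G) (hS1 : (S : Subgroup G) ≠ ⊥) (ha : ∀ T : Subgroup G, (Cfsg.groupFusionSystem (S : Subgroup G)).StronglyClosed T → T = ⊥ ∨ T = (S : Subgroup G)) (hb : Cfsg.autInducedBy ⊤ (S : Subgroup G) = ⨆ (R : Subgroup G) (_ : (Cfsg.groupFusionSystem (S : Subgroup G)).IsFullyNormalized R ∧ (Cfsg.groupFusionSystem (S : Subgroup G)).IsRadical p R ∧ (Cfsg.groupFusionSystem (S : Subgroup G)).IsCentric R), Cfsg.autInducedBy (Subgroup.closure {g : G | g ∈ Subgroup.normalizer (R : Set G) ∧ ∃ k : ℕ, orderOf g = p ^ k}) (S : Subgroup G)) : (Cfsg.groupFusionSystem (S : Subgroup G)).IsSimple p := by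
  have hF := sat_group S
  refine ⟨hF.sat, hS1, fun T E hE => (ha T hE.1.2.2.2.1).imp_right fun hT => ?_⟩
  subst hT
  have hE' := hF.nrm hE
  refine ⟨rfl, fun P => congrArg (·.Hom P) (hE'.toInv.eq_of_aut ?_)⟩
  rw [autGroup_group le_rfl, hb]
  refine iSup₂_le fun R ⟨h1, _, h3⟩ α hα => ?_
  obtain ⟨g, hg, hn, rfl⟩ := mem_autInducedBy.1 hα
  have hg' : g ∈ NK ⊤ R (E.autGroup R) := by
    refine (Subgroup.closure_le _).2 (fun x hx => ?_) hg
    obtain ⟨hx, k, hk⟩ := hx
    refine mem_NK.2 ⟨⟨Subgroup.mem_top _, hx⟩, ?_⟩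
    have hxF : cA R x ∈ (groupFusionSystem (S : Subgroup G)).autGroup R := by
      rw [autGroup_group h1.1]; exact cA_mem_autInducedBy (Subgroup.mem_top _)
    obtain ⟨b, hb, hb'⟩ := (hF.syl_of_fn h1).exists_conj_elt hxF (k := k)
      (by rw [← cA_pow hx, ← hk, pow_orderOf_eq_one, cA_one])
    have := hE'.toInv.conj_mem h1.1 (Subgroup.inv_mem _ hb) (autInducedBy_le E h1.1 hb')
    simpa [mul_assoc] using this
  refine hF.aut_le_of_centric hE'.satE hE'.sub h3 ?_ ((mor_fn h1.1 hg'.2).congr fun x hx => ?_)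
  · rw [autGroup_group le_rfl]; exact cA_mem_autInducedBy (Subgroup.mem_top _)
  · rw [fn_cA hn (h1.1 hx), fn_cA hg'.1.2 hx]

end Cfsg.Agent.S5160
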