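import Cfsg.Statements.S5163
import Cfsg.Agent.Chev.FusS

set_option autoImplicit false
open Cfsg

namespace Cfsg.Agent.S5163

/-- For a finite field K of characteristic p and n ≥ 3, the p-fusion system of the projective special linear group PSL_n(K) on a Sylow p-subgroup is simple. -/
theorem result {K : Type*} [Field K] [Fintype K] (p : ℕ) [Fact p.Prime] [CharP K p] (n : ℕ) (hn : 3 ≤ n) (S : Sylow p (Matrix.ProjectiveSpecialLinearGroup (Fin n) K)) : (Cfsg.groupFusionSystem (S : Subgroup (Matrix.ProjectiveSpecialLinearGroup (Fin n) K))).IsSimple p := by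
  obtain ⟨n, rfl⟩ : ∃ m, n = m + 1 := ⟨n - 1, by omega⟩
  have : Nontrivial (Fin n) := Fin.nontrivial_iff_two_le.2 (by omega)
  have hl := CF.Chev.sameLen_cbA (n := n)
  refine CF.Chev.StRep.fusion_simple (CF.Chev.faithful_slRep n K (by omega)) (CF.Chev.slRep_Gp n K)
    CF.Chev.connA hl.n3 (fun a b e e' => absurd (CF.Chev.RootSys.eq_of_A_two_len e (hl _ _)) e')
    (.inr fun r _ _ => ?_) S
  obtain ⟨b, hb, h⟩ := CF.Chev.noA1A (n := n) (by omega) r
  have := CF.Chev.RootSys.abs_A_le_of_len (hl b r) hb.symm (CF.Chev.RootSys.ne_neg_of_A_nonneg h.le)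
  exact ⟨b, by omega, by rw [CF.Chev.RootSys.A_symm_of_len (hl r b)]; omega⟩

end Cfsg.Agent.S5163
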