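import Cfsg.Statements.S5171
import Cfsg.Agent.Chev.FusS

set_option autoImplicit false
open Cfsg

namespace Cfsg.Agent.S5171

/-- For a finite field K of characteristic p and m ≥ 2, excluding the case m = 2 with K of two elements, the p-fusion system of the projective symplectic group PSp_{2m}(K) on a Sylow p-subgroup is simple. -/
theorem result {K : Type*} [Field K] [Fintype K] (p : ℕ) [Fact p.Prime] [CharP K p] (m : ℕ) (hm : 2 ≤ m) (hex : m = 2 → 3 ≤ Fintype.card K) (S : Sylow p (Cfsg.PSp m K)) : (Cfsg.groupFusionSystem (S : Subgroup (Cfsg.PSp m K))).IsSimple p := by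
  have : Nontrivial (Fin m) := Fin.nontrivial_iff_two_le.2 hm
  refine CF.Chev.StRep.fusion_simple (CF.Chev.faithful_spRep m K (by omega)) (CF.Chev.spRep_Gp m K)
    CF.Chev.connC (CF.Chev.bC m).cb_n3 (fun r s e e' => ?_) ?_ S
  · obtain ⟨a, hr, l⟩ | ⟨a, a', hr, f, l⟩ := (CF.Chev.bC m).casesC r
    · exact (CF.Chev.bC m).even_A_long hr
    · have := CF.Chev.RootSys.len_of_A (CF.Chev.RootSys.A_eq_one_of_two_le e.ge e')
      rw [e, l] at this
      obtain ⟨x, hs, l'⟩ | ⟨x, y, hs, f', l'⟩ := (CF.Chev.bC m).casesC s <;> rw [l'] at this <;> omega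
  · obtain h | h := hm.eq_or_lt
    · exact .inl (CF.BN.Suz.exists_ne_zero_ne_one (hex h.symm))
    · exact .inr ((CF.Chev.bC m).cTypeC CF.Chev.connC.noA1 h).nb

end Cfsg.Agent.S5171
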