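import Cfsg.Statements.S5311
import Cfsg.Agent.Fus.Comp

set_option autoImplicit false
open Cfsg

namespace Cfsg.Agent.S5311
open CF.Fus Cfsg.FusionSystem

/-- The layer of a saturated fusion system F over a finite p-group S is characteristic in F: for every automorphism α of S that is an automorphism of F (α and its inverse are morphisms from F to F) and every layer E of F over T, α carries T onto T and, for every map φ of E with source P, the map induced by α on α(P) (that is, α ∘ φ ∘ α⁻¹) is a map of E. -/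
theorem result {Ω : Type*} [Group Ω] {S : Subgroup Ω} [Finite S] (p : ℕ) [Fact p.Prime] (hS : IsPGroup p S) (F : Cfsg.FusionSystem S) (hF : F.IsSaturated p)
    (α : ↥S ≃* ↥S) (hα : F.IsMorphism F (S.subtype.comp α.toMonoidHom))
    (hα' : F.IsMorphism F (S.subtype.comp α.symm.toMonoidHom))
    {T : Subgroup Ω} (E : Cfsg.FusionSystem T) (hE : E.IsLayerOf F p) :
    Cfsg.FusionSystem.imageAlong (S.subtype.comp α.toMonoidHom) T = T ∧
      ∀ (P : Subgroup Ω) (φ : ↥P →* Ω), φ ∈ E.Hom P →
        ∀ φ' : ↥(Cfsg.FusionSystem.imageAlong (S.subtype.comp α.toMonoidHom) P) →* Ω,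
          Cfsg.FusionSystem.InducedAlong (S.subtype.comp α.toMonoidHom) φ φ' →
            φ' ∈ E.Hom (Cfsg.FusionSystem.imageAlong (S.subtype.comp α.toMonoidHom) P) := by
  have hF' : Sat F p := ⟨‹_›, hS, hF⟩
  have e1 : ∀ x : S, (S.subtype.comp α.toMonoidHom) x = fn (α : MulAut S) x := fun x => (fn_of_mem (α : MulAut S) x.2).symm
  have e2 : ∀ x : S, (S.subtype.comp α.symm.toMonoidHom) x = fn (α : MulAut S)⁻¹ x := fun x =>
    (fn_of_mem (α : MulAut S)⁻¹ x.2).symm
  have h := hF'.lay_iff.1 hE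
  have a := h.fiso_self (fiso_of_mph ((mph_iff _ e1).1 hα) ((mph_iff _ e2).1 hα') (fun x _ => fn_inv_fn _ x)
    fun x _ => fn_fn_inv _ x)
  refine ⟨(imageAlong_eq _ e1 h.nrm.le).trans a.img_eq, fun P φ hφ φ' hi => ?_⟩
  have b := mor_ext hφ
  have c := (inducedAlong_iff _ e1 φ φ' (f := ext φ) (f' := ext φ') (fun x => (ext_of_mem φ x.2).symm)
    fun x => (ext_of_mem φ' x.2).symm).1 hi
  have d := a.mph.mor b c.2.2.2
  rw [← imageAlong_eq _ e1 c.1] at d
  exact mem_hom_iff.2 d

end Cfsg.Agent.S5311
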