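import Cfsg.Statements.S5345
import Cfsg.Agent.Fisch.TT3
-- import your own Cfsg.Agent.* helpers here

set_option autoImplicit false
open Cfsg

namespace Cfsg.Agent.S5345

open CF.Fisch
open scoped commutatorElement


/-- Let D be a conjugation-invariant generating set of 3-transpositions of a finite group G and T a Sylow 2-subgroup of G. Then the members of D lying in T generate an abelian subgroup, and their number is the width of D (the largest number of pairwise commuting members of D). -/
theorem result {G : Type*} [Group G] [Finite G] {D : Set G} (hD : Cfsg.IsThreeTranspositionGroup D) (T : Sylow 2 G) : IsMulCommutative (Subgroup.closure {d : G | d ∈ D ∧ d ∈ T}) ∧ {d : G | d ∈ D ∧ d ∈ T}.ncard = Cfsg.commutingWidth D := by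
  refine ⟨Subgroup.isMulCommutative_closure fun a ha b hb => ?_, tt_sylow_width hD.1 hD.2.1 T⟩
  exact commute_of_mem T.isPGroup' hD.1 ha.1 hb.1 (mul_mem ha.2 hb.2)

end Cfsg.Agent.S5345
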