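import Cfsg.Statements.S5346
import Cfsg.Agent.Fisch.TT3
-- import your own Cfsg.Agent.* helpers here

set_option autoImplicit false
open Cfsg

namespace Cfsg.Agent.S5346

open CF.Fisch
open scoped commutatorElement


/-- Let D be a conjugation-invariant generating set of 3-transpositions of a finite group G and d a member of D. Then D has width 1 (no two different members of D commute) if and only if G is the product of the subgroup generated by d with the largest normal 3-subgroup of G. -/
theorem result {G : Type*} [Group G] [Finite G] {D : Set G} (hD : Cfsg.IsThreeTranspositionGroup D) {d : G} (hd : d ∈ D) : Cfsg.commutingWidth D = 1 ↔ Subgroup.zpowers d ⊔ Cfsg.pCore 3 G = ⊤ := by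
  have : Fact (Nat.Prime 3) := ⟨by norm_num⟩
  constructor
  · intro h
    exact zpowers_sup_eq_top hD hd fun e he => w1_mem_pCore (fun x hx => tt_sq hD.1 hx) hD.2.1
      (braid_of_width_one hD.1 (width_le_one_iff.1 h.le)) hd he
  · intro h
    refine le_antisymm (width_le_one_iff.2 fun a ha b hb hab => ?_) ?_
    · have key : ∀ x ∈ D, d * x ∈ Cfsg.pCore 3 G := by
        intro x hx
        rcases mem_or_mul_mem_of_sup (tt_sq hD.1 hd) h x with h1 | h1
        · exact absurd (eq_one_of_mem_pGroup (q := 2) (by norm_num) CF.Solv.pCore_isPGroup h1
            (by rw [sq, tt_sq hD.1 hx])) (tt_ne_one hD.1 hx)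
        · exact h1
      refine eq_of_commute_of_mem (N := Cfsg.pCore 3 G) CF.Solv.pCore_isPGroup hD.1 ha hb ?_ hab
      have := mul_mem (inv_mem (key a ha)) (key b hb)
      rwa [mul_inv_rev, mul_assoc, inv_mul_cancel_left, tt_inv hD.1 ha] at this
    · have := le_width (D := D) (E := {d}) (by simpa using hd) (by simp)
      simpa using this

end Cfsg.Agent.S5346
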