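import Cfsg.Statements.S5348
import Cfsg.Agent.Fisch.TT2
-- import your own Cfsg.Agent.* helpers here

set_option autoImplicit false
open Cfsg

namespace Cfsg.Agent.S5348

open CF.Fisch
open scoped commutatorElement


/-- Let D be a conjugation-invariant generating set of 3-transpositions of a finite group G and d a member of D. Let V be the set of members of D commuting with exactly the same members of D as d, and W the set of members w of D such that the members of D other than w commuting with w are precisely the members of D other than d commuting with d. Then V = {d} or W = {d}. -/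
theorem result {G : Type*} [Group G] [Finite G] {D : Set G} (hD : Cfsg.IsThreeTranspositionGroup D) {d : G} (hd : d ∈ D) : {v : G | v ∈ D ∧ ∀ e ∈ D, Commute v e ↔ Commute d e} = {d} ∨ {w : G | w ∈ D ∧ {y : G | y ∈ D ∧ y ≠ d ∧ Commute d y} = {y : G | y ∈ D ∧ y ≠ w ∧ Commute w y}} = {d} := by
  by_contra h
  push Not at h
  obtain ⟨h1, h2⟩ := h
  have h1' : ∃ v ∈ D, Vrel D v d ∧ v ≠ d := by
    by_contra hn
    push Not at hn
    apply h1
    ext v
    exact ⟨fun hv => hn v hv.1 hv.2, by rintro rfl; exact ⟨hd, fun _ _ => Iff.rfl⟩⟩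
  have h2' : ∃ w ∈ D, Wrel D d w ∧ w ≠ d := by
    by_contra hn
    push Not at hn
    apply h2
    ext v
    exact ⟨fun hv => hn v hv.1 hv.2, by rintro rfl; exact ⟨hd, rfl⟩⟩
  obtain ⟨v, hv, hv1, hv2⟩ := h1'
  obtain ⟨w, hw, hw1, hw2⟩ := h2'
  rcases V_or_W hd hv hw hv1 hw1 with h | h
  exacts [hv2 h, hw2 h]

end Cfsg.Agent.S5348
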