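import Cfsg.Statements.S5349
import Cfsg.Agent.Fisch.TT2
-- import your own Cfsg.Agent.* helpers here

set_option autoImplicit false
open Cfsg

namespace Cfsg.Agent.S5349

open CF.Fisch
open scoped commutatorElement


/-- Let D be a conjugacy class of 3-transpositions generating the finite group G, with at least two members, and d a member of D. Then the set of members of D commuting with exactly the same members of D as d coincides with the set of members of D lying in the coset of d modulo the largest normal 2-subgroup of G, and also with the orbit of d under conjugation by that normal 2-subgroup. -/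
theorem result {G : Type*} [Group G] [Finite G] {D : Set G} (hD : Cfsg.IsThreeTranspositionClass D) (hD2 : ∃ a ∈ D, ∃ b ∈ D, a ≠ b) {d : G} (hd : d ∈ D) : {v : G | v ∈ D ∧ ∀ e ∈ D, Commute v e ↔ Commute d e} = {v : G | v ∈ D ∧ d⁻¹ * v ∈ Cfsg.pCore 2 G} ∧ {v : G | v ∈ D ∧ ∀ e ∈ D, Commute v e ↔ Commute d e} = {v : G | ∃ g ∈ Cfsg.pCore 2 G, v = g * d * g⁻¹} := by
  have hc := ttc_conj hD
  have hT := hD.1
  have hV := invRel_V hc
  constructor
  · ext v
    rw [tt_inv hT hd]
    exact ⟨fun hv => ⟨hv.1, V_mem_pCore hT hc hd hv.1 (hV.symm hv.2)⟩,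
      fun hv => ⟨hv.1, hV.symm (V_of_mem CF.Solv.pCore_isPGroup hT hd hv.1 hv.2)⟩⟩
  · ext v
    constructor
    · rintro ⟨hv, h⟩
      obtain ⟨e, he, hn⟩ := ttc_exists_not_commute hD hD2 hd
      have hn' : ¬ Commute v e := fun h' => hn ((h e he).1 h')
      have hab : Commute d v := ((h d hd).2 (Commute.refl d)).symm
      have := V_conj_eq (tt_sq hT hd) (tt_sq hT hv) (tt_sq hT he) hab
        (tt_braid hT he hd fun h => hn h.symm) (tt_braid hT he hv fun h => hn' h.symm)
      refine ⟨_, ?_, this.symm⟩
      have hm := (inferInstance : (Cfsg.pCore 2 G).Normal).conj_mem _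
        (V_mem_pCore hT hc hd hv (hV.symm h)) e
      rwa [tt_inv hT he] at hm
    · rintro ⟨g, hg, rfl⟩
      exact ⟨hc g d hd, hV.symm (V_of_mem CF.Solv.pCore_isPGroup hT hd (hc g d hd)
        (tt_mul_conj_mem (tt_sq hT hd) hg))⟩

end Cfsg.Agent.S5349
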