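import Cfsg.Statements.S5350
import Cfsg.Agent.Fisch.TT2
-- import your own Cfsg.Agent.* helpers here

set_option autoImplicit false
open Cfsg

namespace Cfsg.Agent.S5350

open CF.Fisch
open scoped commutatorElement


/-- Let D be a conjugacy class of 3-transpositions generating the finite group G, with at least two members, and d a member of D. Then the set of members w of D whose commuting partners in D (other than w) are exactly those of d (other than d) coincides with the set of members of D lying in the coset of d modulo the largest normal 3-subgroup of G, and also with the orbit of d under conjugation by that normal 3-subgroup. -/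
theorem result {G : Type*} [Group G] [Finite G] {D : Set G} (hD : Cfsg.IsThreeTranspositionClass D) (hD2 : ∃ a ∈ D, ∃ b ∈ D, a ≠ b) {d : G} (hd : d ∈ D) : {w : G | w ∈ D ∧ {y : G | y ∈ D ∧ y ≠ d ∧ Commute d y} = {y : G | y ∈ D ∧ y ≠ w ∧ Commute w y}} = {w : G | w ∈ D ∧ d⁻¹ * w ∈ Cfsg.pCore 3 G} ∧ {w : G | w ∈ D ∧ {y : G | y ∈ D ∧ y ≠ d ∧ Commute d y} = {y : G | y ∈ D ∧ y ≠ w ∧ Commute w y}} = {w : G | ∃ g ∈ Cfsg.pCore 3 G, w = g * d * g⁻¹} := by
  have : Fact (Nat.Prime 3) := ⟨by norm_num⟩
  have hc := ttc_conj hD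
  have hT := hD.1
  constructor
  · ext v
    rw [tt_inv hT hd]
    exact ⟨fun hv => ⟨hv.1, W_mem_pCore hT hc hd hv.1 hv.2⟩,
      fun hv => ⟨hv.1, W_of_mem CF.Solv.pCore_isPGroup hT hd hv.1 hv.2⟩⟩
  · ext v
    constructor
    · rintro ⟨hv, h⟩
      by_cases hcm : Commute d v
      · exact ⟨1, one_mem _, by simpa using (W_eq_of_commute hv h hcm).symm⟩
      · exact ⟨d * v, W_mem_pCore hT hc hd hv h, (braid_cj (tt_braid hT hd hv hcm)).symm⟩
    · rintro ⟨g, hg, rfl⟩
      exact ⟨hc g d hd, W_of_mem CF.Solv.pCore_isPGroup hT hd (hc g d hd)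
        (tt_mul_conj_mem (tt_sq hT hd) hg)⟩

end Cfsg.Agent.S5350
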