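import Cfsg.Statements.S5351
import Cfsg.Agent.Fisch.TT3
-- import your own Cfsg.Agent.* helpers here

set_option autoImplicit false
open Cfsg

namespace Cfsg.Agent.S5351

open CF.Fisch
open scoped commutatorElement


/-- Let D be a conjugacy class of 3-transpositions generating the finite group G, with at least two members. Then for every prime p > 3 the largest normal p-subgroup of G is central, and exactly one of the following holds: the largest normal 2-subgroup of G is not central; the largest normal 3-subgroup of G is not central; the layer of G (the product of its components) is non-trivial. -/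
theorem result {G : Type*} [Group G] [Finite G] {D : Set G} (hD : Cfsg.IsThreeTranspositionClass D) (hD2 : ∃ a ∈ D, ∃ b ∈ D, a ≠ b) : (∀ p : ℕ, p.Prime → 3 < p → Cfsg.pCore p G ≤ Subgroup.center G) ∧ ((¬ Cfsg.pCore 2 G ≤ Subgroup.center G ∧ Cfsg.pCore 3 G ≤ Subgroup.center G ∧ Cfsg.layer G = ⊥) ∨ (Cfsg.pCore 2 G ≤ Subgroup.center G ∧ ¬ Cfsg.pCore 3 G ≤ Subgroup.center G ∧ Cfsg.layer G = ⊥) ∨ (Cfsg.pCore 2 G ≤ Subgroup.center G ∧ Cfsg.pCore 3 G ≤ Subgroup.center G ∧ Cfsg.layer G ≠ ⊥)) := by
  refine ⟨fun p hp hp3 => tt_pCore_le_center (ttc_group hD) hp hp3, ?_⟩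
  by_cases hL : Cfsg.layer G = ⊥
  · by_cases h2 : Cfsg.pCore 2 G ≤ Subgroup.center G
    · by_cases h3 : Cfsg.pCore 3 G ≤ Subgroup.center G
      · obtain ⟨L, hL'⟩ := ttc_exists_comp hD hD2 h2 h3
        exact absurd hL' (CF.Sig.layer_eq_bot_iff.1 hL L)
      · exact Or.inr (Or.inl ⟨h2, h3, hL⟩)
    · refine Or.inl ⟨h2, central_of_W_trivial (ttc_group hD) fun a ha b hb hab => ?_, hL⟩
      by_contra hne
      refine h2 (ttc_le_center_of hD ha fun g hg => commute_iff_conj'.2 ?_)
      have hc := ttc_conj hD g a ha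
      rcases V_or_W ha hc hb ((invRel_V (ttc_conj hD)).symm (V_of_mem CF.Solv.pCore_isPGroup hD.1 ha hc
        (tt_mul_conj_mem (tt_sq hD.1 ha) hg))) hab with h | h
      · exact h
      · exact absurd h.symm hne
  · obtain ⟨L, hL'⟩ := CF.Sig.hasComponent_iff.1 (CF.Sig.hasComponent_iff_layer_ne_bot.2 hL)
    obtain ⟨h2, h3⟩ := ttc_pCore_central_of_comp hD hL'
    exact Or.inr (Or.inr ⟨h2, h3, hL⟩)

end Cfsg.Agent.S5351
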