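import Cfsg.Statements.S5354
import Cfsg.Agent.Fisch.TT4
-- import your own Cfsg.Agent.* helpers here

set_option autoImplicit false
open Cfsg

namespace Cfsg.Agent.S5354

open CF.Fisch
open scoped commutatorElement


/-- Let D be a conjugation-invariant generating set of 3-transpositions of the finite group G on which G acts primitively by conjugation, and suppose two different members of D commute (width at least 2). Then G has a quasisimple normal subgroup L of index at most 2 with the generalized Fitting subgroup of G equal to L times the centre, the commuting graph of D is connected, and for d in D the subgroup generated by the members of D commuting with d is a maximal D-subgroup: it is proper, and every subgroup generated by members of D that contains it is either it or G. -/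
theorem result {G : Type*} [Group G] [Finite G] {D : Set G} (hD : Cfsg.IsThreeTranspositionGroup D) (hprim : Cfsg.IsPrimitiveUnderConj D) (hw : ∃ a ∈ D, ∃ b ∈ D, a ≠ b ∧ Commute a b) : (∃ L : Subgroup G, L.Normal ∧ Cfsg.IsQuasisimple L ∧ L.index ≤ 2 ∧ Cfsg.generalizedFittingSubgroup G = L ⊔ Subgroup.center G) ∧ (Cfsg.commutingGraph D).Connected ∧ ∀ d ∈ D, Subgroup.closure {y : G | y ∈ D ∧ Commute d y} ≠ ⊤ ∧ ∀ H : Subgroup G, Cfsg.IsDSubgroup D H → Subgroup.closure {y : G | y ∈ D ∧ Commute d y} ≤ H → H = Subgroup.closure {y : G | y ∈ D ∧ Commute d y} ∨ H = ⊤ := by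
  have hP : PrimTT D := ⟨hD, hprim, hw⟩
  obtain ⟨L, hL⟩ := hP.exists_comp
  refine ⟨⟨L, tt_comp_normal hD hL, hL.2, ttc_index_le_two hP.cls hL hP.conn,
    ttc_fstar_eq hP.cls hL⟩, hP.conn, fun d hd => ⟨fun h => ?_, fun H hH hle => ?_⟩⟩
  · obtain ⟨e, -, hn⟩ := ttc_exists_not_commute hP.cls hprim.2.1 hd
    have : e ∈ Subgroup.closure (perp D d) := by
      have h' : Subgroup.closure (perp D d) = ⊤ := h
      rw [h']; trivial
    exact hn (Subgroup.mem_centralizer_singleton_iff.1 (closure_perp_le d this)).symm
  · by_cases h : ∃ a ∈ D, a ∈ H ∧ ¬ Commute d a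
    · obtain ⟨a, ha, haH, hn⟩ := h
      exact Or.inr (hP.eq_top hd ((Subgroup.closure_le _).1 hle) ha haH hn)
    · push Not at h
      refine Or.inl (le_antisymm ?_ hle)
      rw [← hH]
      exact Subgroup.closure_mono fun a ha => ⟨ha.1, h a ha.1 ha.2⟩

end Cfsg.Agent.S5354
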