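import Cfsg.Statements.S5355
import Cfsg.Agent.Fisch.TT4
-- import your own Cfsg.Agent.* helpers here

set_option autoImplicit false
open Cfsg

namespace Cfsg.Agent.S5355

open CF.Fisch
open scoped commutatorElement


/-- Let D be a conjugacy class of 3-transpositions generating the finite group G, with at least two members, and d a member of D. Suppose that every member of D commuting with d commutes with exactly the same members of D as d does, and that exactly one member of D other than d commutes with d. Then G is isomorphic to the symmetric group of degree 4. -/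
theorem result {G : Type*} [Group G] [Finite G] {D : Set G} (hD : Cfsg.IsThreeTranspositionClass D) (hD2 : ∃ a ∈ D, ∃ b ∈ D, a ≠ b) {d : G} (hd : d ∈ D) (hV : {y : G | y ∈ D ∧ Commute d y} = {v : G | v ∈ D ∧ ∀ e ∈ D, Commute v e ↔ Commute d e}) (hm : {y : G | y ∈ D ∧ Commute d y}.ncard = 2) : Nonempty (G ≃* Equiv.Perm (Fin 4)) := by
  have hT := hD.1
  have hc := ttc_conj hD
  have h2 : ∀ a ∈ D, ∀ x ∈ Dd D a, ∀ y ∈ Dd D a, x = y := by
    intro a ha x hx y hy
    have h1 : (perp D a).ncard = 2 := (ttc_ncard_perp hD ha hd).trans hm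
    by_contra hne
    have : ({a, x, y} : Set G).ncard ≤ 2 := by
      rw [← h1]
      refine Set.ncard_le_ncard ?_
      rintro z (rfl | rfl | rfl)
      exacts [⟨ha, Commute.refl _⟩, Dd_subset_perp _ hx, Dd_subset_perp _ hy]
    rw [Set.ncard_eq_three.2 ⟨a, x, y, hx.2.1.symm, hy.2.1.symm, hne, rfl⟩] at this
    omega
  obtain ⟨d', hd'⟩ : (Dd D d).Nonempty := by
    obtain ⟨x, y, hxy, e⟩ := Set.ncard_eq_two.1 hm
    have hx : x ∈ perp D d := by unfold perp; rw [e]; simp
    have hy : y ∈ perp D d := by unfold perp; rw [e]; simp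
    by_cases h : x = d
    · exact ⟨y, hy.1, fun h' => hxy (h.trans h'.symm), hy.2⟩
    · exact ⟨x, hx.1, h, hx.2⟩
  have hV' : Vrel D d' d := by
    have : d' ∈ {y : G | y ∈ D ∧ Commute d y} := Dd_subset_perp d hd'
    rw [hV] at this
    exact this.2
  obtain ⟨e, he, hde⟩ := ttc_exists_not_commute hD hD2 hd
  have hed' : ¬ Commute e d' := fun c => hde ((hV' e he).1 c.symm)
  obtain ⟨φ, h1, h3, h4, hr⟩ := exists_S4_hom (tt_sq hT hd) (tt_sq hT he) (tt_sq hT hd'.1) hd'.2.2
    (tt_braid hT hd he hde) (tt_braid hT he hd'.1 hed')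
  have hinj := perm4_ker (φ := φ) (by rw [h1, h4]; exact hd'.2.1.symm)
  refine ⟨(MulEquiv.ofBijective φ ⟨hinj, ?_⟩).symm⟩
  rw [← MonoidHom.range_eq_top, hr, eq_top_iff, ← hD.2.2, Subgroup.closure_le]
  set K := Subgroup.closure ({d, e, d'} : Set G)
  have dK : d ∈ K := Subgroup.subset_closure (by simp)
  have eK : e ∈ K := Subgroup.subset_closure (by simp)
  have d'K : d' ∈ K := Subgroup.subset_closure (by simp)
  -- partners
  have part : ∀ y ∈ D, ¬ Commute d y → d * (d' * y * d') * d ∈ Dd D y := by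
    intro y hy hn
    have hn' : ¬ Commute d' y := fun c => hn ((hV' y hy).1 c)
    exact ⟨tt_mem hT hc hd (tt_mem hT hc hd'.1 hy), string_ne (tt_sq hT hd) hd'.2.1.symm
      (tt_braid hT hd hy hn) (tt_braid hT hd'.1 hy hn'), string_commute hd'.2.2
      (tt_braid hT hd hy hn) (tt_braid hT hd'.1 hy hn')⟩
  have perpK : ∀ a ∈ D, a ∈ K → ∀ y ∈ D, Commute a y → y ∈ K := by
    intro a ha haK y hy hay
    by_cases h0 : y = a
    · rwa [h0]
    by_cases h5 : Commute d a
    · by_cases h6 : a = d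
      · rw [h2 d hd y ⟨hy, h6 ▸ h0, h6 ▸ hay⟩ d' hd']; exact d'K
      · have h7 := h2 d hd a ⟨ha, h6, h5⟩ d' hd'
        rw [h2 a ha y ⟨hy, h0, hay⟩ d ⟨hd, Ne.symm h6, h5.symm⟩]; exact dK
    · rw [h2 a ha y ⟨hy, h0, hay⟩ _ (part a ha h5)]
      exact mul_mem (mul_mem dK (mul_mem (mul_mem d'K haK) d'K)) dK
  intro x hx
  by_contra hxK
  have hx2 := tt_sq hT hx
  have hbr : ∀ a ∈ D, a ∈ K → ¬ Commute a x := fun a ha haK c => hxK (perpK a ha haK x hx c)
  have key : ∀ a ∈ D, a ∈ K → (x * d * d' * x) * a * (x * d * d' * x)⁻¹ ∈ Dd D a := by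
    intro a ha haK
    have hy := tt_mem hT hc hx ha
    have hn : ¬ Commute d (x * a * x) := by
      intro c
      have h5 := perpK d hd dK _ hy c
      apply hxK
      rw [← tt_braid hT ha hx (hbr a ha haK)] at h5
      rw [← q_inv (tt_sq hT ha) (rfl : a * x * a = _)]
      exact mul_mem (mul_mem haK h5) haK
    have h6 := (conj_mem_Dd hc (g := x)).2 (part _ hy hn)
    rw [tt_inv hT hx, q_inv hx2 rfl] at h6
    convert h6 using 1
    simp only [mul_inv_rev, tt_inv hT hx, tt_inv hT hd, tt_inv hT hd'.1]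
    group
  have k1 := h2 d hd _ (key d hd dK) _ hd'
  have k2 := h2 e he _ (key e he eK) _ (part e he hde)
  have k3 := (key _ (tt_mem hT hc hd he) (mul_mem (mul_mem dK eK) dK)).2.1
  apply k3
  set v := x * d * d' * x
  calc v * (d * e * d) * v⁻¹ = (v * d * v⁻¹) * (v * e * v⁻¹) * (v * d * v⁻¹) := by group
    _ = d' * (d * (d' * e * d') * d) * d' := by rw [k1, k2]
    _ = (d' * d) * d' * e * (d' * (d * d')) := by group
    _ = d * (d' * d') * e * ((d' * d') * d) := by rw [← hd'.2.2.eq]; simp only [mul_assoc]; rw [hd'.2.2.eq]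
    _ = d * e * d := by rw [tt_sq hT hd'.1]; group

end Cfsg.Agent.S5355
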