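import Cfsg.Statements.S5356
import Cfsg.Agent.Fisch.TT4
-- import your own Cfsg.Agent.* helpers here

set_option autoImplicit false
open Cfsg

namespace Cfsg.Agent.S5356

open CF.Fisch
open scoped commutatorElement


/-- Let D be a conjugacy class of 3-transpositions generating the finite group G, with at least two members, and d a member of D such that every member of D commuting with d commutes with exactly the same members of D as d. Then there is a Sylow 3-subgroup P of G normalized by d such that G is generated by d, P and the largest normal 2-subgroup of G. -/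
theorem result {G : Type*} [Group G] [Finite G] {D : Set G} (hD : Cfsg.IsThreeTranspositionClass D) (hD2 : ∃ a ∈ D, ∃ b ∈ D, a ≠ b) {d : G} (hd : d ∈ D) (hV : {y : G | y ∈ D ∧ Commute d y} = {v : G | v ∈ D ∧ ∀ e ∈ D, Commute v e ↔ Commute d e}) : ∃ P : Sylow 3 G, d ∈ Subgroup.normalizer (P : Set G) ∧ Subgroup.zpowers d ⊔ (P : Subgroup G) ⊔ Cfsg.pCore 2 G = ⊤ := by
  have h3p : Fact (Nat.Prime 3) := ⟨by norm_num⟩
  have hT := hD.1
  have hc := ttc_conj hD
  have hV1 : ∀ a ∈ D, ∀ b ∈ D, Commute a b → Vrel D b a := by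
    intro a ha b hb hab
    obtain ⟨g, rfl⟩ := ttc_trans hD hd ha
    have h1 : g⁻¹ * b * g ∈ perp D d :=
      (conj_mem_perp hc (g := g)).1 (by simpa [mul_assoc] using ⟨hb, by simpa [mul_assoc] using hab⟩)
    unfold perp at h1
    rw [hV] at h1
    simpa [mul_assoc] using (invRel_V hc).conj g h1.2
  obtain ⟨e, he, hde⟩ := ttc_exists_not_commute hD hD2 hd
  have hinv : ∀ x ∈ D, d ∈ Subgroup.normalizer (Subgroup.zpowers (d * x) : Set G) := by
    intro x hx
    have hi := CF.Invol.left_inverts_mul (tt_sq hT hd) (tt_sq hT hx)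
    rw [Subgroup.mem_normalizer_iff]
    intro y
    constructor
    · intro hy
      rw [CF.Invol.inverts_of_mem_zpowers hi hy]; exact inv_mem hy
    · intro hy
      have := CF.Invol.inverts_of_mem_zpowers hi hy
      rw [tt_inv hT hd, q_inv (tt_sq hT hd) rfl] at this
      rw [this, tt_inv hT hd] at *
      exact inv_mem hy
  obtain ⟨R, ⟨hR1, hR2, hR3⟩, hmax⟩ := Set.exists_max_image
    {R : Subgroup G | IsPGroup 3 R ∧ d ∈ Subgroup.normalizer (R : Set G) ∧ d * e ∈ R}
    (fun R => Nat.card R) (Set.toFinite _) ⟨Subgroup.zpowers (d * e), IsPGroup.of_card (n := 1) (by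
        rw [Nat.card_zpowers, tt_orderOf_three hT hd he hde]; norm_num), hinv e he,
        Subgroup.mem_zpowers _⟩
  have hmax' : ∀ S : Subgroup G, IsPGroup 3 S → R ≤ S → d ∈ Subgroup.normalizer (S : Set G) →
      S = R := fun S h1 h2 h3 =>
    (Subgroup.eq_of_le_of_card_ge h2 (hmax S ⟨h1, h3, h2 hR3⟩)).symm
  have hN : ∀ n ∈ Subgroup.normalizer (R : Set G), d * (n * d * n⁻¹) ∈ R := by
    intro n hn
    have hx := hc n d hd
    set x := n * d * n⁻¹
    have hxN : x ∈ Subgroup.normalizer (R : Set G) := mul_mem (mul_mem hn hR2) (inv_mem hn)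
    have huN : d * x ∈ Subgroup.normalizer (R : Set G) := mul_mem hR2 hxN
    by_cases hdx : Commute d x
    · have hq : d * x ∈ Cfsg.pCore 2 G := V_mem_pCore hT hc hd hx (hV1 x hx d hd hdx.symm)
      have h1 : (d * x) * (d * e) * (d * x)⁻¹ * (d * e)⁻¹ = 1 := by
        have m1 : (d * x) * (d * e) * (d * x)⁻¹ * (d * e)⁻¹ ∈ R :=
          mul_mem ((Subgroup.mem_normalizer_iff.1 huN _).1 hR3) (inv_mem hR3)
        have m2 : (d * x) * (d * e) * (d * x)⁻¹ * (d * e)⁻¹ ∈ Cfsg.pCore 2 G := by
          have := mul_mem hq ((inferInstance : (Cfsg.pCore 2 G).Normal).conj_mem _ (inv_mem hq) (d * e))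
          simpa [mul_assoc] using this
        obtain ⟨k, hk⟩ := hR1 ⟨_, m1⟩
        exact eq_one_of_mem_pGroup (q := 3 ^ k) (Nat.Coprime.pow_right k (by norm_num)) CF.Solv.pCore_isPGroup m2
          (congrArg Subtype.val hk)
      rw [mul_inv_eq_one, ← commute_iff_conj'] at h1
      have h2 : Commute (d * x) e := by
        have := ((Commute.refl d).mul_left hdx.symm).mul_right h1
        rwa [← mul_assoc d d e, tt_sq hT hd, one_mul] at this
      have hxe : ¬ Commute x e := fun c => hde ((hV1 d hd x hx hdx e he).1 c)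
      by_cases e1 : d = x
      · rw [← e1, tt_sq hT hd]; exact one_mem _
      · exfalso
        refine string_ne (tt_sq hT hd) e1 (tt_braid hT hd he hde) (tt_braid hT hx he hxe) ?_
        have := commute_iff_conj'.1 h2
        rw [mul_inv_rev, tt_inv hT hd, tt_inv hT hx] at this
        simpa only [← mul_assoc] using this
    · have hz : IsPGroup 3 (Subgroup.zpowers (d * x)) := IsPGroup.of_card (n := 1) (by
        rw [Nat.card_zpowers, tt_orderOf_three hT hd hx hdx]; norm_num)
      have := hmax' (Subgroup.zpowers (d * x) ⊔ R) (hz.to_sup_of_normal_right' hR1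
        ((Subgroup.zpowers_le).2 huN)) le_sup_right ?_
      · rw [← this]; exact Subgroup.mem_sup_left (Subgroup.mem_zpowers _)
      · exact Subgroup.normalizer_inf_normalizer_le_normalizer_sup _ _ ⟨hinv x hx, hR2⟩
  obtain ⟨P, hP⟩ := hR1.exists_le_sylow
  have hPR : (P : Subgroup G) = R := by
    by_contra hne
    obtain ⟨x, hxP, hxR, hxN⟩ := CF.Invol.exists_mem_normalizer_of_lt P.isPGroup'
      (lt_of_le_of_ne hP (Ne.symm hne))
    have hle : Subgroup.zpowers x ⊔ R ≤ Subgroup.normalizer (R : Set G) :=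
      sup_le ((Subgroup.zpowers_le).2 hxN) Subgroup.le_normalizer
    have key : ∀ y ∈ Subgroup.zpowers x ⊔ R, d * y * d⁻¹ ∈ Subgroup.zpowers x ⊔ R := by
      intro y hy
      have := mul_mem (Subgroup.mem_sup_right (S := Subgroup.zpowers x) (hN y (hle hy))) hy
      rw [tt_inv hT hd]
      simpa [mul_assoc] using this
    have := hmax' (Subgroup.zpowers x ⊔ R)
      (P.isPGroup'.to_le (sup_le ((Subgroup.zpowers_le).2 hxP) hP)) le_sup_right (by
        rw [Subgroup.mem_normalizer_iff]
        intro y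
        refine ⟨key y, fun hy => ?_⟩
        have := key _ hy
        rwa [tt_inv hT hd, q_inv (tt_sq hT hd) rfl] at this)
    exact hxR (this ▸ Subgroup.mem_sup_left (Subgroup.mem_zpowers x))
  refine ⟨P, by rw [← Sylow.coe_coe, hPR]; exact hR2, ?_⟩
  rw [sup_assoc]
  refine zpowers_sup_eq_top (ttc_group hD) hd fun x hx => ?_
  let π := QuotientGroup.mk' (Cfsg.pCore 2 G)
  have hπ : Function.Surjective π := QuotientGroup.mk'_surjective _
  have h1 : π d * π x ∈ Cfsg.pCore 3 (G ⧸ Cfsg.pCore 2 G) := by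
    refine w1_mem_pCore (D := π '' D) ?_ ?_ ?_ ⟨d, hd, rfl⟩ ⟨x, hx, rfl⟩
    · rintro _ ⟨a, ha, rfl⟩; rw [← map_mul, tt_sq hT ha, map_one]
    · rintro g _ ⟨a, ha, rfl⟩
      obtain ⟨g, rfl⟩ := hπ g
      exact ⟨_, hc g a ha, by simp⟩
    · rintro _ ⟨a, ha, rfl⟩ _ ⟨b, hb, rfl⟩
      by_cases hab : Commute a b
      · have : π a = π b := by
          refine QuotientGroup.eq.2 ?_
          rw [tt_inv hT ha]
          exact V_mem_pCore hT hc ha hb (hV1 b hb a ha hab.symm)
        rw [this]
      · simp only [← map_mul, tt_braid hT ha hb hab]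
  have h2 := CF.Solv.pCore_le_sylow (P.mapSurjective hπ) h1
  rw [← map_mul, Sylow.coe_mapSurjective] at h2
  have h3 : d * x ∈ ((P : Subgroup G).map π).comap π := h2
  rwa [Subgroup.comap_map_eq, QuotientGroup.ker_mk'] at h3

end Cfsg.Agent.S5356
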