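import Cfsg.Statements.S5358
import Cfsg.Agent.Fisch.Refl
-- import your own Cfsg.Agent.* helpers here

set_option autoImplicit false
open scoped MatrixGroups
open Cfsg

namespace Cfsg.Agent.S5358

open CF.Fisch
open scoped commutatorElement

open CF.Fisch CF.Geom

/-- Let Q be a non-degenerate quadratic form on the n-dimensional coordinate space over the field with three elements and u, v vectors of the same non-zero norm Q(u) = Q(v) spanning different lines (v ≠ u and v ≠ −u). Then the reflection matrices of u and v commute if and only if u and v are orthogonal for the polar form of Q. -/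
theorem result (n : ℕ) (Q : QuadraticForm (ZMod 3) (Fin n → ZMod 3)) (hQ : (QuadraticMap.polarBilin Q).Nondegenerate) (u v : Fin n → ZMod 3) (hu : Q u ≠ 0) (huv : Q u = Q v) (h1 : v ≠ u) (h2 : v ≠ -u) : Commute (Cfsg.reflectionMatrix (⇑Q) u) (Cfsg.reflectionMatrix (⇑Q) v) ↔ QuadraticMap.polar (⇑Q) u v = 0 := by
  have k : ∀ w, Cfsg.reflectionMatrix Q w = (((oEquiv Q).symm (oRefl Q w)).1 : Matrix (Fin n) (Fin n) (ZMod 3)) :=
    fun w => ((oEquiv_eq_oRefl_iff Q _ w).1 (MulEquiv.apply_symm_apply _ _)).symm
  have k2 : Commute (Cfsg.reflectionMatrix Q u) (Cfsg.reflectionMatrix Q v) ↔ Commute (oRefl Q u) (oRefl Q v) := by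
    rw [k, k, Commute.units_val_iff]
    exact ⟨fun h => (oEquiv Q).symm.injective (by rw [map_mul, map_mul]; exact Subtype.ext h),
      fun h => congrArg Subtype.val (h.map (oEquiv Q).symm).eq⟩
  refine k2.trans ⟨fun h => by_contra fun hn => ?_, refl_commute⟩
  exact (refl_inj hu (eq_of_braid_of_commute
    (braid_of_cube (oRefl_mul_self u) (oRefl_mul_self v) (refl_cube hu huv hn)) h)).elim h1 h2

end Cfsg.Agent.S5358
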