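import Cfsg.Statements.S5361
import Cfsg.Agent.Fisch.TT3
-- import your own Cfsg.Agent.* helpers here

set_option autoImplicit false
open Cfsg

namespace Cfsg.Agent.S5361

open CF.Fisch
open scoped commutatorElement


/-- Let D be a conjugacy class of 3-transpositions generating the finite group G, and suppose the centre of G is trivial and some two different members of D commute. Then the following are equivalent: (1) the commutator subgroup of G is simple (possibly of prime order); (2) G acts primitively on D by conjugation; (3) the largest normal 2-subgroup and the largest normal 3-subgroup of G are trivial and the commuting graph of D is connected. -/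
theorem result {G : Type*} [Group G] [Finite G] {D : Set G} (hD : Cfsg.IsThreeTranspositionClass D) (hZ : Subgroup.center G = ⊥) (hw : ∃ a ∈ D, ∃ b ∈ D, a ≠ b ∧ Commute a b) : (IsSimpleGroup (commutator G) ↔ Cfsg.IsPrimitiveUnderConj D) ∧ (Cfsg.IsPrimitiveUnderConj D ↔ (Cfsg.pCore 2 G = ⊥ ∧ Cfsg.pCore 3 G = ⊥ ∧ (Cfsg.commutingGraph D).Connected)) := by
  have : Fact (Nat.Prime 3) := ⟨by norm_num⟩
  obtain ⟨a, ha, b, hb, hne, hab⟩ := hw
  have hD2 : ∃ a ∈ D, ∃ b ∈ D, a ≠ b := ⟨a, ha, b, hb, hne⟩
  have hG := ttc_group hD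
  have hcomm : ∀ L : Subgroup G, Cfsg.IsComponent L → L.index ≤ 2 → commutator G = L := by
    intro L hL hi
    have := tt_comp_normal hG hL
    refine le_antisymm ?_ ?_
    · have h0 : L.index ≠ 0 := Subgroup.index_ne_zero_of_finite
      by_cases h1 : L.index = 1
      · rw [Subgroup.index_eq_one.1 h1]; exact le_top
      · have h2 : L.index = 2 := by omega
        rw [commutator_eq_closure, Subgroup.closure_le]
        rintro _ ⟨x, y, rfl⟩
        simp only [SetLike.mem_coe, commutatorElement_def, Subgroup.mul_mem_iff_of_index_two h2,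
          inv_mem_iff]
        tauto
    · rw [← CF.Sig.comp_perfect hL]
      exact Subgroup.commutator_mono le_top le_top
  refine ⟨⟨fun hs => ?_, fun hp => ?_⟩, ⟨fun hp => ?_, fun h => ?_⟩⟩
  · have hmem : ∀ x ∈ D, ∀ y ∈ D, x * y ∈ commutator G := by
      intro x hx y hy
      obtain ⟨g, rfl⟩ := ttc_trans hD hx hy
      have := Subgroup.commutator_mem_commutator (Subgroup.mem_top x) (Subgroup.mem_top g)
      rw [commutatorElement_def, tt_inv hD.1 hx] at this
      simpa [mul_assoc, commutator_def] using this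
    have hna : ¬ IsMulCommutative (commutator G) := by
      intro hc
      have hz : Subgroup.zpowers (⟨a * b, hmem a ha b hb⟩ : commutator G) = ⊤ := by
        refine (Subgroup.Normal.eq_bot_or_eq_top inferInstance).resolve_left fun h => ?_
        rw [Subgroup.zpowers_eq_bot] at h
        exact hne (tt_eq_of_mul_eq_one hD.1 hb (congrArg Subtype.val h))
      obtain ⟨e, he, hn⟩ := ttc_exists_not_commute hD hD2 ha
      have h1 : (⟨a * e, hmem a ha e he⟩ : commutator G) ∈
          Subgroup.zpowers (⟨a * b, hmem a ha b hb⟩ : commutator G) := hz ▸ Subgroup.mem_top _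
      have h2 : (⟨a * b, hmem a ha b hb⟩ : commutator G) * ⟨a * b, hmem a ha b hb⟩ = 1 :=
        Subtype.ext (by simpa [sq] using sq_mul_of_commute (tt_sq hD.1 ha) (tt_sq hD.1 hb) hab)
      rcases mem_zpowers_invol h2 h1 with h | h
      · exact hn (tt_eq_of_mul_eq_one hD.1 he (congrArg Subtype.val h) ▸ Commute.refl a)
      · exact hn (mul_left_cancel (congrArg Subtype.val h : a * e = a * b) ▸ hab)
    have hL : Cfsg.IsComponent (commutator G) :=
      ⟨Subgroup.Normal.isSubnormal inferInstance, CF.Sig.qs_of_isSimpleGroup hna⟩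
    exact ttc_prim_of_index hD hD2 hL (index_le_two_of_sup (tt_sq hD.1 ha)
      (zpowers_sup_eq_top hG ha (hmem a ha)))
  · have hP : PrimTT D := ⟨hG, hp, a, ha, b, hb, hne, hab⟩
    obtain ⟨L, hL⟩ := hP.exists_comp
    rw [hcomm L hL (ttc_index_le_two hD hL hP.conn)]
    obtain ⟨h2, h3⟩ := ttc_pCore_central_of_comp hD hL
    have hz := CF.Sig.center_comp_le_fitting hL
    rw [tt_fitting_eq_center hG h2 h3, hZ, ← CF.Sig.map_center_subtype, le_bot_iff,
      Subgroup.map_eq_bot_iff_of_injective _ L.subtype_injective] at hz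
    have := hL.2.2
    exact (QuotientGroup.quotientBot.symm.trans
      (QuotientGroup.quotientMulEquivOfEq hz.symm)).isSimpleGroup
  · have hP : PrimTT D := ⟨hG, hp, a, ha, b, hb, hne, hab⟩
    exact ⟨le_bot_iff.1 (hZ ▸ central_of_V_trivial hG hP.V),
      le_bot_iff.1 (hZ ▸ central_of_W_trivial hG hP.W), hP.conn⟩
  · obtain ⟨L, hL⟩ := ttc_exists_comp hD hD2 (h.1 ▸ bot_le) (h.2.1 ▸ bot_le)
    exact ttc_prim_of_index hD hD2 hL (ttc_index_le_two hD hL h.2.2)

end Cfsg.Agent.S5361
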