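import Cfsg.Statements.S5362
import Cfsg.Agent.Geom.Fi28

set_option autoImplicit false
open scoped MatrixGroups
open Cfsg

namespace Cfsg.Agent.S5362

open CF.Geom.Fi CF.Fisch in

/-- Let D be a conjugacy class of 3-transpositions generating the finite group G, with trivial centre and trivial largest normal 2- and 3-subgroups, and suppose the commuting graph of D is not connected. Let F be the generalized Fitting subgroup of G. Then G/F is isomorphic to the symmetric group of degree 3, and F is isomorphic either to the commutator subgroup of the isometry group of the hyperbolic quadratic form in dimension 8 over the field with two elements, or to the commutator subgroup of the isometry group of the hyperbolic quadratic form in dimension 8 over the field with three elements modulo its centre. -/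
theorem result {G : Type*} [Group G] [Finite G] {D : Set G} (hD : Cfsg.IsThreeTranspositionClass D) (hZ : Subgroup.center G = ⊥) (h2 : Cfsg.pCore 2 G = ⊥) (h3 : Cfsg.pCore 3 G = ⊥) (hdisc : ¬ (Cfsg.commutingGraph D).Connected) (F : Subgroup G) [F.Normal] (hF : F = Cfsg.generalizedFittingSubgroup G) : Nonempty (G ⧸ F ≃* Equiv.Perm (Fin 3)) ∧ (Nonempty (F ≃* Cfsg.Omega (ZMod 2) (Cfsg.quadFormPlus 4 (ZMod 2))) ∨ Nonempty (F ≃* Cfsg.POmega (ZMod 3) (Cfsg.quadFormPlus 4 (ZMod 3)))) := by
  have h0 : ∃ a ∈ D, ∃ b ∈ D, a ≠ b := by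
    by_contra k
    push Not at k
    obtain ⟨d, hd, -⟩ := hD.2.1
    have : Nonempty D := ⟨⟨d, hd⟩⟩
    exact hdisc ⟨fun a b => Subtype.ext (k _ a.2 _ b.2) ▸ SimpleGraph.Reachable.refl _⟩
  obtain ⟨X, _, _, τ, r⟩ := exists_rp_class hD h0
  obtain ⟨d, hd, -⟩ := hD.2.1
  obtain ⟨a, ha, -⟩ := r.surj hd
  have k : Dis (Set.univ : Set X) := ⟨r.cls hD h0,
    r.vt_iff.2 fun _ ha _ hb => V_trivial_of_central hD h0 (h2 ▸ bot_le) ha hb,
    r.wt_iff.2 fun _ ha _ hb => W_trivial_of_central hD.1 (ttc_conj hD) (h3 ▸ bot_le) ha hb,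
    mt (r.cconn_iff ⟨a, ha⟩).1 hdisc⟩
  obtain ⟨L, hL⟩ := k.exists_comp r hD.2.2
  obtain rfl : F = L := by rw [hF, ttc_fstar_eq hD hL, hZ, sup_bot_eq]
  obtain ⟨e1, e2⟩ := k.grp r hD.2.2 hZ hL ha
  exact ⟨e1, e2.imp_left And.right⟩

end Cfsg.Agent.S5362
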