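import Cfsg.Statements.S5363
import Cfsg.Agent.Fisch.TT1
-- import your own Cfsg.Agent.* helpers here

set_option autoImplicit false
open Cfsg

namespace Cfsg.Agent.S5363

open CF.Fisch
open scoped commutatorElement


/-- Let D be a conjugation-invariant set of involutions of a finite group G. Then every product of two members of D has odd order or order 2 if and only if, for every a in D and every b in D different from a and commuting with a, the members of D commuting with a b are exactly those commuting with both a and b. -/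
theorem result {G : Type*} [Group G] [Finite G] {D : Set G} (hinv : ∀ d ∈ D, orderOf d = 2) (hconj : ∀ g : G, ∀ d ∈ D, g * d * g⁻¹ ∈ D) : (∀ a ∈ D, ∀ b ∈ D, Odd (orderOf (a * b)) ∨ orderOf (a * b) = 2) ↔ ∀ a ∈ D, ∀ b ∈ D, b ≠ a → Commute a b → {y : G | y ∈ D ∧ Commute (a * b) y} = {y : G | y ∈ D ∧ Commute a y} ∩ {y : G | y ∈ D ∧ Commute b y} := by
  have hsq : ∀ d ∈ D, d * d = 1 := fun d hd => CF.Invol.mul_self_of_orderOf (hinv d hd)
  constructor
  · intro h a ha b hb hne hab
    have key : ∀ a ∈ D, ∀ b ∈ D, b ≠ a → Commute a b → ∀ y ∈ D, Commute (a * b) y → Commute a y := by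
      intro a ha b hb hne hab y hy hc
      by_contra hn
      have hn' : ¬ Commute b y := by
        intro h'
        apply hn
        have := hc.mul_left h'
        rwa [mul_assoc, hsq b hb, mul_one] at this
      have odd : ∀ x ∈ D, ¬ Commute x y → Odd (orderOf (y * x)) := by
        intro x hx hxn
        rcases h y hy x hx with h1 | h1
        · exact h1
        · exact absurd (commute_of_sq_mul (hsq y hy) (hsq x hx)
            (by rw [← h1, pow_orderOf_eq_one])).symm hxn
      have o1 := odd a ha hn
      have o2 := odd b hb hn'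
      have e : y * b = (y * a) * (a * b) := by
        rw [mul_assoc, ← mul_assoc a, hsq a ha, one_mul]
      have hcm : Commute (y * a) (a * b) :=
        Commute.mul_left hc.symm ((Commute.refl a).mul_right hab)
      have h1 : (y * b) ^ (orderOf (y * a) * orderOf (y * b)) = 1 := by
        rw [mul_comm, pow_mul, pow_orderOf_eq_one, one_pow]
      rw [e, hcm.mul_pow, pow_mul, pow_orderOf_eq_one, one_pow, one_mul, ← e] at h1
      obtain ⟨k, hk⟩ := o1.mul o2
      rw [hk, pow_succ, pow_mul, sq_mul_of_commute (hsq a ha) (hsq b hb) hab, one_pow,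
        one_mul] at h1
      apply hne
      rw [← inv_eq_of_mul_eq_one_right h1, inv_eq_of_mul_eq_one_right (hsq a ha)]
    ext y
    constructor
    · rintro ⟨hy, hc⟩
      exact ⟨⟨hy, key a ha b hb hne hab y hy hc⟩,
        ⟨hy, key b hb a ha hne.symm hab.symm y hy (hab.eq ▸ hc)⟩⟩
    · rintro ⟨⟨hy, h1⟩, -, h2⟩
      exact ⟨hy, h1.mul_left h2⟩
  · intro h a ha b hb
    by_contra hn
    push Not at hn
    obtain ⟨h1, h2⟩ := hn
    rw [Nat.not_odd_iff_even] at h1
    have hinv' := CF.Invol.left_inverts_mul (hsq a ha) (hsq b hb)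
    have hinv2 := CF.Invol.right_inverts_mul (hsq a ha) (hsq b hb)
    set m := orderOf (a * b) / 2 with hm
    have hz2 := CF.Invol.orderOf_pow_half h1
    have hza := CF.Invol.commute_pow_half_of_inverts hinv' h1
    have hzb := CF.Invol.commute_pow_half_of_inverts hinv2 h1
    rw [← hm] at hz2 hza hzb
    have hc : a * (a * b) ^ m ∈ D := by
      rcases Nat.even_or_odd' m with ⟨k, hk | hk⟩
      · have := CF.Invol.mul_zpow_conj_of_inverts hinv' (k : ℤ)
        have e : (a * b) ^ m = (a * b) ^ (2 * (k : ℤ)) := by
          rw [hk, ← zpow_natCast]; push_cast; rfl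
        rw [e, ← this]
        exact hconj _ a ha
      · have e : a * (a * b) ^ m = ((a * b) ^ k)⁻¹ * b * ((a * b) ^ k)⁻¹⁻¹ := by
          have h3 := CF.Invol.conj_pow_of_inverts hinv2 k
          rw [inv_inv, ← h3, inv_eq_of_mul_eq_one_right (hsq b hb), hk, pow_succ', two_mul, pow_add]
          simp only [← mul_assoc]
          rw [hsq a ha, one_mul, mul_assoc _ b b, hsq b hb, mul_one]
        rw [e]
        exact hconj _ b hb
    have hne : a * (a * b) ^ m ≠ a := by
      intro e
      rw [mul_eq_left] at e
      rw [e] at hz2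
      simp at hz2
    have := h a ha _ hc hne ((Commute.refl a).mul_right hza.symm)
    have hb' : b ∈ {y : G | y ∈ D ∧ Commute (a * (a * (a * b) ^ m)) y} := by
      refine ⟨hb, ?_⟩
      rw [← mul_assoc, hsq a ha, one_mul]
      exact hzb
    rw [this] at hb'
    have hd : orderOf (a * b) ∣ 2 :=
      orderOf_dvd_of_pow_eq_one (sq_mul_of_commute (hsq a ha) (hsq b hb) hb'.1.2)
    rcases (Nat.dvd_prime Nat.prime_two).1 hd with h3 | h3
    · rw [h3] at h1; exact absurd h1 (by decide)
    · exact h2 h3

end Cfsg.Agent.S5363
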