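import Cfsg.Statements.S5364
import Cfsg.Agent.Fisch.TT1
-- import your own Cfsg.Agent.* helpers here

set_option autoImplicit false
open Cfsg

namespace Cfsg.Agent.S5364

open CF.Fisch
open scoped commutatorElement


/-- Let D be a conjugation-invariant set of involutions of a finite group G and t an involution in the centre of G such that d t does not lie in D for any d in D. If the images of the members of D in G modulo the subgroup generated by t satisfy the 3-transposition order conditions (each has order 2 and any two have product of order at most 3), then so do the members of D. -/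
theorem result {G : Type*} [Group G] [Finite G] {D : Set G} (hinv : ∀ d ∈ D, orderOf d = 2) (hconj : ∀ g : G, ∀ d ∈ D, g * d * g⁻¹ ∈ D) (t : G) (ht : orderOf t = 2) (htZ : t ∈ Subgroup.center G) (hDt : ∀ d ∈ D, d * t ∉ D) [(Subgroup.zpowers t).Normal] (himg : Cfsg.IsThreeTranspositionSet ((QuotientGroup.mk : G → G ⧸ Subgroup.zpowers t) '' D)) : Cfsg.IsThreeTranspositionSet D := by
  classical
  have hsq : ∀ d ∈ D, d * d = 1 := fun d hd => CF.Invol.mul_self_of_orderOf (hinv d hd)
  have ht2 : t * t = 1 := CF.Invol.mul_self_of_orderOf ht
  have hz : ∀ x ∈ Subgroup.zpowers t, x = 1 ∨ x = t := by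
    intro x hx
    rw [mem_zpowers_iff_mem_range_orderOf, ht] at hx
    simp only [Finset.mem_image, Finset.mem_range] at hx
    obtain ⟨k, hk, rfl⟩ := hx
    interval_cases k <;> simp
  refine ⟨hinv, fun a ha b hb => ?_⟩
  have ia := inv_eq_of_mul_eq_one_right (hsq a ha)
  have ib := inv_eq_of_mul_eq_one_right (hsq b hb)
  rcases himg.2 _ ⟨a, ha, rfl⟩ _ ⟨b, hb, rfl⟩ with h | h
  · rw [← QuotientGroup.mk_mul, ← QuotientGroup.mk_pow, QuotientGroup.eq_one_iff] at h
    rcases hz _ h with h | h
    · exact Or.inl h
    · exfalso
      apply hDt a ha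
      have e : a * t = b * a * b⁻¹ := by
        rw [← h, ib, sq]
        simp only [← mul_assoc]
        rw [hsq a ha, one_mul]
      rw [e]; exact hconj b a ha
  · rw [← QuotientGroup.mk_mul, ← QuotientGroup.mk_pow, QuotientGroup.eq_one_iff] at h
    rcases hz _ h with h | h
    · exact Or.inr h
    · exfalso
      apply hDt a ha
      have e : a * t = (b * a) * b * (b * a)⁻¹ := by
        rw [← h, mul_inv_rev, ia, ib]
        simp only [pow_succ, pow_zero, one_mul, ← mul_assoc]
        rw [hsq a ha, one_mul]
      rw [e]; exact hconj _ b hb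

end Cfsg.Agent.S5364
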