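import Cfsg.Statements.S5365
import Cfsg.Agent.Fisch.Plane
-- import your own Cfsg.Agent.* helpers here

set_option autoImplicit false
open Cfsg

namespace Cfsg.Agent.S5365

open CF.Fisch
open scoped commutatorElement


/-- Let D be a non-empty conjugation-invariant set of involutions of a finite group G satisfying the 3-transposition order conditions, and suppose that for every d in D the members of D other than d commuting with d generate a subgroup isomorphic to the symmetric group of degree 3, and the largest normal 3-subgroup of the centralizer of d has order 3. Then the subgroup generated by D is isomorphic to the symmetric group of degree 5 or to the direct product of two symmetric groups of degree 3. -/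
theorem result {G : Type*} [Group G] [Finite G] {D : Set G} (hD : Cfsg.IsThreeTranspositionSet D) (hconj : ∀ g : G, ∀ d ∈ D, g * d * g⁻¹ ∈ D) (hne : D.Nonempty) (hloc : ∀ d ∈ D, Nonempty (↥(Subgroup.closure {y : G | y ∈ D ∧ y ≠ d ∧ Commute d y}) ≃* Equiv.Perm (Fin 3)) ∧ Nat.card (Cfsg.pCore 3 ↥(Subgroup.centralizer ({d} : Set G))) = 3) : Nonempty (↥(Subgroup.closure D) ≃* Equiv.Perm (Fin 5)) ∨ Nonempty (↥(Subgroup.closure D) ≃* Equiv.Perm (Fin 3) × Equiv.Perm (Fin 3)) := by
  have h3p : Fact (Nat.Prime 3) := ⟨by norm_num⟩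
  have hT := hD
  have hc := hconj
  -- the local structure
  have hl : ∀ d ∈ D, ∃ x ∈ Dd D d, ∃ y ∈ Dd D d, ¬ Commute x y ∧ Dd D d = {x, y, x * y * x} := by
    intro d hd
    obtain ⟨e⟩ := (hloc d hd).1
    have hex : ∃ x ∈ Dd D d, ∃ y ∈ Dd D d, ¬ Commute x y := by
      by_contra hn
      push Not at hn
      have h1 := Subgroup.isMulCommutative_closure (k := Dd D d) hn
      have h2 := congrArg e (h1.is_comm.comm (e.symm (Equiv.swap 0 1)) (e.symm (Equiv.swap 1 2)))
      erw [map_mul, map_mul, MulEquiv.apply_symm_apply, MulEquiv.apply_symm_apply] at h2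
      exact absurd h2 (by decide)
    obtain ⟨x, hx, y, hy, hxy⟩ := hex
    have hz : x * y * x ∈ Dd D d := by
      have := (conj_mem_Dd hc (g := x)).2 hy
      rwa [commute_iff_conj'.1 hx.2.2.symm, tt_inv hT hx.1] at this
    refine ⟨x, hx, y, hy, hxy, (Set.eq_of_subset_of_ncard_le ?_ ?_).symm⟩
    · rintro z (rfl | rfl | rfl) <;> assumption
    · have h1 : ({x, y, x * y * x} : Set G).ncard = 3 := by
        refine Set.ncard_eq_three.2 ⟨x, y, _, ?_, ?_, ?_, rfl⟩
        · rintro rfl; exact hxy (Commute.refl _)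
        · intro h
          have := q_inv (tt_sq hT hx.1) h.symm
          rw [q_self (tt_sq hT hx.1)] at this
          exact hxy (this ▸ Commute.refl x)
        · intro h; exact hxy ((commute_iff_conj (tt_sq hT hx.1)).2 h.symm)
      rw [h1]
      classical
      let f : G → Equiv.Perm (Fin 3) := fun z =>
        if h : z ∈ Subgroup.closure (Dd D d) then e ⟨z, h⟩ else 1
      have h2 : ({σ : Equiv.Perm (Fin 3) | σ * σ = 1 ∧ σ ≠ 1}).ncard = 3 := by
        rw [Set.ncard_eq_toFinset_card', Set.toFinset_ofPred]; decide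
      rw [← h2]
      refine Set.ncard_le_ncard_of_injOn f (fun z hz => ?_) (fun z hz w hw h => ?_) (Set.toFinite _)
      · have hm : z ∈ Subgroup.closure (Dd D d) := Subgroup.subset_closure hz
        simp only [f, dif_pos hm, Set.mem_ofPred_eq]
        refine ⟨?_, fun h => tt_ne_one hT hz.1 (congrArg Subtype.val (e.map_eq_one_iff.1 h))⟩
        rw [← map_mul, e.map_eq_one_iff]
        exact Subtype.ext (tt_sq hT hz.1)
      · have hm : z ∈ Subgroup.closure (Dd D d) := Subgroup.subset_closure hz
        have hm' : w ∈ Subgroup.closure (Dd D d) := Subgroup.subset_closure hw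
        simp only [f, dif_pos hm, dif_pos hm'] at h
        exact congrArg Subtype.val (e.injective h)
  have third : ∀ x ∈ D, ∀ y ∈ D, ¬ Commute x y → ¬ Commute x (x * y * x) ∧ ¬ Commute y (x * y * x) := by
    intro x hx y hy hxy
    constructor
    · intro h
      have := h.conj x
      rw [tt_inv hT hx, q_self (tt_sq hT hx), q_inv (tt_sq hT hx) rfl] at this
      exact hxy this
    · intro h
      rw [tt_braid hT hx hy hxy] at h
      have := h.conj y
      rw [tt_inv hT hy, q_self (tt_sq hT hy), q_inv (tt_sq hT hy) rfl] at this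
      exact hxy this.symm
  have hnc : ∀ d ∈ D, ∀ x ∈ Dd D d, ∀ y ∈ Dd D d, Commute x y → x = y := by
    intro d hd x hx y hy hxy
    obtain ⟨u, hu, v, hv, huv, e⟩ := hl d hd
    obtain ⟨t1, t2⟩ := third u hu.1 v hv.1 huv
    rw [e] at hx hy
    rcases hx with rfl | rfl | rfl <;> rcases hy with rfl | rfl | rfl <;>
      first | rfl | exact absurd hxy ‹_› | exact absurd hxy.symm ‹_›
  have hline : ∀ d ∈ D, ∀ x ∈ Dd D d, ∀ y ∈ Dd D d, x ≠ y → Dd D d = {x, y, x * y * x} := by
    intro d hd x hx y hy hne
    have hxy : ¬ Commute x y := fun c => hne (hnc d hd x hx y hy c)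
    obtain ⟨t1, t2⟩ := third x hx.1 y hy.1 hxy
    obtain ⟨u, -, v, -, -, e⟩ := hl d hd
    have hz : x * y * x ∈ Dd D d := by
      have := (conj_mem_Dd hc (g := x)).2 hy
      rwa [commute_iff_conj'.1 hx.2.2.symm, tt_inv hT hx.1] at this
    refine (Set.eq_of_subset_of_ncard_le ?_ ?_).symm
    · rintro z (rfl | rfl | rfl) <;> assumption
    · rw [Set.ncard_eq_three.2 ⟨x, y, _, hne, fun h => t1 (by rw [← h]),
        fun h => t2 (by rw [← h]), rfl⟩, e]
      exact (Set.ncard_insert_le _ _).trans (Nat.succ_le_succ ((Set.ncard_insert_le _ _).trans (by simp)))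
  obtain ⟨d, hd⟩ := hne
  obtain ⟨x, hx, y, hy, hxy, hd1⟩ := hl d hd
  have hdx : d ∈ Dd D x := ⟨hd, hx.2.1.symm, hx.2.2.symm⟩
  have hdy : d ∈ Dd D y := ⟨hd, hy.2.1.symm, hy.2.2.symm⟩
  have hxy' : x ≠ y := fun h => hxy (h ▸ Commute.refl x)
  obtain ⟨d', hd', hne'⟩ : ∃ d' ∈ Dd D x, d ≠ d' := by
    obtain ⟨u, hu, v, hv, huv, -⟩ := hl x hx.1
    by_cases h : d = u
    · exact ⟨v, hv, fun h' => huv (h ▸ h' ▸ Commute.refl d)⟩
    · exact ⟨u, hu, h⟩
  have hdd' : ¬ Commute d d' := fun c => hne' (hnc x hx.1 d hdx d' hd' c)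
  have hx1 := hline x hx.1 d hdx d' hd' hne'
  have sd := tt_sq hT hd
  have sd' := tt_sq hT hd'.1
  have sx := tt_sq hT hx.1
  have sy := tt_sq hT hy.1
  by_cases hcase : Commute y d'
  · right
    have hyd' : y ∈ Dd D d' := ⟨hy.1, fun h => hdd' (h ▸ hy.2.2), hcase.symm⟩
    have hxd' : x ∈ Dd D d' := ⟨hx.1, hd'.2.1.symm, hd'.2.2.symm⟩
    have hW : Wrel D d d' := hd1.trans (hline d' hd'.1 x hxd' y hyd' hxy').symm
    have hu := W_mem_pCore hT hc hd hd'.1 hW
    have hall : ∀ w ∈ D, w ∈ Subgroup.closure ({x, y} : Set G) ⊔ Subgroup.closure ({d, d'} : Set G) := by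
      intro w hw
      have mx : x ∈ Subgroup.closure ({x, y} : Set G) := Subgroup.subset_closure (by simp)
      have my : y ∈ Subgroup.closure ({x, y} : Set G) := Subgroup.subset_closure (by simp)
      have md : d ∈ Subgroup.closure ({d, d'} : Set G) := Subgroup.subset_closure (by simp)
      have md' : d' ∈ Subgroup.closure ({d, d'} : Set G) := Subgroup.subset_closure (by simp)
      by_cases h1 : w ∈ Dd D d
      · rw [hd1] at h1
        refine Subgroup.mem_sup_left ?_
        rcases h1 with rfl | rfl | rfl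
        exacts [mx, my, mul_mem (mul_mem mx my) mx]
      by_cases h2 : w ∈ Dd D x
      · rw [hx1] at h2
        refine Subgroup.mem_sup_right ?_
        rcases h2 with rfl | rfl | rfl
        exacts [md, md', mul_mem (mul_mem md md') md]
      exfalso
      have n1 : ¬ Commute d w := fun c => h1 ⟨hw, fun e => h2 (e ▸ hdx), c⟩
      have n2 : ¬ Commute d' w := fun c => h1 (by
        have : w ∈ Dd D d' := ⟨hw, fun e => h2 (e ▸ hd'), c⟩
        rwa [show Dd D d' = Dd D d from hW.symm] at this)
      have n3 : ¬ Commute (d * d' * d) w := fun c => h1 (by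
        have h3 : w ∈ Dd D (d * d' * d⁻¹) := by
          rw [tt_inv hT hd]
          exact ⟨hw, fun e => h2 (by rw [hx1, e]; simp), c⟩
        have h4 : Wrel D (d * d * d⁻¹) (d * d' * d⁻¹) := (invRel_W hc).conj d hW
        rw [mul_inv_cancel_right] at h4
        rwa [show Dd D (d * d' * d⁻¹) = Dd D d from h4.symm] at h3)
      have n4 : ¬ Commute x w := fun c => h2 ⟨hw, fun e => h1 (e ▸ hx), c⟩
      have n5 : ¬ Commute y w := fun c => by
        have h3 : w ∈ Dd D y := ⟨hw, fun e => h1 (e ▸ hy), c⟩
        rw [hline y hy.1 d hdy d' ⟨hd'.1, hyd'.2.1.symm, hcase⟩ hne', ← hx1] at h3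
        exact h2 h3
      have sw := tt_sq hT hw
      obtain ⟨f, f0, f1, f2, -, -, hf⟩ := ag_plane hT (fun a ha b hb => tt_mem hT hc ha hb) hd hd'.1 hw
        (tt_braid hT hd hd'.1 hdd') (tt_braid hT hd hw n1) (tt_braid hT hd'.1 hw n2)
        (tt_braid hT (tt_mem hT hc hd hd'.1) hw n3)
      have hz : ∀ p, Commute (d * d' * (w * (d * d') * w)) (f p) := by
        intro p
        rw [commute_iff_conj']
        simp only [mul_inv_rev, tt_inv hT hd, tt_inv hT hd'.1, tt_inv hT hw]
        calc _ = d * (d' * (w * (d * (d' * (w * f p * w) * d') * d) * w) * d') * d := by group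
          _ = f p := by
            rw [← f0, ← f1, ← f2]
            simp only [hf]
            congr 1
            revert p; decide
      have hzd : Commute (d * d' * (w * (d * d') * w)) d := f0 ▸ hz _
      have hzw : Commute (d * d' * (w * (d * d') * w)) w := f2 ▸ hz _
      have hz3 : d * d' * (w * (d * d') * w) ∈ Cfsg.pCore 3 G := by
        refine mul_mem hu ?_
        have := (inferInstance : (Cfsg.pCore 3 G).Normal).conj_mem _ hu w
        rwa [tt_inv hT hw] at this
      set C := Subgroup.centralizer ({d} : Set G)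
      have hxyC : x * y ∈ C := Subgroup.mem_centralizer_singleton_iff.2
        (hx.2.2.mul_right hy.2.2).symm.eq
      have hev : evenSub (Dd D d) ≤ C := (evenSub_le_closure _).trans
        ((Subgroup.closure_mono (Dd_subset_perp d)).trans (closure_perp_le d))
      have hev3 : IsPGroup 3 (evenSub (Dd D d)) := by
        refine w1_isPGroup (fun a ha => tt_sq hT ha.1) (fun a ha b hb => ?_) (fun a ha b hb => ?_)
        · have := (conj_mem_Dd hc (g := a)).2 hb
          rwa [commute_iff_conj'.1 ha.2.2.symm, tt_inv hT ha.1] at this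
        · by_cases c : Commute a b
          · rw [hnc d hd a ha b hb c]
          · exact tt_braid hT ha.1 hb.1 c
      have hm := CF.Solv.le_map_pCore hev (fun g hg => mem_normalizer_evenSub fun z => by
        have := conj_mem_Dd hc (g := g) (d := d) (x := z)
        rw [commute_iff_conj'.1 (Subgroup.mem_centralizer_singleton_iff.1 hg)] at this
        exact this.symm) hev3 (mul_mem_evenSub hx hy)
      have hcard : Nat.card ((Cfsg.pCore 3 C).map C.subtype) = 3 := by
        rw [Subgroup.card_map_of_injective C.subtype_injective]; exact (hloc d hd).2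
      have heq : Subgroup.zpowers (x * y) = (Cfsg.pCore 3 C).map C.subtype :=
        Subgroup.eq_of_le_of_card_ge ((Subgroup.zpowers_le).2 hm) (by
          rw [hcard, Nat.card_zpowers, tt_orderOf_three hT hx.1 hy.1 hxy])
      have hzm : d * d' * (w * (d * d') * w) ∈ Subgroup.zpowers (x * y) := by
        rw [heq]
        exact CF.Solv.pCore_inf_le_map C ⟨hz3, Subgroup.mem_centralizer_singleton_iff.2 hzd.eq⟩
      have hz1 : d * d' * (w * (d * d') * w) = 1 := by
        by_contra hn1
        have h5 : Subgroup.zpowers (d * d' * (w * (d * d') * w)) = Subgroup.zpowers (x * y) := by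
          refine Subgroup.eq_of_le_of_card_ge ((Subgroup.zpowers_le).2 hzm) ?_
          rw [Nat.card_zpowers, Nat.card_zpowers, tt_orderOf_three hT hx.1 hy.1 hxy]
          have h6 := orderOf_dvd_of_mem_zpowers hzm
          rw [tt_orderOf_three hT hx.1 hy.1 hxy] at h6
          rcases (Nat.dvd_prime Nat.prime_three).1 h6 with h7 | h7
          · exact absurd (orderOf_eq_one_iff.1 h7) hn1
          · rw [h7]
        obtain ⟨k, hk⟩ : x * y ∈ Subgroup.zpowers (d * d' * (w * (d * d') * w)) :=
          h5 ▸ Subgroup.mem_zpowers _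
        have h8 : Commute (x * y) w := hk ▸ hzw.zpow_left k
        rw [commute_iff_conj', mul_inv_rev, tt_inv hT hx.1, tt_inv hT hy.1] at h8
        have h9 := q_inv sx (show x * (y * w * y) * x = w by simpa only [mul_assoc] using h8)
        rw [tt_braid hT hx.1 hw n4, tt_braid hT hy.1 hw n5] at h9
        exact hxy' (mul_left_cancel (mul_right_cancel h9))
      have hwu : w * (d * d') * w = (d * d')⁻¹ := eq_inv_of_mul_eq_one_right hz1
      have c1 : Commute x (d * d') := hx.2.2.symm.mul_right hd'.2.2
      have c2 : Commute (w * x * w) (d * d') := by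
        have := c1.conj w
        rw [tt_inv hT hw, hwu] at this
        exact Commute.inv_right_iff.1 this
      have c3 : Commute w (d * d') := by
        rw [← q_inv sx (tt_braid hT hx.1 hw n4)]
        exact (c1.mul_left c2).mul_left c1
      rw [(commute_iff_conj sw).1 c3] at hwu
      have h3 := tt_cube hT hd hd'.1 hdd'
      rw [pow_succ, sq, mul_eq_one_iff_eq_inv.2 hwu, one_mul] at h3
      exact hne' (tt_eq_of_mul_eq_one hT hd'.1 h3)
    obtain ⟨φ, p1, p2, p3⟩ := exists_S3_hom sx sy (tt_braid hT hx.1 hy.1 hxy)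
    obtain ⟨ψ, q1, q2, q3⟩ := exists_S3_hom sd sd' (tt_braid hT hd hd'.1 hdd')
    have hφ := perm3_ker (φ := φ) (by rw [p1, p2]; exact hxy')
    have hψ := perm3_ker (φ := ψ) (by rw [q1, q2]; exact hne')
    have hcomm : ∀ a b, Commute (φ a) (ψ b) := by
      intro a b
      have ha : φ a ∈ Subgroup.closure ({x, y} : Set G) := p3 ▸ ⟨a, rfl⟩
      have hb : ψ b ∈ Subgroup.closure ({d, d'} : Set G) := q3 ▸ ⟨b, rfl⟩
      have hle : Subgroup.closure ({x, y} : Set G) ≤
          Subgroup.centralizer (Subgroup.closure ({d, d'} : Set G) : Set G) := by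
        rw [Subgroup.centralizer_closure, Subgroup.closure_le]
        rintro a (rfl | rfl) b (rfl | rfl)
        exacts [hx.2.2, hd'.2.2.symm, hy.2.2, hcase.symm]
      exact (Subgroup.mem_centralizer_iff.1 (hle ha) _ hb).symm
    have hinj : Function.Injective (φ.noncommCoprod ψ hcomm) := by
      rw [injective_iff_map_eq_one]
      rintro ⟨a, b⟩ h
      rw [MonoidHom.noncommCoprod_apply] at h
      have ha : a = 1 := by
        have key : ∀ a : Equiv.Perm (Fin 3), (∀ c, a * c = c * a) → a = 1 := by decide
        refine key a fun c => hφ ?_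
        rw [map_mul, map_mul, eq_inv_of_mul_eq_one_left h]
        exact (hcomm c b).inv_right.symm.eq
      subst ha
      simp only [map_one, one_mul] at h
      rw [(injective_iff_map_eq_one ψ).1 hψ b h]; rfl
    have hr : (φ.noncommCoprod ψ hcomm).range = Subgroup.closure D := by
      rw [MonoidHom.noncommCoprod_range, p3, q3]
      refine le_antisymm (sup_le (Subgroup.closure_mono ?_) (Subgroup.closure_mono ?_))
        ((Subgroup.closure_le _).2 hall)
      · rintro z (rfl | rfl); exacts [hx.1, hy.1]
      · rintro z (rfl | rfl); exacts [hd, hd'.1]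
    exact ⟨((MonoidHom.ofInjective hinj).trans (MulEquiv.subgroupCongr hr)).symm⟩
  · left
    obtain ⟨φ, hφ⟩ := sym_exists_hom 4 ![x, y, d', d] (by
      intro i; fin_cases i <;> simpa) (by
      have c1 := hd'.2.2
      have c2 := hx.2.2.symm
      have c3 := hy.2.2.symm
      intro i j h; fin_cases i <;> fin_cases j <;> first | (simp at h; done) | simpa) (by
      have c1 := tt_braid hT hx.1 hy.1 hxy
      have c2 := tt_braid hT hy.1 hd'.1 hcase
      have c3 := tt_braid hT hd'.1 hd fun c => hdd' c.symm
      intro i j h; fin_cases i <;> fin_cases j <;> first | (simp at h; done) | simpa)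
    have hinj : Function.Injective φ := sym_ker le_rfl (x := (0 : Fin 4).castSucc) (y := (0 : Fin 4).succ)
      (z := (2 : Fin 4).castSucc) (w := (2 : Fin 4).succ) (by decide) (by decide) (by
        rw [hφ, hφ]; exact hd'.2.1.symm)
    have hr : φ.range = Subgroup.closure D := by
      rw [sym_hom_range hφ]
      refine le_antisymm (Subgroup.closure_mono ?_) ((Subgroup.closure_le _).2 ?_)
      · rintro _ ⟨i, rfl⟩; fin_cases i; exacts [hx.1, hy.1, hd'.1, hd]
      set K := Subgroup.closure (Set.range ![x, y, d', d])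
      have xK : x ∈ K := Subgroup.subset_closure ⟨0, rfl⟩
      have yK : y ∈ K := Subgroup.subset_closure ⟨1, rfl⟩
      have d'K : d' ∈ K := Subgroup.subset_closure ⟨2, rfl⟩
      have dK : d ∈ K := Subgroup.subset_closure ⟨3, rfl⟩
      intro w hw
      by_contra hwK
      have sw := tt_sq hT hw
      have hP : ∀ k ∈ K, ∀ z ∈ D, Commute (k * d * k⁻¹) z → z ∈ K := by
        intro k hk z hz c
        have h1 : k⁻¹ * z * k ∈ perp D d :=
          (conj_mem_perp hc (g := k)).1 (by simpa [mul_assoc] using ⟨hz, by simpa [mul_assoc] using c⟩)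
        have h2 : k⁻¹ * z * k ∈ K := by
          by_cases e : k⁻¹ * z * k = d
          · rwa [e]
          · have h3 : k⁻¹ * z * k ∈ Dd D d := ⟨h1.1, e, h1.2⟩
            rw [hd1] at h3
            rcases h3 with h | h | h <;> rw [h]
            exacts [xK, yK, mul_mem (mul_mem xK yK) xK]
        simpa [mul_assoc] using mul_mem (mul_mem hk h2) (inv_mem hk)
      have Pd : ∀ z ∈ D, Commute d z → z ∈ K := by simpa using hP 1 (one_mem _)
      have ed' := braid_cj (tt_braid hT hd hd'.1 hdd')
      have ey := braid_cj (tt_braid hT hd'.1 hy.1 fun c => hcase c.symm)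
      have ex := braid_cj (tt_braid hT hy.1 hx.1 fun c => hxy c.symm)
      have Py : ∀ z ∈ D, Commute y z → z ∈ K := by
        have := hP (d' * y * (d * d')) (mul_mem (mul_mem d'K yK) (mul_mem dK d'K))
        rwa [show d' * y * (d * d') * d * (d' * y * (d * d'))⁻¹ =
          d' * y * (d * d' * d * (d * d')⁻¹) * (d' * y)⁻¹ by group, ed', ey] at this
      have Px : ∀ z ∈ D, Commute x z → z ∈ K := by
        have := hP (y * x * (d' * y * (d * d'))) (mul_mem (mul_mem yK xK)
          (mul_mem (mul_mem d'K yK) (mul_mem dK d'K)))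
        rwa [show y * x * (d' * y * (d * d')) * d * (y * x * (d' * y * (d * d')))⁻¹ =
          y * x * (d' * y * (d * d' * d * (d * d')⁻¹) * (d' * y)⁻¹) * (y * x)⁻¹ by group, ed', ey,
          ex] at this
      have n1 : ¬ Commute d w := fun c => hwK (Pd w hw c)
      have n2 : ¬ Commute x w := fun c => hwK (Px w hw c)
      have n3 : ¬ Commute y w := fun c => hwK (Py w hw c)
      have hy' := tt_mem hT hc hw hy.1
      have hy'K : w * y * w ∉ K := by
        intro h
        apply hwK
        rw [← tt_braid hT hy.1 hw n3] at h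
        rw [← q_inv sy (rfl : y * w * y = _)]
        exact mul_mem (mul_mem yK h) yK
      have b1 := tt_braid hT hd hy' fun c => hy'K (Pd _ hy' c)
      have b2 := tt_braid hT hx.1 hy' fun c => hy'K (Px _ hy' c)
      have h6 : d * (x * (w * y * w) * x) * d ∈ Dd D (w * y * w) :=
        ⟨tt_mem hT hc hd (tt_mem hT hc hx.1 hy'), string_ne sd hx.2.1.symm b1 b2,
          string_commute hx.2.2 b1 b2⟩
      have h7 := (conj_mem_Dd hc (g := w)).2 h6
      rw [tt_inv hT hw, q_inv sw rfl] at h7
      have hv : ∀ t, (w * d * x * w) * t * (w * d * x * w)⁻¹ = w * (d * (x * (w * t * w) * x) * d) * w := by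
        intro t
        simp only [mul_inv_rev, tt_inv hT hd, tt_inv hT hx.1, tt_inv hT hw]
        group
      have v1 : (w * d * x * w) * d * (w * d * x * w)⁻¹ = x := by
        rw [hv, ← tt_braid hT hd hw n1]
        calc w * (d * (x * (d * w * d) * x) * d) * w = w * ((d * x * d) * w * (d * x * d)) * w := by group
          _ = x := by rw [(commute_iff_conj sd).1 hx.2.2, tt_braid hT hx.1 hw n2, q_inv sw rfl]
      have v2 : (w * d * x * w) * x * (w * d * x * w)⁻¹ = d := by
        rw [hv, ← tt_braid hT hx.1 hw n2, q_inv sx rfl, tt_braid hT hd hw n1, q_inv sw rfl]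
      have h8 := (conj_mem_Dd hc (g := w * d * x * w)).2 hy
      rw [v1, hx1] at h8
      rw [← hv] at h7
      rcases h8 with h | h | h
      · exact hxy' (conj_inj.1 (v2.trans h.symm))
      · rw [h] at h7; exact hcase h7.2.2
      · rw [h] at h7
        have := h7.2.2.conj d
        rw [tt_inv hT hd, q_inv sd rfl, (commute_iff_conj sd).1 hy.2.2] at this
        exact hcase this
    exact ⟨((MonoidHom.ofInjective hinj).trans (MulEquiv.subgroupCongr hr)).symm⟩

end Cfsg.Agent.S5365
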