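import Cfsg.Statements.S5366
import Cfsg.Agent.Fisch.FSpace
-- import your own Cfsg.Agent.* helpers here

set_option autoImplicit false
open Cfsg

namespace Cfsg.Agent.S5366

open CF.Fisch
open scoped commutatorElement


/-- Let L be a nondegenerate Fischer space on the point type X (every point on a line). Then for every point x the map t(x) — sending a point collinear with x to the third point of their common line and fixing every other point — is a permutation of X of order 2 and an automorphism of the line system; and the set of all t(x) satisfies the 3-transposition order conditions in the permutation group of X (any two have product of order at most 3). -/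
theorem result {X : Type*} (L : Set (Set X)) (hL : Cfsg.IsFischerSpace L) (hnd : Cfsg.LineSystem.IsNondegenerate L) : (∀ x : X, ∃ σ : Equiv.Perm X, ⇑σ = Cfsg.LineSystem.lineMap L x ∧ orderOf σ = 2 ∧ Cfsg.LineSystem.IsIso L L σ) ∧ Cfsg.IsThreeTranspositionSet {σ : Equiv.Perm X | ∃ x : X, ⇑σ = Cfsg.LineSystem.lineMap L x} := by
  have hP := hL.1
  let t : X → Equiv.Perm X := fun x => Function.Involutive.toPerm _ (lineMap_invol hP x)
  have ht : ∀ x, ⇑(t x) = LineSystem.lineMap L x := fun _ => rfl
  have hsq : ∀ x, t x * t x = 1 := fun x => Equiv.ext (lineMap_invol hP x)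
  have hne : ∀ x, t x ≠ 1 := by
    intro x h
    obtain ⟨l, hl, hx⟩ := hnd x
    obtain ⟨y, hy, hyx⟩ : ∃ y ∈ l, x ≠ y := by
      by_contra hn
      push Not at hn
      have : l = {x} := Set.eq_singleton_iff_unique_mem.2 ⟨hx, fun y hy => (hn y hy).symm⟩
      have h3 := hL.2.1 l hl
      rw [this] at h3
      simp at h3
    obtain ⟨z, h1, h2, e⟩ := exists_third hL.2.1 hl hx hy hyx
    have := lineMap_of_line hP h1 h2 hyx (e ▸ hl)
    rw [← ht, h] at this
    exact h2 this.symm
  have hiso : ∀ x, LineSystem.IsIso L L (t x) := by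
    intro x l
    refine ⟨fischer_image_mem hL x, fun h => ?_⟩
    have := fischer_image_mem hL x h
    rwa [ht, Set.image_image, (Set.image_congr (g := id) fun y _ => lineMap_invol hP x y).trans
      (Set.image_id l)] at this
  have hconj : ∀ x y, t x * t y * t x = t (t x y) := by
    intro x y
    ext z
    have := lineMap_iso hP hP (hiso x) y (t x z)
    have h2 : t x (t x z) = z := lineMap_invol hP x z
    rw [h2] at this
    exact this.symm
  refine ⟨fun x => ⟨t x, rfl, orderOf_eq_prime (by rw [sq, hsq]) (hne x), hiso x⟩, ?_⟩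
  have hs : ∀ σ ∈ {σ : Equiv.Perm X | ∃ x : X, ⇑σ = Cfsg.LineSystem.lineMap L x}, ∃ x, σ = t x :=
    fun σ ⟨x, hx⟩ => ⟨x, DFunLike.coe_injective hx⟩
  refine tt_mk (fun a ha => ?_) (fun a ha => ?_) fun a ha b hb => ?_
  · obtain ⟨x, rfl⟩ := hs a ha; exact hsq x
  · obtain ⟨x, rfl⟩ := hs a ha; exact hne x
  · obtain ⟨x, rfl⟩ := hs a ha
    obtain ⟨y, rfl⟩ := hs b hb
    by_cases h : ∃ z : X, z ≠ x ∧ z ≠ y ∧ x ≠ y ∧ ({x, y, z} : Set X) ∈ L
    · obtain ⟨z, h1, h2, h3, h4⟩ := h
      right
      rw [hconj, hconj, ht, ht, lineMap_of_line hP h1 h2 h3 h4,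
        lineMap_of_line hP h2 h1 h3.symm (by rwa [Set.insert_comm])]
    · left
      rw [commute_iff_conj (hsq x), hconj, ht, lineMap_of_not h]

end Cfsg.Agent.S5366
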