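import Cfsg.Statements.S5367
import Cfsg.Agent.Fisch.FSpace
-- import your own Cfsg.Agent.* helpers here

set_option autoImplicit false
open Cfsg

namespace Cfsg.Agent.S5367

open CF.Fisch
open scoped commutatorElement


/-- Let D be a conjugation-invariant generating set of 3-transpositions of a finite group G. Then the line system on D whose lines are the triples {x, y, y x y⁻¹} for non-commuting members x, y of D is a Fischer space: two points lie on at most one line, lines have three points, and two different meeting lines generate a subspace isomorphic to the dual affine plane of order two or to the affine plane of order three. -/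
theorem result {G : Type*} [Group G] [Finite G] {D : Set G} (hD : Cfsg.IsThreeTranspositionGroup D) : Cfsg.IsFischerSpace (Cfsg.threeTranspositionLines D) := by
  have hT := hD.1
  have hc := hD.2.1
  refine ⟨ttLines_partialLinear hT, ?_, ?_⟩
  · rintro _ ⟨x, y, hxy, rfl⟩
    exact ttLine_ncard hT hc hxy
  · rintro _ ⟨x, y, hxy, rfl⟩ _ ⟨x', y', hxy', rfl⟩ hne ⟨p, hp, hp'⟩
    have ex : ∀ x y : D, ¬ Commute (x : G) y → p ∈ ttLine D x y →
        ∃ a : D, ¬ Commute (a : G) p ∧ ttLine D x y = ttLine D a p := by
      intro x y hxy hp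
      by_cases h : x = p
      · refine ⟨y, ttLine_eq hT x.2 y.2 hxy (Or.inr (Or.inl rfl)) hp ?_⟩
        rintro rfl; exact hxy (h ▸ Commute.refl _)
      · exact ⟨x, ttLine_eq hT x.2 y.2 hxy (Or.inl rfl) hp h⟩
    obtain ⟨a, hap, e1⟩ := ex x y hxy hp
    obtain ⟨c, hcp, e2⟩ := ex x' y' hxy' hp'
    change ttLine D x y ≠ ttLine D x' y' at hne
    change LineSystem.Isomorphic (LineSystem.restrict _ (LineSystem.span _ (ttLine D x y ∪ ttLine D x' y'))) _ ∨
      LineSystem.Isomorphic (LineSystem.restrict _ (LineSystem.span _ (ttLine D x y ∪ ttLine D x' y'))) _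
    rw [e1, e2] at hne ⊢
    have hcp' : c ≠ p := by rintro rfl; exact hcp (Commute.refl _)
    have hcl : c ∉ ttLine D a p := fun h =>
      hne (ttLine_eq hT a.2 p.2 hap h (Or.inr (Or.inl rfl)) hcp').2
    by_cases h1 : Commute (a : G) c
    · exact Or.inl (dual_plane hT hc h1 (fun h => hcl (Or.inl (by rw [h]))) hap fun h => hcp h.symm)
    by_cases h2 : Commute ((p : G) * a * p) c
    · left
      let a' : D := ⟨p * a * p, tt_mem hT hc p.2 a.2⟩
      have hm : a' ∈ ttLine D a p := Or.inr (Or.inr (by rw [tt_inv hT p.2]))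
      have hn : a' ≠ p := fun h => hap (by
        have := q_inv (tt_sq hT p.2) (congrArg Subtype.val h)
        rw [q_self (tt_sq hT p.2)] at this
        exact this ▸ Commute.refl _)
      obtain ⟨h3, h4⟩ := ttLine_eq hT a.2 p.2 hap hm (Or.inr (Or.inl rfl)) hn
      rw [h4]
      exact dual_plane hT hc (a := a') h2 (fun h => hcl (h ▸ hm)) h3 fun h => hcp h.symm
    · exact Or.inr (affine_plane hT hc h1 hap (fun h => hcp h.symm) h2 hcl)

end Cfsg.Agent.S5367
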