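import Cfsg.Statements.S5368
import Cfsg.Agent.Geom.Fi28

set_option autoImplicit false
open scoped MatrixGroups
open Cfsg

namespace Cfsg.Agent.S5368

open CF.Geom.Fi CF.Fisch in

/-- Fischer's Theorem on 3-transposition groups. Let D be a conjugacy class of 3-transpositions generating the finite group G, and suppose the centre of G is trivial and the commutator subgroup of G is simple (possibly of prime order). Then one of the following holds: (1) G is isomorphic to a symmetric group with D going to the transpositions; (2) G is isomorphic to a symplectic group over the field with two elements with D going to the transvections (elements g with g − 1 of rank one); (3) G is isomorphic to a projective special unitary group over the field with four elements with D going to the images of the unitary transvections; (4) G is isomorphic to the full isometry group of a hyperbolic or elliptic quadratic form over the field with two elements with D going to the orthogonal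 transvections; (5) G is isomorphic to the subgroup of the isometry group of a non-degenerate quadratic form over the field with three elements generated by the reflections in vectors of a fixed non-zero norm, taken modulo its centre, with D going to the images of those reflections; (6) G with D is of type M(22), M(23) or M(24). -/
theorem result {G : Type*} [Group G] [Finite G] {D : Set G} (hD : Cfsg.IsThreeTranspositionClass D) (hZ : Subgroup.center G = ⊥) (hsimple : IsSimpleGroup (commutator G)) : (∃ n : ℕ, ∃ e : G ≃* Equiv.Perm (Fin n), e '' D = {σ : Equiv.Perm (Fin n) | σ.IsSwap}) ∨ (∃ m : ℕ, ∃ e : G ≃* Matrix.symplecticGroup (Fin m) (ZMod 2), e '' D = {g : Matrix.symplecticGroup (Fin m) (ZMod 2) | ((g : Matrix (Fin m ⊕ Fin m) (Fin m ⊕ Fin m) (ZMod 2)) - 1).rank = 1}) ∨ (∃ (n : ℕ) (F : Type) (_ : Field F) (_ : Fintype F), Fintype.card F = 4 ∧ ∃ e : G ≃* Cfsg.PSU n F 2, e '' D = (QuotientGroup.mk : ↥(Cfsg.SU n F 2) → Cfsg.PSU n F 2) '' {g : ↥(Cfsg.SU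 n F 2) | (((g : Matrix.SpecialLinearGroup (Fin n) F) : Matrix (Fin n) (Fin n) F) - 1).rank = 1}) ∨ ((∃ m : ℕ, ∃ e : G ≃* ↥(Cfsg.isometryGroup (ZMod 2) (Cfsg.quadFormPlus m (ZMod 2))), e '' D = {g : ↥(Cfsg.isometryGroup (ZMod 2) (Cfsg.quadFormPlus m (ZMod 2))) | (((g : GL (Fin m ⊕ Fin m) (ZMod 2)) : Matrix (Fin m ⊕ Fin m) (Fin m ⊕ Fin m) (ZMod 2)) - 1).rank = 1}) ∨ (∃ m : ℕ, ∃ e : G ≃* ↥(Cfsg.isometryGroup (ZMod 2) (Cfsg.quadFormMinus m (ZMod 2) 1 1)), e '' D = {g : ↥(Cfsg.isometryGroup (ZMod 2) (Cfsg.quadFormMinus m (ZMod 2) 1 1)) | (((g : GL ((Fin m ⊕ Fin m) ⊕ Fin 2) (ZMod 2)) : Matrix ((Fin m ⊕ Fin m) ⊕ Fin 2) ((Fin m ⊕ Fin m) ⊕ Fin 2) (ZMod 2)) - 1).rank = 1})) ∨ (∃ n : ℕ, ∃ Q : QuadraticForm (ZMod 3) (Fin n → ZMod 3), (QuadraticMap.polarBilin Q).Nondegenerate ∧ ∃ c : ZMod 3, c ≠ 0 ∧ ∃ e : G ≃* ↥(Cfsg.reflectionSubgroup (⇑Q) c) ⧸ Subgroup.center ↥(Cfsg.reflectionSubgroup (⇑Q) c), e '' D = (QuotientGroup.mk : ↥(Cfsg.reflectionSubgroup (⇑Q) c) → _) ''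 {g : ↥(Cfsg.reflectionSubgroup (⇑Q) c) | (g : ↥(Cfsg.isometryGroup (ZMod 3) (⇑Q))) ∈ Cfsg.reflectionsOfNorm (⇑Q) c}) ∨ (Cfsg.IsOfTypeM22 G D ∨ Cfsg.IsOfTypeM23 G D ∨ Cfsg.IsOfTypeM24 G D) := by
  by_cases hna : IsMulCommutative (commutator G)
  · obtain ⟨d, hd, e0⟩ := hD.2.1
    obtain ⟨c, hc, n⟩ : ∃ c ∈ D, ¬ Commute d c := by
      by_contra k
      push Not at k
      exact tt_ne_one hD.1 hd (Subgroup.mem_bot.1
        (hZ ▸ mem_center_of_commute_gen hD.2.2 fun e he => (k e he).symm))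
    have o := tt_orderOf_three hD.1 hd hc n
    have m1 : d ∈ Subgroup.closure {d, c} := Subgroup.subset_closure (by simp)
    have m2 : c ∈ Subgroup.closure {d, c} := Subgroup.subset_closure (by simp)
    obtain ⟨e⟩ := perm3 (hD.1.1 d hd) (hD.1.1 c hc) o (by
      rw [eq_top_iff, ← zpowers_sup_eq_top (ttc_group hD) hd fun _ => ttc_mul_mem_commutator hD hd, sup_le_iff]
      refine ⟨Subgroup.zpowers_le.2 m1, fun x hx => ?_⟩
      have := (Subgroup.normal_of_isMulCommutative ((Subgroup.closure {d, c}).subgroupOf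
        (commutator G))).eq_bot_or_eq_top.resolve_left fun t => by
          have := t.le (show (⟨_, ttc_mul_mem_commutator hD hd hc⟩ : commutator G) ∈ _ from mul_mem m1 m2)
          rw [show d * c = 1 from congrArg Subtype.val (Subgroup.mem_bot.1 this)] at o
          simp at o
      exact (this.ge (Subgroup.mem_top ⟨x, hx⟩) :))
    refine .inl ⟨3, e, Set.ext fun s => ?_⟩
    obtain ⟨s, rfl⟩ := e.surjective s
    have k : ∀ s t : Equiv.Perm (Fin 3), s ≠ 1 → s * s = 1 → ((∃ c, c * s * c⁻¹ = t) ↔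
      ∃ x y, x ≠ y ∧ t = Equiv.swap x y) := by decide
    rw [e.injective.mem_set_image, e0]
    refine Iff.trans ?_ (k (e d) (e s) (by simpa using tt_ne_one hD.1 hd) (by rw [← map_mul, tt_sq hD.1 hd, map_one]))
    simp only [e.surjective.exists, ← map_inv, ← map_mul, e.injective.eq_iff]
    exact isConj_iff
  obtain ⟨X, _, _, τ, r, P⟩ := exists_prim (primTT_of_simple hD hsimple hna)
  rcases P.list with ⟨n, φ, h5, m⟩ | ⟨e, e'⟩ | ⟨n, B, φ, Q, h6, m⟩ | ⟨n, B, φ, h5, m⟩ | e | e | e | e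
  · exact .inl ⟨n, r.sym_iso hD.2.2 hZ m (by omega)⟩
  · exact .inr (.inl (r.grp_sp hD.2.2 hZ P e e'))
  · exact .inr (.inr (.inr (.inl ((r.grp_o2 hD.2.2 hZ m h6).imp (fun ⟨k, _, e⟩ => ⟨k, e⟩) fun ⟨k, _, e⟩ => ⟨k, e⟩))))
  · exact .inr (.inr (.inr (.inr (.inl ⟨n, qf B, m.qf_nondeg, 1, one_ne_zero, r.grp_o3 hD.2.2 hZ m⟩))))
  · obtain ⟨n, B, φ, m⟩ := e.uty.exists_UM
    exact .inr (.inr (.inl ⟨n, K4, inferInstance, inferInstance, rfl, r.grp_u hD.2.2 hZ m P.wide⟩))
  · exact .inr (.inr (.inr (.inr (.inr (.inl (e.m22 r hZ))))))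
  · exact .inr (.inr (.inr (.inr (.inr (.inr (.inl (e.m23 r hZ)))))))
  · exact .inr (.inr (.inr (.inr (.inr (.inr (.inr (e.m24 r hZ)))))))

end Cfsg.Agent.S5368
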