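import Cfsg.Statements.S5369
import Cfsg.Agent.Geom.Fi28

set_option autoImplicit false
open scoped MatrixGroups
open Cfsg

namespace Cfsg.Agent.S5369

open CF.Geom.Fi CF.Fisch in

/-- Let D be a conjugation-invariant generating set of 3-transpositions of the finite group G on which G acts primitively by conjugation, with trivial centre; let d be a member of D commuting with some other member of D (width at least 2), and let H be the subgroup generated by the members of D other than d commuting with d; suppose the largest normal 3-subgroup and the largest normal 2-subgroup of H are central in H. Then one of the following holds: G is isomorphic to a symmetric group of degree at least 7 with D going to the transpositions; G is isomorphic to the full isometry group of a hyperbolic or elliptic quadratic form in dimension at least 6 over the field with two elements with D going to the orthogonal transvections; G is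 isomorphic to the reflection group of a non-degenerate quadratic form in dimension at least 5 over the field with three elements for one non-zero norm, modulo its centre, with D going to the images of those reflections; or G with D is of type M(22), M(23) or M(24). -/
theorem result {G : Type*} [Group G] [Finite G] {D : Set G} (hD : Cfsg.IsThreeTranspositionGroup D) (hprim : Cfsg.IsPrimitiveUnderConj D) (hZ : Subgroup.center G = ⊥) (d : G) (hd : d ∈ D) (hw : ∃ b ∈ D, b ≠ d ∧ Commute d b) (h3 : Cfsg.pCore 3 ↥(Subgroup.closure {y : G | y ∈ D ∧ y ≠ d ∧ Commute d y}) ≤ Subgroup.center ↥(Subgroup.closure {y : G | y ∈ D ∧ y ≠ d ∧ Commute d y})) (h2 : Cfsg.pCore 2 ↥(Subgroup.closure {y : G | y ∈ D ∧ y ≠ d ∧ Commute d y}) ≤ Subgroup.center ↥(Subgroup.closure {y : G | y ∈ D ∧ y ≠ d ∧ Commute d y})) : (∃ n : ℕ, 7 ≤ n ∧ ∃ e : G ≃* Equiv.Perm (Fin n), e '' D = {σ : Equiv.Perm (Fin n) | σ.IsSwap}) ∨ ((∃ m : ℕ, 3 ≤ m ∧ ∃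 e : G ≃* ↥(Cfsg.isometryGroup (ZMod 2) (Cfsg.quadFormPlus m (ZMod 2))), e '' D = {g : ↥(Cfsg.isometryGroup (ZMod 2) (Cfsg.quadFormPlus m (ZMod 2))) | (((g : GL (Fin m ⊕ Fin m) (ZMod 2)) : Matrix (Fin m ⊕ Fin m) (Fin m ⊕ Fin m) (ZMod 2)) - 1).rank = 1}) ∨ (∃ m : ℕ, 2 ≤ m ∧ ∃ e : G ≃* ↥(Cfsg.isometryGroup (ZMod 2) (Cfsg.quadFormMinus m (ZMod 2) 1 1)), e '' D = {g : ↥(Cfsg.isometryGroup (ZMod 2) (Cfsg.quadFormMinus m (ZMod 2) 1 1)) | (((g : GL ((Fin m ⊕ Fin m) ⊕ Fin 2) (ZMod 2)) : Matrix ((Fin m ⊕ Fin m) ⊕ Fin 2) ((Fin m ⊕ Fin m) ⊕ Fin 2) (ZMod 2)) - 1).rank = 1})) ∨ (∃ n : ℕ, 5 ≤ n ∧ ∃ Q : QuadraticForm (ZMod 3) (Fin n → ZMod 3), (QuadraticMap.polarBilin Q).Nondegenerate ∧ ∃ c : ZMod 3, c ≠ 0 ∧ ∃ e : G ≃* ↥(Cfsg.reflectionSubgroup (⇑Q) c) ⧸ Subgroup.center ↥(Cfsg.reflectionSubgroup (⇑Q) c), e '' D = (QuotientGroup.mk : ↥(Cfsg.reflectionSubgroup (⇑Q) c) → _) '' {g : ↥(Cfsg.reflectionSubgroup (⇑Q) c) | (g : ↥(Cfsg.isometryGroup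 (ZMod 3) (⇑Q))) ∈ Cfsg.reflectionsOfNorm (⇑Q) c}) ∨ (Cfsg.IsOfTypeM22 G D ∨ Cfsg.IsOfTypeM23 G D ∨ Cfsg.IsOfTypeM24 G D) := by
  obtain ⟨X, _, _, τ, r, P⟩ := exists_prim (D := D) ⟨hD, hprim, let ⟨b, hb, n, c⟩ := hw; ⟨d, hd, b, hb, n.symm, c⟩⟩
  obtain ⟨a, ha, rfl⟩ := r.surj hd
  have hY := P.prim_Y ha (((r.Yd ha).vt_iff_core (P.loc ha)).2 h2) (((r.Yd ha).wt_iff_core (P.loc ha)).2 h3)
  have hv : ¬ ∃ x ∈ (Set.univ : Set X), ¬ VT (Yd Set.univ x) := fun ⟨x, hx, n⟩ =>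
    n (P.all_Y (fun _ _ _ hg e h => Gp.prim h hg e) ha hY x hx).vt
  rcases P.list with ⟨n, φ, h5, m⟩ | ⟨-, e⟩ | ⟨n, B, φ, Q, h6, m⟩ | ⟨n, B, φ, h5, m⟩ | e | e | e | e
  · exact .inl ⟨n, m.seven ha hY, r.sym_iso hD.2.2 hZ m (by omega)⟩
  · exact absurd (e.not_vt P.toCls) hv
  · exact .inr (.inl (r.grp_o2 hD.2.2 hZ m h6))
  · exact .inr (.inr (.inl ⟨n, h5, qf B, m.qf_nondeg, 1, one_ne_zero, r.grp_o3 hD.2.2 hZ m⟩))
  · exact absurd e.2.2 hv
  · exact .inr (.inr (.inr (.inl (e.m22 r hZ))))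
  · exact .inr (.inr (.inr (.inr (.inl (e.m23 r hZ)))))
  · exact .inr (.inr (.inr (.inr (.inr (e.m24 r hZ)))))

end Cfsg.Agent.S5369
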