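import Cfsg.Statements.S5378
import Cfsg.Agent.XT.Co3

set_option autoImplicit false
open Cfsg

namespace Cfsg.Agent.S5378

/-- Let G be a finite group of Conway type: it has an involution z whose centralizer C has generalized Fitting subgroup Q extraspecial of order 2^9 with C/Q isomorphic to the commutator subgroup of the isometry group of the hyperbolic quadratic form in dimension 8 over the field with two elements, and some conjugate of z other than z lies in Q. Then G has exactly three conjugacy classes of involutions. -/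
theorem result {G : Type*} [Group G] [Finite G] (z : G) (hz : orderOf z = 2) (Q : Subgroup (Subgroup.centralizer ({z} : Set G))) [Q.Normal] (hF : Cfsg.generalizedFittingSubgroup (Subgroup.centralizer ({z} : Set G)) = Q) (hQ : Cfsg.IsExtraspecial 2 Q) (hcard : Nat.card Q = 2 ^ 9) (e : (Subgroup.centralizer ({z} : Set G)) ⧸ Q ≃* Cfsg.Omega (ZMod 2) (Cfsg.quadFormPlus 4 (ZMod 2))) (hnwc : ∃ g : G, (∃ hq : g * z * g⁻¹ ∈ Subgroup.centralizer ({z} : Set G), (⟨g * z * g⁻¹, hq⟩ : Subgroup.centralizer ({z} : Set G)) ∈ Q) ∧ g * z * g⁻¹ ≠ z) : ∃ a b c : G, orderOf a = 2 ∧ orderOf b = 2 ∧ orderOf c = 2 ∧ ¬ IsConj a b ∧ ¬ IsConj a c ∧ ¬ IsConj b c ∧ ∀ x : G, orderOf x = 2 → IsConj x a ∨ IsConj x b ∨ IsConj x c := by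
  open CF.XT.Co in
  obtain ⟨φ, -⟩ := of_hyp hz Q hF hQ hcard e hnwc
  have n := not_conj (φ := MonoidHom.id S) Function.injective_id cardM
  have k : ∀ {x y : S}, IsConj (φ x) (φ y) → IsConj x y := fun c => by simpa using φ.symm.toMonoidHom.map_isConj c
  have u1 : FS 27 ≠ 1 := fun c => by
    have := Subgroup.card_dvd_of_le ((Subgroup.eq_top_iff' _).2 (fun x => by simp [c]) |>.ge.trans cent_u)
    rw [Subgroup.card_top, CF.Leech.card_Co1, card_NS] at this
    exact absurd this (by decide)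
  refine ⟨φ (FS 0), φ (FS 27), φ f, ?_, ?_, ?_, mt k n.1, mt k n.2, fun c => f_not ((spl_AS u_mem).conj (k c)),
    fun x hx => ?_⟩
  · rw [φ.orderOf_eq]; exact CF.Even.orderOf_eq_two' (AS_sq _ a_mem) a_ne
  · rw [φ.orderOf_eq]; exact CF.Even.orderOf_eq_two' (AS_sq _ u_mem) u1
  · rw [φ.orderOf_eq]; exact CF.Even.orderOf_eq_two' ff e34.2.2.1
  · obtain ⟨x, rfl⟩ := φ.surjective x
    rw [φ.orderOf_eq] at hx
    exact (cls mapA.2.ge (by rw [← pow_two, ← hx, pow_orderOf_eq_one]) (by rintro rfl; simp at hx)).imp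
      (fun c => (φ.toMonoidHom.map_isConj c).symm) (Or.imp (fun c => (φ.toMonoidHom.map_isConj c).symm)
      fun c => (φ.toMonoidHom.map_isConj c).symm)

end Cfsg.Agent.S5378
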