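import Cfsg.Statements.S5387
import Cfsg.Agent.Recog.Stem
import Cfsg.Agent.S2088

set_option autoImplicit false
open Cfsg

namespace Cfsg.Agent.S5387

/-- Up to isomorphism there is at most one quasisimple group whose centre is elementary abelian of order 4 and whose central quotient is isomorphic to the projective special linear group of dimension 3 over the field with four elements: any two such groups are isomorphic. -/
theorem result {L₁ L₂ : Type*} [Group L₁] [Finite L₁] [Group L₂] [Finite L₂] (F : Type) [Field F] [Fintype F] (hF : Fintype.card F = 4) (h₁ : Cfsg.IsQuasisimple L₁) (h₂ : Cfsg.IsQuasisimple L₂) (hc₁ : Nat.card (Subgroup.center L₁) = 4) (hc₂ : Nat.card (Subgroup.center L₂) = 4) (he₁ : ∀ x ∈ Subgroup.center L₁, x * x = 1) (he₂ : ∀ x ∈ Subgroup.center L₂, x * x = 1) (e₁ : L₁ ⧸ Subgroup.center L₁ ≃* Matrix.ProjectiveSpecialLinearGroup (Fin 3) F) (e₂ : L₂ ⧸ Subgroup.center L₂ ≃* Matrix.ProjectiveSpecialLinearGroup (Fin 3) F) : Nonempty (L₁ ≃* L₂)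 := by
  have p₁ : commutator L₁ = ⊤ := h₁.1.commutator_eq_top
  have p₂ : commutator L₂ = ⊤ := h₂.1.commutator_eq_top
  obtain ⟨s₁, k₁⟩ := CF.Recog.stem_center p₁ e₁
  obtain ⟨s₂, k₂⟩ := CF.Recog.stem_center p₂ e₂
  have hi : (powMonoidHom 2 : Multiplicative (ZMod 3 × ZMod 4 × ZMod 4) →* _).range.index ≤ 4 := by
    have h := (powMonoidHom 2 : Multiplicative (ZMod 3 × ZMod 4 × ZMod 4) →* _).range.card_mul_index
    rw [Nat.card_eq_fintype_card, Nat.card_eq_fintype_card,
      show Fintype.card (powMonoidHom 2 : Multiplicative (ZMod 3 × ZMod 4 × ZMod 4) →* _).range = 12 by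
        decide +kernel] at h
    simp at h
    omega
  obtain ⟨e, -⟩ := CF.Recog.stem_unique (Cfsg.Agent.S2088.result hF) s₁ s₂ p₁ p₂ (n := 2)
    (fun x hx => by rw [sq]; exact he₁ x (k₁ ▸ hx)) (fun x hx => by rw [sq]; exact he₂ x (k₂ ▸ hx))
    (by rw [k₁, hc₁]; exact hi) (by rw [k₂, hc₂]; exact hi)
  exact ⟨e⟩

end Cfsg.Agent.S5387
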