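import Cfsg.Statements.S5391
import Cfsg.Agent.Recog.U43.Main

set_option autoImplicit false
open Cfsg

namespace Cfsg.Agent.S5391

/-- Let G be a finite group of unitary U₄(3) type: G has an involution z whose centralizer H has order 2^7 · 3^2 and satisfies: the subgroup of H generated by its elements of odd order is the product of two of its normal subgroups H₁, H₂, each isomorphic to SL(2, 3), meeting in the subgroup generated by z; Q, the largest normal 2-subgroup of that product, is the generalized Fitting subgroup of H; some conjugate of z other than z lies in Q; and for every conjugate g z g⁻¹ of z lying in Q and different from z, the intersection of Q with its conjugate by g has order 4. Then G has order 2^7 · 3^6 · 5 · 7 (so the Sylow 2-subgroups of H are Sylow 2-subgroups of G) and G has exactly one conjugacy class of involutions. -/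
theorem result {G : Type*} [Group G] [Finite G] (z : G) (hz : orderOf z = 2) (H₁ H₂ : Subgroup (Subgroup.centralizer ({z} : Set G))) (hK : H₁ ⊔ H₂ = Subgroup.closure {x : Subgroup.centralizer ({z} : Set G) | Odd (orderOf x)}) (hn₁ : (H₁.subgroupOf (H₁ ⊔ H₂)).Normal) (hn₂ : (H₂.subgroupOf (H₁ ⊔ H₂)).Normal) (e₁ : H₁ ≃* Matrix.SpecialLinearGroup (Fin 2) (ZMod 3)) (e₂ : H₂ ≃* Matrix.SpecialLinearGroup (Fin 2) (ZMod 3)) (hmeet : (H₁ ⊓ H₂).map (Subgroup.subtype (Subgroup.centralizer ({z} : Set G))) = Subgroup.zpowers z) (Q : Subgroup (Subgroup.centralizer ({z} : Set G))) [Q.Normal] (hQ : Q = (Cfsg.pCore 2 ↥(H₁ ⊔ H₂)).map (Subgroup.subtype (H₁ ⊔ H₂))) (hF : Cfsg.generalizedFittingSubgroup (Subgroup.centralizer ({z} : Set G)) = Q) (hnwc : ∃ g : G, (∃ hq : g * z * g⁻¹ ∈ Subgroup.centralizer ({z} : Set G), (⟨g * z * g⁻¹, hq⟩ : Subgroup.centralizer ({z} : Set G)) ∈ Q) ∧ g * z * g⁻¹ ≠ z) (hH : Nat.card ↥(Subgroup.centralizer ({z} : Set G)) = 2 ^ 7 * 3 ^ 2)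 (hQQg : ∀ g : G, g * z * g⁻¹ ∈ Q.map (Subgroup.subtype (Subgroup.centralizer ({z} : Set G))) → g * z * g⁻¹ ≠ z → Nat.card ↥((Q.map (Subgroup.subtype (Subgroup.centralizer ({z} : Set G)))) ⊓ (Q.map (Subgroup.subtype (Subgroup.centralizer ({z} : Set G)))).map (MulAut.conj g).toMonoidHom) = 4) : Nat.card G = 2 ^ 7 * 3 ^ 6 * 5 * 7 ∧ ∀ x y : G, orderOf x = 2 → orderOf y = 2 → IsConj x y := by
  obtain ⟨Φ, y, h⟩ := CF.Recog.U43.exists_LY hz hK hn₁ hn₂ e₁ e₂ hmeet hQ hF hnwc hH hQQg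
  have := Fintype.ofFinite (GaloisField 3 2)
  have hK9 : Fintype.card (GaloisField 3 2) = 9 := by
    rw [← Nat.card_eq_fintype_card, GaloisField.card 3 2 (by decide)]; rfl
  obtain ⟨t, ⟨e⟩⟩ := h.top hK9
  refine ⟨(Nat.card_congr e.toEquiv).trans (CF.Recog.U43.card_PSU hK9), fun a b ha hb => ?_⟩
  have c := CF.Recog.conj_of_cen h.ord (t ▸ le_top) h.fuse
  obtain ⟨p, -, hp⟩ := c a (t ▸ trivial) ha
  obtain ⟨q, -, hq⟩ := c b (t ▸ trivial) hb
  exact (isConj_iff.2 ⟨p, hp⟩).trans (isConj_iff.2 ⟨q, hq⟩).symm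

end Cfsg.Agent.S5391
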