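import Cfsg.Statements.S5392
import Cfsg.Agent.Leech.Co0
import Cfsg.Agent.S1567

set_option autoImplicit false
open Cfsg

set_option maxRecDepth 1000000

namespace Cfsg.Agent.S5392

/-- The Leech lattice modulo twice itself is a faithful irreducible module for the first Conway group: an automorphism of the rank-24 lattice built from the length-24 code that moves every lattice vector only by twice a lattice vector lies in the centre of the automorphism group (the centre consists of ±1, which act trivially there, so the kernel is exactly the centre), and an additive subgroup lying between twice the lattice and the lattice that is invariant under all lattice automorphisms is one of the two. -/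
theorem result : (∀ g : ↥Cfsg.Co0, (∀ v : ↥Cfsg.leechLattice, ∃ w : ↥Cfsg.leechLattice, ((g • v : ↥Cfsg.leechLattice) : Cfsg.GolayPt → ℤ) - (v : Cfsg.GolayPt → ℤ) = 2 • (w : Cfsg.GolayPt → ℤ)) → g ∈ Subgroup.center ↥Cfsg.Co0) ∧ ∀ M : AddSubgroup (Cfsg.GolayPt → ℤ), (∀ v ∈ Cfsg.leechLattice, (2 : ℤ) • v ∈ M) → M ≤ Cfsg.leechLattice → (∀ g : ↥Cfsg.Co0, ∀ v : ↥Cfsg.leechLattice, (v : Cfsg.GolayPt → ℤ) ∈ M → ((g • v : ↥Cfsg.leechLattice) : Cfsg.GolayPt → ℤ) ∈ M) → (∀ x ∈ M, ∃ w ∈ Cfsg.leechLattice, x = (2 : ℤ) • w) ∨ M = Cfsg.leechLattice := by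
  open CF.Leech in
  refine ⟨fun g h => mem_center_iff.2 (eq_one_or_neg_of_pm fun x hx => ?_), fun M h2 hle hg => ?_⟩
  · obtain ⟨w, hw⟩ := h x
    exact CF.Leech.short_cong' (z := w) (by rw [CF.Leech.co_nm, hx]; norm_num)
      (by rw [hx]; norm_num) (Subtype.ext hw)
  open CF.Leech in
  refine or_iff_not_imp_left.2 fun h => le_antisymm hle ?_
  push Not at h
  obtain ⟨x, hx, h⟩ := h
  obtain ⟨y, hy, hn, z, hz, e⟩ := CF.Leech.exists_short (hle hx)
  have e2 : (2 : ℕ) • z = (2 : ℤ) • z := by ext i; simp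
  have hyM : y ∈ M := by
    have := M.sub_mem hx (h2 z hz)
    rwa [← e2, ← e, sub_sub_cancel] at this
  have h0 : y ≠ 0 := fun e0 => h z hz (by rw [← e2, ← e, e0, sub_zero])
  have h32 := CF.Leech.le_sqNorm hy h0
  have h16 := CF.Leech.sixteen_dvd_sqNorm hy
  open CF.Leech in
  have key : ∃ u : LL, nm u = 32 ∧ (u : V) ∈ M := by
    have : sqNorm y = 32 ∨ sqNorm y = 48 ∨ sqNorm y = 64 := by omega
    rcases this with h | h | h
    · exact ⟨⟨y, hy⟩, h, hyM⟩
    · obtain ⟨g1, e1⟩ := trans_48 (x := ⟨y, hy⟩) h nm_V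
      obtain ⟨g2, e2⟩ := trans_48 (x := ⟨y, hy⟩) (y := Spor.leechV + Spor.leechU') h
        (by decide +kernel)
      refine ⟨Spor.leechU', nm_U', ?_⟩
      have := M.sub_mem (hg g2 ⟨y, hy⟩ hyM) (hg g1 ⟨y, hy⟩ hyM)
      rwa [e1, e2, AddSubgroup.coe_add, add_sub_cancel_left] at this
    · obtain ⟨g1, e1⟩ := trans_64 (x := ⟨y, hy⟩) (y := p4 (some 1) (some 2) + p4 (some 0) (some 3)) h
        (by decide +kernel)
      obtain ⟨g2, e2⟩ := trans_64 (x := ⟨y, hy⟩) (y := p4 (some 1) (some 2) + p4 none (some 3)) h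
        (by decide +kernel)
      refine ⟨Spor.leechU', nm_U', ?_⟩
      have := M.sub_mem (hg g2 ⟨y, hy⟩ hyM) (hg g1 ⟨y, hy⟩ hyM)
      rw [e1, e2] at this
      convert this using 1
      decide +kernel
  obtain ⟨u, hu, huM⟩ := key
  rw [← Cfsg.Agent.S1567.result, AddSubgroup.closure_le]
  rintro v ⟨hv, hn⟩
  obtain ⟨g, e⟩ := CF.Leech.trans_32 (y := ⟨v, hv⟩) hu hn
  have := hg g _ huM
  rwa [e] at this

end Cfsg.Agent.S5392
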