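import Cfsg.Statements.S5394
import Cfsg.Agent.Leech.MCls

set_option autoImplicit false
open Cfsg

set_option maxRecDepth 1000000

namespace Cfsg.Agent.S5394

/-- The automorphism group of the length-24 code built from the squares modulo 23 has exactly two conjugacy classes of involutions: an involution either fixes exactly the eight points of an octad or has no fixed points, both kinds occur, and any two involutions of the same kind are conjugate in the group. -/
theorem result : (∀ g ∈ Cfsg.M24, orderOf g = 2 → (Finset.univ.filter fun p => g p = p) ∈ Cfsg.octads ∨ ∀ p, g p ≠ p) ∧ (∃ g ∈ Cfsg.M24, orderOf g = 2 ∧ (Finset.univ.filter fun p => g p = p) ∈ Cfsg.octads) ∧ (∃ g ∈ Cfsg.M24, orderOf g = 2 ∧ ∀ p, g p ≠ p) ∧ ∀ g ∈ Cfsg.M24, ∀ h ∈ Cfsg.M24, orderOf g = 2 → orderOf h = 2 → ((∀ p, g p ≠ p) ↔ (∀ p, h p ≠ p)) → ∃ k ∈ Cfsg.M24, k * g * k⁻¹ = h := by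
  open CF.Comp CF.Comp.Mat CF.Bt CF.Leech CF.Leech.M MulAction in
  refine ⟨fun g hg h => (cls2 (ord_mk hg h)).imp (fun ⟨_, x, e⟩ => (oct_iff x).1
    (fx_of_conj e fx2a ▸ oct_of_check (by decide +kernel))) fun e => fx_empty.1 e.1,
    ⟨_, (ev m e2a).2, (Subgroup.orderOf_coe _).trans (ord_m Nat.prime_two oe2a),
      show fx _ ∈ _ from fx_ev fx2a ▸ oct_of_check (by decide +kernel)⟩,
    ⟨_, (ev m e2b).2, (Subgroup.orderOf_coe _).trans (ord_m Nat.prime_two oe2b),
      fx_empty.1 (fx_ev fx2b ▸ card_ofMask (by decide))⟩, fun g hg h hh a b c => ?_⟩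
  obtain ⟨k, e⟩ : IsConj (⟨g, hg⟩ : M24) ⟨h, hh⟩ := by
    rw [← fx_empty, ← fx_empty] at c
    by_cases d : (fx g).card = 0
    · exact (isConj_iff.2 (cls2b (ord_mk hg a) d)).trans (isConj_iff.2 (cls2b (ord_mk hh b) (c.1 d))).symm
    · exact (isConj_iff.2 (cls2a (ord_mk hg a) d)).trans (isConj_iff.2 (cls2a (ord_mk hh b) (mt c.2 d))).symm
  exact ⟨_, k.1.2, mul_inv_eq_iff_eq_mul.2 (congrArg Subtype.val e)⟩

end Cfsg.Agent.S5394
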