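import Cfsg.Statements.S5396
import Cfsg.Agent.LX.QM

set_option autoImplicit false
open Cfsg

namespace Cfsg.Agent.S5396

open CF.Loc CF.LX CF.Even CF.Geom Subgroup Module

theorem key {ι : Type} [Fintype ι] [Nonempty ι] (q : QuadraticForm (ZMod 2) (ι → ZMod 2))
    (hq : (QuadraticMap.polarBilin q).Nondegenerate) {n m : ℕ} (hc : Fintype.card ι = 2 * n)
    (h1 : ∃ U : Submodule (ZMod 2) (ι → ZMod 2), (∀ u ∈ U, q u = 0) ∧ finrank (ZMod 2) U = m)
    (h2 : ∀ U : Submodule (ZMod 2) (ι → ZMod 2), (∀ u ∈ U, q u = 0) → finrank (ZMod 2) U ≤ m) :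
    ∃ (E : Type) (_ : Group E) (_ : Finite E), Cfsg.IsExtraspecial 2 E ∧ Nat.card E = 2 ^ (2 * n + 1) ∧
      sSup {k : ℕ | ∃ A : Subgroup E, Cfsg.IsElementaryAbelian 2 A ∧ Nat.card A = 2 ^ k} = m + 1 := by
  obtain ⟨E, _, _, p, z, h⟩ := exists_qm_group q
  refine ⟨E, _, inferInstance, CF.Solv.isExtraspecial_top_iff.1 (h.ex hq).isExtraspecial,
    by rw [h.card, finrank_fintype_fun_eq_card, hc], IsGreatest.csSup_eq ⟨?_, ?_⟩⟩
  · obtain ⟨U, a, rfl⟩ := h1
    exact h.exists_elemAb a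
  · rintro k ⟨A, a, b⟩
    obtain ⟨U, c, d⟩ := h.exists_sing a
    rw [b, Nat.pow_le_pow_iff_right (by omega)] at d
    have := h2 U c
    omega


/-- For every n ≥ 1 there exist finite extraspecial 2-groups of order 2^(2n+1) whose 2-rank (the largest rank of an elementary abelian subgroup) is n, and ones whose 2-rank is n + 1 (so for each such order there are two non-isomorphic extraspecial 2-groups, told apart by their 2-rank). -/
theorem result (n : ℕ) (hn : 1 ≤ n) : ∀ r ∈ ({n, n + 1} : Set ℕ), ∃ (E : Type) (_ : Group E) (_ : Finite E), Cfsg.IsExtraspecial 2 E ∧ Nat.card E = 2 ^ (2 * n + 1) ∧ sSup {k : ℕ | ∃ A : Subgroup E, Cfsg.IsElementaryAbelian 2 A ∧ Nat.card A = 2 ^ k} = r := by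
  obtain ⟨m, rfl⟩ : ∃ m, n = m + 1 := ⟨n - 1, by omega⟩
  rintro r (rfl | rfl)
  · have hq := qMinus_nondegenerate (F := ZMod 2) m (a := 1) (b := 1) (by decide)
    have hr : finrank (ZMod 2) ((Fin m ⊕ Fin m) ⊕ Fin 2 → ZMod 2) = 2 * m + 2 := by simp; omega
    refine key _ hq (by simp; omega) ?_ fun U hU => ?_
    · have f := qFrame_qMinus (F := ZMod 2) m 1 1
      exact ⟨_, fun u hu => f.singular_of_mem_span hq hu, by
        rw [finrank_span_eq_card (f.linearIndependent_left (isWittPair_quad _ hq)), Fintype.card_fin]⟩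
    · have a := (isWittPair_quad _ hq).two_mul_finrank_le (le_perp_of_totally_singular hU)
      have b : 2 * finrank (ZMod 2) U ≠ 2 * m + 2 := fun e =>
        not_isPlus_qMinus (F := ZMod 2) m (a := 1) (b := 1) (by decide) ⟨U, e.trans hr.symm, hU⟩
      omega
  · have hq := qPlus_nondegenerate (F := ZMod 2) (m + 1)
    have hr : finrank (ZMod 2) (Fin (m + 1) ⊕ Fin (m + 1) → ZMod 2) = 2 * (m + 1) := by simp; omega
    refine key _ hq (by simp; omega) ?_ fun U hU => ?_
    · obtain ⟨U, a, b⟩ := isPlus_qPlus (F := ZMod 2) (m + 1)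
      exact ⟨U, b, by omega⟩
    · have a := (isWittPair_quad _ hq).two_mul_finrank_le (le_perp_of_totally_singular hU)
      omega

end Cfsg.Agent.S5396
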