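import Cfsg.Statements.S5397
import Cfsg.Agent.XT.Co3

set_option autoImplicit false
open Cfsg

namespace Cfsg.Agent.S5397

/-- Let G be a finite group of Conway type (involution z with generalized Fitting subgroup Q of its centralizer C extraspecial of order 2^9, C/Q the commutator subgroup of the isometry group of the hyperbolic quadratic form in dimension 8 over the field with two elements, z not weakly closed in Q). Then G has an elementary abelian subgroup A of order 2^11 containing z whose normalizer N is a split extension of A with N/A isomorphic to the automorphism group of the length-24 code built from the squares modulo 23, and N has exactly two orbits on the non-identity elements of A. -/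
theorem result {G : Type*} [Group G] [Finite G] (z : G) (hz : orderOf z = 2) (Q : Subgroup (Subgroup.centralizer ({z} : Set G))) [Q.Normal] (hF : Cfsg.generalizedFittingSubgroup (Subgroup.centralizer ({z} : Set G)) = Q) (hQ : Cfsg.IsExtraspecial 2 Q) (hcard : Nat.card Q = 2 ^ 9) (e : (Subgroup.centralizer ({z} : Set G)) ⧸ Q ≃* Cfsg.Omega (ZMod 2) (Cfsg.quadFormPlus 4 (ZMod 2))) (hnwc : ∃ g : G, (∃ hq : g * z * g⁻¹ ∈ Subgroup.centralizer ({z} : Set G), (⟨g * z * g⁻¹, hq⟩ : Subgroup.centralizer ({z} : Set G)) ∈ Q) ∧ g * z * g⁻¹ ≠ z) : ∃ A : Subgroup G, Cfsg.IsElementaryAbelian 2 A ∧ Nat.card A = 2 ^ 11 ∧ z ∈ A ∧ ∃ _ : (A.subgroupOf (Subgroup.normalizer (A : Set G))).Normal, Nonempty (↥(Subgroup.normalizer (A : Set G)) ⧸ A.subgroupOf (Subgroup.normalizer (A : Set G)) ≃* ↥Cfsg.M24) ∧ (∃ K : Subgroup ↥(Subgroup.normalizer (A : Set G)), (A.subgroupOf (Subgroup.normalizer (A : Set G))).IsComplement' K) ∧ ∃ a ∈ A, ∃ b ∈ A, a ≠ 1 ∧ b ≠ 1 ∧ (∀ n ∈ Subgroup.normalizer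 (A : Set G), n * a * n⁻¹ ≠ b) ∧ ∀ c ∈ A, c ≠ 1 → ∃ n ∈ Subgroup.normalizer (A : Set G), n * c * n⁻¹ = a ∨ n * c * n⁻¹ = b := by
  open CF.XT.Co Subgroup in
  obtain ⟨φ, k⟩ := of_hyp hz Q hF hQ hcard e hnwc
  have n := (not_conj (φ := MonoidHom.id S) Function.injective_id cardM).1
  have u1 : FS 27 ≠ 1 := fun c => by
    have := card_dvd_of_le (((eq_top_iff' _).2 fun x => by simp [c]).ge.trans cent_u)
    rw [card_top, CF.Leech.card_Co1, card_NS] at this
    exact absurd this (by decide)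
  have nN : normalizer (AS : Set S) = NS := le_antisymm (fun g hg => by
    rcases A_cls ((mem_normalizer_iff.1 hg _).1 u_mem) with c | ⟨m, -, c⟩ | ⟨m, hm, c⟩
    · exact absurd (by simpa using c) u1
    · exact absurd ((isConj_iff.2 ⟨m, c⟩).trans (isConj_iff.2 ⟨g, rfl⟩).symm) n
    · refine (mul_mem_cancel_left (inv_mem hm)).1 (cent_u (mem_centralizer_singleton_iff.2 ?_))
      rw [mul_assoc, ← mul_inv_cancel_right (g * _) g⁻¹, ← c]; group) nAS
  obtain ⟨-, -, h1, h2, K, h3, h4, h5, ⟨ψ⟩⟩ := CF.Known.Mon.split_theta (θ := φ.toMonoidHom.comp mk)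
    fun g => (map_eq_one_iff _ φ.injective).trans (mk_one g)
  rw [← map_map] at h1 h2 h3 h4 h5
  rw [← map_map] at h5
  change K ≤ NS.map _ at h3
  change AS.map _ ⊔ _ = NS.map _ at h5
  rw [← nN, map_equiv_normalizer_eq] at h3 h5
  have c := isComplement'_of_disjoint_and_mul_eq_univ
    (H := (AS.map φ.toMonoidHom).subgroupOf (normalizer (AS.map φ.toMonoidHom : Set G)))
    (K := K.subgroupOf (normalizer (AS.map φ.toMonoidHom : Set G))) (disjoint_def.2 fun a b =>
      Subtype.ext (h4.le ⟨a, b⟩)) (by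
      rw [← normal_mul, ← subgroupOf_sup le_normalizer h3, h5, subgroupOf_self, coe_top])
  refine ⟨AS.map φ.toMonoidHom, h1, h2, ⟨_, a_mem, k⟩, inferInstance,
    ⟨(c.symm.QuotientMulEquiv.trans (subgroupOfEquivOfLe h3)).trans ψ⟩, ⟨_, c⟩, φ (FS 0), ⟨_, a_mem, rfl⟩,
    φ (FS 27), ⟨_, u_mem, rfl⟩, fun c => a_ne (φ.injective (c.trans (map_one φ).symm)), 
    fun c => u1 (φ.injective (c.trans (map_one φ).symm)), fun g _ c => ?_, ?_⟩
  · obtain ⟨g, rfl⟩ := φ.surjective g
    exact n (isConj_iff.2 ⟨g, φ.injective (by simpa using c)⟩)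
  · rintro _ ⟨x, hx, rfl⟩ c
    have t : ∀ {m y : S}, m ∈ NS → m * y * m⁻¹ = x → φ m⁻¹ ∈ normalizer (AS.map φ.toMonoidHom : Set G) ∧
        φ m⁻¹ * φ.toMonoidHom x * (φ m⁻¹)⁻¹ = φ y := fun hm l =>
      ⟨le_normalizer_map _ ⟨_, nAS (inv_mem hm), rfl⟩, by simp [← l, mul_assoc]⟩
    rcases A_cls hx with rfl | ⟨m, hm, l⟩ | ⟨m, hm, l⟩
    exacts [absurd (map_one _) c, ⟨_, (t hm l).1, .inl (t hm l).2⟩, ⟨_, (t hm l).1, .inr (t hm l).2⟩]

end Cfsg.Agent.S5397
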