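import Cfsg.Statements.S5401
import Cfsg.Agent.Fisch.F22.P0
import Cfsg.Agent.Fisch.F23.P0
import Cfsg.Agent.Fisch.F24.P0
import Cfsg.Agent.Fisch.F24.Tu
import Cfsg.Agent.Fisch.F23.Tu
import Cfsg.Agent.Fisch.F22.Tu
-- import your own Cfsg.Agent.* helpers here

set_option autoImplicit false
open Cfsg

namespace Cfsg.Agent.S5401

open CF.Fisch
open scoped commutatorElement

open CF.Fisch CF.Comp Subgroup

theorem t22 : IsOfTypeM22 _ F22.X := by
  obtain ⟨E, M⟩ := F22.model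
  let _ := Fintype.ofFinite (GaloisField 2 2)
  have h : Fintype.card (GaloisField 2 2) = 4 := by
    rw [← Nat.card_eq_fintype_card, GaloisField.card 2 2 (by decide)]; rfl
  have h1 := (M.cover (M.cw0_mem F22.P0.pa) _ h).2.1
  rw [← M.clDd (M.cw0_mem _)] at h1
  exact ⟨M.center, _, M.cw0_mem _, _, M.cw0_mem _, F22.P0.nc M, ⟨_, _, _, h, h1⟩, -1, by decide, F22.P0.loc M⟩

theorem t23 : IsOfTypeM23 _ F23.X := by
  obtain ⟨E, M⟩ := F23.model
  obtain ⟨E', M'⟩ := F22.model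
  have := M.finite
  obtain ⟨σ, h, -⟩ := F23.loc M
  obtain ⟨τ, h1⟩ := (M.dd ▸ h.symm :).move M.primTT.cls M.base_mem (M.cw0_mem F23.P0.pa)
  exact ⟨M.center, _, M.cw0_mem _, _, M.cw0_mem _, F23.P0.nc M, (h1.trans (M.primTT.qiso_bar (M.cw0_mem _))).typeM22
    (h1.center_loc M'.grp.2.2 M'.center) t22, -1, by decide, by rw [neg_neg]; exact F23.P0.loc M⟩

theorem t24 : IsOfTypeM24 _ F24.X := by
  obtain ⟨E, M⟩ := F24.model
  obtain ⟨E', M'⟩ := F23.model
  have := M.finite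
  obtain ⟨τ, h1⟩ := M.locE (M.cw0_mem F24.P0.pa)
  obtain ⟨-, χ, h, -⟩ := F24.P0.tri M
  replace h := h.quot
  rw [← F24.P0.py M, ← py_Dd] at h
  exact ⟨M.center, _, M.cw0_mem _, _, M.cw0_mem _, F24.P0.nc M, (h1.trans (M.primTT.qiso_bar (M.cw0_mem _))).typeM23
    (h1.center_loc M'.grp.2.2 M'.center) t23, h⟩

/-- Existence of the Fischer 3-transposition groups: there exist finite groups generated by a conjugacy class of 3-transpositions on which they act primitively that are of type M(22), of type M(23), and of type M(24) respectively. -/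
theorem result : (∃ (X : Type) (_ : Group X) (_ : Finite X) (E : Set X), Cfsg.IsThreeTranspositionClass E ∧ Cfsg.IsPrimitiveUnderConj E ∧ Cfsg.IsOfTypeM22 X E) ∧ (∃ (X : Type) (_ : Group X) (_ : Finite X) (E : Set X), Cfsg.IsThreeTranspositionClass E ∧ Cfsg.IsPrimitiveUnderConj E ∧ Cfsg.IsOfTypeM23 X E) ∧ (∃ (X : Type) (_ : Group X) (_ : Finite X) (E : Set X), Cfsg.IsThreeTranspositionClass E ∧ Cfsg.IsPrimitiveUnderConj E ∧ Cfsg.IsOfTypeM24 X E) := by
  obtain ⟨_, M⟩ := F22.model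
  obtain ⟨_, M'⟩ := F23.model
  obtain ⟨_, M''⟩ := F24.model
  exact ⟨⟨_, _, M.finite, _, M.primTT.cls, M.primTT.prim, t22⟩, ⟨_, _, M'.finite, _, M'.primTT.cls, M'.primTT.prim, t23⟩,
    _, _, M''.finite, _, M''.primTT.cls, M''.primTT.prim, t24⟩

end Cfsg.Agent.S5401
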