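import Cfsg.Statements.S5403
import Cfsg.Agent.Bt.Xc.J2
import Cfsg.Agent.Bt.Xc.CJ2
import Cfsg.Agent.Leech.Co1

set_option autoImplicit false
open Cfsg

set_option maxRecDepth 1000000

namespace Cfsg.Agent.S5403

/-- A simple section of the automorphism group of the Leech lattice satisfying the Hall–Janko-type hypothesis (the group so obtained is the Hall–Janko group; that identification is not part of this statement): there is a subgroup A of order 5 of that automorphism group such that the centralizer of A modulo the subgroup generated by A and the centre of the automorphism group is a non-abelian simple group satisfying the large extraspecial hypothesis of minus type in dimension 4 — an involution whose centralizer has extraspecial generalized Fitting subgroup of order 32 with quotient the commutator subgroup of the isometry group of the elliptic quadratic form in dimension 4 over the field with two elements (the alternating group of degree 5), the involution not weakly closed in that extraspecial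 group. -/
theorem result : ∃ A : Subgroup ↥Cfsg.Co0, Nat.card A = 5 ∧ ∃ (hn : ((A ⊔ Subgroup.center ↥Cfsg.Co0).subgroupOf (Subgroup.centralizer (A : Set ↥Cfsg.Co0))).Normal), ∃ (S : Type) (_ : Group S) (_ : Finite S), Nonempty (S ≃* ↥(Subgroup.centralizer (A : Set ↥Cfsg.Co0)) ⧸ (A ⊔ Subgroup.center ↥Cfsg.Co0).subgroupOf (Subgroup.centralizer (A : Set ↥Cfsg.Co0))) ∧ IsSimpleGroup S ∧ ¬ IsMulCommutative S ∧ ∃ z : S, orderOf z = 2 ∧ ∃ (Q : Subgroup (Subgroup.centralizer ({z} : Set S))) (_ : Q.Normal), Cfsg.generalizedFittingSubgroup (Subgroup.centralizer ({z} : Set S)) = Q ∧ Cfsg.IsExtraspecial 2 Q ∧ Nat.card Q = 2 ^ 5 ∧ Nonempty ((Subgroup.centralizer ({z} : Set S)) ⧸ Q ≃* Cfsg.Omega (ZMod 2) (Cfsg.quadFormMinus 1 (ZMod 2) 1 1)) ∧ ∃ g : S, (∃ hq : g * z * g⁻¹ ∈ Subgroup.centralizer ({z} : Set S), (⟨g * z * g⁻¹, hq⟩ : Subgroup.centralizer ({z} : Set S)) ∈ Q) ∧ g * z * g⁻¹ ≠ z := by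
  obtain ⟨a, ha, ⟨e⟩⟩ := CF.Bt.SectJ2.equiv
  obtain ⟨A, hA, hn, ⟨e'⟩⟩ := CF.Bt.sect (k := 2) (fun z hz => by
    rcases CF.Leech.mem_center_iff.1 hz with rfl | rfl
    exacts [mul_one _, CF.Leech.negCo_mul_self]) (by norm_num) ha
  obtain ⟨z, Q, h, h1, g, h2, h3⟩ := CF.Bt.XcJ2.xc
  have : Finite (CF.Comp.PG CF.J23.P2.N) := CF.J23.P2.finP
  exact ⟨A, hA, hn, (CF.Comp.PG CF.J23.P2.N), inferInstance, this, ⟨e.trans e'⟩, CF.J23.P2.simpleP,
    fun hc => h3 (by rw [hc.1.comm g z, mul_inv_cancel_right]),
    z, h.setting CF.Bt.simple_O4m (CF.Bt.not_pgroup_of_card CF.Bt.card_O4m (by decide)) h1 h2 h3⟩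

end Cfsg.Agent.S5403
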