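import Cfsg.Statements.S5405
import Cfsg.Agent.LX.QM
import Cfsg.Agent.Geom.Omega
import Cfsg.Agent.Geom.SpGen

set_option autoImplicit false
open scoped MatrixGroups
open Cfsg

namespace Cfsg.Agent.S5405

open CF.Geom CF.LX QuadraticMap Subgroup

set_option linter.unusedSectionVars false

section
variable {V : Type*} [AddCommGroup V] [Module (ZMod 2) V] [Finite V] {q : QuadraticForm (ZMod 2) V}

theorem rf {a : V} (ha : q a = 1) (x : V) : (oRefl q a).1 x = x + polar q a x • a := by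
  rw [oRefl_apply, ha, inv_one, one_mul, sub_eq_add_neg, ZModModule.neg_eq_self]

theorem ps (a : V) : polar q a a = 0 := by
  rw [polar_self', show (2 : ZMod 2) = 0 from rfl, zero_mul]

theorem mul_app (g h : OG q) (x : V) : (g * h).1 x = g.1 (h.1 x) := rfl

variable (hq : (polarBilin q).Nondegenerate) {f : OG q → V}
  (hf : ∀ g ∈ commutator (OG q), ∀ h ∈ commutator (OG q), f (g * h) = f g + g.1 (f h))
include hq hf

omit hf in
theorem rr_mem {a b : V} (ha : q a = 1) (hb : q b = 1) :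
    oRefl q a * oRefl q b ∈ commutator (OG q) :=
  oRefl_mul_mem_commutator hq (by simp [ha]) (by simp [hb]) (by simp [ha, hb])

omit hq in
theorem f_one : f 1 = 0 := by simpa using hf 1 (one_mem _) 1 (one_mem _)

theorem f_span {a b : V} (ha : q a = 1) (hb : q b = 1) (hab : polar q a b = 1) :
    f (oRefl q a * oRefl q b) = polar q b (f (oRefl q a * oRefl q b)) • a +
      polar q a (f (oRefl q a * oRefl q b)) • b := by
  have m := rr_mem hq ha hb
  have hba : polar q b a = 1 := by rw [polar_comm, hab]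
  have e : ∀ x, x + (oRefl q a * oRefl q b).1 (x + (oRefl q a * oRefl q b).1 x) =
      x + polar q b x • a + polar q a x • b := fun x => by
    simp only [mul_app, rf ha, rf hb, polar_add_right, polar_smul_right, ps, hab, hba]
    generalize polar q a x = s
    generalize polar q b x = t
    match_scalars <;> revert s t <;> decide
  have d3 : oRefl q a * oRefl q b * (oRefl q a * oRefl q b * (oRefl q a * oRefl q b)) = 1 := by
    have h1 := conj_oRefl (oRefl q a) b
    have h2 := conj_oRefl (oRefl q b) a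
    rw [rf ha, hab, one_smul, oRefl_inv] at h1
    rw [rf hb, hba, one_smul, oRefl_inv, add_comm, ← h1] at h2
    calc _ = oRefl q a * oRefl q b * oRefl q a * (oRefl q b * oRefl q a * oRefl q b) := by group
      _ = 1 := by rw [h2, h1, oRefl_mul_self]
  have := f_one hf
  rw [← d3, hf _ m _ (mul_mem m m), hf _ m _ m, e, add_assoc, add_eq_zero_iff_eq_neg,
    ZModModule.neg_eq_self] at this
  exact this

theorem f_swap {a b : V} (ha : q a = 1) (hb : q b = 1) (hab : polar q a b = 1) :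
    polar q b (f (oRefl q b * oRefl q a)) = polar q (a + b) (f (oRefl q a * oRefl q b)) := by
  have := hf _ (rr_mem hq hb ha) _ (rr_mem hq ha hb)
  rw [show oRefl q b * oRefl q a * (oRefl q a * oRefl q b) = 1 by
    rw [mul_assoc, ← mul_assoc (oRefl q a), oRefl_mul_self, one_mul, oRefl_mul_self], f_one hf,
    eq_comm, add_eq_zero_iff_eq_neg, ZModModule.neg_eq_self] at this
  rw [this, ← OG_polar (oRefl q b * oRefl q a) (a + b)]
  congr 1
  simp only [mul_app, rf ha, rf hb, polar_add_right, polar_smul_right, ps, hab, polar_comm q b a]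
  match_scalars <;> decide

theorem f_cons {a b c : V} (ha : q a = 1) (hb : q b = 1) (hc : q c = 1) (hab : polar q a b = 1)
    (hac : polar q a c = 1) (hbc : polar q b c = 0) {y : V} (h1 : polar q y b = 1)
    (h2 : polar q y c = 0) :
    polar q (a + b) (f (oRefl q a * oRefl q b)) = polar q (a + c) (f (oRefl q a * oRefl q c)) := by
  have m := rr_mem hq hb hc
  have e1 := hf _ m _ m
  have cm : oRefl q b * oRefl q c * (oRefl q b * oRefl q c) = 1 := by
    have := conj_oRefl (oRefl q b) c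
    rw [oRefl_of_polar_eq_zero hbc, oRefl_inv] at this
    rw [← mul_assoc, this, oRefl_mul_self]
  rw [cm, f_one hf] at e1
  have e2 := congrArg (polar q y) e1
  simp only [mul_app, rf hb, rf hc, polar_add_right, polar_smul_right, hbc, h1, h2, polar_zero_right,
    smul_eq_mul, mul_zero, add_zero, mul_one, ← add_assoc, CharTwo.add_self_eq_zero, zero_add] at e2
  have e3 := hf _ (rr_mem hq hb ha) _ (rr_mem hq ha hc)
  rw [mul_assoc, ← mul_assoc (oRefl q a), oRefl_mul_self, one_mul] at e3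
  rw [e3, polar_add_right, f_swap hq hf ha hb hab, eq_comm, add_eq_zero_iff_eq_neg,
    ZModModule.neg_eq_self] at e2
  rw [e2, f_span hq hf ha hc hac]
  simp only [mul_app, rf ha, rf hb, polar_add_right, polar_add_left, polar_smul_right, ps, hab, hac,
    hbc, polar_comm q b a, polar_comm q c a]
  generalize polar q a _ = s
  generalize polar q c _ = t
  revert s t
  decide

theorem h1 (hgen : reflSub q = ⊤) {m : ℕ} (b c : Fin (m + 1) → V) (nb : Fin (m + 1) → Fin (m + 1))
    (ht : V → ℕ) (hb : ∀ i, q (b i) = 1)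
    (hc : ∀ i j, polar q (c i) (b j) = if i = j then 1 else 0)
    (tri : ∀ i j k, polar q (b i) (b j) = 1 → polar q (b i) (b k) = 1 →
      j = k ∨ polar q (b j) (b k) = 0)
    (hnb : ∀ i, polar q (b i) (b (nb i)) = 1 ∧ (i = 0 ∨ nb i < i))
    (cert : ∀ v, q v = 0 ∨ (∃ i, v = b i) ∨ ∃ i, polar q (b i) v = 1 ∧ ht (v + b i) < ht v) :
    ∃ v, ∀ g ∈ commutator (OG q), f g = g.1 v - v := by
  let r := fun i => oRefl q (b i)
  let l := fun i => polar q (b i + b (nb i)) (f (r i * r (nb i)))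
  have hl : ∀ i j, polar q (b i) (b j) = 1 → polar q (b i + b j) (f (r i * r j)) = l i :=
    fun i j h => by
      by_cases e : j = nb i
      · rw [e]
      · exact f_cons hq hf (hb i) (hb j) (hb _) h (hnb i).1 ((tri i j _ h (hnb i).1).resolve_left e)
          (y := c j) (by simp [hc]) (by simp [hc, e])
  let v := ∑ i, l i • c i
  have hv : ∀ j, polar q (b j) v = l j := fun j => by
    rw [polar_comm, ← polarBilin_apply_apply]
    simp [v, hc]
  let S : Subgroup (OG q) :=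
    { carrier := {g | g ∈ commutator (OG q) ∧ f g = g.1 v - v}
      one_mem' := ⟨one_mem _, by simp [f_one hf]⟩
      mul_mem' := fun {g h} a b => ⟨mul_mem a.1 b.1, by
        rw [hf g a.1 h b.1, a.2, b.2, map_sub, mul_app]; abel⟩
      inv_mem' := fun {g} a => ⟨inv_mem a.1, by
        have := hf _ (inv_mem a.1) g a.1
        rw [inv_mul_cancel, f_one hf, a.2, map_sub, ← mul_app, inv_mul_cancel, eq_comm,
          add_eq_zero_iff_eq_neg] at this
        rw [this]; simp⟩ }
  have adj : ∀ i j, polar q (b i) (b j) = 1 → r i * r j ∈ S := fun i j h => by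
    refine ⟨rr_mem hq (hb i) (hb j), ?_⟩
    have h' : polar q (b j) (b i) = 1 := by rw [polar_comm, h]
    have e1 := hl i j h
    have e2 := (f_swap hq hf (hb j) (hb i) h').trans (hl j i h')
    rw [polar_add_left, e2, ← eq_sub_iff_add_eq', sub_eq_add_neg, ZModModule.neg_eq_self] at e1
    rw [f_span hq hf (hb i) (hb j) h, e1, e2]
    simp only [r, mul_app, rf (hb i), rf (hb j), polar_add_right, polar_smul_right, hv, h,
      smul_eq_mul, mul_one]
    abel
  have rr : ∀ i, r i * r i = 1 := fun i => oRefl_mul_self _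
  have all : ∀ i, r i * r 0 ∈ S := fun i => by
    induction i using WellFoundedLT.induction with
    | ind i ih =>
      rcases (hnb i).2 with rfl | k
      · rw [rr]; exact one_mem _
      · simpa [mul_assoc, ← mul_assoc (r (nb i)), rr] using S.mul_mem (adj i _ (hnb i).1) (ih _ k)
  let L := closure (Set.range fun x : Fin (m + 1) × Fin (m + 1) => r x.1 * r x.2)
  have top : closure (Set.range r) = ⊤ := by
    refine eq_top_iff.2 (hgen.ge.trans ((closure_le _).2 ?_))
    rintro _ ⟨a, ha, rfl⟩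
    induction e : ht a using Nat.strong_induction_on generalizing a with
    | _ n ih =>
      rcases cert a with k | ⟨i, rfl⟩ | ⟨i, k, k'⟩
      · exact (ha k).elim
      · exact subset_closure ⟨i, rfl⟩
      · have := conj_oRefl (r i) (a + b i)
        rw [rf (hb i), polar_add_right, k, ps, add_zero, one_smul, add_assoc, ZModModule.add_self,
          add_zero] at this
        rw [← this]
        have m : r i ∈ closure (Set.range r) := subset_closure ⟨i, rfl⟩
        refine mul_mem (mul_mem m (ih _ (e ▸ k') _ ?_ rfl)) (inv_mem m)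
        rwa [quad_add, hb, polar_comm, k, add_assoc, CharTwo.add_self_eq_zero, add_zero]
  haveI : Finite (V ≃ₗ[ZMod 2] V) := DFunLike.finite _
  haveI : L.Normal := normalizer_eq_top_iff.1 (eq_top_iff.2 (top.ge.trans ((closure_le _).2 (by
    rintro _ ⟨k, rfl⟩
    refine CF.Loc.mem_normalizer_of_cj_le (map_le_iff_le_comap.2 ((closure_le _).2 ?_))
    rintro _ ⟨⟨i, j⟩, rfl⟩
    change r k * (r i * r j) * (r k)⁻¹ ∈ L
    rw [oRefl_inv, ← mul_assoc, mul_assoc]
    exact mul_mem (subset_closure ⟨(k, i), rfl⟩) (subset_closure ⟨(j, k), rfl⟩)))))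
  refine ⟨v, fun g hg => (((closure_le S).2 ?_ : L ≤ S) (commutator_le_of_gen L (Set.range r)
    (by rw [top, top_sup_eq]) ?_ hg)).2⟩
  · rintro _ ⟨⟨i, j⟩, rfl⟩
    simpa [r, oRefl_inv, mul_assoc, ← mul_assoc (oRefl q (b 0)), oRefl_mul_self] using
      S.mul_mem (all i) (S.inv_mem (all j))
  · rintro _ ⟨i, rfl⟩ _ ⟨j, rfl⟩
    rw [show (r i : OG q ⧸ L) = r j from QuotientGroup.eq.2 (by
      rw [oRefl_inv]; exact subset_closure ⟨(i, j), rfl⟩)]

end

theorem transfer {ι : Type} [Fintype ι] [DecidableEq ι] (q : QuadraticForm (ZMod 2) (ι → ZMod 2))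
    (H : ∀ f : OG q → ι → ZMod 2, (∀ g ∈ commutator (OG q), ∀ h ∈ commutator (OG q),
      f (g * h) = f g + g.1 (f h)) → ∃ v, ∀ g ∈ commutator (OG q), f g = g.1 v - v)
    (f : Omega (ZMod 2) q → ι → ZMod 2) (hf : ∀ g h : Omega (ZMod 2) q, f (g * h) = f g +
      Matrix.mulVec (((g : isometryGroup (ZMod 2) q) : GL ι (ZMod 2)) : Matrix ι ι (ZMod 2)) (f h)) :
    ∃ v, ∀ g : Omega (ZMod 2) q, f g =
      Matrix.mulVec (((g : isometryGroup (ZMod 2) q) : GL ι (ZMod 2)) : Matrix ι ι (ZMod 2)) v - v := by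
  classical
  have hm : ∀ g, oEquiv q g ∈ commutator (OG q) ↔ g ∈ commutator (isometryGroup (ZMod 2) q) :=
    fun g => (mem_commutator_iff_of_equiv _ g).symm
  obtain ⟨v, hv⟩ := H (fun g => if h : (oEquiv q).symm g ∈ commutator _ then f ⟨_, h⟩ else 0)
    ((oEquiv q).surjective.forall.2 fun g hg => (oEquiv q).surjective.forall.2 fun h hh => by
      rw [hm] at hg hh
      simp only [← map_mul, MulEquiv.symm_apply_apply, hg, hh, mul_mem hg hh, dif_pos]
      exact hf ⟨g, hg⟩ ⟨h, hh⟩)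
  exact ⟨v, fun g => by simpa using hv (oEquiv q g) ((hm g).2 g.2)⟩

/-- vector with given bits -/
def vec {ι : Type} (ix : ι → ℕ) (n : ℕ) (i : ι) : ZMod 2 := if n.testBit (ix i) then 1 else 0
/-- height table -/
def hgt {ι : Type} [Fintype ι] (ix : ι → ℕ) (T : ℕ) (v : ι → ZMod 2) : ℕ :=
  (T >>> (5 * ∑ i, (v i).val * 2 ^ ix i)) % 32
/-- index of coordinates -/
def ixp (m : ℕ) : Fin m ⊕ Fin m → ℕ := Sum.elim (fun i => i) fun i => m + i
/-- index of coordinates -/
def ixm (m : ℕ) : (Fin m ⊕ Fin m) ⊕ Fin 2 → ℕ := Sum.elim (ixp m) fun i => 2 * m + i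


/-- Vanishing of first cohomology on the natural module for three small orthogonal groups over the field with two elements: for the commutator subgroup of the isometry group of the elliptic quadratic form in dimension 4, of the elliptic form in dimension 6, and of the hyperbolic form in dimension 8, every crossed homomorphism into the natural module (a map f with f(gh) = f(g) + g·f(h)) is principal (of the form g ↦ g·v − v). -/
theorem result : (∀ f : ↥(Cfsg.Omega (ZMod 2) (Cfsg.quadFormMinus 1 (ZMod 2) 1 1)) → ((Fin 1 ⊕ Fin 1) ⊕ Fin 2 → ZMod 2), (∀ g h : ↥(Cfsg.Omega (ZMod 2) (Cfsg.quadFormMinus 1 (ZMod 2) 1 1)), f (g * h) = f g + Matrix.mulVec (((g : ↥(Cfsg.isometryGroup (ZMod 2) (Cfsg.quadFormMinus 1 (ZMod 2) 1 1))) : GL ((Fin 1 ⊕ Fin 1) ⊕ Fin 2) (ZMod 2)) : Matrix ((Fin 1 ⊕ Fin 1) ⊕ Fin 2) ((Fin 1 ⊕ Fin 1) ⊕ Fin 2) (ZMod 2)) (f h)) → ∃ v : (Fin 1 ⊕ Fin 1) ⊕ Fin 2 → ZMod 2, ∀ g : ↥(Cfsg.Omega (ZMod 2) (Cfsg.quadFormMinus 1 (ZMod 2) 1 1)), f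 g = Matrix.mulVec (((g : ↥(Cfsg.isometryGroup (ZMod 2) (Cfsg.quadFormMinus 1 (ZMod 2) 1 1))) : GL ((Fin 1 ⊕ Fin 1) ⊕ Fin 2) (ZMod 2)) : Matrix ((Fin 1 ⊕ Fin 1) ⊕ Fin 2) ((Fin 1 ⊕ Fin 1) ⊕ Fin 2) (ZMod 2)) v - v) ∧ (∀ f : ↥(Cfsg.Omega (ZMod 2) (Cfsg.quadFormMinus 2 (ZMod 2) 1 1)) → ((Fin 2 ⊕ Fin 2) ⊕ Fin 2 → ZMod 2), (∀ g h : ↥(Cfsg.Omega (ZMod 2) (Cfsg.quadFormMinus 2 (ZMod 2) 1 1)), f (g * h) = f g + Matrix.mulVec (((g : ↥(Cfsg.isometryGroup (ZMod 2) (Cfsg.quadFormMinus 2 (ZMod 2) 1 1))) : GL ((Fin 2 ⊕ Fin 2) ⊕ Fin 2) (ZMod 2)) : Matrix ((Fin 2 ⊕ Fin 2) ⊕ Fin 2) ((Fin 2 ⊕ Fin 2) ⊕ Fin 2) (ZMod 2)) (f h)) → ∃ v : (Fin 2 ⊕ Fin 2) ⊕ Fin 2 → ZMod 2, ∀ g : ↥(Cfsg.Omega (ZMod 2) (Cfsg.quadFormMinus 2 (ZMod 2) 1 1)), f g = Matrix.mulVec (((g : ↥(Cfsg.isometryGroup (ZMod 2) (Cfsg.quadFormMinus 2 (ZMod 2) 1 1))) : GL ((Fin 2 ⊕ Fin 2) ⊕ Fin 2) (ZMod 2)) : Matrix ((Fin 2 ⊕ Fin 2) ⊕ Fin 2) ((Fin 2 ⊕ Fin 2) ⊕ Fin 2) (ZMod 2)) v - v) ∧ (∀ f : ↥(Cfsg.Omega (ZMod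 2) (Cfsg.quadFormPlus 4 (ZMod 2))) → (Fin 4 ⊕ Fin 4 → ZMod 2), (∀ g h : ↥(Cfsg.Omega (ZMod 2) (Cfsg.quadFormPlus 4 (ZMod 2))), f (g * h) = f g + Matrix.mulVec (((g : ↥(Cfsg.isometryGroup (ZMod 2) (Cfsg.quadFormPlus 4 (ZMod 2)))) : GL (Fin 4 ⊕ Fin 4) (ZMod 2)) : Matrix (Fin 4 ⊕ Fin 4) (Fin 4 ⊕ Fin 4) (ZMod 2)) (f h)) → ∃ v : Fin 4 ⊕ Fin 4 → ZMod 2, ∀ g : ↥(Cfsg.Omega (ZMod 2) (Cfsg.quadFormPlus 4 (ZMod 2))), f g = Matrix.mulVec (((g : ↥(Cfsg.isometryGroup (ZMod 2) (Cfsg.quadFormPlus 4 (ZMod 2)))) : GL (Fin 4 ⊕ Fin 4) (ZMod 2)) : Matrix (Fin 4 ⊕ Fin 4) (Fin 4 ⊕ Fin 4) (ZMod 2)) v - v) := by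
  refine ⟨transfer (qMinus 1 (ZMod 2) 1 1) fun f hf => ?_, transfer (qMinus 2 (ZMod 2) 1 1)
    fun f hf => ?_, transfer (qPlus 4 (ZMod 2)) fun f hf => ?_⟩
  · have hq := qMinus_nondegenerate (F := ZMod 2) 1 (a := 1) (b := 1) (by decide)
    refine h1 hq hf ?_ (fun i => vec (ixm 1) (![3, 5, 8, 4] i)) (fun i => vec (ixm 1) (![1, 3, 4, 11] i))
      ![1, 0, 1, 2] (hgt (ixm 1) 2399233099156387004416) (by decide +kernel) (by decide +kernel)
      (by decide +kernel) (by decide +kernel) (by decide +kernel)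
    rw [← reflSub_sup_eichlerSub hq, left_eq_sup]
    refine (closure_le _).2 ?_
    rintro _ ⟨u, w, hu, hw, rfl⟩
    by_cases k : qMinus 1 (ZMod 2) 1 1 w = 0
    · have : ∀ u w, (qMinus 1 (ZMod 2) 1 1 u = 0 ∧ polar (qMinus 1 (ZMod 2) 1 1) u w = 0 ∧
          qMinus 1 (ZMod 2) 1 1 w = 0) → u = 0 ∨ ∃ c : ZMod 2, w = c • u := by
        set_option synthInstance.maxSize 1024 in decide +kernel
      rcases this u w ⟨hu, hw, k⟩ with rfl | ⟨c, rfl⟩
      · rw [eichler_zero_left]; exact one_mem _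
      · rw [eichler_smul_self]; exact one_mem _
    · rw [eichler_eq_oRefl_mul hu hw k]
      refine mul_mem (oRefl_mem ?_) (oRefl_mem k)
      rw [quad_sub, quad_smul, hu, polar_smul_right, polar_comm, hw]
      simpa using k
  · have hq := qMinus_nondegenerate (F := ZMod 2) 2 (a := 1) (b := 1) (by decide)
    exact h1 hq hf (reflSub_eq_top hq (.inr (by simp))) (fun i => vec (ixm 2) (![5, 11, 18, 10, 7, 32] i))
      (fun i => vec (ixm 2) (![43, 5, 32, 7, 42, 16] i)) ![1, 0, 1, 2, 3, 2] (hgt (ixm 2)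
        200254895853738066706540490611754913783790722340361116583436858659693254701845655338897631084544)
      (by decide +kernel) (by decide +kernel) (by decide +kernel) (by decide +kernel)
      (by decide +kernel)
  · have hq := qPlus_nondegenerate (F := ZMod 2) 4
    exact h1 hq hf (reflSub_eq_top hq (.inr (by simp)))
      (fun i => vec (ixp 4) (![17, 35, 21, 68, 23, 34, 27, 238] i))
      (fun i => vec (ixp 4) (![205, 17, 238, 12, 170, 27, 136, 8] i)) ![1, 0, 1, 2, 3, 4, 5, 2]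
      (hgt (ixp 4) 188669801526234080179934469639837160695684814872013118157267851620845352410110000962697318266784340926882042087310432710557171408559326226490666454449747978975285032424728293870451489078006377864189596956185697384664852724741009046140257908541583809572472761668547265085205303098815807596894799222007589152197263481691189061926852870993709742146976087887698591292844882057163882627072)
      (by decide +kernel) (by decide +kernel) (by decide +kernel) (by decide +kernel)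
      (by decide +kernel)

end Cfsg.Agent.S5405
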