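import Cfsg.Statements.S5408
import Cfsg.Agent.Known.Mon.Four

set_option autoImplicit false
open Cfsg

namespace Cfsg.Agent.S5408

/-- Let G be a finite group of Monster type at the involution z with Q the extraspecial normal subgroup of order 2^25 of C = C_G(z) (so C/Q is identified with the first Conway group with Q modulo its centre the Leech lattice modulo 2, and z is not weakly closed in Q). Then Q is of plus type: it contains an elementary abelian subgroup of order 2^13. -/
theorem result {G : Type*} [Group G] [Finite G] (z : G) (Q : Subgroup (Subgroup.centralizer ({z} : Set G))) [Q.Normal] (hM : Cfsg.IsOfMonsterType z Q) : ∃ E : Subgroup Q, Cfsg.IsElementaryAbelian 2 E ∧ Nat.card E = 2 ^ 13 := by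
  open CF.Known.Mon in
  obtain ⟨M⟩ := nonempty_MT hM
  obtain ⟨g, a, b⟩ := M.nw
  obtain ⟨P, h⟩ : ∃ P, CF.LX.Pair _ P z _ := ⟨_, M.pair b a⟩
  let f : Q →* G := (Subgroup.centralizer ({z} : Set G)).subtype.comp Q.subtype
  have hf : Function.Injective f := (Subgroup.subtype_injective _).comp (Subgroup.subtype_injective _)
  refine ⟨Subgroup.comap f (Q.map (Subgroup.centralizer ({z} : Set G)).subtype ⊓ P),
    ⟨⟨⟨fun x y => Subtype.ext (hf ?_)⟩⟩, fun x hx => hf ?_⟩, Eq.trans ?_ (M.card_E h)⟩
  · exact (map_mul f _ _).trans ((congrArg Subtype.val (h.E_elemAb.1.is_comm.comm ⟨_, x.2⟩ ⟨_, y.2⟩)).trans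
      (map_mul f _ _).symm)
  · rw [map_pow, map_one]; exact h.E_elemAb.2 _ hx
  · rw [← Subgroup.card_map_of_injective hf, Subgroup.map_comap_eq_self]
    rintro _ ⟨⟨x, hx, rfl⟩, -⟩
    exact ⟨⟨x, hx⟩, rfl⟩

end Cfsg.Agent.S5408
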