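import Cfsg.Statements.S5415
import Cfsg.Agent.Known.Mon.Three

set_option autoImplicit false
open Cfsg

namespace Cfsg.Agent.S5415

/-- Let G be a finite group of Monster type at the involution z with Q the extraspecial normal subgroup of order 2^25 of C = C_G(z) (so C/Q is identified with the first Conway group with Q modulo its centre the Leech lattice modulo 2, and z is not weakly closed in Q). Let s be a conjugate of z in Q other than z and let Y be a subgroup of order 3 of the joint centralizer L of z and s that is 3-central in L (Y lies in the centre of some Sylow 3-subgroup of L). Then the centralizer of Y modulo Y is a group of large Fischer type (an involution whose centralizer D has generalized Fitting subgroup R extraspecial of order 2^13 and normal subgroups R ≤ N ≤ M with N/R of order 3, M/N the projective special unitary group of dimension 4 over the field with nine elements and M of index 2 in D; the involution not weakly closed in R). -/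
theorem result {G : Type*} [Group G] [Finite G] (z : G) (Q : Subgroup (Subgroup.centralizer ({z} : Set G))) [Q.Normal] (hM : Cfsg.IsOfMonsterType z Q) (s : G) (hsQ : ∃ hsc : s ∈ Subgroup.centralizer ({z} : Set G), (⟨s, hsc⟩ : Subgroup.centralizer ({z} : Set G)) ∈ Q) (hs : IsConj z s) (hs1 : s ≠ z) (Y : Subgroup G) (hY : Y ≤ Subgroup.centralizer ({z, s} : Set G)) (hY3 : Nat.card Y = 3) (hc : ∃ P : Sylow 3 ↥(Subgroup.centralizer ({z, s} : Set G)), Y.subgroupOf (Subgroup.centralizer ({z, s} : Set G)) ≤ (Subgroup.center ↥(P : Subgroup ↥(Subgroup.centralizer ({z, s} : Set G)))).map (P : Subgroup ↥(Subgroup.centralizer ({z, s} : Set G))).subtype) [hn : (Y.subgroupOf (Subgroup.centralizer (Y : Set G))).Normal] : Cfsg.IsOfLargeFischerType (↥(Subgroup.centralizer (Y : Set G)) ⧸ Y.subgroupOf (Subgroup.centralizer (Y : Set G))) := by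
  open CF.Known.Mon CF.Leech in
  obtain ⟨Q', M, a, b⟩ := setup hM hsQ hs hs1
  obtain ⟨y, o, rfl⟩ := CF.Bt.eq_zpowers_of_card (by norm_num) hY3
  obtain ⟨M', b', r | r⟩ := MT.exists_three a b o (cent_pair z s ▸ hY (Subgroup.mem_zpowers y))
  swap
  · exact absurd ((MT.central_iff3 C3B.main.1 a b' r o hY).1 hc) (by norm_num)
  have D := C3A.main.1
  haveI : ((KK (permHom (CF.Comp.ev CF.Leech.M.m C3A.w))).subgroupOf
      (Subgroup.centralizer {permHom (CF.Comp.ev CF.Leech.M.m C3A.w)})).Normal := ⟨fun x hx g => by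
    have : (x.1 : Cfsg.Co0) ∈ Subgroup.centralizer {g.1} := KK_le (CF.LX.mem_c1.2 (CF.LX.mem_c1.1 g.2).symm)
      (CF.LX.mem_c1.2 (negCo_comm _).symm) hx
    rwa [CF.LX.conj_eq_iff.2 (Subtype.ext (CF.LX.mem_c1.1 this).symm)]⟩
  obtain ⟨zb, R, _, h1, ⟨θ, θs, θk⟩, -⟩ := MT.odd_sect D a b' r o
    (QuotientGroup.mk' ((KK _).subgroupOf _)) (QuotientGroup.mk'_surjective _)
    fun g => QuotientGroup.eq_one_iff g
  letI := Fintype.ofFinite (GaloisField 3 2)
  have hK : Fintype.card (GaloisField 3 2) = 9 :=
    Nat.card_eq_fintype_card.symm.trans (GaloisField.card 3 2 (by norm_num))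
  obtain ⟨S₁, N₀, _, k1, k2, k3, k4, φ, φs, φk⟩ := C3A.data hK
  obtain ⟨N, M₀, hN, hM₀, l1, l2, l3, l4, l5⟩ := fischer_data θs θk (QuotientGroup.mk'_surjective _)
    ((QuotientGroup.ker_mk' _).le.trans k1) k2 k3 (by
      rw [k4, QuotientGroup.ker_mk', Nat.card_congr (Subgroup.subgroupOfEquivOfLe (KK_le_cent _)).toEquiv,
        card_KK D.prime D.ne D.ord]) φs φk
  exact ⟨zb, R, inferInstance, h1, N, M₀, hN, hM₀, l1, l2, l3, ⟨_, _, _, hK, l4⟩, l5⟩

end Cfsg.Agent.S5415
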