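import Cfsg.Statements.S5418
import Cfsg.Agent.Known.Mon.He7

set_option autoImplicit false
open Cfsg

namespace Cfsg.Agent.S5418

/-- Let G be a finite group of Monster type at the involution z with Q the extraspecial normal subgroup of order 2^25 of C = C_G(z) (so C/Q is identified with the first Conway group with Q modulo its centre the Leech lattice modulo 2, and z is not weakly closed in Q). Let s be a conjugate of z in Q other than z and let B be a Sylow 7-subgroup of the joint centralizer of z and s. Then the centralizer of B has index 6 in the normalizer of B; and some involution inverting B induces, by conjugation, a non-inner automorphism of the layer of the centralizer of B. -/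
theorem result {G : Type*} [Group G] [Finite G] (z : G) (Q : Subgroup (Subgroup.centralizer ({z} : Set G))) [Q.Normal] (hM : Cfsg.IsOfMonsterType z Q) (s : G) (hsQ : ∃ hsc : s ∈ Subgroup.centralizer ({z} : Set G), (⟨s, hsc⟩ : Subgroup.centralizer ({z} : Set G)) ∈ Q) (hs : IsConj z s) (hs1 : s ≠ z) (B : Subgroup G) (hB : B ≤ Subgroup.centralizer ({z, s} : Set G)) (hBp : Nat.card B = 7 ^ (Nat.card ↥(Subgroup.centralizer ({z, s} : Set G))).factorization 7) : (Subgroup.centralizer (B : Set G)).relIndex (Subgroup.normalizer (B : Set G)) = 6 ∧ ∃ t : G, orderOf t = 2 ∧ (∀ b ∈ B, t * b * t⁻¹ = b⁻¹) ∧ (∀ x ∈ (Cfsg.layer ↥(Subgroup.centralizer (B : Set G))).map (Subgroup.centralizer (B : Set G)).subtype, t * x * t⁻¹ ∈ (Cfsg.layer ↥(Subgroup.centralizer (B : Set G))).map (Subgroup.centralizer (B : Set G)).subtype) ∧ ¬ ∃ l ∈ (Cfsg.layer ↥(Subgroup.centralizer (B : Set G))).map (Subgroup.centralizer (B : Set G)).subtype, ∀ x ∈ (Cfsg.layer ↥(Subgroup.centralizer (B : Set G))).map (Subgroup.centralizer (B : Set G)).subtype,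 t * x * t⁻¹ = l * x * l⁻¹ := by
  open CF.Known.Mon in
  obtain ⟨Q', M, y, a, b, r, o, rfl⟩ := setup7 hM hsQ hs hs1 hB hBp
  obtain ⟨P, h⟩ := M.exists_pair a hs hs1
  obtain ⟨t, tt, -, ty⟩ := CF.Known.Mon.MT.exists_inv h b r o
  refine ⟨CF.Known.Mon.MT.relIndex_eq r o ty, t, CF.Held.ord2 tt fun e => ?_, ?_, fun x => CF.Loc.conj_mem_of_mem_normalizer
    (CF.Solv.normalizer_le_normalizer_map_subtype _ (CF.Loc.normalizer_le_normalizer_centralizer _
      (CF.Held.nz_of (ty ▸ inv_mem (Subgroup.mem_zpowers y))))), CF.Known.Mon.MT.outer a b r o ty⟩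
  · have := orderOf_dvd_of_pow_eq_one (x := y) (n := 2) (by rw [sq, mul_eq_one_iff_eq_inv, ← ty, e]; simp)
    rw [o] at this; omega
  · rintro _ ⟨k, rfl⟩
    rw [← conj_zpow, ty, inv_zpow]

end Cfsg.Agent.S5418
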