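import Cfsg.Statements.S5425
import Cfsg.Agent.Leech.M24c
import Cfsg.Agent.Bt.Xc
import Cfsg.Agent.LX.Pair

set_option autoImplicit false
open Cfsg

set_option maxRecDepth 1000000

namespace Cfsg.Agent.S5425

open CF.Comp CF.Comp.Mat CF.Bt CF.Leech CF.Leech.M MulAction

open scoped Pointwise

noncomputable def M : MD := ⟨[[2, 4], [4, 1, 1, 3, 3, 2, 3, 3]], [(nat_lit 0x400000000000400000000040000000000000000000000000000000004000000000200000000000000000000000000002000000000000000000000000000000000000000000000000000000000000000000000000000), (nat_lit 0x400080000000000000000000000000000000000200000002000000000000000000000000000000000000800000000002000000000000000000000000000000000000000000000000000000000000000000000000000), (nat_lit 0x40000000000000000000000400000000000000000000000000200000002000000000000000000200000000000000000000000000000000000000000000000002000000000000000000000000000000000000000000000000000000), (nat_lit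 0x40000000000000080000000000000000040000000000000000000000000000000004000000000000000000000000000800000000000000000000000000000002000000000000000000000000000000000000000000000000000000), (nat_lit 0x400000000000000000000000000000000000040000000000000000200000002000000004000000000000000000000000000000000000000000000000000000000000000000000000000004000000000000000000000000000000000000), (nat_lit 0x400000000000000000080000000400000000000000000000000000000000000000000000000000000200000000000000000800000000000000000000000000000000000000000000000004000000000000000000000000000000000000), (nat_lit 0x400040000000000400000000000000000000000000000000000000000000000000000000000000000000000000000000000000000000002000000000000000000002000000000000000004000000000000000000000000000000000000)], [(Net.cons (nat_lit 4) (nat_lit 3) (Net.cons (nat_lit 2) (nat_lit 18) (Net.cons (nat_lit 1) (nat_lit 17) Net.nil))), (Net.cons (nat_lit 2) (nat_lit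 18) (Net.cons (nat_lit 4) (nat_lit 6) (Net.cons (nat_lit 1) (nat_lit 5) Net.nil)))], [⟨0, [[1], [3]], 2⟩, ⟨1, [[3, 1, 1], [3, 3, 2]], 2⟩, ⟨2, [[4, 2, 2, 3], [2, 3, 3, 3]], 1⟩]⟩
noncomputable def MV : List (List Nat) := [[(nat_lit 76), (nat_lit 51)],
  [(nat_lit 67), (nat_lit 60)],
  [(nat_lit 42), (nat_lit 85)]]
noncomputable def MS : Net := (Net.cons (nat_lit 2) (nat_lit 18) (Net.cons (nat_lit 4) (nat_lit 6) (Net.cons (nat_lit 2) (nat_lit 17) Net.nil)))
noncomputable def MA : List (List (List Nat)) := [[[1, 1, 1], [1, 0, 1], [1, 1, 0]],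
  [[0, 1, 1], [1, 1, 1], [1, 0, 1]]]
noncomputable def MDs : List (List (List (List Nat))) := [[[[1, 0, 0], [1, 1, 0], [1, 0, 1]],
  [[1, 1, 1], [0, 1, 0], [0, 0, 1]]],
 [[[1, 1, 0], [0, 1, 0], [0, 0, 1]],
  [[1, 0, 0], [1, 1, 0], [1, 0, 1]],
  [[1, 0, 0], [0, 1, 1], [0, 0, 1]]]]
noncomputable def qs : List (List Nat) := [[1, 1, 4, 1, 3, 1, 4, 2, 3, 1, 1, 4, 2, 2, 3], [3, 2, 3, 3, 2, 3, 2, 4, 2, 3, 3, 1, 3, 2, 3], [1, 4, 2, 4, 4, 2, 3, 1, 4, 2, 2, 2, 3, 3, 2], [2, 3, 3, 2, 2, 2, 4, 1, 1, 4, 2, 3, 1, 4, 4, 2, 4], [3, 2, 4, 2, 3, 2, 3, 3, 2, 3, 1, 1, 3, 3, 3, 1, 4], [1, 1, 1, 1, 4, 4, 1, 1, 1, 3, 2, 2, 4, 4, 2, 3, 3, 2]]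
noncomputable def us : List (List Nat) := [[1, 3, 2, 3, 3, 1, 3, 2, 3, 3], [4, 2, 4, 1, 1, 3, 2, 3, 1, 3, 1], [4, 1, 4, 2, 3, 3, 1, 1, 1], [4, 2, 4, 4, 1, 4, 2, 4, 4, 1], [3, 2, 2, 4, 1, 4, 4, 2, 3, 2, 3], [2, 3, 1, 4, 2, 4, 1, 3, 3, 1], [1, 1, 1, 1]]

/-- In the Mathieu group of degree 24 (the automorphism group of the length-24 binary Golay code, acting on the 24 coordinates), let z be an involution whose fixed points form an octad (the support of a code word of weight 8), and let Q be the largest normal 2-subgroup of the centralizer C of z. Then Q is extraspecial of order 2^7 with an elementary abelian subgroup of order 16 (plus type), Q is a large extraspecial 2-subgroup, and C is the split extension of Q by the special linear group of degree 3 over the field with two elements. -/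
theorem result (z : ↥Cfsg.M24) (hz : orderOf z = 2) (hfix : (Finset.univ.filter fun p : Cfsg.GolayPt => (z : Equiv.Perm Cfsg.GolayPt) p = p) ∈ Cfsg.octads) (Q : Subgroup ↥Cfsg.M24) (hQ : Q = (Cfsg.pCore 2 ↥(Subgroup.centralizer ({z} : Set ↥Cfsg.M24))).map (Subgroup.centralizer ({z} : Set ↥Cfsg.M24)).subtype) : Cfsg.IsExtraspecial 2 ↥Q ∧ Nat.card ↥Q = 2 ^ 7 ∧ (∃ E : Subgroup ↥Cfsg.M24, E ≤ Q ∧ Cfsg.IsElementaryAbelian 2 E ∧ Nat.card ↥E = 2 ^ 4) ∧ Cfsg.IsLargeExtraspecial Q ∧ ∃ K : Subgroup ↥Cfsg.M24, K ≤ Subgroup.centralizer ({z} : Set ↥Cfsg.M24) ∧ Q ⊓ K = ⊥ ∧ Q ⊔ K = Subgroup.centralizer ({z} : Set ↥Cfsg.M24) ∧ Nonempty (↥K ≃* Matrix.SpecialLinearGroup (Fin 3) (ZMod 2)) := by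
  obtain ⟨x, hx⟩ := cls2a hz (by rw [hfix.2]; decide)
  obtain ⟨e, rfl⟩ : ∃ e : M24 ≃* M24, z = e (ev m e2a) := ⟨MulAut.conj x⁻¹, by rw [← hx]; simp [mul_assoc]⟩
  obtain ⟨h0, -⟩ := xc_spec xM k5 (by decide) rO (z := e2a) (qs := qs) (us := us) (M := M) (by decide +kernel)
    (k' := 7) (m := 2) (s := 168) (a := 7) (by decide +kernel) rfl (cen_m ke2a).2.le
    (hasReps_vec (V := MV) (σ := MS) (As := MA) (d := 3) (by decide +kernel) (tabP_ok (ZMod 2) 2 (by decide)) (Equiv.refl _) _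
      (exists_sl (tabP_ok (ZMod 2) 2 (by decide)) (Ds := MDs) (by decide +kernel))) card_SL3
  obtain ⟨h1, g, h2, h3⟩ := h0.xd simple_SL3 eqM neM (hd := show xdOK _ _ _ _ [2, 4] [1] [2, 2, 2, 2, 3, 2, 4, 4, 1, 4, 2, 3, 1, 4, 2, 3] [1] = true by decide +kernel)
  have h := h0.map e
  have hn := not_pgroup_of_card card_SL3 (by decide)
  rw [h.core simple_SL3 hn, Subgroup.map_subgroupOf_eq_of_le h.le] at hQ
  subst hQ
  have h4 : (clo m Q4.qs).map e.toMonoidHom ≤ _ := Subgroup.map_mono (eqM.memAll (ws := lapp qs [e2a]) (us := [[13, 9], [7, 3, 1], [7, 5, 3], [9]]) (by decide +kernel))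
  have h5 := abOK_spec xM k5 two_ne_zero pQ4
  have h6 : ∀ w ∈ cgens [⟨1, [[2, 4, 4, 4, 2, 4, 4, 2, 2, 2, 4, 4], [3, 3, 3, 3, 1, 1, 4, 2, 3, 1, 3, 1, 4]], 3⟩, ⟨2, [[2, 4, 1, 3, 1, 4, 4, 2, 2, 4, 1, 1, 4, 2, 2, 2], [2, 3, 3, 1, 4, 2, 4, 1, 1, 4, 4, 1, 1, 3, 2, 4, 1]], 3⟩], ev m w ∈ Subgroup.centralizer {ev m e2a} ⊓ (stabilizer M24 (pt 4) ⊓ stabilizer M24 (pt 0)) :=
    mem_inf (mem_cent r0 k5 xM.faithful (by decide +kernel)) (mem_inf (mem_stab r0 (b := 4) (by decide +kernel)) (mem_stab r0 (b := 0) (by decide +kernel)))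
  have h7 := exact_of_ge r0 (by decide) (c := [⟨4, [[1, 1, 1, 1, 1, 3, 3, 2, 2, 4, 1, 4, 2, 3, 1], [4, 1, 1, 3, 2, 2, 4, 1, 3, 2, 4, 2, 3, 2, 2], [1, 4, 4, 1, 1, 1, 3, 2, 4, 1, 3, 3, 1, 3, 2], [1, 3, 3, 1, 1, 4, 1, 3, 1, 3, 1, 4, 2, 3, 2], [3, 3, 2, 3, 3, 2, 3, 1, 1, 4, 4, 4, 2, 3, 3], [2, 4, 1, 4, 1, 4, 2, 3, 1, 1, 4, 4, 4, 4, 2, 2]], 1⟩, ⟨0, [[2, 4, 2, 4, 2, 4, 2, 4], [1, 3, 1, 3, 2, 4, 2, 4, 2, 4, 2, 4, 4, 2, 4, 2], [4, 2, 4, 2, 2, 4, 2, 4, 2, 4, 2, 4, 1, 3, 1, 3], [4, 1, 1, 3, 1, 4, 4, 4, 2, 3, 1, 3, 2, 3, 2, 4]], 1⟩]) (clo_le.1 (eqM.memAll (us := [[11, 3, 1], [1], [5], [5, 3], [12, 9, 7, 3], [9, 5], [13], [7, 5, 3], [9, 5, 1], [9, 7, 5, 3]]) (by decide +kernel))) h0.card.le (by decide +kernel)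
  have h8 := r0.chain_le (by decide) (by decide +kernel) h6
  generalize hK : (Subgroup.centralizer {ev m e2a} ⊓ (stabilizer M24 (pt 4) ⊓ stabilizer M24 (pt 0)) : Subgroup M24) = K at h8
  have h9 : K.map e.toMonoidHom ≤ Subgroup.centralizer {e (ev m e2a)} := by
    rintro _ ⟨x, hx, rfl⟩; exact (centEquiv e _ ⟨x, (hK.ge hx).1⟩).2
  have h10 : (clo m (lapp qs [e2a])).map e.toMonoidHom ⊓ K.map e.toMonoidHom = ⊥ := by
    rw [← Subgroup.map_inf _ _ _ e.injective, (eq_bot_iff (a := _ ⊓ K)).2 fun k hk => h7.eq_one hk.1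
      (List.forall_mem_cons.2 ⟨(hK.ge hk.2).2.1, List.forall_mem_singleton.2 (hK.ge hk.2).2.2⟩), Subgroup.map_bot]
  obtain ⟨l, -⟩ := CF.LX.lq_of_fstar h.ord (by
    rw [h.fstar simple_SL3 hn fun y hy => Subgroup.mem_map_equiv.2 (h1 fun q hq => e.injective (by
      simpa using hy (e q) ⟨q, hq, rfl⟩)), Subgroup.map_subgroupOf_eq_of_le h.le]) h.xs
  exact ⟨h.xs, h.card, ⟨_, h4, CF.Solv.isElementaryAbelian_map ⟨Subgroup.le_centralizer_iff_isMulCommutative.1 h5.2.1,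
    eqM.pow_eq_one (by decide +kernel) (by decide +kernel)⟩ _, (card_map_equiv e _).trans h5.2.2⟩,
    (l.pair (g := e g) (by rw [h.card]; decide) (fun a => h3 (e.injective (by simpa using a)))
      ⟨_, h2, by simp⟩).large, _, h9, h10,
    h.compl h9 h10 (card_SL3.trans_le ((h8.trans' (by decide +kernel)).trans_eq (card_map_equiv e K).symm))⟩

end Cfsg.Agent.S5425
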