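import Cfsg.Statements.S5426
import Cfsg.Agent.LX.Simple

set_option autoImplicit false
open Cfsg

namespace Cfsg.Agent.S5426

open CF.Loc CF.LX CF.Even Subgroup

/-- Let Q be a large extraspecial 2-subgroup of the finite group G (extraspecial; centralizer equal to its centre; normal in the centralizer of its centre; normalizing no non-trivial subgroup of odd order) with centre generated by z, and let M be the normal closure of z in G. Then one of the following holds: Q is normal in G; or M is abelian and the generalized Fitting subgroup of G is its largest normal 2-subgroup; or M is the generalized Fitting subgroup of G and is a non-abelian simple group; or M is the generalized Fitting subgroup of G and is the direct product of a non-abelian simple subgroup L and its conjugate u L u⁻¹ by some u in Q (the two meet trivially and commute elementwise), with z = z₁ (u z₁ u⁻¹) for some z₁ in L whose centralizer in L is a Sylow 2-subgroup of L with Frattini subgroup inside the subgroup generated by z₁, and Q is not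 the largest normal 2-subgroup of the centralizer of z. -/
theorem result {G : Type*} [Group G] [Finite G] (Q : Subgroup G) (hQ : Cfsg.IsLargeExtraspecial Q) (z : G) (hz : ((Subgroup.center ↥Q).map Q.subtype) = Subgroup.zpowers z) (M : Subgroup G) (hM : M = Subgroup.normalClosure ({z} : Set G)) : Q.Normal ∨ (IsMulCommutative ↥M ∧ Cfsg.generalizedFittingSubgroup G = Cfsg.pCore 2 G) ∨ (M = Cfsg.generalizedFittingSubgroup G ∧ IsSimpleGroup ↥M ∧ ¬ IsMulCommutative ↥M) ∨ (M = Cfsg.generalizedFittingSubgroup G ∧ ∃ (L : Subgroup G) (u : G), u ∈ Q ∧ IsSimpleGroup ↥L ∧ ¬ IsMulCommutative ↥L ∧ L ⊓ (L).map (MulAut.conj u).toMonoidHom = ⊥ ∧ (∀ x ∈ L, ∀ y ∈ (L).map (MulAut.conj u).toMonoidHom, x * y = y * x) ∧ L ⊔ (L).map (MulAut.conj u).toMonoidHom = M ∧ ∃ z₁ ∈ L, z = z₁ * (u * z₁ * u⁻¹) ∧ (∃ R : Sylow 2 ↥L, (R : Subgroup ↥L) = (Subgroup.centralizer ({z₁} : Set G)).subgroupOf L ∧ (frattini ↥(R : Subgroup ↥L)).map ((L.subtype).comp (R : Subgroup ↥L).subtype) ≤ Subgroup.zpowers z₁) ∧ Q ≠ (Cfsg.pCore 2 ↥(Subgroup.centralizer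 ({z} : Set G))).map (Subgroup.centralizer ({z} : Set G)).subtype) := by
  have h := lq_of_large hQ hz
  have e : M = ncl (zpowers z) ⊤ := by
    rw [hM, ncl_top, zpowers_eq_closure, normalClosure_closure_eq_normalClosure]
  right
  by_cases h2 : pCore 2 G = ⊥
  · obtain ⟨a, f, b⟩ := h.case_layer hQ.2.2.2 h2
    rw [← e] at a
    rw [f, a]
    refine .inr (b.imp (fun b => ⟨rfl, b⟩) fun ⟨L, u, y, b⟩ => ⟨rfl, L, u, b.uQ, b.simple, b.nab, b.inf,
      fun x hx w hw => b.cent hw x hx, b.sup, y, b.mem, b.eq, ⟨b.syl.toSylow, ?_, ?_⟩, b.ne⟩)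
    · rw [b.syl.coe_toSylow, inf_subgroupOf_left]
    · rw [← map_map, CF.Solv.map_map_frattini b.syl.toSylow.isPGroup', b.syl.map_toSylow,
        CF.Solv.frattini_eq_closure_sq b.syl.isPGroup, MonoidHom.map_closure, closure_le]
      rintro _ ⟨_, ⟨x, rfl⟩, rfl⟩
      simpa [sq] using b.sq x x.2
  · obtain ⟨a, f⟩ := h.case_core (pPrimeCore_eq_bot hQ.2.2.2) h2
    rw [← e] at a
    exact .inl ⟨isMulCommutative_iff.2 (a.trans (inf_le_right.trans
      (centralizer_anti (a.trans inf_le_left)))), f⟩

end Cfsg.Agent.S5426
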