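import Cfsg.Statements.S5427
import Cfsg.Agent.LX.Simple

set_option autoImplicit false
open Cfsg

namespace Cfsg.Agent.S5427

open CF.Loc CF.LX CF.Even Subgroup

/-- Let z be an involution of the finite group G whose centralizer C has generalized Fitting subgroup Q, an extraspecial 2-group of width at least 2 (order 2^(2w+1), w ≥ 2). Let K be a subgroup of G such that the subgroup U generated by the K-conjugates of z is abelian and C is generated by the C-conjugates of U. Suppose that either some K-conjugate of z other than z lies in Q, or some element u of U ∩ Q outside the subgroup generated by z has z in the largest normal 2-subgroup of its centralizer. Then G is simple and Q is a large extraspecial 2-subgroup of G. -/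
theorem result {G : Type*} [Group G] [Finite G] (z : G) (hz : orderOf z = 2) (Q : Subgroup G) (hQC : Q ≤ Subgroup.centralizer ({z} : Set G)) (hF : (Cfsg.generalizedFittingSubgroup ↥(Subgroup.centralizer ({z} : Set G))).map (Subgroup.centralizer ({z} : Set G)).subtype = Q) (hQ : Cfsg.IsExtraspecial 2 ↥Q) (w : ℕ) (hw : 2 ≤ w) (hcard : Nat.card ↥Q = 2 ^ (2 * w + 1)) (K U : Subgroup G) (hU : U = Subgroup.closure {x : G | ∃ k ∈ K, x = k * z * k⁻¹}) (hUab : IsMulCommutative ↥U) (hgen : Subgroup.closure {x : G | ∃ c ∈ Subgroup.centralizer ({z} : Set G), ∃ u ∈ U, x = c * u * c⁻¹} = Subgroup.centralizer ({z} : Set G)) (h3 : (∃ k ∈ K, k * z * k⁻¹ ∈ Q ∧ k * z * k⁻¹ ≠ z) ∨ ∃ u ∈ U ⊓ Q, u ∉ Subgroup.zpowers z ∧ (∃ hz' : z ∈ Subgroup.centralizer ({u} : Set G), (⟨z, hz'⟩ : ↥(Subgroup.centralizer ({u} : Set G))) ∈ Cfsg.pCore 2 ↥(Subgroup.centralizer ({u} : Set G)))) : IsSimpleGroup G ∧ Cfsg.IsLargeExtraspecial Q := by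
  obtain ⟨h, e⟩ := lq_of_fstar hz hF hQ
  have h8 : 8 < Nat.card Q := by
    rw [hcard]; exact lt_of_lt_of_le (by decide) (Nat.pow_le_pow_right (by decide) (by omega : 5 ≤ _))
  have hl : IsLargeExtraspecial Q := by
    rcases h3 with ⟨k, -, a, b⟩ | ⟨u, hu, a, _, b⟩
    · exact (h.pair h8 b a).large
    · refine h.large_of_invol hu.2 ?_ (fun e => a (e ▸ one_mem _)) (fun e => a (e ▸ mem_zpowers _))
        (mem_pCore_iff.1 b)
      have c := CF.Loc.isMulCommutative_iff.1 hUab
      have : U ≤ omegaOne 2 U := hU.le.trans ((closure_le _).2 (by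
        rintro _ ⟨k, hk, rfl⟩
        exact mem_omegaOne (hU ▸ subset_closure ⟨k, hk, rfl⟩) (by
          rw [conj_pow, sq, h.zz]; simp)))
      exact sq u ▸ ((mem_omegaOne_iff_of_comm c).1 (this hu.1)).2
  refine ⟨h.simple hl.2.2.2 e (hgen.ge.trans ((closure_le _).2 ?_)), hl⟩
  rintro _ ⟨c, -, u, hu, rfl⟩
  refine (ncl_top_normal _).conj_mem _ ((hU.le.trans ((closure_le _).2 ?_)) hu) c
  rintro _ ⟨k, -, rfl⟩
  exact (ncl_top_normal _).conj_mem _ (le_ncl _ _ (mem_zpowers z)) k

end Cfsg.Agent.S5427
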