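import Cfsg.Statements.S5428
import Cfsg.Agent.LX.Quot

set_option autoImplicit false
open Cfsg

namespace Cfsg.Agent.S5428

open CF.Loc CF.LX CF.Even Subgroup

/-- Let z be an involution of the finite group G whose centralizer C has generalized Fitting subgroup Q extraspecial (as a 2-group), let A be a subgroup of C of odd order, and let R be the centralizer of A in Q; suppose R has order at least 32, the largest normal subgroup of odd order of the centralizer of the subgroup generated by A and R lies in A, the order of that centralizer is not divisible by 4, and g is an element of G with g z g⁻¹ in R but outside the centre Z of Q. Let M be the subgroup generated by A and the centralizer of A (A is normal in it). Then: the centralizer in M of the subgroup generated by R and A, joined with A, equals the subgroup generated by A and Z; the image of R in M/A is a large extraspecial 2-subgroup of M/A; and g z g⁻¹ is conjugate to z inside the subgroup generated by R and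 the centralizer of A in g Q g⁻¹. -/
theorem result {G : Type*} [Group G] [Finite G] (z : G) (hz : orderOf z = 2) (Q : Subgroup G) (hQC : Q ≤ Subgroup.centralizer ({z} : Set G)) (hF : (Cfsg.generalizedFittingSubgroup ↥(Subgroup.centralizer ({z} : Set G))).map (Subgroup.centralizer ({z} : Set G)).subtype = Q) (hQ : Cfsg.IsExtraspecial 2 ↥Q) (A : Subgroup G) (hA : A ≤ Subgroup.centralizer ({z} : Set G)) (hAodd : Odd (Nat.card ↥A)) (R : Subgroup G) (hR : R = Q ⊓ Subgroup.centralizer (A : Set G)) (hR32 : 32 ≤ Nat.card ↥R) (hO : (Cfsg.oddCore ↥(Subgroup.centralizer ((A ⊔ R : Subgroup G) : Set G))).map (Subgroup.centralizer ((A ⊔ R : Subgroup G) : Set G)).subtype ≤ A) (h4 : ¬ 4 ∣ Nat.card ↥(Subgroup.centralizer ((A ⊔ R : Subgroup G) : Set G))) (g : G) (hgR : g * z * g⁻¹ ∈ R) (hgZ : g * z * g⁻¹ ∉ ((Subgroup.center ↥Q).map Q.subtype)) (M : Subgroup G) (hM : M = Subgroup.centralizer (A : Set G) ⊔ A) [hn : (A.subgroupOf M).Normal] : (M ⊓ Subgroup.centralizer ((R ⊔ A : Subgroup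 G) : Set G)) ⊔ A = A ⊔ ((Subgroup.center ↥Q).map Q.subtype) ∧ Cfsg.IsLargeExtraspecial ((R.subgroupOf M).map (QuotientGroup.mk' (A.subgroupOf M))) ∧ ∃ x ∈ R ⊔ ((Q).map (MulAut.conj g).toMonoidHom ⊓ Subgroup.centralizer (A : Set G)), x * (g * z * g⁻¹) * x⁻¹ = z := by
  obtain ⟨h, -⟩ := lq_of_fstar hz hF hQ
  rw [h.map_center] at hgZ ⊢
  have RQ : R ≤ Q := hR.le.trans inf_le_left
  have RA : R ≤ 𝐂(A) := hR.le.trans inf_le_right
  have zA := le_centralizer_singleton_iff.1 hA
  have zR : z ∈ R := hR ▸ ⟨h.mem, zA⟩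
  have k := h.pair (g := g) (lt_of_lt_of_le (by omega) (card_le_card_of_le RQ))
    (fun e => hgZ (by rw [e]; exact mem_zpowers _)) (RQ hgR)
  obtain ⟨x, hx, e1, e2⟩ := k.swap_odd hAodd hA (le_centralizer_singleton_iff.2 (RA hgR))
  have CM : 𝐂(A) ≤ M := hM ▸ le_sup_left
  have D : 𝐂(A ⊔ R) ≤ A ⊔ zpowers z := (le_odd_sup_zpowers hz (by
    rw [centralizer_sup]; exact ⟨zA, centralizer_anti RQ h.cent⟩) (fun y hy => mem_c1.2
      (hy z (mem_sup_right zR)).symm) h4).trans (sup_le_sup_right hO _)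
  have p4 : ∀ c : G, ∀ y ∈ R, (c * y * c⁻¹) ^ 2 ^ 2 = 1 := fun c y hy => by
    have : y ^ 2 ^ 2 = y * y * (y * y) := by norm_num [pow_succ, mul_assoc]
    rw [conj_pow, this]
    rcases h.sq y (RQ hy) with e | e <;> simp [e, h.zz]
  have fix : ∀ c ∈ M, ∀ y ∈ R, y⁻¹ * (c * y * c⁻¹) ∈ A → c * y * c⁻¹ = y := fun c _ y hy e =>
    eq_one_of_odd_mul hAodd (by simpa using p4 1 y hy) (p4 c y hy) (RA hy) e
  have dec : ∀ c ∈ M, ∃ d ∈ 𝐂(A), ∃ a ∈ A, d * a = c := fun c hc =>
    (mem_sup_of_le_normalizer' (centralizer_le_normalizer _)).1 (hM ▸ hc)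
  have AR : ∀ y ∈ R, y ∈ A → y = 1 := fun y a b => mem_bot.1
    (inf_eq_bot_of_coprime_card h.isPGroup (Nat.coprime_two_right.2 hAodd) ▸ ⟨RQ a, b⟩)
  refine ⟨le_antisymm (sup_le (inf_le_right.trans (sup_comm A R ▸ D)) le_sup_left)
    (sup_le le_sup_right (zpowers_le.2 (mem_sup_left ⟨CM zA, ?_⟩))), ?_, x, hR ▸ hx, e2⟩
  · rw [centralizer_sup]; exact ⟨centralizer_anti RQ h.cent, zA⟩
  refine large_sec (RA.trans CM) zR h.zz (centralizer_anti RQ h.cent) (fun y hy => h.sq y (RQ hy))
    (fun e => h.z_ne (AR z zR e)) (fun c hc e => ?_) (fun c hc e y hy => ?_) ?_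
    (CM ((sup_le inf_le_right inf_le_right : _ ≤ 𝐂(A)) hx)) (e1 ▸ hgR) fun e => hgZ ?_
  · obtain ⟨d, hd, a, ha, rfl⟩ := dec c hc
    have : d ∈ 𝐂(A ⊔ R) := by
      rw [centralizer_sup]
      refine ⟨hd, mem_centralizer_of_conj_eq fun y hy => ?_⟩
      rw [← fix _ hc y hy (e y hy)]
      nth_rewrite 1 [fix _ hc y hy (e y hy)]
      rw [show d * a * y * (d * a)⁻¹ = d * (a * y * a⁻¹) * d⁻¹ by group, RA hy a ha,
        mul_inv_cancel_right]
    rcases (CF.Invol.mem_sup_zpowers_iff (centralizer_le_normalizer _ zA)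
      (h.zz ▸ one_mem A)).1 (D this) with f | f
    · exact .inl (mul_mem f ha)
    · right
      simpa [mul_assoc] using
        mul_mem (conj_mem_of_mem_normalizer' (centralizer_le_normalizer _ zA) f) ha
  · obtain ⟨d, hd, a, ha, rfl⟩ := dec c hc
    have := conj_eq_iff.1 (fix _ hc z zR e)
    refine ⟨_, hR.ge ⟨conj_mem_of_mem_normalizer (h.nor' this) (RQ hy), ?_⟩, by
      rw [inv_mul_cancel]; exact one_mem _⟩
    exact conj_mem_of_mem_normalizer (normalizer_le_normalizer_centralizer A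
      (mul_mem (centralizer_le_normalizer _ hd) (le_normalizer ha))) (RA hy)
  · have := card_inf_mul_relIndex A R
    rw [(eq_bot_iff (a := A ⊓ R)).2 fun y hy => mem_bot.2 (AR y hy.2 hy.1), card_bot] at this
    omega
  · rw [e1] at e
    rw [← inv_mul_eq_one.1 (AR _ (mul_mem (inv_mem zR) hgR) e)]
    exact mem_zpowers z

end Cfsg.Agent.S5428
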