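import Cfsg.Statements.S5429
import Cfsg.Agent.LX.Quot

set_option autoImplicit false
open Cfsg

namespace Cfsg.Agent.S5429

open CF.Loc CF.LX CF.Even Subgroup

/-- Let z be an involution of the finite group G with centralizer C whose generalized Fitting subgroup Q is extraspecial of width at least 3 (order 2^(2w+1), w ≥ 3); let g be an element of G with g z g⁻¹ in Q but outside the centre Z of Q, and t an involution lying in both Q and g Q g⁻¹ that is not conjugate to z; write P for the centralizer of t in Q and suppose that the elements of C acting trivially by conjugation on P modulo the subgroup generated by t and z are exactly the elements of Q. Then the image of P in the centralizer of t modulo the subgroup generated by t is a large extraspecial 2-subgroup there, and g z g⁻¹ is conjugate to z inside the subgroup generated by P and the centralizer of t in g Q g⁻¹. -/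
theorem result {G : Type*} [Group G] [Finite G] (z : G) (hz : orderOf z = 2) (Q : Subgroup G) (hQC : Q ≤ Subgroup.centralizer ({z} : Set G)) (hF : (Cfsg.generalizedFittingSubgroup ↥(Subgroup.centralizer ({z} : Set G))).map (Subgroup.centralizer ({z} : Set G)).subtype = Q) (hQ : Cfsg.IsExtraspecial 2 ↥Q) (w : ℕ) (hw : 3 ≤ w) (hcard : Nat.card ↥Q = 2 ^ (2 * w + 1)) (g : G) (hgQ : g * z * g⁻¹ ∈ Q) (hgZ : g * z * g⁻¹ ∉ ((Subgroup.center ↥Q).map Q.subtype)) (t : G) (ht : orderOf t = 2) (htQ : t ∈ Q ⊓ (Q).map (MulAut.conj g).toMonoidHom) (htz : ¬ IsConj z t) (P : Subgroup G) (hP : P = Q ⊓ Subgroup.centralizer ({t} : Set G)) (hCP : ∀ c ∈ Subgroup.centralizer ({z} : Set G), (∀ x ∈ P, ∃ y ∈ Subgroup.closure ({t, z} : Set G), c * x * c⁻¹ = x * y) ↔ c ∈ Q) [hn : ((Subgroup.zpowers t).subgroupOf (Subgroup.centralizer ({t} : Set G))).Normal] : Cfsg.IsLargeExtraspecial ((P.subgroupOf (Subgroup.centralizer ({t} : Set G))).map (QuotientGroup.mk' ((Subgroup.zpowers t).subgroupOf (Subgroup.centralizer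 ({t} : Set G))))) ∧ ∃ x ∈ P ⊔ ((Q).map (MulAut.conj g).toMonoidHom ⊓ Subgroup.centralizer ({t} : Set G)), x * (g * z * g⁻¹) * x⁻¹ = z := by
  obtain ⟨h, -⟩ := lq_of_fstar hz hF hQ
  rw [h.map_center] at hgZ
  have c7 : 2 ^ 7 ≤ Nat.card Q := hcard ▸ Nat.pow_le_pow_right (by decide) (by omega)
  have k := h.pair (g := g) (by omega) (fun e => hgZ (by rw [e]; exact mem_zpowers _)) hgQ
  have cs := CF.Invol.isConj_conj g z
  generalize g * z * g⁻¹ = s at *
  generalize cj[g] Q = Q' at *
  have t1 := ne_one_of_orderOf_eq ht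
  have tt := mul_self_of_invol ht
  have mt := fun x => mem_zpowers_invol (x := x) ht
  have tz : t ≠ z := fun e => htz (e ▸ IsConj.refl _)
  have ts : t ≠ s := fun e => htz (e ▸ cs)
  have zt : ¬ IsConj z (z * t) := fun c => by
    obtain ⟨q, -, e⟩ := h.exists_conj' htQ.1 t1 tz
    exact htz (c.trans (CF.Invol.isConj_of_eq e).symm)
  have st : ¬ IsConj z (s * t) := fun c => by
    obtain ⟨q, -, e⟩ := k.r.exists_conj' htQ.2 t1 ts
    exact htz (c.trans (CF.Invol.isConj_of_eq e).symm)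
  have four : ∀ a x : G, a * a = 1 → t * a = a * t → x ∈ zpowers t ⊔ zpowers a →
      x = 1 ∨ x = t ∨ x = a ∨ x = t * a := fun a x aa e hx => by
    rwa [zpowers_eq_closure, zpowers_eq_closure, ← Subgroup.closure_union, ← Set.insert_eq,
      CF.Invol.mem_closure_four tt aa e] at hx
  obtain ⟨x, hx, e1, e2⟩ := k.swap_cent (zpowers_le.2 htQ) (fun e => by
    rcases four z s h.zz (h.zc htQ.1) e with f | f | f | f
    exacts [k.r.z_ne f, ts f.symm, k.ne f, zt (h.zc htQ.1 ▸ f ▸ cs)]) fun e => by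
    rcases four s z k.r.zz (k.r.zc htQ.2) e with f | f | f | f
    exacts [h.z_ne f, tz f.symm, k.ne f.symm, st (k.r.zc htQ.2 ▸ f ▸ IsConj.refl _)]
  rw [centralizer_zpowers] at hx
  subst hP
  refine ⟨?_, x, hx, e2⟩
  have zP : z ∈ Q ⊓ 𝐂₁(t) := ⟨h.mem, mem_c1.2 (h.zc htQ.1).symm⟩
  have fz : ∀ c, z⁻¹ * (c * z * c⁻¹) ∈ zpowers t → c * z * c⁻¹ = z := fun c e =>
    ((mt _).1 e).elim (fun e => (inv_mul_eq_one.1 e).symm) fun e =>
      (zt (by rw [← e, mul_inv_cancel_left]; exact CF.Invol.isConj_conj c z)).elim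
  refine large_sec inf_le_right zP h.zz (centralizer_anti inf_le_left h.cent)
    (fun y hy => h.sq y hy.1) (fun e => ((mt _).1 e).elim h.z_ne tz.symm) (fun c hc e => ?_)
    (fun c hc e y hy => ?_) ?_ ((sup_le inf_le_right inf_le_right : _ ≤ 𝐂₁(t)) hx)
    (e1 ▸ ⟨k.tQ, mem_c1.2 (k.r.zc htQ.2).symm⟩) fun e => k.ne (e1 ▸ fz x e)
  · have cQ := (hCP c (mem_centralizer_singleton_of_conj (fz c (e z zP)))).1 fun y hy =>
      ⟨_, zpowers_le.2 (subset_closure (by simp)) (e y hy), by group⟩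
    rcases h.cent_c1 htQ.1 tt cQ fun a ha f => ((h.conj_cases cQ ha).elim conj_eq_iff.1 fun l => by
      have := e a ⟨ha, mem_c1.2 f⟩
      rw [l, ← h.zc ha, inv_mul_cancel_left] at this
      exact (((mt _).1 this).elim h.z_ne tz.symm).elim).symm with f | f | f | f <;> simp [f]
  · exact ⟨_, conj_mem_of_mem_normalizer (le_normalizer_inf (inf_le_left.trans h.nor)
      (inf_le_right.trans le_normalizer) (show c ∈ 𝐂₁(z) ⊓ 𝐂₁(t) from
        ⟨mem_centralizer_singleton_of_conj (fz c e), hc⟩)) hy, by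
      rw [inv_mul_cancel]; exact one_mem _⟩
  · have a := card_mul_relIndex (zpowers_le.2 (show t ∈ Q ⊓ 𝐂₁(t) from ⟨htQ.1, mem_c1.2 rfl⟩))
    have b := h.two_mul_card_c1 htQ.1 t1 tz
    rw [Nat.card_zpowers, ht] at a
    omega

end Cfsg.Agent.S5429
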