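import Cfsg.Statements.S5431
import Cfsg.Agent.LX.Pair

set_option autoImplicit false
open Cfsg

namespace Cfsg.Agent.S5431

open CF.Loc CF.LX CF.Even Subgroup

/-- Let Q be a large extraspecial 2-subgroup of the finite group G (extraspecial; centralizer equal to its centre; normal in the centralizer of its centre; normalizing no non-trivial subgroup of odd order) with centre generated by z, an involution, of width w ≥ 2 (order 2^(2w+1)); let g be an element outside the centralizer H of z with g z g⁻¹ in Q; write V for the subgroup generated by z and g z g⁻¹, X for the subgroup generated by Q and g Q g⁻¹, R for the subgroup generated by the centralizer of z in g Q g⁻¹ and the centralizer of g z g⁻¹ in Q, and E for the intersection of Q and g Q g⁻¹. Then V is the centre of R, E lies in the second centre of R, R is nilpotent of class at most 3, E and R/E are elementary abelian, R/E is the direct product of the images of the centralizer of g z g⁻¹ in Q and of the centralizer of z in g Q g⁻¹ (R is their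 product and they meet in E), and the commutator subgroup of X and E lies in V. -/
theorem result {G : Type*} [Group G] [Finite G] (Q : Subgroup G) (hQ : Cfsg.IsLargeExtraspecial Q) (z : G) (hz : ((Subgroup.center ↥Q).map Q.subtype) = Subgroup.zpowers z) (hz2 : orderOf z = 2) (w : ℕ) (hw : 2 ≤ w) (hcard : Nat.card ↥Q = 2 ^ (2 * w + 1)) (g : G) (hgH : g ∉ Subgroup.centralizer ({z} : Set G)) (hgQ : g * z * g⁻¹ ∈ Q) (V X R E : Subgroup G) (hV : V = Subgroup.closure ({z, g * z * g⁻¹} : Set G)) (hX : X = Q ⊔ (Q).map (MulAut.conj g).toMonoidHom) (hR : R = ((Q).map (MulAut.conj g).toMonoidHom ⊓ Subgroup.centralizer ({z} : Set G)) ⊔ (Q ⊓ Subgroup.centralizer ({g * z * g⁻¹} : Set G))) (hE : E = Q ⊓ (Q).map (MulAut.conj g).toMonoidHom) : (Subgroup.center ↥R).map R.subtype = V ∧ E ≤ (Subgroup.upperCentralSeries ↥R 2).map R.subtype ∧ Subgroup.upperCentralSeries ↥R 3 = ⊤ ∧ Cfsg.IsElementaryAbelian 2 E ∧ (∀ x ∈ R, ∀ y ∈ R, x * y * x⁻¹ * y⁻¹ ∈ E ∧ x ^ 2 ∈ E) ∧ ((Q).map (MulAut.conj g).toMonoidHom ⊓ Subgroup.centralizer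 ({z} : Set G)) ⊓ (Q ⊓ Subgroup.centralizer ({g * z * g⁻¹} : Set G)) = E ∧ ⁅X, E⁆ ≤ V := by
  have h := lq_of_large hQ hz
  have h8 : 8 < Nat.card Q := by
    rw [hcard]; exact lt_of_lt_of_le (by decide) (Nat.pow_le_pow_right (by decide) (by omega : 5 ≤ _))
  have k := h.pair h8 (fun e => hgH (mem_centralizer_singleton_of_conj e)) hgQ
  have hc : (center R).map R.subtype = V := by
    rw [CF.Sig.map_center_subtype, hR, hV]; exact k.center_R
  have h1 : ∀ x : R, (x : G) ∈ E → x ∈ Subgroup.upperCentralSeries R 2 := fun x hx => by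
    rw [Subgroup.mem_upperCentralSeries_succ_iff]
    intro y
    rw [Subgroup.upperCentralSeries_one]
    have : ((x * y * x⁻¹ * y⁻¹ : R) : G) ∈ (center R).map R.subtype := by
      rw [hc, hV]
      have := k.comm_X_E (commutator_mem_commutator (k.R_le_X (hR.le y.2)) (hE ▸ hx))
      simpa [commutatorElement_def, mul_assoc] using inv_mem this
    obtain ⟨c, hc, e⟩ := this
    rw [commutatorElement_def, ← Subtype.ext e]; exact hc
  have h2 : ∀ x ∈ R, ∀ y ∈ R, x * y * x⁻¹ * y⁻¹ ∈ E := fun x hx y hy => by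
    subst hR hE; exact k.comm_R_R (commutator_mem_commutator hx hy)
  refine ⟨hc, fun x hx => ⟨⟨x, by subst hR hE; exact k.E_le_R hx⟩, h1 _ hx, rfl⟩,
    eq_top_iff.2 fun x _ => Subgroup.mem_upperCentralSeries_succ_iff.2 fun y => h1 _ (h2 x x.2 y y.2),
    hE ▸ k.E_elemAb, fun x hx y hy => ⟨h2 x hx y hy, ?_⟩, hE ▸ k.A_inf_B, ?_⟩
  · subst hR hE; exact sq x ▸ k.R_sq hx
  · subst hX hE hV; exact k.comm_X_E

end Cfsg.Agent.S5431
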