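import Cfsg.Statements.S5436
import Cfsg.Agent.LX.Simple

set_option autoImplicit false
open Cfsg

namespace Cfsg.Agent.S5436

open CF.Loc CF.LX CF.Even Subgroup

/-- Let z be an involution of the finite group G with centralizer H whose generalized Fitting subgroup Q is extraspecial of width at least 2 (order 2^(2w+1), w ≥ 2); suppose some conjugate of z other than z lies in Q, H/Q is a non-abelian simple group, H acts irreducibly by conjugation on Q modulo the subgroup generated by z (the only H-invariant subgroups of Q containing z are that subgroup and Q), and Q is not the subgroup generated by the conjugates of z lying in H. Then G is simple. -/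
theorem result {G : Type*} [Group G] [Finite G] (z : G) (hz : orderOf z = 2) (Q : Subgroup (Subgroup.centralizer ({z} : Set G))) [Q.Normal] (hF : Cfsg.generalizedFittingSubgroup ↥(Subgroup.centralizer ({z} : Set G)) = Q) (hQ : Cfsg.IsExtraspecial 2 ↥Q) (w : ℕ) (hw : 2 ≤ w) (hcard : Nat.card ↥Q = 2 ^ (2 * w + 1)) (hnwc : ∃ g : G, (∃ hq : g * z * g⁻¹ ∈ Subgroup.centralizer ({z} : Set G), (⟨g * z * g⁻¹, hq⟩ : Subgroup.centralizer ({z} : Set G)) ∈ Q) ∧ g * z * g⁻¹ ≠ z) (hsimp : IsSimpleGroup (↥(Subgroup.centralizer ({z} : Set G)) ⧸ Q)) (hna : ¬ IsMulCommutative (↥(Subgroup.centralizer ({z} : Set G)) ⧸ Q)) (hirr : ∀ W : Subgroup (Subgroup.centralizer ({z} : Set G)), W.Normal → W ≤ Q → (W = Q ∨ ∀ x ∈ W, (x : G) ∈ Subgroup.zpowers z)) (hwcl : Subgroup.closure {x : Subgroup.centralizer ({z} : Set G) | IsConj z (x : G)} ≠ Q) : IsSimpleGroup G := by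
  obtain ⟨h, e⟩ := lq_of_fstar hz (Q := Q.map (𝐂₁(z)).subtype) (by rw [hF])
    (isExtraspecial_of_equiv hQ (equivMapOfInjective _ _ (subtype_injective _)))
  have h8 : 8 < Nat.card (Q.map (𝐂₁(z)).subtype) := by
    rw [card_map_of_injective (subtype_injective _), hcard]
    exact lt_of_lt_of_le (by decide) (Nat.pow_le_pow_right (by decide) (by omega : 5 ≤ _))
  obtain ⟨g, ⟨a, b⟩, c⟩ := hnwc
  refine h.simple (h.pair h8 c ⟨_, b, rfl⟩).large.2.2.2 e ?_
  set W := closure {x : 𝐂₁(z) | IsConj z (x : G)} with hW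
  have hn : W.Normal := ⟨fun x hx k => by
    have : W ≤ W.comap (MulAut.conj k).toMonoidHom := (closure_le _).2 fun y hy =>
      subset_closure (IsConj.trans hy (CF.Invol.isConj_conj (k : G) y))
    exact this hx⟩
  have QW : Q ≤ W := inf_eq_right.1 ((hirr (W ⊓ Q) inferInstance inf_le_right).resolve_right
    fun k => (h.mem_z.1 (k ⟨_, a⟩ ⟨subset_closure (CF.Invol.isConj_conj g z), b⟩)).elim
      (by simpa using h.z_ne) c)
  have : W = ⊤ := by
    rcases (hn.map _ (QuotientGroup.mk'_surjective Q)).eq_bot_or_eq_top with k | k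
    · rw [Subgroup.map_eq_bot_iff, QuotientGroup.ker_mk'] at k
      exact (hwcl (le_antisymm k QW)).elim
    · rw [← comap_map_eq_self (f := QuotientGroup.mk' Q) (H := W) (by simpa), k, comap_top]
  intro x hx
  have l : W ≤ (ncl (zpowers z) ⊤).subgroupOf _ := (closure_le _).2 fun y hy => by
    obtain ⟨k, hk⟩ := isConj_iff.1 hy
    exact mem_subgroupOf.2 (hk ▸ (ncl_top_normal _).conj_mem _ (le_ncl _ _ (mem_zpowers z)) k)
  exact l (this.ge (mem_top (⟨x, hx⟩ : 𝐂₁(z))))

end Cfsg.Agent.S5436
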