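import Cfsg.Statements.S5437
import Cfsg.Agent.LX.Sing

set_option autoImplicit false
open Cfsg

namespace Cfsg.Agent.S5437

open CF.Loc CF.LX CF.Even Subgroup

/-- Let I be a set of involutions of the finite group G closed under conjugation, and H a subgroup of G. The following are equivalent: (1) for every member x of I lying in H, the conjugates of x lying in H form a single H-class and the centralizer of x lies in H; (2) for every g outside H, no member of I lies in both H and g H g⁻¹; (3) every member of I lying in H fixes exactly one coset in the action of G on the cosets of H. -/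
theorem result {G : Type*} [Group G] [Finite G] (I : Set G) (hI : ∀ x ∈ I, orderOf x = 2) (hIc : ∀ g : G, ∀ x ∈ I, g * x * g⁻¹ ∈ I) (H : Subgroup G) : ((∀ x ∈ I, x ∈ H → (∀ g : G, g * x * g⁻¹ ∈ H → ∃ h ∈ H, h * x * h⁻¹ = g * x * g⁻¹) ∧ Subgroup.centralizer ({x} : Set G) ≤ H) ↔ (∀ g : G, g ∉ H → ∀ x ∈ I, ¬ (x ∈ H ∧ x ∈ (H : Subgroup G).map (MulAut.conj g).toMonoidHom))) ∧ ((∀ g : G, g ∉ H → ∀ x ∈ I, ¬ (x ∈ H ∧ x ∈ (H : Subgroup G).map (MulAut.conj g).toMonoidHom)) ↔ ∀ x ∈ I, x ∈ H → ∃! c : G ⧸ H, x • c = c) := by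
  have k : (∀ g : G, g ∉ H → ∀ x ∈ I, ¬ (x ∈ H ∧ x ∈ cj[g] H)) ↔ ∀ x ∈ I, x ∈ H → Fix1 x H :=
    ⟨fun h x hx hH g hg => by_contra fun e => h g e x hx ⟨hH, mem_cj.2 hg⟩,
      fun h g e x hx hH => e (h x hx hH.1 g (mem_cj.1 hH.2))⟩
  rw [k]
  refine ⟨⟨fun h x hx hH => fix1_of (h x hx hH).2 (h x hx hH).1, fun h x hx hH =>
    ⟨fun g hg => ⟨g, inv_mem_iff.1 (h x hx hH g⁻¹ (by simpa using hg)), rfl⟩,
      (h x hx hH).cent_le hH⟩⟩, ?_⟩
  exact forall₃_congr fun x _ hH => fix1_iff hH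

end Cfsg.Agent.S5437
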