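import Cfsg.Statements.S5438
import Cfsg.Agent.LX.Sing

set_option autoImplicit false
open Cfsg

namespace Cfsg.Agent.S5438

open CF.Loc CF.LX CF.Even Subgroup

/-- Let z be a 2-central involution of the finite group G (an involution central in some Sylow 2-subgroup) and H a subgroup containing z such that the coset H is the only coset of H fixed by z (in the action of G on the cosets of H). Then H has odd index in G, and for every 2-element x of H the conjugates of x lying in H form a single H-class. -/
theorem result {G : Type*} [Group G] [Finite G] (z : G) (hz : Cfsg.IsTwoCentralInvolution z) (H : Subgroup G) (hzH : z ∈ H) (hfix : ∀ g : G, g⁻¹ * z * g ∈ H → g ∈ H) : Odd H.index ∧ ∀ x ∈ H, (∃ k : ℕ, orderOf x = 2 ^ k) → ∀ g : G, g * x * g⁻¹ ∈ H → ∃ h ∈ H, h * x * h⁻¹ = g * x * g⁻¹ := by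
  obtain ⟨h2, P, -, hP⟩ := hz
  refine ⟨?_, fun x hx ⟨k, hk⟩ g hg => Fix1.fusion hfix hzH (mul_self_of_invol h2) (isSyl_top P) hP
    hx (k := k) (hk ▸ pow_orderOf_eq_one x) hg⟩
  have := (isSyl_top P).not_dvd_relIndex_of_le
    ((le_centralizer_singleton_iff.2 hP).trans (Fix1.cent_le hfix hzH)) le_top
  rw [relIndex_top_right] at this
  exact Nat.odd_iff.2 (by omega)

end Cfsg.Agent.S5438
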