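import Cfsg.Statements.S5439
import Cfsg.Agent.LX.Sing

set_option autoImplicit false
open Cfsg

namespace Cfsg.Agent.S5439

open CF.Loc CF.LX CF.Even Subgroup

/-- Let I and J be two different conjugacy classes of involutions of the finite group G and H a subgroup such that every member of I ∪ J fixes exactly one coset in the action on the cosets of H, and such that for every a in I ∩ H and every b in (I ∪ J) ∩ H different from a and commuting with it, the centralizer of a b lies in H. Then H = G. -/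
theorem result {G : Type*} [Group G] [Finite G] (I J : Set G) (a₀ b₀ : G) (ha₀ : orderOf a₀ = 2) (hb₀ : orderOf b₀ = 2) (hI : I = {x | IsConj a₀ x}) (hJ : J = {x | IsConj b₀ x}) (hIJ : I ≠ J) (H : Subgroup G) (hfix : ∀ x ∈ I ∪ J, ∃! c : G ⧸ H, x • c = c) (hcent : ∀ a ∈ I, a ∈ H → ∀ b ∈ I ∪ J, b ∈ H → a ≠ b → a * b = b * a → Subgroup.centralizer ({a * b} : Set G) ≤ H) : H = ⊤ := by
  have key : ∀ x ∈ I ∪ J, ∃ g : G, g⁻¹ * x * g ∈ H := fun x hx => by
    obtain ⟨c, hc, -⟩ := hfix x hx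
    obtain ⟨g, rfl⟩ := QuotientGroup.mk_surjective c
    exact ⟨g, smul_mk_iff.1 hc⟩
  obtain ⟨g, hg⟩ := key a₀ (.inl (hI ▸ IsConj.refl _))
  obtain ⟨k, hk⟩ := key b₀ (.inr (hJ ▸ IsConj.refl _))
  have ca : IsConj a₀ (g⁻¹ * a₀ * g) := isConj_iff.2 ⟨g⁻¹, by simp⟩
  have cb : IsConj b₀ (k⁻¹ * b₀ * k) := isConj_iff.2 ⟨k⁻¹, by simp⟩
  subst hI hJ
  refine eq_top_of_two_classes ((CF.Invol.orderOf_conj' _ _).trans ha₀)
    ((CF.Invol.orderOf_conj' _ _).trans hb₀) (fun e => hIJ ?_) hg hk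
    ((fix1_iff hg).2 (hfix _ (.inl ca))) ((fix1_iff hk).2 (hfix _ (.inr cb)))
    fun y hy c n e => hcent _ ca hg y (c.imp ca.trans cb.trans) hy n.symm e
  have := (ca.trans e).trans cb.symm
  exact Set.ext fun x => ⟨this.symm.trans, this.trans⟩

end Cfsg.Agent.S5439
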