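import Cfsg.Statements.S5442
import Cfsg.Agent.F24.Fr

set_option autoImplicit false
open Cfsg

namespace Cfsg.Agent.S5442

open Subgroup CF.Loc CF.LX CF.Comp CF.J4 CF.F24

/-- Let G be a finite group of large Fischer type at the involution z: the generalized Fitting subgroup Q of H = C_G(z) is extraspecial of order 2^13, H has normal subgroups Q ≤ H₁ ≤ H₂ with H₁/Q of order 3, H₂/H₁ the projective special unitary group of dimension 4 over the field with nine elements and H₂ of index 2 in H, and some conjugate of z other than z lies in Q. Let s = g z g⁻¹ be a conjugate of z lying in Q and different from z. Then the intersection of Q and g Q g⁻¹ (as subgroups of G) is elementary abelian of order 2^7; and in H/Q, writing X for the image of the centralizer of s in H and E for the image of the intersection of g Q g⁻¹ with H, E is a normal subgroup of X, elementary abelian of order 32, with X/E isomorphic to the alternating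 group of degree 6. -/
theorem result {G : Type*} [Group G] [Finite G] (z : G) (Q : Subgroup (Subgroup.centralizer ({z} : Set G))) [Q.Normal] (hF : Cfsg.IsOfLargeFischerTypeAt z Q) (s : G) (hsQ : ∃ hsc : s ∈ Subgroup.centralizer ({z} : Set G), (⟨s, hsc⟩ : Subgroup.centralizer ({z} : Set G)) ∈ Q) (hs : IsConj z s) (hs1 : s ≠ z) (g : G) (hg : g * z * g⁻¹ = s) (X E : Subgroup ((Subgroup.centralizer ({z} : Set G)) ⧸ Q)) (hX : X = ((Subgroup.centralizer ({z} : Set G) ⊓ Subgroup.centralizer ({s} : Set G)).subgroupOf (Subgroup.centralizer ({z} : Set G))).map (QuotientGroup.mk' Q)) (hE : E = ((((Q.map (Subgroup.centralizer ({z} : Set G)).subtype)).map (MulAut.conj g).toMonoidHom ⊓ Subgroup.centralizer ({z} : Set G)).subgroupOf (Subgroup.centralizer ({z} : Set G))).map (QuotientGroup.mk' Q)) : Cfsg.IsElementaryAbelian 2 ((Q.map (Subgroup.centralizer ({z} : Set G)).subtype) ⊓ ((Q.map (Subgroup.centralizer ({z} : Set G)).subtype)).map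 (MulAut.conj g).toMonoidHom) ∧ Nat.card ↥((Q.map (Subgroup.centralizer ({z} : Set G)).subtype) ⊓ ((Q.map (Subgroup.centralizer ({z} : Set G)).subtype)).map (MulAut.conj g).toMonoidHom) = 2 ^ 7 ∧ E ≤ X ∧ (∀ x ∈ X, ∀ y ∈ E, x * y * x⁻¹ ∈ E) ∧ Cfsg.IsElementaryAbelian 2 E ∧ Nat.card E = 32 ∧ ∃ _ : (E.subgroupOf X).Normal, Nonempty (↥X ⧸ E.subgroupOf X ≃* alternatingGroup (Fin 6)) := by
  obtain ⟨π, h⟩ := fh_of hF
  obtain ⟨ρ, inj, hρ⟩ := h.rho
  subst hg
  have a : g * z * g⁻¹ ∈ Q.map (𝐂₁(z)).subtype := ⟨_, hsQ.2, rfl⟩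
  have p := h.toLQ.pair (by rw [h.card]; norm_num) hs1 a
  obtain ⟨k1, k2⟩ := h.key a hs1
  obtain ⟨o, ho, e⟩ := ex1 k1
  replace k2 := k2 _ (inv_mem ho) (inv_smul_eq_iff.2 e.symm)
  have c1 := card_im h.toFr (inf_le_right : cj[g] (Q.map (𝐂₁(z)).subtype) ⊓ 𝐂₁(z) ≤ _)
  have c2 := p.r.two_mul_card_c1 p.zP h.z_ne hs1.symm
  have n0 := pi_ne h.toFr a p.r.z_ne hs1
  let ρ' := (MulAut.conj o⁻¹).toMonoidHom.comp ρ
  have i' : Function.Injective ρ' := (MulAut.conj o⁻¹).injective.comp inj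
  have eE : E.map ρ' = E5 := by
    rw [← k2, ← map_map, cj_inj, hE]
    exact Subgroup.ext fun y => ⟨fun ⟨_, ⟨x, hx, e1⟩, e2⟩ => h.hom.mem_im.2 ⟨x, hx, by rw [← hρ, e1, e2]⟩, fun hy =>
      have ⟨x, hx, e1⟩ := h.hom.mem_im.1 hy
      ⟨_, ⟨⟨x, hx.2⟩, hx, rfl⟩, (hρ _).trans e1⟩⟩
  have eX : X.map ρ' = X0 := by
    rw [X0, ← inv_smul_smul o (dec 1), ← cj_stab (L0_le (inv_mem ho)), e, ← map_map, cj_inj, hX]
    refine Subgroup.ext fun y => ⟨fun ⟨_, ⟨x, hx, e1⟩, e2⟩ => ?_, fun hy => ?_⟩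
    · rw [← e2, ← e1, hρ]
      exact mem_stabIn.2 ⟨h.memH0 x.2, by rw [ph_smul h.toFr x.2 a, conj_eq_iff.2 ((mem_c1 (x := (x : G))).1 hx.2)]⟩
    · obtain ⟨x, hx, rfl⟩ := (h.im y).1 hy.1
      obtain ⟨k, hk, e1, e2⟩ := lift_conj h.toFr hx a a n0 hy.2
      exact ⟨_, ⟨⟨k, hk⟩, ⟨hk, mem_c1.2 (conj_eq_iff.1 e2)⟩, rfl⟩, (hρ _).trans e1⟩
  obtain ⟨χ, s1, s2⟩ := homX
  obtain ⟨n, q⟩ := quot_of_map i' eX eE s1 s2
  have l : E ≤ X := (map_le_map_iff_of_injective i').1 (eE ▸ eX ▸ E5_le)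
  rw [← card_cj o⁻¹ (h.hom.im _ _), k2, card_E5, inf_right_comm, inf_eq_left.2 (inf_le_right.trans h.le_c1),
    inf_comm _ (Q.map _)] at c1
  rw [p.card_eq, h.card] at c2
  exact ⟨p.E_elemAb, by omega, l, fun x hx y hy => n.conj_mem ⟨y, l hy⟩ hy ⟨x, hx⟩,
    elem_of fun x hx => i' (by rw [map_mul, ea5 _ (eE ▸ mem_map_of_mem _ hx), map_one]),
    by rw [← card_map_of_injective i', eE, card_E5], n, q⟩

end Cfsg.Agent.S5442
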