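import Cfsg.Statements.S5444
import Cfsg.Agent.F24.M

set_option autoImplicit false
open Cfsg

namespace Cfsg.Agent.S5444

open Subgroup CF.Loc CF.LX CF.J4 CF.F24

/-- Let G be a finite group of large Fischer type at the involution z: the generalized Fitting subgroup Q of H = C_G(z) is extraspecial of order 2^13, H has normal subgroups Q ≤ H₁ ≤ H₂ with H₁/Q of order 3, H₂/H₁ the projective special unitary group of dimension 4 over the field with nine elements and H₂ of index 2 in H, and some conjugate of z other than z lies in Q. Let T be a Sylow 2-subgroup of H. Then T has exactly one elementary abelian subgroup A of largest order; A has order 2^11, it meets Q in a subgroup of order 2^7, and its image in H/Q has order 16. -/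
theorem result {G : Type*} [Group G] [Finite G] (z : G) (Q : Subgroup (Subgroup.centralizer ({z} : Set G))) [Q.Normal] (hF : Cfsg.IsOfLargeFischerTypeAt z Q) (T : Sylow 2 ↥(Subgroup.centralizer ({z} : Set G))) : ∃ A : Subgroup ↥(T : Subgroup (Subgroup.centralizer ({z} : Set G))), Cfsg.maxElementaryAbelianSubgroups 2 ↥(T : Subgroup (Subgroup.centralizer ({z} : Set G))) = {A} ∧ Nat.card A = 2 ^ 11 ∧ Nat.card ↥(A.map (T : Subgroup (Subgroup.centralizer ({z} : Set G))).subtype ⊓ Q) = 2 ^ 7 ∧ Nat.card ↥((A.map (T : Subgroup (Subgroup.centralizer ({z} : Set G))).subtype).map (QuotientGroup.mk' Q)) = 16 := by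
  obtain ⟨p, π, f, V, ν, h⟩ := fm_of hF
  have i := subtype_injective 𝐂₁(z)
  obtain ⟨c, hc, e⟩ := h.sylH.exists_le_cj (T.isPGroup'.map (𝐂₁(z)).subtype) (map_subtype_le _)
  have l : cj[c] (CF.F24.TT _ π p f) ≤ 𝐂₁(z) := cj_le_of_mem hc h.T_H
  have e1 := T.is_maximal' ((isPGroup_cj c h.sylH.isPGroup).comap_of_injective _ i) (map_le_iff_le_comap.1 e)
  obtain ⟨a, b⟩ := h.maxEA (i.comp (subtype_injective (T : Subgroup 𝐂₁(z)))) (ι := (𝐂₁(z)).subtype.comp (Subgroup.subtype _))
    (g := c) (by rw [MonoidHom.range_comp, range_subtype, ← e1, map_comap_eq_self (by rwa [range_subtype])])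
  rw [← map_map] at b
  refine ⟨_, a, ?_⟩
  generalize ((cj[c] V).comap ((𝐂₁(z)).subtype.comp (T : Subgroup 𝐂₁(z)).subtype)) = A at b ⊢
  have c1 : Nat.card (A.map (T : Subgroup 𝐂₁(z)).subtype) = 2 ^ 11 := by rw [← card_map_of_injective i, b, card_cj, h.card_V]
  have c2 : Nat.card ↥(A.map (T : Subgroup 𝐂₁(z)).subtype ⊓ Q) = 2 ^ 7 := by
    rw [← card_map_of_injective i, map_inf _ _ _ i, b, ← cj_eq_self (h.nor hc), ← cj_inf, card_cj, h.card_VE]
  refine ⟨(card_subtype _ _).symm.trans c1, c2, ?_⟩
  generalize A.map (T : Subgroup 𝐂₁(z)).subtype = B at c1 c2 ⊢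
  have := ((QuotientGroup.mk' Q).domRestrict B).ker.index_mul_card
  rw [index_ker, MonoidHom.domRestrict_range, MonoidHom.ker_domRestrict, QuotientGroup.ker_mk', c1,
    ← inf_subgroupOf_left, Nat.card_congr (subgroupOfEquivOfLe inf_le_left).toEquiv, c2] at this
  omega

end Cfsg.Agent.S5444
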