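import Cfsg.Statements.S5447
import Cfsg.Agent.F24.M

set_option autoImplicit false
open Cfsg

namespace Cfsg.Agent.S5447

open Subgroup CF.Loc CF.LX CF.J4 CF.F24

/-- Let G be a finite group of large Fischer type at the involution z: the generalized Fitting subgroup Q of H = C_G(z) is extraspecial of order 2^13, H has normal subgroups Q ≤ H₁ ≤ H₂ with H₁/Q of order 3, H₂/H₁ the projective special unitary group of dimension 4 over the field with nine elements and H₂ of index 2 in H, and some conjugate of z other than z lies in Q. Let T be a Sylow 2-subgroup of G, A its Thompson subgroup and M = N_G(A) its normalizer. Then M controls fusion in A (elements of A conjugate in G are conjugate in M), and M has exactly two orbits on the non-identity elements of A: those conjugate to z in G and those not. -/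
theorem result {G : Type*} [Group G] [Finite G] (z : G) (Q : Subgroup (Subgroup.centralizer ({z} : Set G))) [Q.Normal] (hF : Cfsg.IsOfLargeFischerTypeAt z Q) (T : Sylow 2 G) (A M : Subgroup G) (hA : A = Cfsg.thompsonSubgroupOf 2 (T : Subgroup G)) (hM : M = Subgroup.normalizer (A : Set G)) : (∀ a ∈ A, ∀ g : G, g * a * g⁻¹ ∈ A → ∃ m ∈ M, m * a * m⁻¹ = g * a * g⁻¹) ∧ (∃ a ∈ A, a ≠ 1 ∧ IsConj z a) ∧ (∃ a ∈ A, a ≠ 1 ∧ ¬ IsConj z a) ∧ ∀ a ∈ A, ∀ b ∈ A, a ≠ 1 → b ≠ 1 → (IsConj z a ↔ IsConj z b) → ∃ m ∈ M, m * a * m⁻¹ = b := by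
  obtain ⟨p, π, f, V, ν, h⟩ := fm_of hF
  obtain ⟨g, e⟩ := h.thompson T
  rw [e] at hA
  subst hM hA
  have c : ∀ a : G, IsConj a (g⁻¹ * a * g) := fun a => isConj_iff.2 ⟨g⁻¹, by rw [inv_inv]⟩
  have k : ∀ a b : G, (∃ m ∈ 𝐍(V), m * (g⁻¹ * a * g) * m⁻¹ = g⁻¹ * b * g) →
      ∃ m ∈ 𝐍(cj[g] V), m * a * m⁻¹ = b := fun a b ⟨m, hm, e⟩ =>
    ⟨_, cj_normalizer g V ▸ conj_mem_cj g hm, by
      rw [show b = g * (g⁻¹ * b * g) * g⁻¹ by group, ← e]; group⟩
  obtain ⟨d, hd, -, e1⟩ := h.exists_d (a := none) (c := some 0) (by decide)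
  have n := (h.dt hd).1 e1
  refine ⟨fun a ha x hx => k _ _ ?_, ⟨_, conj_mem_cj g h.zV, by simpa using h.z_ne, isConj_iff.2 ⟨g, rfl⟩⟩,
    ⟨_, conj_mem_cj g hd, by simpa using n.1, fun e => n.2 (e.trans (isConj_iff.2 ⟨g, rfl⟩).symm)⟩,
    fun a ha b hb a1 b1 e => k _ _ (h.two (mem_cj.1 ha) (mem_cj.1 hb)
      (fun e => a1 (isConj_one_left.1 (e ▸ c a))) (fun e => b1 (isConj_one_left.1 (e ▸ c b)))
      ⟨fun t => (e.1 (t.trans (c a).symm)).trans (c b), fun t => (e.2 (t.trans (c b).symm)).trans (c a)⟩)⟩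
  have e2 : g⁻¹ * (x * a * x⁻¹) * g = g⁻¹ * x * g * (g⁻¹ * a * g) * (g⁻¹ * x * g)⁻¹ := by group
  exact e2 ▸ h.fus (mem_cj.1 ha) (e2 ▸ mem_cj.1 hx)

end Cfsg.Agent.S5447
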