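import Cfsg.Statements.S5448
import Cfsg.Agent.F24.M

set_option autoImplicit false
open scoped Pointwise
open Cfsg

namespace Cfsg.Agent.S5448

open Subgroup CF.Loc CF.LX CF.J4 CF.F24

/-- Let G be a finite group of large Fischer type at the involution z: the generalized Fitting subgroup Q of H = C_G(z) is extraspecial of order 2^13, H has normal subgroups Q ≤ H₁ ≤ H₂ with H₁/Q of order 3, H₂/H₁ the projective special unitary group of dimension 4 over the field with nine elements and H₂ of index 2 in H, and some conjugate of z other than z lies in Q. Let T be a Sylow 2-subgroup of G, A its Thompson subgroup, M = N_G(A) its normalizer, and t an involution of A not conjugate to z in G. Then the centralizer of t in M, modulo A, is isomorphic to the setwise stabilizer of a two-element subset of the 24 points in the Mathieu group of degree 24 (the automorphism group of the smaller Mathieu group on 22 points). -/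
theorem result {G : Type*} [Group G] [Finite G] (z : G) (Q : Subgroup (Subgroup.centralizer ({z} : Set G))) [Q.Normal] (hF : Cfsg.IsOfLargeFischerTypeAt z Q) (T : Sylow 2 G) (A M : Subgroup G) (hA : A = Cfsg.thompsonSubgroupOf 2 (T : Subgroup G)) (hM : M = Subgroup.normalizer (A : Set G)) (t : G) (htA : t ∈ A) (ht2 : orderOf t = 2) (ht : ¬ IsConj z t) : ∃ _ : (A.subgroupOf (M ⊓ Subgroup.centralizer ({t} : Set G))).Normal, Nonempty (↥(M ⊓ Subgroup.centralizer ({t} : Set G)) ⧸ A.subgroupOf (M ⊓ Subgroup.centralizer ({t} : Set G)) ≃* ↥(Cfsg.M24 ⊓ MulAction.stabilizer (Equiv.Perm Cfsg.GolayPt) ({none, some 0} : Set Cfsg.GolayPt))) := by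
  obtain ⟨p, π, f, V, ν, h⟩ := fm_of hF
  obtain ⟨g, e⟩ := h.thompson T
  rw [e] at hA
  subst hM hA
  have c : IsConj t (g⁻¹ * t * g) := isConj_iff.2 ⟨g⁻¹, by rw [inv_inv]⟩
  obtain ⟨d, hd, e1, e2⟩ := h.exists_d (a := none) (c := some 0) (by decide)
  obtain ⟨χ, a, b⟩ := h.homD hd (by decide) e1
  obtain ⟨m, hm, e3⟩ := (h.cls_d (mem_cj.1 htA) ((h.dt (mem_cj.1 htA)).2 ⟨fun e => by
    have : t = 1 := isConj_one_left.1 (e ▸ c)
    rw [this] at ht2; simp at ht2, fun e => ht (e.trans c.symm)⟩)).2 ⟨hd, e2⟩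
  have e4 : cj[m * g⁻¹] (cj[g] V) = V := by rw [cj_mul, cj_inv_cj, cj_eq_self hm]
  exact quot_of_map (MulAut.conj (m * g⁻¹)).injective (by
    rw [← e3, show m * (g⁻¹ * t * g) * m⁻¹ = m * g⁻¹ * t * (m * g⁻¹)⁻¹ by group, ← cj_centralizer_singleton]
    conv_rhs => rw [← e4, ← cj_normalizer]
    exact cj_inf _ _ _) e4 a b

end Cfsg.Agent.S5448
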