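import Cfsg.Statements.S5451
import Cfsg.Agent.F24.U

set_option autoImplicit false
open Cfsg

namespace Cfsg.Agent.S5451

open Subgroup CF.Loc CF.LX CF.J4 CF.F24

/-- Let G be a finite group of large Fischer type at the involution z: the generalized Fitting subgroup Q of H = C_G(z) is extraspecial of order 2^13, H has normal subgroups Q ≤ H₁ ≤ H₂ with H₁/Q of order 3, H₂/H₁ the projective special unitary group of dimension 4 over the field with nine elements and H₂ of index 2 in H, and some conjugate of z other than z lies in Q. Let X be a subgroup of H of order 3 whose product with Q is normal in H (X maps onto the normal subgroup of order 3 of H/Q). Then the centralizer of X in H is quasisimple with cyclic centre of order 6 and central quotient isomorphic to the projective special unitary group of dimension 4 over the field with nine elements. -/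
theorem result {G : Type*} [Group G] [Finite G] (z : G) (Q : Subgroup (Subgroup.centralizer ({z} : Set G))) [Q.Normal] (hF : Cfsg.IsOfLargeFischerTypeAt z Q) (X : Subgroup (Subgroup.centralizer ({z} : Set G))) (hX : Nat.card X = 3) (hXQ : (X ⊔ Q).Normal) : Cfsg.IsQuasisimple ↥(Subgroup.centralizer ((X : Subgroup (Subgroup.centralizer ({z} : Set G))) : Set (Subgroup.centralizer ({z} : Set G)))) ∧ IsCyclic ↥(Subgroup.center ↥(Subgroup.centralizer ((X : Subgroup (Subgroup.centralizer ({z} : Set G))) : Set (Subgroup.centralizer ({z} : Set G))))) ∧ Nat.card ↥(Subgroup.center ↥(Subgroup.centralizer ((X : Subgroup (Subgroup.centralizer ({z} : Set G))) : Set (Subgroup.centralizer ({z} : Set G))))) = 6 ∧ ∃ (K : Type) (_ : Field K) (_ : Fintype K), Fintype.card K = 9 ∧ Nonempty (↥(Subgroup.centralizer ((X : Subgroup (Subgroup.centralizer ({z} : Set G))) : Set (Subgroup.centralizer ({z} : Set G)))) ⧸ Subgroup.center ↥(Subgroup.centralizer ((X : Subgroup (Subgroup.centralizer ({z} : Set G))) : Set (Subgroup.centralizer ({z} : Set G))))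 ≃* Cfsg.PSU 4 K 3) := by
  obtain ⟨π, h⟩ := fh_of hF
  haveI : Fact (Nat.Prime 3) := ⟨Nat.prime_three⟩
  obtain ⟨x, rfl⟩ := (Subgroup.isCyclic_iff_exists_zpowers_eq_top X).1 (isCyclic_of_prime_card hX)
  obtain ⟨p, e, k⟩ := h.exists_p x.2 ((orderOf_coe x).trans ((Nat.card_zpowers x).symm.trans hX)) fun g hg => by
    have := (sup_le (zpowers_le.2 (mem_zpowers _)) fun q hq => mem_comap.2 (by
      rw [show h.hom.hom q = 1 from ph_E h.toFr (mem_map_of_mem _ hq)]; exact one_mem _) :
      zpowers x ⊔ Q ≤ (zpowers (h.hom.hom x)).comap h.hom.hom) (hXQ.conj_mem' x (mem_sup_left (mem_zpowers x)) ⟨g, hg⟩)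
    rw [mem_comap, map_mul, map_mul, map_inv] at this
    exact mem_norm_zp this
  obtain ⟨f, V, ν, h⟩ := k.exists_fm
  letI := Fintype.ofFinite (GaloisField 3 2)
  have h9 : Fintype.card (GaloisField 3 2) = 9 := by
    rw [← Nat.card_eq_fintype_card, GaloisField.card 3 2 two_ne_zero]; rfl
  obtain ⟨a, b, c, d⟩ := h.cover (ι := (𝐂₁(z)).subtype.comp (𝐂(zpowers x)).subtype)
    ((subtype_injective _).comp (subtype_injective _)) (by
      rw [MonoidHom.range_comp, range_subtype, ← centralizer_zpowers p, e, centralizer_zpowers, centralizer_zpowers]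
      exact ext fun g => ⟨fun ⟨y, a, b⟩ => b ▸ ⟨y.2, mem_c1.2 (congrArg Subtype.val (mem_c1.1 a))⟩,
        fun a => ⟨⟨g, a.1⟩, mem_c1.2 (Subtype.ext (mem_c1.1 a.2)), rfl⟩⟩) h9
  exact ⟨a, b, c, _, _, _, h9, d⟩

end Cfsg.Agent.S5451
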