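import Cfsg.Statements.S5458
import Cfsg.Agent.Fisch.F22.J2
-- import your own Cfsg.Agent.* helpers here

set_option autoImplicit false
open Cfsg

namespace Cfsg.Agent.S5458

open CF.Fisch
open scoped commutatorElement

open CF.Fisch F22 CF.Comp Subgroup

/-- Let G be a finite group with trivial centre generated by a conjugation-invariant set D of 3-transpositions on which it acts primitively, of type M(22), and suppose G also has an involution whose centralizer is quasisimple with quotient by it the projective special unitary group of dimension 6 over the field with four elements and which is not weakly closed in that centralizer. Let T be a Sylow 2-subgroup of G. Then the subgroup generated by the members of D lying in T is the Thompson subgroup of T (generated by the elementary abelian subgroups of T of largest order). -/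
theorem result {G : Type*} [Group G] [Finite G] {D : Set G} (hD : Cfsg.IsThreeTranspositionGroup D) (hprim : Cfsg.IsPrimitiveUnderConj D) (h22 : Cfsg.IsOfTypeM22 G D) (hM : ∃ d : G, orderOf d = 2 ∧ Cfsg.IsQuasisimple ↥(Subgroup.centralizer ({d} : Set G)) ∧ (∃ (_ : ((Subgroup.zpowers d).subgroupOf (Subgroup.centralizer ({d} : Set G))).Normal) (K : Type) (_ : Field K) (_ : Fintype K), Fintype.card K = 4 ∧ Nonempty (↥(Subgroup.centralizer ({d} : Set G)) ⧸ (Subgroup.zpowers d).subgroupOf (Subgroup.centralizer ({d} : Set G)) ≃* Cfsg.PSU 6 K 2)) ∧ ∃ g : G, g * d * g⁻¹ ∈ Subgroup.centralizer ({d} : Set G) ∧ g * d * g⁻¹ ≠ d) (T : Sylow 2 G) : Subgroup.closure {x : G | x ∈ D ∧ x ∈ (T : Subgroup G)} = Cfsg.thompsonSubgroupOf 2 (T : Subgroup G) := by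
  obtain ⟨E, f, M⟩ := std22 hD hprim h22
  obtain ⟨g, hg⟩ := sylow_conj (m := 64561751654400 / 2 ^ 17) (J2.thom M).2 M.card (by decide) T
  have M' := M.conj g
  rw [map_conj_clo (fun w => (ev_cj g f w).symm)] at hg
  have h1 : _ ≤ (T : Subgroup G) := le_sup_right.trans ((clo_lapp _ _ _).ge.trans hg.ge)
  have h2 := J2.gen M'
  rw [show thompsonSubgroupOf 2 (T : Subgroup G) = _ from hg ▸ (J2.thom M').1]
  refine le_antisymm ((closure_le _).2 fun x hx => J2.cent M' ?_) (h2.le.trans (closure_mono fun x hx =>
    ⟨M'.toTM.sv_sub _ hx, h1 (h2.ge (subset_closure hx))⟩))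
  rw [h2, centralizer_closure]
  intro y hy
  by_contra h3
  have h4 := M.toTM.braid (M'.toTM.sv_sub _ hy) hx.1 h3
  obtain ⟨k, hk⟩ := T.2 ⟨y * x, mul_mem (h1 (h2.ge (subset_closure hy))) hx.2⟩
  have h5 : (y * x) ^ 3 = 1 := by
    rw [show (y * x) ^ 3 = y * x * y * (x * y * x) by simp [pow_succ, mul_assoc], ← h4]
    simp [mul_assoc, ← mul_assoc y y, ← mul_assoc x x, M.toTM.sq hx.1, M.toTM.sq (M'.toTM.sv_sub _ hy)]
  have h6 : y * x = 1 := mem_bot.1 (mem_of_coprime (Nat.Coprime.pow_left k (by decide : Nat.Coprime 2 3))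
    (congrArg Subtype.val hk) h5)
  exact h3 (h6.trans (mul_eq_one_comm.1 h6).symm)

end Cfsg.Agent.S5458
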