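import Cfsg.Statements.S5459
import Cfsg.Agent.Fisch.TT1
import Cfsg.Agent.Invol.Isolated
-- import your own Cfsg.Agent.* helpers here

set_option autoImplicit false
open Cfsg

namespace Cfsg.Agent.S5459

open CF.Fisch
open scoped commutatorElement


/-- Let G be a finite group with a quasisimple normal subgroup L and an involution d such that G is generated by L and d, the centre of L has odd order, and d inverts every element of the centre of L. If the commuting graph on the conjugacy class of the image of d in G modulo the centre of L is connected, then the commuting graph on the conjugacy class of d is connected. -/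
theorem result {G : Type*} [Group G] [Finite G] (L : Subgroup G) [L.Normal] (hL : Cfsg.IsQuasisimple ↥L) (d : G) (hd : orderOf d = 2) (hgen : L ⊔ Subgroup.zpowers d = ⊤) (hodd : Odd (Nat.card ↥(Subgroup.center ↥L))) (hinv : ∀ c ∈ (Subgroup.center ↥L).map L.subtype, d * c * d⁻¹ = c⁻¹) [hn : ((Subgroup.center ↥L).map L.subtype).Normal] (hconn : (Cfsg.commutingGraph (conjugatesOf (QuotientGroup.mk d : G ⧸ (Subgroup.center ↥L).map L.subtype))).Connected) : (Cfsg.commutingGraph (conjugatesOf d)).Connected := by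
  set Z := (Subgroup.center ↥L).map L.subtype with hZ
  have hZodd : ∀ c ∈ Z, Odd (orderOf c) := by
    intro c hc
    refine hodd.of_dvd_nat ?_
    rw [← Subgroup.card_map_of_injective L.subtype_injective]
    exact Subgroup.orderOf_dvd_natCard Z hc
  have hd2 := CF.Invol.mul_self_of_orderOf hd
  have hdi := CF.Invol.inv_eq_of_orderOf hd
  have hinv' : ∀ a ∈ conjugatesOf d, ∀ c ∈ Z, a * c * a⁻¹ = c⁻¹ := by
    intro a ha c hc
    obtain ⟨g, rfl⟩ := isConj_iff.1 ha
    have := hinv _ (hn.conj_mem c hc g⁻¹)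
    calc _ = g * (d * (g⁻¹ * c * g⁻¹⁻¹) * d⁻¹) * g⁻¹ := by group
      _ = c⁻¹ := by rw [this]; group
  have hsq : ∀ a ∈ conjugatesOf d, a * a = 1 := by
    intro a ha
    obtain ⟨g, rfl⟩ := isConj_iff.1 ha
    calc _ = g * (d * d) * g⁻¹ := by group
      _ = 1 := by rw [hd2]; group
  have hcj : ∀ a ∈ conjugatesOf d, ∀ g, g * a * g⁻¹ ∈ conjugatesOf d := fun a ha g =>
    IsConj.trans ha (isConj_iff.2 ⟨g, rfl⟩)
  -- members with the same image
  have hsame : ∀ a ∈ conjugatesOf d, ∀ z ∈ Z, ∃ c ∈ Z, c * a * c⁻¹ = a * z := by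
    intro a ha z hz
    obtain ⟨m, hm⟩ := hZodd z hz
    refine ⟨z ^ m, Z.pow_mem hz m, ?_⟩
    have h1 := hinv' a ha _ (Z.pow_mem hz m)
    have h2 : z ^ m * a = a * (z ^ m)⁻¹ := by
      rw [← h1, ← mul_assoc, ← mul_assoc, hsq a ha, one_mul, (eq_inv_of_mul_eq_one_left (hsq a ha)).symm]
    have h3 : z * z ^ m * z ^ m = 1 := by rw [← pow_orderOf_eq_one z, hm]; group
    rw [h2, mul_assoc, ← mul_inv_rev, mul_right_inj, inv_eq_iff_mul_eq_one]
    calc _ = z * z ^ m * z ^ m := by group
      _ = 1 := h3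
  -- lifting commuting pairs
  have hlift : ∀ a ∈ conjugatesOf d, ∀ b ∈ conjugatesOf d,
      Commute (QuotientGroup.mk a : G ⧸ Z) (QuotientGroup.mk b) →
      ∃ b' ∈ conjugatesOf d, Commute a b' ∧ (QuotientGroup.mk b' : G ⧸ Z) = QuotientGroup.mk b := by
    intro a ha b hb h
    have h1 : (a * b) ^ 2 ∈ Z := by
      rw [← QuotientGroup.eq_one_iff]
      have e1 : (QuotientGroup.mk a : G ⧸ Z) * QuotientGroup.mk a = 1 := by
        rw [← QuotientGroup.mk_mul, hsq a ha]; rfl
      have e2 : (QuotientGroup.mk b : G ⧸ Z) * QuotientGroup.mk b = 1 := by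
        rw [← QuotientGroup.mk_mul, hsq b hb]; rfl
      simp only [QuotientGroup.mk_mul, QuotientGroup.mk_pow]
      exact sq_mul_of_commute e1 e2 h
    obtain ⟨m, hm⟩ := hZodd _ h1
    have h2 := Z.pow_mem h1 m
    obtain ⟨c, -, hc⟩ := hsame b hb _ h2
    refine ⟨_, hc ▸ hcj b hb c, ?_, ?_⟩
    · have h3 : a * (b * ((a * b) ^ 2) ^ m) * (a * (b * ((a * b) ^ 2) ^ m)) = 1 := by
        rw [← pow_orderOf_eq_one ((a * b) ^ 2), hm, ← mul_assoc a b]; group
      have h4 := hsq _ (hc ▸ hcj b hb c)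
      rw [commute_iff_conj (hsq a ha)]
      rw [← mul_assoc, mul_eq_one_iff_eq_inv, inv_eq_of_mul_eq_one_left h4] at h3
      exact h3
    · rw [QuotientGroup.mk_mul, (QuotientGroup.eq_one_iff _).2 h2, mul_one]
  let d0 : conjugatesOf d := ⟨d, IsConj.refl d⟩
  let φ : G → commutingGraph (conjugatesOf d) →g commutingGraph (conjugatesOf d) := fun g =>
    ⟨fun a => ⟨g * a * g⁻¹, hcj a a.2 g⟩, fun {a b} h => by
      rw [commutingGraph, SimpleGraph.fromRel_adj] at h ⊢
      exact ⟨fun e => h.1 (Subtype.ext (conj_inj.1 (congrArg Subtype.val e))),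
        h.2.imp (fun c => c.conj g) (fun c => c.conj g)⟩⟩
  let S : Subgroup G :=
    { carrier := {g | (commutingGraph (conjugatesOf d)).Reachable d0 (φ g d0)}
      one_mem' := by
        have : φ 1 d0 = d0 := Subtype.ext (by simp [φ])
        simp only [Set.mem_ofPred_eq, this]; rfl
      mul_mem' := fun {g h} hg hh => by
        have : φ (g * h) d0 = φ g (φ h d0) := Subtype.ext (by simp [φ, mul_assoc])
        simp only [Set.mem_ofPred_eq, this]
        exact SimpleGraph.Reachable.trans hg (SimpleGraph.Reachable.map (φ g) hh)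
      inv_mem' := fun {g} hg => by
        have h1 := SimpleGraph.Reachable.map (φ g⁻¹) hg
        have : φ g⁻¹ (φ g d0) = d0 := Subtype.ext (by simp [φ, mul_assoc])
        rw [this] at h1
        exact h1.symm }
  have key : ∀ g : G, ∃ c ∈ Z, c * g ∈ S := by
    intro g
    have hv : (QuotientGroup.mk (g * d * g⁻¹) : G ⧸ Z) ∈ conjugatesOf (QuotientGroup.mk d : G ⧸ Z) :=
      isConj_iff.2 ⟨QuotientGroup.mk g, rfl⟩
    have h1 := (SimpleGraph.reachable_iff_reflTransGen _ _).1
      (hconn.preconnected ⟨_, IsConj.refl _⟩ ⟨_, hv⟩)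
    have h2 : ∀ v, Relation.ReflTransGen (commutingGraph (conjugatesOf
        (QuotientGroup.mk d : G ⧸ Z))).Adj ⟨_, IsConj.refl _⟩ v → ∃ a : conjugatesOf d,
        (QuotientGroup.mk (a : G) : G ⧸ Z) = v ∧ (commutingGraph (conjugatesOf d)).Reachable d0 a := by
      intro v hv
      induction hv with
      | refl => exact ⟨d0, rfl, SimpleGraph.Reachable.refl _⟩
      | @tail u v _ huv ih =>
        obtain ⟨a, ha, hr⟩ := ih
        obtain ⟨k, hk⟩ := isConj_iff.1 v.2
        obtain ⟨k, rfl⟩ := QuotientGroup.mk_surjective k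
        rw [commutingGraph, SimpleGraph.fromRel_adj] at huv
        have hc : Commute (u : G ⧸ Z) v := huv.2.elim id Commute.symm
        obtain ⟨b, hb, hab, e⟩ := hlift a a.2 _ (hcj d (IsConj.refl d) k) (by
          rw [ha]; convert hc; exact hk)
        have e' : (QuotientGroup.mk b : G ⧸ Z) = v := e.trans hk
        refine ⟨⟨b, hb⟩, e', hr.trans (SimpleGraph.Adj.reachable ?_)⟩
        rw [commutingGraph, SimpleGraph.fromRel_adj]
        exact ⟨fun h => huv.1 (Subtype.ext (by rw [← ha, ← e', h])), Or.inl hab⟩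
    obtain ⟨a, ha, hr⟩ := h2 _ h1
    obtain ⟨c, hc, e⟩ := hsame _ (hcj d (IsConj.refl d) g) _ (QuotientGroup.eq.1 ha.symm)
    refine ⟨c, hc, ?_⟩
    have : φ (c * g) d0 = a := Subtype.ext (by
      rw [mul_inv_cancel_left] at e
      rw [← e]; simp [φ, d0, mul_assoc])
    show (commutingGraph (conjugatesOf d)).Reachable d0 (φ (c * g) d0)
    rwa [this]
  have hLS : L ≤ S := by
    have h1 : (⊤ : Subgroup L) ≤ S.subgroupOf L := by
      rw [← hL.1.commutator_eq_top, commutator_def, Subgroup.commutator_le]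
      intro x _ y _
      obtain ⟨_, ⟨c, hc, rfl⟩, h1⟩ := key x
      obtain ⟨_, ⟨c', hc', rfl⟩, h2⟩ := key y
      have e : ⁅x, y⁆ = ⁅c * x, c' * y⁆ := by
        have a1 := Subgroup.mem_center_iff.1 hc
        have a2 := Subgroup.mem_center_iff.1 hc'
        simp only [commutatorElement_def, mul_inv_rev]
        calc _ = c * (x * y * x⁻¹) * c⁻¹ * y⁻¹ := by rw [← a1]; group
          _ = c' * (c * (x * y * x⁻¹) * c⁻¹ * y⁻¹) * c'⁻¹ := by rw [← a2]; group
          _ = c * x * (c' * y) * (x⁻¹ * c⁻¹) * (y⁻¹ * c'⁻¹) := by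
            rw [mul_assoc c x, ← mul_assoc x c', a2 x, mul_assoc c' x, ← mul_assoc c c', a2 c]; group
      rw [e, Subgroup.mem_subgroupOf]
      exact S.mul_mem (S.mul_mem (S.mul_mem h1 h2) (S.inv_mem h1)) (S.inv_mem h2)
    intro x hx
    exact h1 (Subgroup.mem_top (⟨x, hx⟩ : L))
  have hS : S = ⊤ := by
    rw [eq_top_iff, ← hgen, sup_le_iff, Subgroup.zpowers_le]
    refine ⟨hLS, ?_⟩
    have : φ d d0 = d0 := Subtype.ext (by simp [φ, d0])
    show (commutingGraph (conjugatesOf d)).Reachable d0 (φ d d0)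
    rw [this]
  have : Nonempty (conjugatesOf d) := ⟨d0⟩
  refine ⟨fun a b => ?_⟩
  have h : ∀ a : conjugatesOf d, (commutingGraph (conjugatesOf d)).Reachable d0 a := by
    intro a
    obtain ⟨g, hg⟩ := isConj_iff.1 a.2
    have h1 : g ∈ S := hS ▸ Subgroup.mem_top g
    have : φ g d0 = a := Subtype.ext hg
    rw [← this]; exact h1
  exact (h a).symm.trans (h b)

end Cfsg.Agent.S5459
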