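import Cfsg.Statements.S5466
import Cfsg.Agent.Fisch.F24.K2
import Cfsg.Agent.S0815
-- import your own Cfsg.Agent.* helpers here

set_option autoImplicit false
open Cfsg

namespace Cfsg.Agent.S5466

open CF.Fisch
open scoped commutatorElement

open CF.Fisch F24 CF.Comp Subgroup

/-- Let G be a finite group with trivial centre generated by a conjugation-invariant set D of 3-transpositions on which it acts primitively, such that for some d in D the subgroup generated by the members of D other than d commuting with d has central largest normal 2- and 3-subgroups, and suppose G with D is of type M(24), and let L be the commutator subgroup of G. Let d₁, d₂, d₃ be distinct pairwise commuting members of D, j their product, E the subgroup generated by d₁ d₂ and d₁ d₃ (a four-group lying in L), CL the centralizer of j in L and K its generalized Fitting subgroup. Then K is quasisimple with centre E, K is the centralizer of E in L, K modulo E is isomorphic to the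 projective special unitary group of dimension 6 over the field with four elements, CL/K is isomorphic to the symmetric group of degree 3, and CL modulo E is isomorphic to the full automorphism group of that unitary group. -/
theorem result {G : Type*} [Group G] [Finite G] {D : Set G} (hD : Cfsg.IsThreeTranspositionGroup D) (hprim : Cfsg.IsPrimitiveUnderConj D) (d₀ : G) (hd₀ : d₀ ∈ D) (h3 : Cfsg.pCore 3 ↥(Subgroup.closure {y : G | y ∈ D ∧ y ≠ d₀ ∧ Commute d₀ y}) ≤ Subgroup.center ↥(Subgroup.closure {y : G | y ∈ D ∧ y ≠ d₀ ∧ Commute d₀ y})) (h2 : Cfsg.pCore 2 ↥(Subgroup.closure {y : G | y ∈ D ∧ y ≠ d₀ ∧ Commute d₀ y}) ≤ Subgroup.center ↥(Subgroup.closure {y : G | y ∈ D ∧ y ≠ d₀ ∧ Commute d₀ y})) (h24 : Cfsg.IsOfTypeM24 G D) (L : Subgroup G) (hL : L = commutator G) (d₁ d₂ d₃ : G) (h₁ : d₁ ∈ D) (h₂ : d₂ ∈ D) (h₃ : d₃ ∈ D) (h12 : d₁ ≠ d₂) (h13 : d₁ ≠ d₃) (h23 : d₂ ≠ d₃) (c12 : Commute d₁ d₂) (c13 : Commute d₁ d₃) (c23 : Commute d₂ d₃) (E CL K : Subgroup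 G) (hE : E = Subgroup.closure ({d₁ * d₂, d₁ * d₃} : Set G)) (hCL : CL = L ⊓ Subgroup.centralizer ({d₁ * d₂ * d₃} : Set G)) (hK : K = (Cfsg.generalizedFittingSubgroup ↥CL).map CL.subtype) : Cfsg.IsQuasisimple ↥K ∧ (Subgroup.center ↥K).map K.subtype = E ∧ K = L ⊓ Subgroup.centralizer (E : Set G) ∧ (∃ (_ : (E.subgroupOf K).Normal) (F : Type) (_ : Field F) (_ : Fintype F), Fintype.card F = 4 ∧ Nonempty (↥K ⧸ E.subgroupOf K ≃* Cfsg.PSU 6 F 2)) ∧ ∃ _ : (K.subgroupOf CL).Normal, Nonempty (↥CL ⧸ K.subgroupOf CL ≃* Equiv.Perm (Fin 3)) ∧ E ≤ CL ∧ ∃ (_ : (E.subgroupOf CL).Normal) (F : Type) (_ : Field F) (_ : Fintype F), Fintype.card F = 4 ∧ Nonempty (↥CL ⧸ E.subgroupOf CL ≃* MulAut (Cfsg.PSU 6 F 2)) := by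
  obtain ⟨E, f, M⟩ := std24 hD hprim h24
  subst hK hCL hL hE
  have h := Cq.three h₁ h₂ h₃ h12 h13 h23 c12 c13 c23
  obtain ⟨F, _, _, hF⟩ := exF 2 2 (by decide)
  have q := M.qs3 h F hF
  have h0 := inf_le_inf_left (_root_.commutator G) (cent_three_le d₁ d₂ d₃)
  obtain ⟨s, hs, s1⟩ := M.swap3 h (List.Perm.swap _ _ _)
  obtain ⟨t, ht, t1⟩ := M.swap3 h ((List.Perm.swap _ _ _).cons _)
  simp only [List.cons.injEq] at s1 t1
  have hq := quot_perm_three h.1 (fun g hg => M.u3.conj_mem M.cjD h (mem_inf.1 hg).2) hs ht s1.1.symm s1.2.1.symm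
    t1.2.1.symm t1.2.2.1.symm
  rw [← inf_subgroupOf_left, inf_assoc, inf_eq_right.2 (cent_three_le d₁ d₂ d₃)] at hq
  obtain ⟨hn, ⟨e⟩⟩ := hq
  have h1 := (normal_subgroupOf_iff_le_normalizer h0).1 hn
  have h4 := M.cc h (by simp) (T := {d₁, d₂, d₃}) (by simp) fun g hg => M.u3.conj_mem M.cjD h hg
  have x := q.aut h0 h1 h4 (by
    rw [S0815.result 2 1 le_rfl (q := 2) rfl hF 6 (by decide) (by decide), index_eq_card, Nat.card_congr e.toEquiv]
    simp [Nat.card_perm]; rfl)
  rw [fstar_comp h0 h1 q.qs h4]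
  have := q.ext.normal
  have := x.normal
  refine ⟨q.qs, q.center_map, le_antisymm (le_inf inf_le_left (le_centralizer_iff.1 (q.cen.le.trans inf_le_right)))
    fun g hg => ⟨hg.1, ?_⟩, ⟨‹_›, F, _, _, hF, q.ext.equiv rfl⟩, hn, ⟨e⟩, x.1, ‹_›, F, _, _, hF, x.equiv rfl⟩
  have a2 : Commute (d₁ * d₂) g := hg.2 _ (subset_closure (by simp))
  have a3 : Commute (d₁ * d₃) g := hg.2 _ (subset_closure (by simp))
  have a1 := M.u2.fix M.cjD (h.perm (l' := [d₂, d₁, d₃]) (List.Perm.swap _ _ _)).1 (by simp) (c12.eq ▸ a2)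
    (M.u2.conj_mem M.cjD (Cq.two h₁ h₃ h13 c13) (mem_centralizer_singleton_iff.2 a3.symm) _ (by simp))
  rintro _ (rfl | rfl | rfl)
  exacts [a1, by simpa using (a1.inv_left.mul_left a2).eq, by simpa using (a1.inv_left.mul_left a3).eq]

end Cfsg.Agent.S5466
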