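import Cfsg.Statements.S5467
import Cfsg.Agent.Fisch.F24.Z4
-- import your own Cfsg.Agent.* helpers here

set_option autoImplicit false
open Cfsg

namespace Cfsg.Agent.S5467

open CF.Fisch
open scoped commutatorElement

open CF.Fisch F24 CF.Comp Subgroup

/-- Let G be a finite group with trivial centre generated by a conjugation-invariant set D of 3-transpositions on which it acts primitively, such that for some d in D the subgroup generated by the members of D other than d commuting with d has central largest normal 2- and 3-subgroups, and suppose G with D is of type M(24), and let L be the commutator subgroup of G. Let z be the product of four distinct pairwise commuting members of D (an involution of L) and C its centralizer in L. Then the generalized Fitting subgroup Q of C is extraspecial of order 2^13, and C has normal subgroups Q ≤ N ≤ M with N/Q of order 3, M/N isomorphic to the projective special unitary group of dimension 4 over the field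 with nine elements, and M of index 2 in C. -/
theorem result {G : Type*} [Group G] [Finite G] {D : Set G} (hD : Cfsg.IsThreeTranspositionGroup D) (hprim : Cfsg.IsPrimitiveUnderConj D) (d₀ : G) (hd₀ : d₀ ∈ D) (h3 : Cfsg.pCore 3 ↥(Subgroup.closure {y : G | y ∈ D ∧ y ≠ d₀ ∧ Commute d₀ y}) ≤ Subgroup.center ↥(Subgroup.closure {y : G | y ∈ D ∧ y ≠ d₀ ∧ Commute d₀ y})) (h2 : Cfsg.pCore 2 ↥(Subgroup.closure {y : G | y ∈ D ∧ y ≠ d₀ ∧ Commute d₀ y}) ≤ Subgroup.center ↥(Subgroup.closure {y : G | y ∈ D ∧ y ≠ d₀ ∧ Commute d₀ y})) (h24 : Cfsg.IsOfTypeM24 G D) (L : Subgroup G) (hL : L = commutator G) (z : G) (l : List G) (hl : (l.Nodup ∧ l.length = 4 ∧ (∀ a ∈ l, a ∈ D) ∧ (∀ a ∈ l, ∀ b ∈ l, Commute a b) ∧ l.prod = z)) (C : Subgroup G) (hC : C = L ⊓ Subgroup.centralizer ({z} : Set G)) : ∃ (Q : Subgroup ↥C) (_ : Q.Normal), Cfsg.generalizedFittingSubgroup ↥C = Q ∧ Cfsg.IsExtraspecial 2 ↥Q ∧ Nat.card Q = 2 ^ 13 ∧ ∃ (N M : Subgroup ↥C) (_ : N.Normal) (_ : M.Normal),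 Q ≤ N ∧ N ≤ M ∧ Nat.card N = 3 * Nat.card Q ∧ (∃ (K : Type) (_ : Field K) (_ : Fintype K), Fintype.card K = 9 ∧ Nonempty (↥M ⧸ N.subgroupOf M ≃* Cfsg.PSU 4 K 3)) ∧ M.index = 2 := by
  obtain ⟨E, f, M⟩ := std24 hD hprim h24
  obtain ⟨h1, h4, h5, h6, rfl⟩ := hl
  obtain ⟨a, b, c, d, rfl⟩ := List.length_eq_four.1 h4
  obtain ⟨E, f, M, rfl, rfl, rfl, rfl⟩ := M.tup4 ⟨h1, h5, h6⟩
  obtain ⟨K, _, _, hK⟩ := exF 3 2 (by decide)
  rw [hL, M.el_eq p1_is, M.el_eq p2_is, M.el_eq p3_is, M.el_eq p4_is] at hC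
  obtain ⟨Q, n1, a1, a2, a3, N, M, n2, n3, a4, a5, a6, a7, a8⟩ :=
    Z4.spec M (hC.trans (congrArg (fun x => _ ⊓ centralizer {x}) (Z4.zz M))) K hK
  exact ⟨Q, n1, a1, a2, a3, N, M, n2, n3, a4, a5, a6, ⟨K, _, _, hK, a7⟩, a8⟩

end Cfsg.Agent.S5467
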