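import Cfsg.Statements.S5517
import Cfsg.Agent.Fisch.F22.Tu
import Cfsg.Agent.Fisch.F22.Tb
import Cfsg.Agent.Fisch.St.Pair
-- import your own Cfsg.Agent.* helpers here

set_option autoImplicit false
open Cfsg

namespace Cfsg.Agent.S5517

open CF.Fisch
open scoped commutatorElement

open CF.Fisch F22 CF.Comp

noncomputable def ps : List (List Nat) := [[1, 3], [3, 5, 1, 3], [5, 3, 41, 1, 3], [44, 3, 5, 1, 3], [29, 39, 3, 47, 3],
  [51, 19, 3, 52, 3], [32, 43, 3, 47, 3], [39, 3, 41, 1, 3]]

theorem hq : lall2 eq0 Fi22.H1 (rws w0 ps) = true := by decide +kernel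

/-- Let G be a finite group with trivial centre generated by a conjugation-invariant set D of 3-transpositions on which it acts primitively, such that for some d in D the subgroup generated by the members of D other than d commuting with d has central largest normal 2- and 3-subgroups, and suppose G with D is of type M(22). Then G has a subgroup L generated by the members of D it contains and isomorphic to Ω(7, 3) (the commutator subgroup of the isometry group of a non-degenerate 7-dimensional quadratic form over the field with three elements, modulo its centre), and every Sylow 3-subgroup of L is a Sylow 3-subgroup of G. -/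
theorem result {G : Type*} [Group G] [Finite G] {D : Set G} (hD : Cfsg.IsThreeTranspositionGroup D) (hprim : Cfsg.IsPrimitiveUnderConj D) (d₀ : G) (hd₀ : d₀ ∈ D) (h3 : Cfsg.pCore 3 ↥(Subgroup.closure {y : G | y ∈ D ∧ y ≠ d₀ ∧ Commute d₀ y}) ≤ Subgroup.center ↥(Subgroup.closure {y : G | y ∈ D ∧ y ≠ d₀ ∧ Commute d₀ y})) (h2 : Cfsg.pCore 2 ↥(Subgroup.closure {y : G | y ∈ D ∧ y ≠ d₀ ∧ Commute d₀ y}) ≤ Subgroup.center ↥(Subgroup.closure {y : G | y ∈ D ∧ y ≠ d₀ ∧ Commute d₀ y})) (h22 : Cfsg.IsOfTypeM22 G D) : ∃ L : Subgroup G, Cfsg.IsDSubgroup D L ∧ Nonempty (↥L ≃* Cfsg.POmega (ZMod 3) (Cfsg.quadFormOdd 3 (ZMod 3))) ∧ ∀ P : Sylow 3 ↥L, ∃ P' : Sylow 3 G, (P : Subgroup ↥L).map L.subtype = (P' : Subgroup G) := by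
  obtain ⟨E, f, M⟩ := std22 hD hprim h22
  have := M.finite
  obtain ⟨e, -, he⟩ := M.equivFi
  have h1 : (clo f Fi22.H1).map e.toMonoidHom = clo Fi22.f Fi22.H1 := by
    refine ((map_clo _ _ _).trans (congrArg (clo · _) (funext fun i => ?_))).trans
      (clo_slp (m := 29) (by decide +kernel) W2)
    exact (congrArg e (ev_single f i).symm).trans ((he _).trans (ev_single _ i))
  have h4 := (e.subgroupMap _).trans (MulEquiv.subgroupCongr h1)
  exact ⟨clo f Fi22.H1, M.sm0.clo_eq hq ▸ M.isD, ⟨h4.trans Fi22.equivO7.some⟩, sylow_map (s := 14080)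
    (by rw [M.x.card, Nat.card_congr h4.toEquiv, Fi22.card1]) (by decide)⟩

end Cfsg.Agent.S5517
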