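import Cfsg.Statements.S5518
import Cfsg.Agent.Fisch.F24.G2
-- import your own Cfsg.Agent.* helpers here

set_option autoImplicit false
open Cfsg

namespace Cfsg.Agent.S5518

open CF.Fisch
open scoped commutatorElement

open CF.Fisch F24 CF.Comp Subgroup

/-- Let G be a finite group with trivial centre generated by a conjugation-invariant set D of 3-transpositions on which it acts primitively, such that for some d in D the subgroup generated by the members of D other than d commuting with d has central largest normal 2- and 3-subgroups, and suppose G with D is of type M(24). Then any two subgroups of order 13 are conjugate; and there are members a, b, c, d of D generating the direct product T of two symmetric groups of degree 3 (a, d non-commuting; b, c non-commuting; b and c commuting with a and d) whose centralizer K is isomorphic to the Chevalley group G₂(3), such that for every subgroup B of K of order 13: the normalizer of B lies in the normalizer of K, the normalizer F of B in K is a Frobenius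 group of order 78 with kernel B (order 78, centralizer of B in it equal to B), and the subgroup generated by F and T has index 2 in the normalizer of B. -/
theorem result {G : Type*} [Group G] [Finite G] {D : Set G} (hD : Cfsg.IsThreeTranspositionGroup D) (hprim : Cfsg.IsPrimitiveUnderConj D) (d₀ : G) (hd₀ : d₀ ∈ D) (h3 : Cfsg.pCore 3 ↥(Subgroup.closure {y : G | y ∈ D ∧ y ≠ d₀ ∧ Commute d₀ y}) ≤ Subgroup.center ↥(Subgroup.closure {y : G | y ∈ D ∧ y ≠ d₀ ∧ Commute d₀ y})) (h2 : Cfsg.pCore 2 ↥(Subgroup.closure {y : G | y ∈ D ∧ y ≠ d₀ ∧ Commute d₀ y}) ≤ Subgroup.center ↥(Subgroup.closure {y : G | y ∈ D ∧ y ≠ d₀ ∧ Commute d₀ y})) (h24 : Cfsg.IsOfTypeM24 G D) : (∀ X Y : Subgroup G, Nat.card X = 13 → Nat.card Y = 13 → ∃ g : G, X.map (MulAut.conj g).toMonoidHom = Y) ∧ ∃ (a b c d : G) (T K : Subgroup G), (∀ x ∈ [a, b, c, d], x ∈ D) ∧ ¬ Commute a d ∧ ¬ Commute b c ∧ Commute a b ∧ Commute a c ∧ Commute d b ∧ Commute d c ∧ T = Subgroup.closure ({a, b, c, d} : Set G) ∧ K = Subgroup.centralizer (T : Set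 G) ∧ Nonempty (↥K ≃* ↥(Cfsg.Lie.chevG2.group (ZMod 3))) ∧ ∀ B : Subgroup G, B ≤ K → Nat.card B = 13 → Subgroup.normalizer ((B : Subgroup G) : Set G) ≤ Subgroup.normalizer ((K : Subgroup G) : Set G) ∧ Nat.card ↥(K ⊓ Subgroup.normalizer ((B : Subgroup G) : Set G)) = 78 ∧ K ⊓ Subgroup.centralizer ((B : Subgroup G) : Set G) = B ∧ (((K ⊓ Subgroup.normalizer ((B : Subgroup G) : Set G)) ⊔ T).subgroupOf (Subgroup.normalizer ((B : Subgroup G) : Set G))).index = 2 := by
  obtain ⟨E, f, M⟩ := std24 hD hprim h24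
  have := M.finite
  have k := G2.mem M
  simp only [List.forall_mem_cons] at k
  obtain ⟨e⟩ := G2.equiv M
  rw [← G2.cK] at e
  refine ⟨(G2.cls M).pairs (by norm_num) (G2.ord M), _, _, _, _, _, _, by simp [M.cw0_mem], P0.nc M, G2.nc2 M,
    k.1.2.1, k.2.2.2.1.2.1, k.1.2.2, k.2.2.2.1.2.2, rfl, rfl, ⟨e⟩, fun B hB h => ?_⟩
  obtain ⟨c, hc, x, hx, h1⟩ := (cls_sylow (m := 326592) (by norm_num) ((G2.cK.ge.trans' (M.le_cent4 G2.fix1))
    (ev_mem_clo f (w := G2.x) (by simp))) (G2.ord M) ((Nat.card_congr e.toEquiv).trans G2.cardG) (by decide)).sub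
    (by norm_num) (by simpa using G2.ord M) hB h
  obtain ⟨c1, c2, c3, c4⟩ := mem_cent4.1 (G2.cK.le (inv_mem hc))
  have cj : ∀ {p : List ℕ}, Commute (cw0 f w0 p) c⁻¹ → cw0 f w0 p = cw0 (fun i => MulAut.conj c⁻¹ (f i)) w0 p :=
    fun h => by rw [← cw0_cj, ← h.eq, mul_inv_cancel_right]
  exact G2.st (M.conj c⁻¹) (cj c1) (cj c3) (cj c4) (cj c2) rfl rfl
    (by rw [← ev_cj, ← map_conj_zpowers, ← List.mem_singleton.1 hx, map_conj_symm h1])

end Cfsg.Agent.S5518
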