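import Cfsg.Statements.S5519
import Cfsg.Agent.Fisch.F22.Z2
-- import your own Cfsg.Agent.* helpers here

set_option autoImplicit false
open Cfsg

namespace Cfsg.Agent.S5519

open CF.Fisch
open scoped commutatorElement

open CF.Fisch F22 CF.Comp Subgroup

/-- Let G be a finite group with trivial centre generated by a conjugation-invariant set D of 3-transpositions on which it acts primitively, such that for some d in D the subgroup generated by the members of D other than d commuting with d has central largest normal 2- and 3-subgroups, and suppose G with D is of type M(22). Let d₁, d₂ be distinct commuting members of D and C the centralizer of their product. Then the generalized Fitting subgroup of C is the direct product of a group of order 2 and an extraspecial 2-group of order 2^9, and C modulo it is isomorphic to the full isometry group of the elliptic quadratic form in dimension 6 over the field with two elements. -/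
theorem result {G : Type*} [Group G] [Finite G] {D : Set G} (hD : Cfsg.IsThreeTranspositionGroup D) (hprim : Cfsg.IsPrimitiveUnderConj D) (d₀ : G) (hd₀ : d₀ ∈ D) (h3 : Cfsg.pCore 3 ↥(Subgroup.closure {y : G | y ∈ D ∧ y ≠ d₀ ∧ Commute d₀ y}) ≤ Subgroup.center ↥(Subgroup.closure {y : G | y ∈ D ∧ y ≠ d₀ ∧ Commute d₀ y})) (h2 : Cfsg.pCore 2 ↥(Subgroup.closure {y : G | y ∈ D ∧ y ≠ d₀ ∧ Commute d₀ y}) ≤ Subgroup.center ↥(Subgroup.closure {y : G | y ∈ D ∧ y ≠ d₀ ∧ Commute d₀ y})) (h22 : Cfsg.IsOfTypeM22 G D) (d₁ d₂ : G) (h₁ : d₁ ∈ D) (h₂ : d₂ ∈ D) (hne : d₁ ≠ d₂) (hc : Commute d₁ d₂) (C : Subgroup G) (hC : C = Subgroup.centralizer ({d₁ * d₂} : Set G)) [hn : (Cfsg.generalizedFittingSubgroup ↥C).Normal] : (∃ (E : Type) (_ : Group E) (_ : Finite E), Cfsg.IsExtraspecial 2 E ∧ Nat.card E = 2 ^ 9 ∧ Nonempty (↥(Cfsg.generalizedFittingSubgroup ↥C) ≃* Multiplicative (ZMod 2) × E)) ∧ Nonempty (↥C ⧸ Cfsg.generalizedFittingSubgroup ↥C ≃* Cfsg.isometryGroup (ZMod 2) (Cfsg.quadFormMinus 2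 (ZMod 2) 1 1)) := by
  obtain ⟨E, f, M⟩ := std22 hD hprim h22
  subst hC
  obtain ⟨R, h1, h2, h3, h4, -, -, A, h5, h6, h7, h8, -⟩ := Z2.spec M (Cq.two h₁ h₂ hne hc)
  have h9 := h1.fstar (p := 2) (IsPGroup.of_card h3) Z2.core h2
  obtain ⟨e⟩ := two_times (M.grp.1.1 _ h₁) h6 fun y hy => (mem_cent2.1 (h4 (h5.ge (mem_sup_right hy)))).1
  obtain ⟨B, _, _, ⟨e'⟩⟩ := Finite.exists_type_univ_nonempty_mulEquiv.{_, 0} A
  exact ⟨⟨B, _, inferInstance, CF.Even.isExtraspecial_of_equiv h7 e', (Nat.card_congr e'.toEquiv).symm.trans h8,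
    ⟨(MulEquiv.subgroupCongr h9).trans ((subgroupOfEquivOfLe h1.1).trans ((MulEquiv.subgroupCongr h5).trans
      (e.trans (MulEquiv.prodCongr (MulEquiv.refl _) e'))))⟩⟩, h1.equiv h9⟩

end Cfsg.Agent.S5519
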