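import Cfsg.Statements.S5520
import Cfsg.Agent.F24.G

set_option autoImplicit false
open Cfsg

namespace Cfsg.Agent.S5520

/-- In the special unitary group of dimension 6 over the field with four elements (determinant-one matrices preserving the standard Hermitian form), the subgroups K whose centre has order 3 with K modulo its centre isomorphic to the projective special unitary group of dimension 4 over the field with nine elements fall into exactly three conjugacy classes. -/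
theorem result (F : Type) [Field F] [Fintype F] (hF : Fintype.card F = 4) (F9 : Type) [Field F9] [Fintype F9] (hF9 : Fintype.card F9 = 9) : ∃ K₁ K₂ K₃ : Subgroup ↥(Cfsg.SU 6 F 2), (∀ K ∈ [K₁, K₂, K₃], Nat.card ↥(Subgroup.center ↥K) = 3 ∧ Nonempty (↥K ⧸ Subgroup.center ↥K ≃* Cfsg.PSU 4 F9 3)) ∧ (¬ ∃ g : ↥(Cfsg.SU 6 F 2), K₁.map (MulAut.conj g).toMonoidHom = K₂) ∧ (¬ ∃ g : ↥(Cfsg.SU 6 F 2), K₁.map (MulAut.conj g).toMonoidHom = K₃) ∧ (¬ ∃ g : ↥(Cfsg.SU 6 F 2), K₂.map (MulAut.conj g).toMonoidHom = K₃) ∧ ∀ K : Subgroup ↥(Cfsg.SU 6 F 2), Nat.card ↥(Subgroup.center ↥K) = 3 → Nonempty (↥K ⧸ Subgroup.center ↥K ≃* Cfsg.PSU 4 F9 3) → ∃ g : ↥(Cfsg.SU 6 F 2), K.map (MulAut.conj g).toMonoidHom = K₁ ∨ K.map (MulAut.conj g).toMonoidHom = K₂ ∨ K.map (MulAut.conj g).toMonoidHom = K₃ := by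
  obtain ⟨K, a, b, c⟩ := CF.F24.classes hF hF9
  refine ⟨K 0, K 1, K 2, by simp only [List.forall_mem_cons]; exact ⟨a 0, a 1, a 2, by simp⟩,
    fun ⟨g, e⟩ => absurd (b _ _ g e) (by norm_num), fun ⟨g, e⟩ => absurd (b _ _ g e) (by norm_num),
    fun ⟨g, e⟩ => absurd (b _ _ g e) (by norm_num), fun L h1 h2 => ?_⟩
  obtain ⟨g, i, hi, e⟩ := c L h1 h2
  interval_cases i
  exacts [⟨g, .inl e⟩, ⟨g, .inr (.inl e)⟩, ⟨g, .inr (.inr e)⟩]

end Cfsg.Agent.S5520
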