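import Cfsg.Statements.S5531
import Cfsg.Agent.Mon.Cert
import Cfsg.Agent.Mon.Loc3

set_option autoImplicit false
open Cfsg

namespace Cfsg.Agent.S5531

/-- The Monster (realised inside the presented Bimonster) has an elementary abelian subgroup E of order 2^5 whose normalizer N satisfies: the largest normal 2-subgroup O of N has order 2^35, the centre of O is exactly E, and N/O is isomorphic to the direct product of the symmetric group of degree 3 with the special linear group of degree 5 over the field with two elements. -/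
theorem result : ∃ (E N : Subgroup Cfsg.Spor.Monster) (O : Subgroup ↥N), Cfsg.IsElementaryAbelian 2 E ∧ Nat.card ↥E = 2 ^ 5 ∧ N = Subgroup.normalizer (E : Set Cfsg.Spor.Monster) ∧ O = Cfsg.pCore 2 ↥N ∧ Nat.card ↥O = 2 ^ 35 ∧ (Subgroup.center ↥O).map O.subtype = E.subgroupOf N ∧ ∃ _ : O.Normal, Nonempty (↥N ⧸ O ≃* Equiv.Perm (Fin 3) × Matrix.SpecialLinearGroup (Fin 5) (ZMod 2)) := by
  exact let ⟨_, _, h⟩ := CF.Mon.certs.outM; CF.Mon.L.Out.loc5 h

end Cfsg.Agent.S5531
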