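import Cfsg.Statements.S5532
import Cfsg.Agent.Mon.Cert
import Cfsg.Agent.Mon.Loc5

set_option autoImplicit false
open Cfsg

namespace Cfsg.Agent.S5532

/-- The Monster (realised inside the presented Bimonster) has an elementary abelian subgroup E of order 2^10 whose normalizer N satisfies: the largest normal 2-subgroup O of N is a special 2-group of order 2^26 whose centre is exactly E, O is the centralizer of E in N, and N/O is isomorphic to the commutator subgroup of the isometry group of the hyperbolic quadratic form Σ xᵢyᵢ in ten variables over the field with two elements (the simple orthogonal group of plus type in dimension 10 over that field). -/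
theorem result : ∃ (E N : Subgroup Cfsg.Spor.Monster) (O : Subgroup ↥N), Cfsg.IsElementaryAbelian 2 E ∧ Nat.card ↥E = 2 ^ 10 ∧ N = Subgroup.normalizer (E : Set Cfsg.Spor.Monster) ∧ O = Cfsg.pCore 2 ↥N ∧ Cfsg.IsSpecial 2 ↥O ∧ Nat.card ↥O = 2 ^ 26 ∧ (Subgroup.center ↥O).map O.subtype = E.subgroupOf N ∧ O = Subgroup.centralizer (E.subgroupOf N : Set ↥N) ∧ ∃ _ : O.Normal, Nonempty (↥N ⧸ O ≃* ↥(Cfsg.Omega (ZMod 2) (Cfsg.quadFormPlus 5 (ZMod 2)))) := by
  exact let ⟨_, _, h⟩ := CF.Mon.certs.outM; CF.Mon.L.Out.loc10 h

end Cfsg.Agent.S5532
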