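import Cfsg.Statements.S5533
import Cfsg.Agent.Mon.Crt

set_option autoImplicit false
open Cfsg

namespace Cfsg.Agent.S5533

/-- The Monster (realised inside the presented Bimonster) has a Klein four-subgroup E whose normalizer N has a normal subgroup K containing E such that K/E is isomorphic to the twisted group ²E₆(2) (realised over the field with four elements, as in the definitions), N/K is isomorphic to the symmetric group of degree 3, and E has no complement in K. -/
theorem result : ∃ (E N : Subgroup Cfsg.Spor.Monster) (K : Subgroup ↥N), IsKleinFour ↥E ∧ N = Subgroup.normalizer (E : Set Cfsg.Spor.Monster) ∧ E.subgroupOf N ≤ K ∧ (∃ (F : Type) (_ : Field F) (_ : Fintype F), Fintype.card F = 4 ∧ ∃ _ : ((E.subgroupOf N).subgroupOf K).Normal, Nonempty (↥K ⧸ (E.subgroupOf N).subgroupOf K ≃* ↥(Cfsg.Lie.twistedE6 F 2))) ∧ (∃ _ : K.Normal, Nonempty (↥N ⧸ K ≃* Equiv.Perm (Fin 3))) ∧ ∀ L : Subgroup ↥K, ¬ ((E.subgroupOf N).subgroupOf K).IsComplement' L := by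
  obtain ⟨ρ, τ, h⟩ := CF.Mon.C3.crt.outM
  open CF.Mon in exact C3.locE h G.covers C3.covers2 (Tr.ymod h Tr.genPB)

end Cfsg.Agent.S5533
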