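import Cfsg.Statements.S5534
import Cfsg.Agent.Mon.Crt

set_option autoImplicit false
open Cfsg

namespace Cfsg.Agent.S5534

/-- The Monster (realised inside the presented Bimonster) has an involution whose centralizer is a non-split double cover of the Baby Monster (the finitely presented group of the definitions): the centralizer has centre of order 2, its central quotient is isomorphic to the Baby Monster, and the centre has no complement. -/
theorem result : ∃ y : Cfsg.Spor.Monster, orderOf y = 2 ∧ Cfsg.IsNonsplitDoubleCover ↥(Subgroup.centralizer ({y} : Set Cfsg.Spor.Monster)) Cfsg.Spor.BabyMonster := by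
  obtain ⟨ρ, τ, h⟩ := CF.Mon.C3.crt.outM
  open CF.Mon in exact C3.locB h G.covers C3.covers2 (Tr.ymod h Tr.genPB)

end Cfsg.Agent.S5534
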