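import Cfsg.Statements.S5536
import Cfsg.Agent.Mon.Crt
import Cfsg.Agent.Mon.Loc1

set_option autoImplicit false
open Cfsg

namespace Cfsg.Agent.S5536

/-- The Monster (realised inside the presented Bimonster) has a cyclic subgroup C of order 4 whose normalizer N has a normal subgroup R that is an extraspecial 2-group of order 2^25, with N/R isomorphic to the third Conway group (the automorphisms of the Leech lattice of the definitions fixing the one type-3 vector singled out there). -/
theorem result : ∃ (C N : Subgroup Cfsg.Spor.Monster) (R : Subgroup ↥N), IsCyclic ↥C ∧ Nat.card ↥C = 4 ∧ N = Subgroup.normalizer (C : Set Cfsg.Spor.Monster) ∧ Cfsg.IsExtraspecial 2 ↥R ∧ Nat.card ↥R = 2 ^ 25 ∧ ∃ _ : R.Normal, Nonempty (↥N ⧸ R ≃* ↥Cfsg.Spor.Co3) := by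
  obtain ⟨ρ, τ, h⟩ := CF.Mon.C3.crt.outM
  exact CF.Mon.L.Out.loc4 h

end Cfsg.Agent.S5536
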