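import Cfsg.Statements.S5538
import Cfsg.Agent.Mon.Emb

set_option autoImplicit false
open Cfsg

namespace Cfsg.Agent.S5538

/-- The Monster (realised inside the presented Bimonster) has a subgroup isomorphic to the Harada–Norton sporadic group (the finitely presented group of the definitions). -/
theorem result : ∃ H : Subgroup Cfsg.Spor.Monster, Cfsg.Spor.IsoHN ↥H := by
  obtain ⟨_, _, h⟩ := CF.Mon.certs.outM
  obtain ⟨φ, a, -⟩ := CF.Mon.Tr.hn_emb h
  exact ⟨φ.range, ⟨(MonoidHom.ofInjective a).symm⟩⟩

end Cfsg.Agent.S5538
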