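import Cfsg.Statements.S5539
import Cfsg.Agent.Mon.Cert
import Cfsg.Agent.Mx.G
import Cfsg.Agent.Mx.M1
import Cfsg.Agent.Mx.M1t
import Cfsg.Agent.Mx.M3
import Cfsg.Agent.Mx.N1

set_option autoImplicit false
open Cfsg

namespace Cfsg.Agent.S5539

/-- In the Monster (realised inside the presented Bimonster) there are seven 2-local subgroups (normalizers of non-trivial 2-subgroups) such that every maximal 2-local subgroup is conjugate to one of them. -/
theorem result : ∃ S : Finset (Subgroup Cfsg.Spor.Monster), S.card = 7 ∧ (∀ H ∈ S, Cfsg.IsTwoLocal H) ∧ ∀ H : Subgroup Cfsg.Spor.Monster, Cfsg.IsMaximalTwoLocal H → ∃ H₀ ∈ S, ∃ g : Cfsg.Spor.Monster, H = H₀.map (MulAut.conj g).toMonoidHom := by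
  obtain ⟨_, _, h⟩ := CF.Mon.certs.outM
  have := h.finite
  open CF.Mx in
  exact (Mo.mk (b0 h) (ark h) (rk h) (gd h) (tri h) (s4 h) (s8 h) (s16 h (ark h)) (fano h (ark h))
    (two h) (a2 h) (a4 h) (p4 h) (p8 h)).main

end Cfsg.Agent.S5539
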