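import Cfsg.Statements.S5540
import Cfsg.Agent.Mon.Gr4
import Cfsg.Agent.Mon.Crt

set_option autoImplicit false
open Cfsg

namespace Cfsg.Agent.S5540

/-- The Monster (realised inside the presented Bimonster) has a faithful irreducible real representation ρ of degree 196883 forming a Norton pair with it: there is a non-zero ρ-invariant symmetric bilinear form; there is a non-zero ρ-equivariant commutative bilinear product; and every ρ-equivariant bilinear product is a scalar multiple of that one (so the representation occurs exactly once in its tensor square, inside the symmetric square). Irreducibility is stated as: the only ρ-invariant subspaces are the zero subspace and the whole space. -/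
theorem result : ∃ ρ : Representation ℝ Cfsg.Spor.Monster (Fin 196883 → ℝ), Function.Injective ρ ∧ (∀ W : Submodule ℝ (Fin 196883 → ℝ), (∀ g : Cfsg.Spor.Monster, W.map (ρ g) ≤ W) → W = ⊥ ∨ W = ⊤) ∧ (∃ B : LinearMap.BilinForm ℝ (Fin 196883 → ℝ), B ≠ 0 ∧ (∀ u v, B u v = B v u) ∧ ∀ (g : Cfsg.Spor.Monster) (u v : (Fin 196883 → ℝ)), B (ρ g u) (ρ g v) = B u v) ∧ ∃ m : (Fin 196883 → ℝ) →ₗ[ℝ] (Fin 196883 → ℝ) →ₗ[ℝ] (Fin 196883 → ℝ), m ≠ 0 ∧ (∀ u v, m u v = m v u) ∧ (∀ (g : Cfsg.Spor.Monster) (u v : (Fin 196883 → ℝ)), m (ρ g u) (ρ g v) = ρ g (m u v)) ∧ ∀ m' : (Fin 196883 → ℝ) →ₗ[ℝ] (Fin 196883 → ℝ) →ₗ[ℝ] (Fin 196883 → ℝ), (∀ (g : Cfsg.Spor.Monster) (u v : (Fin 196883 → ℝ)), m' (ρ g u) (ρ g v) = ρ g (m' u v)) → ∃ c : ℝ, m' = c • m := by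
  open CF.Mon CF.Mon.G CF.Mon.T CF.Mon.Gr in
  obtain ⟨e⟩ := CF.Mon.C3.crt.equivM outM
  let b := bV0.equivFun
  obtain ⟨m, h0, h1, h2, h3⟩ := norton
  let ρ : Representation ℝ Cfsg.Spor.Monster (Fin 196883 → ℝ) :=
    (b.conjAlgEquiv ℝ).toMulEquiv.toMonoidHom.comp (act.comp e.symm.toMonoidHom)
  have hρ : ∀ g v, ρ g v = b (act (e.symm g) (b.symm v)) := fun _ _ => rfl
  refine ⟨ρ, (b.conjAlgEquiv ℝ).injective.comp ((resV_injective.comp
    (Subgroup.inclusion_injective _)).comp e.symm.injective), fun W h => ?_,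
    ⟨ipB.compl₁₂ ((LinearMap.ker trV).subtype ∘ₗ b.symm.toLinearMap)
      ((LinearMap.ker trV).subtype ∘ₗ b.symm.toLinearMap), fun k => eW_tA_ne (eq_zero_of_ip ?_),
      fun u v => ip_comm _ _, fun g u v => ?_⟩,
    (m.compl₁₂ b.symm.toLinearMap b.symm.toLinearMap).compr₂ b.toLinearMap, fun k => h0 ?_,
    fun u v => congrArg b (h1 _ _), fun g u v => ?_, fun m' k => ?_⟩
  · rcases irred (W.comap b.toLinearMap) fun g v a => h (e g) ⟨_, a, by simp [hρ]⟩ with k | k
    · exact Or.inl (eq_bot_iff.2 fun v a => by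
        have : b.symm v ∈ W.comap b.toLinearMap := by simpa using a
        simpa [k] using this)
    · exact Or.inr (eq_top_iff.2 fun v _ => by
        have : b.symm v ∈ W.comap b.toLinearMap := k ▸ trivial
        simpa using this)
  · simpa [ipB_apply] using
      LinearMap.congr_fun (LinearMap.congr_fun k (b ⟨_, trV_eW tA⟩)) (b ⟨_, trV_eW tA⟩)
  · simp only [hρ, LinearMap.compl₁₂_apply, LinearMap.comp_apply, LinearEquiv.coe_coe,
      LinearEquiv.symm_apply_apply]
    exact orth_MV (e.symm g).2 _ _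
  · refine LinearMap.ext fun u => LinearMap.ext fun v => ?_
    simpa using LinearMap.congr_fun (LinearMap.congr_fun k (b u)) (b v)
  · simp [hρ, h2 (e.symm g)]
  · obtain ⟨c, a⟩ := h3 ((m'.compl₁₂ b.toLinearMap b.toLinearMap).compr₂ b.symm.toLinearMap)
      fun g u v => by simpa [hρ, LinearEquiv.symm_apply_eq] using k (e g) (b u) (b v)
    refine ⟨c, LinearMap.ext fun u => LinearMap.ext fun v => ?_⟩
    simpa [LinearEquiv.symm_apply_eq] using
      LinearMap.congr_fun (LinearMap.congr_fun a (b.symm u)) (b.symm v)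

end Cfsg.Agent.S5540
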