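import Cfsg.Statements.S5541
import Cfsg.Agent.Known.Maj.Basic

set_option autoImplicit false
open Cfsg

namespace Cfsg.Agent.S5541

/-- Let ρ be a representation of a group H on a finite-dimensional real vector space U whose only ρ-invariant subspaces are the zero subspace and U, and suppose U carries a non-zero ρ-invariant symmetric bilinear form. Then the following are equivalent: (1) there is a non-zero ρ-equivariant commutative bilinear product on U of which every ρ-equivariant bilinear product is a scalar multiple; (2) there is a non-zero ρ-invariant trilinear form on U that is symmetric under all permutations of its arguments and of which every ρ-invariant trilinear form is a scalar multiple. -/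
theorem result {H : Type*} [Group H] {U : Type*} [AddCommGroup U] [Module ℝ U] [FiniteDimensional ℝ U] (ρ : Representation ℝ H U) (hirr : ∀ W : Submodule ℝ U, (∀ g : H, W.map (ρ g) ≤ W) → W = ⊥ ∨ W = ⊤) (B : LinearMap.BilinForm ℝ U) (hB0 : B ≠ 0) (hBs : ∀ u v, B u v = B v u) (hBi : ∀ (g : H) (u v : U), B (ρ g u) (ρ g v) = B u v) : (∃ m : U →ₗ[ℝ] U →ₗ[ℝ] U, m ≠ 0 ∧ (∀ u v, m u v = m v u) ∧ (∀ (g : H) (u v : U), m (ρ g u) (ρ g v) = ρ g (m u v)) ∧ ∀ m' : U →ₗ[ℝ] U →ₗ[ℝ] U, (∀ (g : H) (u v : U), m' (ρ g u) (ρ g v) = ρ g (m' u v)) → ∃ c : ℝ, m' = c • m) ↔ (∃ t : U →ₗ[ℝ] U →ₗ[ℝ] U →ₗ[ℝ] ℝ, t ≠ 0 ∧ (∀ u v w, t u v w = t v u w ∧ t u v w = t u w v) ∧ (∀ (g : H) (u v w : U), t (ρ g u) (ρ g v) (ρ g w) = t u v w) ∧ ∀ t' : U →ₗ[ℝ] U →ₗ[ℝ] U →ₗ[ℝ] ℝ, (∀ (g : H) (u v w : U), t' (ρ g u) (ρ g v) (ρ g w) = t' u v w) → ∃ c : ℝ, t' = c • t) := by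
  have hnd : ∀ w, (∀ u, B u w = 0) → w = 0 := by
    let K : Submodule ℝ U := LinearMap.ker B
    have hK : ∀ g : H, K.map (ρ g) ≤ K := by
      rintro g _ ⟨u, hu, rfl⟩
      have hu : B u = 0 := hu
      change B (ρ g u) = 0
      ext v
      have e : v = ρ g (ρ g⁻¹ v) := by
        rw [← Module.End.mul_apply, ← map_mul, mul_inv_cancel, map_one]; rfl
      rw [e, hBi, hu]; rfl
    rcases hirr K hK with h | h
    · intro w hw
      have : w ∈ K := by
        change B w = 0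
        ext u; rw [hBs]; exact hw u
      rw [h] at this
      simpa using this
    · exact absurd (LinearMap.ker_eq_top.1 h) hB0
  have hnd' : B.Nondegenerate := ⟨fun w hw => hnd w (fun u => by rw [hBs]; exact hw u), hnd⟩
  have inv : ∀ (g : H) (v : U), ρ g (ρ g⁻¹ v) = v := fun g v => by
    rw [← Module.End.mul_apply, ← map_mul, mul_inv_cancel, map_one]; rfl
  let e := B.toDual hnd'
  have he : ∀ u v, e u v = B u v := fun u v => rfl
  -- products to trilinear forms and back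
  let T : (U →ₗ[ℝ] U →ₗ[ℝ] U) → (U →ₗ[ℝ] U →ₗ[ℝ] U →ₗ[ℝ] ℝ) := fun m => m.compr₂ e.toLinearMap
  let M : (U →ₗ[ℝ] U →ₗ[ℝ] U →ₗ[ℝ] ℝ) → (U →ₗ[ℝ] U →ₗ[ℝ] U) := fun t =>
    t.compr₂ e.symm.toLinearMap
  have hT : ∀ m u v w, T m u v w = B (m u v) w := fun m u v w => rfl
  have hTM : ∀ t, T (M t) = t := fun t => by
    ext u v w
    change e (e.symm (t u v)) w = _
    rw [e.apply_symm_apply]
  have ext0 : ∀ x y : U, (∀ w, B x w = B y w) → x = y := fun x y h => by
    rw [← sub_eq_zero]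
    exact hnd _ fun u => by rw [hBs, map_sub, LinearMap.sub_apply, h, sub_self]
  have Tinj : ∀ m m', T m = T m' → m = m' := fun m m' h => by
    ext u v
    exact ext0 _ _ fun w => by rw [← hT, ← hT, h]
  have Tsmul : ∀ (c : ℝ) m, T (c • m) = c • T m := fun c m => by
    ext u v w
    simp [hT]
  have T0 : T 0 = 0 := by ext u v w; simp [hT]
  have Tinv : ∀ m, (∀ (g : H) (u v : U), m (ρ g u) (ρ g v) = ρ g (m u v)) ↔
      ∀ (g : H) (u v w : U), T m (ρ g u) (ρ g v) (ρ g w) = T m u v w := fun m => by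
    constructor
    · intro h g u v w
      rw [hT, hT, h, hBi]
    · intro h g u v
      refine ext0 _ _ fun w => ?_
      rw [← inv g w, ← hT, h, hT, hBi]
  constructor
  · rintro ⟨m, hm0, hms, hmi, hmu⟩
    have uniq : ∀ t' : U →ₗ[ℝ] U →ₗ[ℝ] U →ₗ[ℝ] ℝ,
        (∀ (g : H) (u v w : U), t' (ρ g u) (ρ g v) (ρ g w) = t' u v w) → ∃ c : ℝ, t' = c • T m := by
      intro t' ht'
      obtain ⟨c, hc⟩ := hmu (M t') ((Tinv _).2 (by rw [hTM]; exact ht'))
      exact ⟨c, by rw [← Tsmul, ← hc, hTM]⟩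
    have s12 : ∀ u v w, T m u v w = T m v u w := fun u v w => by rw [hT, hT, hms]
    refine ⟨T m, fun h => hm0 (Tinj _ _ (h.trans T0.symm)), fun u v w => ⟨s12 u v w, ?_⟩,
      (Tinv m).1 hmi, uniq⟩
    obtain ⟨c, hc⟩ := uniq ((LinearMap.lflip (R₀ := ℝ)).toLinearMap ∘ₗ T m)
      (fun g u v w => (Tinv m).1 hmi g u w v)
    have hc' : ∀ u v w, T m u w v = c * T m u v w := fun u v w =>
      congrArg (fun t : U →ₗ[ℝ] U →ₗ[ℝ] U →ₗ[ℝ] ℝ => t u v w) hc
    have h2 : T m u v w = c * (c * T m u v w) := by rw [← hc', ← hc']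
    have h3 : T m u v w = c * (c * (c * T m u v w)) := by
      rw [← hc' u v w, s12 u w v, ← hc' w u v, s12 w v u, ← hc' v w u, s12 v u w]
    rw [hc' u v w]
    linear_combination h3 - c * h2
  · rintro ⟨t, ht0, hts, hti, htu⟩
    refine ⟨M t, fun h => ht0 (by rw [← hTM t, h, T0]), fun u v => ?_,
      (Tinv _).2 (by rw [hTM]; exact hti), fun m' hm' => ?_⟩
    · refine ext0 _ _ fun w => ?_
      rw [← hT, ← hT, hTM, (hts u v w).1]
    · obtain ⟨c, hc⟩ := htu (T m') ((Tinv _).1 hm')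
      exact ⟨c, Tinj _ _ (by rw [Tsmul, hTM, hc])⟩

end Cfsg.Agent.S5541
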