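import Cfsg.Statements.S5543
import Cfsg.Agent.Known.Maj.Basic

set_option autoImplicit false
open Cfsg

namespace Cfsg.Agent.S5543

/-- Let V be a finite-dimensional real vector space with a commutative bilinear product and a positive-definite symmetric bilinear form that associates with the product and satisfies the Norton inequality (the Majorana setting of the definitions). Let X be a group of linear automorphisms of V in which every element squares to the identity, and suppose every non-identity element x of X is a Majorana involution with an axial vector a(x) of squared length 1, such that for any two distinct non-identity x, y the product a(x) ∘ a(y) equals (1/8)(a(x) + a(y) − a(xy)) (the dihedral subalgebra of type 2A whose third axis belongs to the involution xy). Then X has order at most 4. -/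
theorem result {V : Type*} [AddCommGroup V] [Module ℝ V] [FiniteDimensional ℝ V] (mul : V →ₗ[ℝ] V →ₗ[ℝ] V) (B : LinearMap.BilinForm ℝ V) (hV : Cfsg.Axial.IsMajoranaAmbient mul B) (X : Subgroup (V ≃ₗ[ℝ] V)) (hX : ∀ x ∈ X, x * x = 1) (ax : (V ≃ₗ[ℝ] V) → V) (hax : ∀ x ∈ X, x ≠ 1 → Cfsg.Axial.IsMajoranaPair mul B x (ax x)) (h1 : ∀ x ∈ X, x ≠ 1 → B (ax x) (ax x) = 1) (h2A : ∀ x ∈ X, ∀ y ∈ X, x ≠ 1 → y ≠ 1 → x ≠ y → mul (ax x) (ax y) = (1 / 8 : ℝ) • (ax x + ax y - ax (x * y))) : Nat.card ↥X ≤ 4 := by
  classical
    by_contra hlt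
    have hlt : 4 < Nat.card X := not_le.1 hlt
    haveI : Finite X := Nat.finite_of_card_ne_zero (by omega)
    haveI := Fintype.ofFinite X
    have ex : ∀ s : Finset X, s.card ≤ 4 → ∃ x : X, x ∉ s := by
      intro s hs
      by_contra hall
      push Not at hall
      have : s = Finset.univ := Finset.eq_univ_iff_forall.2 hall
      rw [this, Finset.card_univ, ← Nat.card_eq_fintype_card] at hs
      omega
    have sq : ∀ x : X, x * x = 1 := fun x => Subtype.ext (hX x x.2)
    have inv : ∀ x : X, x⁻¹ = x := fun x => inv_eq_of_mul_eq_one_right (sq x)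
    have comm : ∀ x y : X, x * y = y * x := fun x y => by
      rw [← inv (x * y), mul_inv_rev, inv, inv]
    obtain ⟨x, hx⟩ := ex {1} (by simp)
    obtain ⟨y, hy⟩ := ex {1, x} ((Finset.card_le_two).trans (by norm_num))
    obtain ⟨z, hz⟩ := ex {1, x, y, x * y} (Finset.card_le_four)
    simp only [Finset.mem_insert, Finset.mem_singleton, not_or] at hx hy hz
    obtain ⟨hy1, hyx⟩ := hy
    obtain ⟨hz1, hzx, hzy, hzxy⟩ := hz
    have P : ∀ u v : X, u ≠ 1 → v ≠ 1 → u ≠ v →
        mul (ax u) (ax v) = (1 / 8 : ℝ) • (ax u + ax v - ax (u * v : X)) := fun u v hu hv huv =>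
      h2A u u.2 v v.2 (fun h => hu (Subtype.ext h)) (fun h => hv (Subtype.ext h))
        (fun h => huv (Subtype.ext h))
    have ne1 : ∀ u v : X, u ≠ v → u * v ≠ 1 := fun u v huv h =>
      huv (by rw [← inv v]; exact eq_inv_of_mul_eq_one_left h)
    have A : ∀ u : X, u ≠ 1 → CF.Known.Maj.Ax mul B u (ax u) := fun u hu =>
      CF.Known.Maj.Ax.of_pair hV (hax u u.2 (fun h => hu (Subtype.ext h)))
        (h1 u u.2 (fun h => hu (Subtype.ext h)))
    have xx : ∀ u : X, x * (x * u) = u := fun u => by rw [← mul_assoc, sq, one_mul]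
    have β : ∀ u : X, u ≠ 1 → u ≠ x →
        mul (ax x) (ax u - ax (x * u : X)) = (1 / 4 : ℝ) • (ax u - ax (x * u : X)) := by
      intro u hu hux
      have n1 : x * u ≠ 1 := ne1 _ _ hux.symm
      have n2 : x ≠ x * u := fun h => hu (by simpa using h)
      rw [map_sub, P x u hx hu hux.symm, P x (x * u) hx n1 n2, xx]
      module
    have hxy : x * y ≠ 1 := ne1 _ _ (Ne.symm hyx)
    have hxz : x * z ≠ 1 := ne1 _ _ (Ne.symm hzx)
    have hyz : y * z ≠ 1 := ne1 _ _ (Ne.symm hzy)
    have hyzx : y * z ≠ x := fun h => hzxy (by rw [← h, comm y z, mul_assoc, sq, mul_one])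
    have e1 : y * (x * z) = x * (y * z) := by rw [← mul_assoc, comm y x, mul_assoc]
    have e2 : x * y * z = x * (y * z) := mul_assoc _ _ _
    have e3 : x * y * (x * z) = y * z := by rw [comm x y, mul_assoc, xx]
    have n1 : y ≠ x * z := fun h => hzxy (by rw [h, xx])
    have n2 : x * y ≠ x * z := fun h => hzy (mul_left_cancel h).symm
    have key := (A x hx).f44 _ _ (β y hy1 hyx) (β z hz1 hzx)
    have prod : mul (ax y - ax (x * y : X)) (ax z - ax (x * z : X)) =
        (-1 / 4 : ℝ) • (ax (y * z : X) - ax (x * (y * z) : X)) := by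
      simp only [map_sub, LinearMap.sub_apply]
      rw [P y z hy1 hz1 (Ne.symm hzy), P y (x * z) hy1 hxz n1, P (x * y) z hxy hz1 (Ne.symm hzxy),
        P (x * y) (x * z) hxy hxz n2, e1, e2, e3]
      module
    have b3 := β (y * z) hyz hyzx
    rw [prod, map_smul, b3] at key
    have k2 := congrArg (mul (ax x)) key
    rw [map_smul, map_smul, map_smul, b3, (A x hx).idem, ← key] at k2
    have z0 : (3 / 64 : ℝ) • (ax (y * z : X) - ax (x * (y * z) : X)) = 0 := by
      linear_combination (norm := module) k2
    have z1 : ax (y * z : X) = ax (x * (y * z) : X) := by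
      rw [← sub_eq_zero]; exact (smul_eq_zero.1 z0).resolve_left (by norm_num)
    have n3 : x * (y * z) ≠ 1 := ne1 _ _ hyzx.symm
    have p1 := hax _ (y * z).2 (fun h => hyz (Subtype.ext h))
    have p2 := hax _ (x * (y * z)).2 (fun h => n3 (Subtype.ext h))
    rw [← z1] at p2
    have : y * z = x * (y * z) := Subtype.ext (CF.Known.Maj.pair_unique p1 p2)
    exact hx (by simpa using this)

end Cfsg.Agent.S5543
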