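import Cfsg.Statements.S5548
import Cfsg.Agent.Leech.Submod

set_option autoImplicit false
open Cfsg CF.Leech

set_option maxRecDepth 1000000

namespace Cfsg.Agent.S5548

/-- For the automorphism group of the length-24 binary Golay code of the definitions (the Mathieu group of degree 24) acting on binary words of length 24 by permuting coordinates, the only invariant subspaces of the space of all words are: zero, the span of the all-ones word, the code itself, the even-weight words, and the whole space. (So the permutation module has a unique composition series.) -/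
theorem result (W : Submodule (ZMod 2) (Cfsg.GolayPt → ZMod 2)) (hW : ∀ σ ∈ Cfsg.M24, ∀ w ∈ W, (fun p => w (σ.symm p)) ∈ W) : W = ⊥ ∨ W = Submodule.span (ZMod 2) {fun _ => (1 : ZMod 2)} ∨ W = Cfsg.golayCode ∨ (W : Set (Cfsg.GolayPt → ZMod 2)) = {w | ∑ p, w p = 0} ∨ W = ⊤ := by
  by_cases h : W ≤ golayCode
  · rcases le_code hW h with h1 | h1
    · rcases eq_or_ne W ⊥ with h2 | h2
      · exact .inl h2
      · obtain ⟨w, hw, h0⟩ := (Submodule.ne_bot_iff W).1 h2
        obtain ⟨a, rfl⟩ := Submodule.mem_span_singleton.1 (h1 hw)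
        rcases zmod2_cases a with rfl | rfl
        · exact absurd (zero_smul _ _) h0
        · exact .inr (.inl (le_antisymm h1 ((Submodule.span_singleton_le_iff_mem _ _).2 (by rwa [one_smul] at hw))))
    · exact .inr (.inr (.inl h1))
  obtain ⟨w, hw, h1⟩ := SetLike.not_le_iff_exists.1 h
  have ev : ∀ v : GolayPt → ZMod 2, ∑ p, v p = 0 → v ∈ W := fun v hv => by
    rw [← word_support₂ v] at hv ⊢
    exact (Sm.of hW).even (s := support₂ w) (by simpa) (mt mem_golayCode_iff.2 h1)
      ((ZMod.natCast_eq_zero_iff _ 2).1 (sum_word _ ▸ hv))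
  by_cases h2 : ∀ v ∈ W, ∑ p, v p = 0
  · exact .inr (.inr (.inr (.inl (Set.ext fun v => ⟨h2 v, ev v⟩))))
  · push Not at h2
    obtain ⟨u, hu, h3⟩ := h2
    refine .inr (.inr (.inr (.inr (eq_top_iff.2 fun v _ => (zmod2_cases (∑ p, v p)).elim (ev v) fun h4 => ?_))))
    have := W.add_mem hu (ev (v - u) (by
      simp only [Pi.sub_apply, Finset.sum_sub_distrib, h4, (zmod2_cases _).resolve_left h3, sub_self]))
    rwa [add_sub_cancel] at this

end Cfsg.Agent.S5548
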