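import Cfsg.Statements.S5549
import Cfsg.Agent.Leech.Submod

set_option autoImplicit false
open Cfsg CF.Leech CF.Comp.Mat
open scoped Pointwise

set_option maxRecDepth 1000000

namespace Cfsg.Agent.S5549

theorem one_of {α : Type*} [DecidableEq α] {u v : α} {T : Finset α} (h : u ≠ v) (h1 : ({u, v} ∩ T).card = 1) :
    u ∈ T ↔ v ∉ T := by
  by_cases hu : u ∈ T <;> by_cases hv : v ∈ T <;> simp_all [Finset.card_pair h]

theorem other {α : Type*} [DecidableEq α] {a : α} {T : Finset α} (h : T.card = 2) (ha : a ∈ T) :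
    ∃ b, a ≠ b ∧ T = {a, b} := by
  obtain ⟨u, v, h1, rfl⟩ := Finset.card_eq_two.1 h
  rcases Finset.mem_insert.1 ha with rfl | ha
  · exact ⟨v, h1, rfl⟩
  · exact ⟨u, Finset.mem_singleton.1 ha ▸ h1.symm, Finset.mem_singleton.1 ha ▸ Finset.pair_comm _ _⟩

theorem common {α : Type*} [DecidableEq α] {D : ZMod 23 → Finset α} (h2 : ∀ i, (D i).card = 2)
    (h1 : ∀ i j, i ≠ j → (D i ∩ D j).card = 1) : ∃ a, ∀ i, a ∈ D i := by
  obtain ⟨a, ha⟩ := Finset.card_pos.1 ((h1 0 1 (by decide)).symm ▸ one_pos)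
  obtain ⟨b, hb, e0⟩ := other (h2 0) (Finset.mem_inter.1 ha).1
  obtain ⟨c, hc, e1⟩ := other (h2 1) (Finset.mem_inter.1 ha).2
  refine ⟨a, fun k => by_contra fun hk => ?_⟩
  have k0 : ∀ j, j ≠ 0 → (a ∈ D j ↔ b ∉ D j) := fun j h => one_of hb (e0 ▸ h1 0 j h.symm)
  have k1 : ∀ j, j ≠ 1 → (a ∈ D j ↔ c ∉ D j) := fun j h => one_of hc (e1 ▸ h1 1 j h.symm)
  have hbc : b ≠ c := fun e => (k0 1 (by decide)).1 (Finset.mem_inter.1 ha).2 (by simp [e, e1])
  have n0 : k ≠ 0 := fun e => hk (e ▸ (Finset.mem_inter.1 ha).1)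
  have n1 : k ≠ 1 := fun e => hk (e ▸ (Finset.mem_inter.1 ha).2)
  have ek : {b, c} = D k := Finset.eq_of_subset_of_card_le (Finset.insert_subset (by have := k0 k n0; tauto)
    (Finset.singleton_subset_iff.2 (by have := k1 k n1; tauto))) (by rw [h2, Finset.card_pair hbc])
  obtain ⟨l, l0, l1, lk⟩ : ∃ l, l ≠ 0 ∧ l ≠ 1 ∧ k ≠ l := by clear * -; revert k; decide
  have := one_of hbc (ek ▸ h1 k l lk)
  have := k0 l l0
  have := k1 l l1
  tauto

/-- weight 8 or 16 -/
def Wt (s : Finset GolayPt) : Prop := s.card = 8 ∨ s.card = 16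

/-- the number of words of weight 8 or 16 where `f` is `1` -/
noncomputable def N (f : golayCode → ZMod 2) : ℕ := {c : golayCode | Wt (support₂ c.1) ∧ f c = 1}.ncard

theorem sum_eq (w : GolayPt → ZMod 2) (t : Finset GolayPt) : ∑ p ∈ t, w p = (support₂ w ∩ t).card := by
  conv_lhs => rw [← word_support₂ w]
  simp only [word, Finset.sum_boole, Finset.filter_mem_eq_inter, Finset.inter_comm]

theorem sum_sd (w : GolayPt → ZMod 2) (s t : Finset GolayPt) :
    ∑ p ∈ symmDiff s t, w p = ∑ p ∈ s, w p + ∑ p ∈ t, w p := by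
  have e : ∀ u : Finset GolayPt, ∑ p ∈ u, w p = ∑ p, word u p * w p := fun u => by simp [word]
  simp only [e, word_symmDiff, Pi.add_apply, add_mul, Finset.sum_add_distrib]

theorem N_sum (t : Finset GolayPt) : N (fun c => ∑ p ∈ t, c.1 p) =
    {s | s ∈ CS ∧ Wt s ∧ ((s ∩ t).card : ZMod 2) = 1}.ncard :=
  Set.ncard_congr (fun c _ => support₂ c.1) (fun c hc => ⟨mem_golayCode_iff.1 c.2, hc.1, sum_eq _ _ ▸ hc.2⟩)
    (fun c d _ _ h => Subtype.ext (by rw [← word_support₂ c.1, h, word_support₂]))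
    fun s hs => ⟨⟨word s, mem_CS_iff_word.1 hs.1⟩, ⟨by simpa using hs.2.1, by simpa [sum_eq] using hs.2.2⟩, by simp⟩

theorem N_card {a n : ℕ} (ha : a < 2 ^ 24)
    (h : cntLt 4096 (fun k => (pc (enc k) == 8 || pc (enc k) == 16) && pc (Nat.land (enc k) a) % 2 == 1) = n)
    {t : Finset GolayPt} (ht : t.card = pc a) (h5 : t.card ≤ 5) : N (fun c => ∑ p ∈ t, c.1 p) = n := by
  obtain ⟨g, hg, e⟩ := M24_homog ((card_ofMask ha).trans ht.symm) h5
  rw [N_sum, ← h, ← ncard_CS (Q := fun s => Wt s ∧ ((s ∩ ofMask a).card : ZMod 2) = 1)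
    (P := fun m => (pc m == 8 || pc m == 16) && pc (Nat.land m a) % 2 == 1) fun m hm => by
      rw [← ofMask_land, card_ofMask (land_lt (isCode_lt hm)), Wt, card_ofMask (isCode_lt hm), ZMod.natCast_eq_one_iff_odd,
        Nat.odd_iff]
      simp]
  exact Set.ncard_congr (fun s _ => g • s) (fun s hs => ⟨smul_mem_CS hg hs.1, by
      rw [Wt, card_smul, ← e, ← smul_inter, card_smul]; exact hs.2⟩) (fun _ _ _ _ h => MulAction.injective g h)
    fun s hs => ⟨g⁻¹ • s, ⟨smul_mem_CS (inv_mem hg) hs.1, by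
      rw [Wt, card_smul, ← card_smul g (_ ∩ _), smul_inter, smul_inv_smul, e]; exact hs.2⟩, smul_inv_smul g s⟩

theorem dual (f : golayCode →ₗ[ZMod 2] ZMod 2) : ∃ t : Finset GolayPt, t.card ≤ 4 ∧ ∀ c, f c = ∑ p ∈ t, c.1 p := by
  obtain ⟨g, rfl⟩ := LinearMap.exists_extend f
  obtain ⟨t, h4, ht⟩ := exists_small (support₂ fun p => g fun j => if p = j then 1 else 0)
  refine ⟨t, h4, fun c => ?_⟩
  have h1 := sum_sd c.1 (support₂ fun p => g fun j => if p = j then 1 else 0) t
  rw [sum_eq, (ZMod.natCast_eq_zero_iff _ 2).2 (even_card_inter (mem_golayCode_iff.1 c.2) ht), eq_comm,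
    CharTwo.add_eq_zero] at h1
  rw [← h1, LinearMap.comp_apply, LinearMap.pi_apply_eq_sum_univ, ← Finset.sum_subset (Finset.subset_univ _)]
  · exact Finset.sum_congr rfl fun p hp => by
      rw [(zmod2_cases _).resolve_left (mem_support₂.1 hp), smul_eq_mul, mul_one]; rfl
  · exact fun p _ hp => by rw [not_not.1 (mt mem_support₂.2 hp), smul_zero]

/-- Let X be a group of linear automorphisms of the length-24 binary Golay code of the definitions that fix the all-ones word, containing the coordinate-permutation action of every element of the code's automorphism group (the Mathieu group of degree 24), and such that every element of X sends each codeword into its orbit under that Mathieu group up to adding the all-ones word (X has the same orbits as the Mathieu group on the code modulo the all-ones word). Then every element of X agrees, modulo the all-ones word, with the action of a single element of the Mathieu group: X induces exactly the Mathieu group on the code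 modulo the all-ones word. -/
theorem result (X : Subgroup (↥Cfsg.golayCode ≃ₗ[ZMod 2] ↥Cfsg.golayCode)) (h1 : ∀ x ∈ X, ∀ e : ↥Cfsg.golayCode, (e : (Cfsg.GolayPt → ZMod 2)) = (fun _ => (1 : ZMod 2)) → x e = e) (hM : ∀ σ ∈ Cfsg.M24, ∃ x ∈ X, ∀ c : ↥Cfsg.golayCode, ((x c : ↥Cfsg.golayCode) : (Cfsg.GolayPt → ZMod 2)) = fun p => (c : (Cfsg.GolayPt → ZMod 2)) (σ.symm p)) (horb : ∀ x ∈ X, ∀ c : ↥Cfsg.golayCode, ∃ σ ∈ Cfsg.M24, ((x c : ↥Cfsg.golayCode) : (Cfsg.GolayPt → ZMod 2)) = (fun p => (c : (Cfsg.GolayPt → ZMod 2)) (σ.symm p)) ∨ ((x c : ↥Cfsg.golayCode) : (Cfsg.GolayPt → ZMod 2)) = (fun p => (c : (Cfsg.GolayPt → ZMod 2)) (σ.symm p)) + fun _ => (1 : ZMod 2)) (x : ↥Cfsg.golayCode ≃ₗ[ZMod 2] ↥Cfsg.golayCode) (hx : x ∈ X) : ∃ σ ∈ Cfsg.M24, ∀ c : ↥Cfsg.golayCode, ((x c : ↥Cfsg.golayCode) : (Cfsg.GolayPt → ZMod 2)) = (fun p => (c : (Cfsg.GolayPt → ZMod 2)) (σ.symm p)) ∨ ((x c : ↥Cfsg.golayCode) : (Cfsg.GolayPt → ZMod 2)) = (fun p => (c : (Cfsg.GolayPt → ZMod 2)) (σ.symm p))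 + fun _ => (1 : ZMod 2) := by
  have hW : ∀ c : golayCode, Wt (support₂ (x c).1) ↔ Wt (support₂ c.1) := fun c => by
    obtain ⟨g, -, e⟩ := horb x hx c
    have h1 := word_smul g (support₂ c.1)
    have h2 := Finset.card_add_card_compl (g • support₂ c.1)
    rw [word_support₂] at h1
    rw [card_smul, card_pts] at h2
    rw [← h1, show (fun _ => (1 : ZMod 2)) = word Finset.univ from word_univ.symm, ← word_symmDiff] at e
    rcases e with e | e <;> rw [e, support₂_word, Wt, Wt]
    · rw [card_smul]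
    · rw [show symmDiff (g • support₂ c.1) Finset.univ = (g • support₂ c.1)ᶜ from symmDiff_top _]; omega
  have one : (fun _ => (1 : ZMod 2)) ∈ golayCode := by
    have := mem_CS_iff_word.1 univ_mem_CS
    rwa [word_univ] at this
  have hA : ∀ p q, p ≠ q → ∃ t : Finset GolayPt, t.card = 2 ∧ ∀ c, (x c).1 p + (x c).1 q = ∑ r ∈ t, c.1 r := by
    intro p q hpq
    obtain ⟨t, h4, ht⟩ := dual ((LinearMap.proj (R := ZMod 2) (φ := fun _ => ZMod 2) p + LinearMap.proj (R := ZMod 2) (φ := fun _ => ZMod 2) q) ∘ₗ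
      golayCode.subtype ∘ₗ x.toLinearMap)
    replace ht : ∀ c, (x c).1 p + (x c).1 q = ∑ r ∈ t, c.1 r := ht
    have h2 := ht ⟨_, one⟩
    rw [h1 x hx _ rfl] at h2
    simp only [Finset.sum_const, nsmul_eq_mul, mul_one, CharTwo.add_self_eq_zero] at h2
    have h3 := (ZMod.natCast_eq_zero_iff _ 2).1 h2.symm
    have h5 : N (fun c => ∑ r ∈ t, c.1 r) = 704 := by
      rw [← N_card (a := 3) (n := 704) (by norm_num) (by decide +kernel) (Finset.card_pair hpq) (by rw [Finset.card_pair hpq]; omega)]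
      refine Set.ncard_congr (fun c _ => x c) (fun c hc => ⟨(hW c).2 hc.1, ?_⟩) (fun _ _ _ _ h => x.injective h)
        fun c hc => ⟨x.symm c, ⟨(hW _).1 (by simpa using hc.1), ?_⟩, x.apply_symm_apply c⟩
      · exact (Finset.sum_pair hpq).trans ((ht c).trans hc.2)
      · exact (ht _).symm.trans (by simpa [Finset.sum_pair hpq] using hc.2)
    refine ⟨t, by_contra fun h => ?_, ht⟩
    rcases show t.card = 0 ∨ t.card = 4 by omega with e | e
    · rw [N_card (a := 0) (n := 0) (by norm_num) (by decide +kernel) e (by omega)] at h5; omega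
    · rw [N_card (a := 15) (n := 768) (by norm_num) (by decide +kernel) e (by omega)] at h5; omega
  choose D h2 hD using fun i : ZMod 23 => hA (some i) none (Option.some_ne_none i)
  have hI : ∀ i j, i ≠ j → (D i ∩ D j).card = 1 := fun i j h => by
    obtain ⟨t, h3, ht⟩ := hA (some i) (some j) (by simpa)
    have h4 : symmDiff t (symmDiff (D i) (D j)) ∈ CS := mem_CS_of_even fun c hc => by
      have e := sum_eq (word c) (symmDiff t (symmDiff (D i) (D j)))
      rw [sum_sd, sum_sd, ← ht ⟨_, mem_CS_iff_word.1 hc⟩, ← hD i ⟨_, mem_CS_iff_word.1 hc⟩,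
        ← hD j ⟨_, mem_CS_iff_word.1 hc⟩, (by decide : ∀ a b c : ZMod 2, a + b + (a + c + (b + c)) = 0),
        support₂_word, Finset.inter_comm] at e
      exact (ZMod.natCast_eq_zero_iff _ 2).1 e.symm
    have h5 := card_symmDiff_add (D i) (D j)
    have h6 := card_symmDiff_add t (symmDiff (D i) (D j))
    have h7 : symmDiff t (symmDiff (D i) (D j)) = ∅ := by_contra fun e => by
      have := eight_le_card h4 e
      have := h2 i; have := h2 j; omega
    rw [← symmDiff_eq_bot.1 h7, h2, h2] at h5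
    omega
  obtain ⟨a, ha⟩ := common h2 hI
  choose b hb eb using fun i => other (h2 i) (ha i)
  have hi : Function.Injective fun p : GolayPt => p.elim a b := by
    rintro (_ | i) (_ | j) h
    · rfl
    · exact absurd h (hb j)
    · exact absurd h.symm (hb i)
    · by_contra e
      have := hI i j fun e' => e (congrArg some e')
      rw [eb i, eb j, show b i = b j from h, Finset.inter_self, Finset.card_pair (hb j)] at this
      omega
  let g := Equiv.ofBijective _ (Finite.injective_iff_bijective.1 hi)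
  have key : ∀ c : golayCode, (x c).1 = (fun p => c.1 (g p)) + (c.1 a + (x c).1 none) • fun _ => (1 : ZMod 2) := fun c => by
    funext p
    simp only [Pi.add_apply, Pi.smul_apply, smul_eq_mul, mul_one]
    rcases p with _ | i
    · exact (CharTwo.add_cancel_left _ _).symm
    · have := hD i c
      rw [eb i, Finset.sum_pair (hb i)] at this
      show _ = c.1 (b i) + _
      rw [← add_assoc, add_comm (c.1 (b i)), ← this, CharTwo.add_cancel_right]
  refine ⟨g.symm, mem_M24_iff.2 fun s hs => mem_CS_iff_word.2 ?_, fun c => ?_⟩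
  · rw [word_smul]
    exact (golayCode.add_mem_iff_left (golayCode.smul_mem _ one)).1 (key ⟨_, mem_CS_iff_word.1 hs⟩ ▸ (x _).2)
  · have := key c
    rcases zmod2_cases (c.1 a + (x c).1 none) with e | e <;> rw [e] at this
    exacts [.inl (by simpa using this), .inr (by simpa using this)]

end Cfsg.Agent.S5549
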