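import Cfsg.Statements.S5552
import Cfsg.Agent.Leech.Co0

set_option autoImplicit false
open Cfsg

set_option maxRecDepth 1000000

namespace Cfsg.Agent.S5552

/-- On the Leech lattice of the definitions, let Q be a function to the field with two elements that is constant on cosets of twice the lattice, is a quadratic form there (Q(u+v+w) + Q(u) + Q(v) + Q(w) = Q(u+v) + Q(u+w) + Q(v+w) for all u, v, w), is invariant under every lattice automorphism, and is not identically zero. Then Q(v) is the squared length of v divided by 16, reduced modulo 2, for every lattice vector v (squared lengths of lattice vectors are multiples of 16). -/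
theorem result (Q : ↥Cfsg.leechLattice → ZMod 2) (hcoset : ∀ v w : ↥Cfsg.leechLattice, Q (v + (w + w)) = Q v) (hquad : ∀ u v w : ↥Cfsg.leechLattice, Q (u + v + w) + Q u + Q v + Q w = Q (u + v) + Q (u + w) + Q (v + w)) (hinv : ∀ (g : ↥Cfsg.Co0) (v : ↥Cfsg.leechLattice), Q (g • v) = Q v) (hne : ∃ v : ↥Cfsg.leechLattice, Q v ≠ 0) (v : ↥Cfsg.leechLattice) : Q v = ((Cfsg.sqNorm (v : Cfsg.GolayPt → ℤ) / 16 : ℤ) : ZMod 2) := by
  open CF.Leech in
  have h0 : Q 0 = 0 := by
    have := hquad 0 0 0
    simp only [add_zero] at this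
    linear_combination this
  open CF.Leech in
  have h2 : ∀ x, nm x = 32 → Q x = Q Spor.leechU := fun x hx => by
    obtain ⟨g, e⟩ := exists_smul_U hx; rw [← e, hinv]
  open CF.Leech in
  have h3 : ∀ x, nm x = 48 → Q x = Q Spor.leechV := fun x hx => by
    obtain ⟨g, e⟩ := exists_smul_V hx; rw [← e, hinv]
  open CF.Leech in
  have h4 : ∀ x, nm x = 64 → Q x = Q (e8 none) := fun x hx => by
    obtain ⟨g, e⟩ := exists_smul_e8 hx none; rw [← e, hinv]
  have two : ∀ a : ZMod 2, a + a = 0 := by decide
  open CF.Leech in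
  have hc : Q (e8 none) = 0 := by
    have := hquad (p4 (some 0) (some 1)) (m4 (some 2) (some 0)) (m4 (some 3) (some 1))
    rw [h2 (_ + _ + _) (by decide +kernel), h2 (p4 _ _) (by decide +kernel),
      h2 (m4 (some 2) _) (by decide +kernel), h2 (m4 (some 3) _) (by decide +kernel),
      h2 (p4 _ _ + m4 (some 2) _) (by decide +kernel),
      h2 (p4 _ _ + m4 (some 3) _) (by decide +kernel),
      h4 (m4 _ _ + m4 (some 3) _) (by decide +kernel)] at this
    linear_combination two (Q Spor.leechU) - this
  open CF.Leech in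
  have ha : Q Spor.leechU = 0 := by
    have := hquad (p4 (some 0) (some 1)) (p4 (some 2) (some 3)) (p4 (some 4) (some 5))
    let o : LL := ⟨_, two_ind_mem CF.Comp.Mat.o0_mem.1⟩
    have e : p4 (some 0) (some 1) + p4 (some 2) (some 3) + p4 (some 4) (some 5) =
      (p4 (some 0) (some 1) + p4 (some 2) (some 3) + p4 (some 4) (some 5) - (o + o)) + (o + o) := by
      abel
    rw [e, hcoset, h4 (_ - _) (by decide +kernel), h2 (p4 (some 0) _) (by decide +kernel),
      h2 (p4 (some 2) _) (by decide +kernel), h2 (p4 (some 4) _) (by decide +kernel),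
      h4 (p4 (some 0) _ + p4 (some 2) _) (by decide +kernel),
      h4 (p4 (some 0) _ + p4 (some 4) _) (by decide +kernel),
      h4 (p4 (some 2) _ + p4 (some 4) _) (by decide +kernel), hc] at this
    linear_combination this - two (Q Spor.leechU)
  open CF.Leech in
  have key : ∀ v : LL, Q v = ((nm v / 16 : ℤ) : ZMod 2) * Q Spor.leechV := fun v => by
    obtain ⟨y, hy, hn, z, hz, e⟩ := exists_short v.2
    have e1 : v = ⟨y, hy⟩ + (⟨z, hz⟩ + ⟨z, hz⟩) := Subtype.ext (by
      rw [two_nsmul] at e
      simp only [AddSubgroup.coe_add]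
      rw [← e]; abel)
    have hn' : nm ⟨y, hy⟩ ≤ 64 := hn
    generalize (⟨y, hy⟩ : LL) = y at *
    generalize (⟨z, hz⟩ : LL) = z at *
    have e2 : ((nm v / 16 : ℤ) : ZMod 2) = ((nm y / 16 : ℤ) : ZMod 2) := by
      rw [ZMod.intCast_eq_intCast_iff_dvd_sub]
      have a := dvd_nm y
      have b := dvd_nm z
      have c := dvd_dt y z
      rw [e1, nm_add, nm_add, dt_add_right, dt_self]
      push_cast
      omega
    rw [e2, e1, hcoset]
    have a := dvd_nm y
    rcases nm_cases y with rfl | b
    · rw [h0, nm_eq_zero.2 rfl]; simp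
    · have : nm y = 32 ∨ nm y = 48 ∨ nm y = 64 := by omega
      rcases this with h | h | h
      · rw [h2 y h, ha, h]
        exact (mul_eq_zero_of_left (by decide) _).symm
      · rw [h3 y h, h]
        exact ((congrArg (· * _) (by decide)).trans (one_mul _)).symm
      · rw [h4 y h, hc, h]
        exact (mul_eq_zero_of_left (by decide) _).symm
  obtain ⟨u, hu⟩ := hne
  rw [key, (CF.Leech.zmod2_cases (Q Spor.leechV)).resolve_left fun h => hu (by rw [key, h, mul_zero]), mul_one]

end Cfsg.Agent.S5552
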