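import Cfsg.Statements.S5553
import Cfsg.Agent.Leech.Count

set_option autoImplicit false
open Cfsg CF.Leech

set_option maxRecDepth 1000000

namespace Cfsg.Agent.S5553

/-- The Leech lattice of the definitions has an additive subgroup A containing twice the lattice, of index 2^12 in the lattice, all of whose vectors have squared length divisible by 32: the invariant quadratic form 'squared length over 16 modulo 2' on the lattice modulo twice the lattice (a 24-dimensional space over the field with two elements) vanishes on a 12-dimensional subspace, so it is of plus type. -/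
theorem result : ∃ A : AddSubgroup (Cfsg.GolayPt → ℤ), A ≤ Cfsg.leechLattice ∧ (∀ v ∈ Cfsg.leechLattice, (2 : ℤ) • v ∈ A) ∧ (A.addSubgroupOf Cfsg.leechLattice).index = 2 ^ 12 ∧ ∀ v ∈ A, (32 : ℤ) ∣ Cfsg.sqNorm v := by
  classical
  let ψ : V →+ (GolayPt → ZMod 4) := (Int.castAddHom (ZMod 4)).compLeft GolayPt
  have hker : ∀ x, x ∈ ψ.ker ↔ ∀ i, (4 : ℤ) ∣ x i := fun x => by
    rw [AddMonoidHom.mem_ker, funext_iff]
    exact forall_congr' fun i => ZMod.intCast_zmod_eq_zero_iff_dvd (x i) 4
  have h1 : ψ.ker.index = 4 ^ 24 := by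
    rw [AddSubgroup.index_ker, AddMonoidHom.range_eq_top.2, AddSubgroup.card_top, Nat.card_fun,
      Nat.card_zmod, Nat.card_eq_fintype_card, card_pts]
    intro y
    choose x hx using fun i => ZMod.intCast_surjective (y i)
    exact ⟨x, funext hx⟩
  let A : AddSubgroup V :=
    { carrier := {x | (2 : ℤ) ∣ x none ∧ (∀ i, (4 : ℤ) ∣ x i - x none) ∧ (8 : ℤ) ∣ ∑ i, x i}
      zero_mem' := by simp
      add_mem' := fun {x y} hx hy => ⟨hx.1.add hy.1, fun i => by
        have := hx.2.1 i; have := hy.2.1 i; simp only [Pi.add_apply]; omega, by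
        simp only [Pi.add_apply, Finset.sum_add_distrib]; exact hx.2.2.add hy.2.2⟩
      neg_mem' := fun {x} hx => ⟨hx.1.neg_right, fun i => by
        have := hx.2.1 i; simp only [Pi.neg_apply]; omega, by
        simp only [Pi.neg_apply, Finset.sum_neg_distrib]; exact hx.2.2.neg_right⟩ }
  have hA : ∀ x, x ∈ A ↔ (2 : ℤ) ∣ x none ∧ (∀ i, (4 : ℤ) ∣ x i - x none) ∧ (8 : ℤ) ∣ ∑ i, x i := fun _ => Iff.rfl
  have h24 : ∀ a : ℤ, ∑ _i : GolayPt, a = 24 * a := fun a => by simp [card_pts]
  have hle : A ≤ leechLattice := fun x hx => by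
    obtain ⟨h2, h4, h8⟩ := hx
    by_cases h : (4 : ℤ) ∣ x none
    · exact LS.mem (m := 0) (c := ∅) ⟨empty_mem_CS, fun i => by have := h4 i; simp only [ind]; simp; omega, by simpa⟩
    · exact LS.mem (m := 0) (c := Finset.univ) ⟨univ_mem_CS, fun i => by have := h4 i; simp only [ind]; simp; omega,
        by simpa⟩
  have h2 : A.relIndex ψ.ker = 2 := by
    rw [AddSubgroup.relIndex_eq_two_iff]
    refine ⟨Pi.single (some 0) 4, (hker _).2 fun i => by rw [Pi.single_apply]; split_ifs <;> simp, fun b hb => ?_⟩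
    rw [hker] at hb
    have h4 : (4 : ℤ) ∣ ∑ i, b i := Finset.dvd_sum fun i _ => hb i
    have e : ∀ c : V, (∀ i, (4 : ℤ) ∣ c i) → (c ∈ A ↔ (8 : ℤ) ∣ ∑ i, c i) := fun c hc =>
      ⟨fun h => h.2.2, fun h => ⟨by have := hc none; omega, fun i => (hc i).sub (hc none), h⟩⟩
    rw [e b hb, e (b + Pi.single (some 0) 4) fun i => (hb i).add (by rw [Pi.single_apply]; split_ifs <;> simp)]
    simp only [Pi.add_apply, Finset.sum_add_distrib, Finset.sum_pi_single', Finset.mem_univ, if_true, Xor]
    omega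
  have h3 : ψ.ker.relIndex A = 2 := by
    rw [AddSubgroup.relIndex_eq_two_iff]
    refine ⟨fun _ => 2, ⟨by simp, by simp, by rw [h24]; decide⟩, fun b hb => ?_⟩
    have e : ∀ c ∈ A, c ∈ ψ.ker ↔ (4 : ℤ) ∣ c none := fun c hc =>
      (hker c).trans ⟨fun h => h none, fun h i => by have := hc.2.1 i; omega⟩
    rw [e b hb, e _ (A.add_mem hb ⟨by simp, by simp, by rw [h24]; decide⟩)]
    have := hb.1
    simp only [Pi.add_apply, Xor]
    omega
  have h4 : A.index = 2 ^ 48 := by
    have e1 := AddSubgroup.relIndex_mul_index (inf_le_right : A ⊓ ψ.ker ≤ _)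
    have e2 := AddSubgroup.relIndex_mul_index (inf_le_left : A ⊓ ψ.ker ≤ _)
    rw [AddSubgroup.inf_relIndex_right, h1, h2] at e1
    rw [AddSubgroup.inf_relIndex_left, h3] at e2
    omega
  refine ⟨A, hle, fun v hv => ?_, ?_, fun v hv => ?_⟩
  · obtain ⟨m, c, -, -, h4, h8⟩ := exists_LS hv
    refine ⟨by simp, fun i => ?_, ?_⟩
    · have := h4 i; have := h4 none
      simp only [Pi.smul_apply, smul_eq_mul]; omega
    · simp only [Pi.smul_apply, smul_eq_mul, ← Finset.mul_sum]; omega
  · have e := AddSubgroup.relIndex_mul_index hle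
    rw [h4, leech_index] at e
    show A.relIndex leechLattice = _
    omega
  · obtain ⟨⟨m, hm⟩, h4, h8⟩ := hv
    choose y hy using h4
    have e : ∀ i, v i = 2 * m + 4 * y i := fun i => by have := hy i; omega
    have h5 : (2 : ℤ) ∣ ∑ i, (y i ^ 2 - y i) := Finset.dvd_sum fun i _ => by
      rw [show y i ^ 2 - y i = y i * (y i - 1) by ring]; exact (Int.even_mul_pred_self _).two_dvd
    have h6 : sqNorm v = ∑ i, (4 * m ^ 2 + (16 * (m + 1) * y i + 16 * (y i ^ 2 - y i))) :=
      Finset.sum_congr rfl fun i _ => by rw [e]; ring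
    simp only [e, Finset.sum_add_distrib, h24, ← Finset.mul_sum] at h8
    simp only [Finset.sum_add_distrib, h24, ← Finset.mul_sum] at h6
    obtain ⟨s, hs⟩ : (2 : ℤ) ∣ ∑ i, y i := by omega
    obtain ⟨t, ht⟩ := h5
    exact ⟨3 * m ^ 2 + (m + 1) * s + t, by rw [h6, hs, ht]; ring⟩

end Cfsg.Agent.S5553
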