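import Cfsg.Statements.S5566
import Cfsg.Agent.J4.Cv

set_option autoImplicit false
open Cfsg

namespace Cfsg.Agent.S5566

open Subgroup CF.Loc CF.J4

/-- Let G be a finite non-abelian simple group of Janko-four type (an involution z whose centralizer H has an extraspecial largest normal 2-subgroup E of order 2^13 containing its centralizer in H, a normal subgroup N ≥ E of H with N/E of order 3 and H/N the automorphism group of M₂₂, and a subgroup P ≤ N of order 3 with C_E(P) = ⟨z⟩, N_H(P) ≠ C_H(P) and P ≤ C_H(P)′). Then a Sylow 2-subgroup of G has exactly one elementary abelian subgroup of order 2^11. -/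
theorem result {G : Type*} [Group G] [Finite G] [IsSimpleGroup G] (hG : ¬ IsMulCommutative G) (hJ : Cfsg.IsOfJankoFourType G) (T : Sylow 2 G) :
    ∃! V : Subgroup G, V ≤ (T : Subgroup G) ∧ Cfsg.IsElementaryAbelian 2 V ∧ Nat.card ↥V = 2 ^ 11 := by
  obtain ⟨z, P, hJ⟩ := hJ
  obtain ⟨E, p, Φ, π, f, V, ν, κ, h, -⟩ := jk_with hJ
  have w := h.toJW
  obtain ⟨g, -, e⟩ := w.syl.exists_cj_le T.isPGroup' le_top
  have e2 := T.is_maximal' (isPGroup_cj g⁻¹ w.syl.isPGroup) (cj_le_iff.1 e)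
  have a := w.ea.cj g⁻¹
  refine ⟨cj[g⁻¹] V, ⟨e2 ▸ cj_mono _ w.V_T, ⟨⟨⟨fun x y => Subtype.ext (a.comm _ x.2 _ y.2)⟩⟩,
    fun x hx => (pow_two x).trans (a x hx)⟩, by rw [card_cj, w.card_V]⟩, fun A ⟨h1, h2, h3⟩ => ?_⟩
  exact cj_eq_iff.1 (w.jT ((cj_mono g h1).trans e) (EA.cj (fun x hx => (pow_two x).symm.trans (h2.2 x hx)) g)
    (by rw [card_cj, h3]))

end Cfsg.Agent.S5566
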