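import Cfsg.Statements.S5567
import Cfsg.Agent.J4.Cv

set_option autoImplicit false
open Cfsg

namespace Cfsg.Agent.S5567

open Subgroup CF.Loc CF.J4

/-- Let G be a finite non-abelian simple group of Janko-four type (an involution z whose centralizer H has an extraspecial largest normal 2-subgroup E of order 2^13 containing its centralizer in H, a normal subgroup N ≥ E of H with N/E of order 3 and H/N the automorphism group of M₂₂, and a subgroup P ≤ N of order 3 with C_E(P) = ⟨z⟩, N_H(P) ≠ C_H(P) and P ≤ C_H(P)′). Then every elementary abelian subgroup V of G of order 2^11 contains its centralizer, and its normalizer is a split extension of V by a complement isomorphic to the Mathieu group M₂₄. -/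
theorem result {G : Type*} [Group G] [Finite G] [IsSimpleGroup G] (hG : ¬ IsMulCommutative G) (hJ : Cfsg.IsOfJankoFourType G) (V : Subgroup G) (hV : Cfsg.IsElementaryAbelian 2 V) (hcard : Nat.card ↥V = 2 ^ 11) :
    Subgroup.centralizer (V : Set G) ≤ V ∧ ∃ K : Subgroup G, K ≤ Subgroup.normalizer (V : Set G) ∧ K ⊓ V = ⊥ ∧ K ⊔ V = Subgroup.normalizer (V : Set G) ∧ Cfsg.Spor.IsoM24 ↥K := by
  obtain ⟨z, P, hJ⟩ := hJ
  obtain ⟨E, p, Φ, π, f, U, ν, κ, h, -⟩ := jk_with hJ
  have w := h.toJW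
  obtain ⟨g, rfl⟩ := w.exists_cj (A := V) (fun x hx => (pow_two x).symm.trans (hV.2 x hx)) hcard.ge
  have m := h.toJM
  have S := h.sp
  have l : S.hom.im M24 le_rfl ≤ 𝐍(U) := fun x hx => by
    obtain ⟨σ, h1, rfl⟩ := S.hom.mem_im.1 hx
    exact S.mem σ h1
  refine ⟨cj_centralizer g U ▸ cj_mono g w.cent_V, cj[g] (S.hom.im M24 le_rfl), cj_normalizer g U ▸ cj_mono g l,
    ?_, ?_, ⟨(((S.hom.im M24 le_rfl).equivMapOfInjective _ (MulAut.conj g).injective).symm.trans
      (MonoidHom.ofInjective fun x y e => ?_).symm)⟩⟩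
  · rw [← cj_inf, cj_eq_bot_iff, eq_bot_iff]
    intro x hx
    obtain ⟨h1, h2⟩ := mem_inf.1 hx
    obtain ⟨σ, h3, rfl⟩ := S.hom.mem_im.1 h1
    rw [← S.pi σ h3, m.pi_V h2, S.hom.one]
    exact one_mem _
  · rw [← cj_sup, ← cj_normalizer, cj_inj]
    refine le_antisymm (sup_le l le_normalizer) fun x hx => ?_
    have h1 := m.pi_mem hx
    have := m.pi_eq (S.mem _ h1) hx (S.pi _ h1)
    rw [← mul_inv_cancel_left (κ (pm24 U ν x)) x]
    exact mul_mem_sup (S.hom.mem_im.2 ⟨_, h1, rfl⟩) this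
  · exact Subtype.ext ((S.pi _ x.2).symm.trans ((congrArg (pm24 U ν) e).trans (S.pi _ y.2)))

end Cfsg.Agent.S5567
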