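import Cfsg.Statements.S5568
import Cfsg.Agent.J4.I

set_option autoImplicit false
open Cfsg

namespace Cfsg.Agent.S5568

open Subgroup CF.Loc CF.LX CF.J4

theorem ncard_cj {G : Type*} [Group G] (g x : G) (U : Subgroup G) :
    {v : G | ∃ n ∈ 𝐍(cj[g] U), n * (g * x * g⁻¹) * n⁻¹ = v}.ncard = (cls 𝐍(U) x).ncard := by
  rw [← Set.ncard_image_of_injective (cls 𝐍(U) x) (MulAut.conj g).injective, ← cj_normalizer]
  refine congrArg Set.ncard (Set.ext fun v => ⟨fun ⟨n, hn, e⟩ => ⟨_, ⟨_, mem_cj.1 hn, rfl⟩, ?_⟩, ?_⟩)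
  · rw [← e, MulAut.conj_apply]; group
  · rintro ⟨_, ⟨n, hn, rfl⟩, rfl⟩
    exact ⟨_, conj_mem_cj g hn, by rw [MulAut.conj_apply]; group⟩


/-- Let G be a finite non-abelian simple group of Janko-four type (an involution z whose centralizer H has an extraspecial largest normal 2-subgroup E of order 2^13 containing its centralizer in H, a normal subgroup N ≥ E of H with N/E of order 3 and H/N the automorphism group of M₂₂, and a subgroup P ≤ N of order 3 with C_E(P) = ⟨z⟩, N_H(P) ≠ C_H(P) and P ≤ C_H(P)′). Let V be an elementary abelian subgroup of G of order 2^11. Then under conjugation by the normalizer of V the non-identity elements of V fall into an orbit of length 1771 consisting of conjugates of z and an orbit of length 276 consisting of involutions t not conjugate to z, and for such t the centralizer of t in G lies in the normalizer of V. -/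
theorem result {G : Type*} [Group G] [Finite G] [IsSimpleGroup G] (hG : ¬ IsMulCommutative G) (z : G) (hJ : Cfsg.IsOfJankoFourTypeAt z) (V : Subgroup G) (hV : Cfsg.IsElementaryAbelian 2 V) (hcard : Nat.card ↥V = 2 ^ 11) :
    ∃ z' t : G, z' ∈ V ∧ t ∈ V ∧ t ≠ 1 ∧ IsConj z z' ∧ ¬ IsConj z t ∧
    Set.ncard {v : G | ∃ n ∈ Subgroup.normalizer (V : Set G), n * z' * n⁻¹ = v} = 1771 ∧
    Set.ncard {v : G | ∃ n ∈ Subgroup.normalizer (V : Set G), n * t * n⁻¹ = v} = 276 ∧
    Subgroup.centralizer ({t} : Set G) ≤ Subgroup.normalizer (V : Set G) := by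
  obtain ⟨P, hJ⟩ := hJ
  obtain ⟨E, p, Φ, π, f, U, ν, κ, h, -⟩ := jk_with hJ
  obtain ⟨g, rfl⟩ := h.exists_cj (A := V) (fun x hx => (pow_two x).symm.trans (hV.2 x hx)) hcard.ge
  obtain ⟨d, hd, e, -⟩ := h.exists_d
  have n := (h.dt hd).1 e
  exact ⟨_, _, conj_mem_cj g h.zV, conj_mem_cj g hd, by simpa using n.1, isConj_cj' g z,
    fun c => n.2 (c.trans (isConj_cj' g d).symm), (ncard_cj g z U).trans h.ncard_z,
    (ncard_cj g d U).trans (h.ncard_d hd e),
    cj_centralizer_singleton g d ▸ cj_normalizer g U ▸ cj_mono g (h.cent_d hd e)⟩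

end Cfsg.Agent.S5568
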