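import Cfsg.Statements.S5569
import Cfsg.Agent.J4.I

set_option autoImplicit false
open Cfsg

namespace Cfsg.Agent.S5569

open Subgroup CF.Loc CF.LX CF.J4 CF.Comp CF.Dce.J4
open scoped Pointwise


/-- Let G be a finite non-abelian simple group of Janko-four type (an involution z whose centralizer H has an extraspecial largest normal 2-subgroup E of order 2^13 containing its centralizer in H, a normal subgroup N ≥ E of H with N/E of order 3 and H/N the automorphism group of M₂₂, and a subgroup P ≤ N of order 3 with C_E(P) = ⟨z⟩, N_H(P) ≠ C_H(P) and P ≤ C_H(P)′). Then the centralizer of an involution t of G that is not conjugate to z is a split extension of an elementary abelian normal subgroup of order 2^11 by a complement isomorphic to the automorphism group of M₂₂. -/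
theorem result {G : Type*} [Group G] [Finite G] [IsSimpleGroup G] (hG : ¬ IsMulCommutative G) (z : G) (hJ : Cfsg.IsOfJankoFourTypeAt z) (t : G) (ht : orderOf t = 2) (hnc : ¬ IsConj z t) :
    ∃ V K : Subgroup G, V ≤ Subgroup.centralizer ({t} : Set G) ∧ K ≤ Subgroup.centralizer ({t} : Set G) ∧
    Subgroup.centralizer ({t} : Set G) ≤ Subgroup.normalizer (V : Set G) ∧ Cfsg.IsElementaryAbelian 2 V ∧ Nat.card ↥V = 2 ^ 11 ∧
    K ⊓ V = ⊥ ∧ K ⊔ V = Subgroup.centralizer ({t} : Set G) ∧ Nonempty (↥K ≃* MulAut ↥Cfsg.Spor.M22) := by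
  obtain ⟨P, hJ⟩ := hJ
  obtain ⟨E, p, Φ, π, f, U, ν, κ, h, -⟩ := jk_with hJ
  obtain ⟨d, hd, e0⟩ := h.co.surj _ (xlt (τ_lt none) (τ_lt (some 0)))
  have e : DM.testBit (ν d) = true := e0 ▸ (dsh (by simp)).1
  obtain ⟨g, -, e1 | rfl⟩ := h.two le_top le_top hd e (mem_top t) ht
  · exact (hnc (isConj_iff.2 ⟨g, e1⟩)).elim
  have S := h.sp
  have a := h.ea.cj g
  have l0 : S2 ≤ M24 := inf_le_left
  have l1 : U ≤ 𝐂₁(d) := fun v hv => mem_c1.2 (h.co.comm hv hd)
  have l2 : S.hom.im S2 l0 ≤ 𝐂₁(d) := fun x hx => by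
    obtain ⟨σ, h1, rfl⟩ := S.hom.mem_im.1 hx
    have h2 := S.mem σ h1.1
    have : (κ σ)⁻¹ * d * κ σ = d := h.co.ext (norm_mem h2 hd) hd (by
      rw [h.pi_two h2 hd e0, S.pi σ h1.1, e0]
      have n : σ⁻¹ none ≠ σ⁻¹ (some 0) := fun e => by simpa using σ⁻¹.injective e
      rcases S2_mem (S2.inv_mem h1) (.inl rfl) with e1 | e1 <;>
        rcases S2_mem (S2.inv_mem h1) (.inr rfl) with e2 | e2
      exacts [(n (e1.trans e2.symm)).elim, congrArg₂ (τ · ^^^ τ ·) e1 e2,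
        (congrArg₂ (τ · ^^^ τ ·) e1 e2).trans (Nat.xor_comm _ _), (n (e1.trans e2.symm)).elim])
    exact mem_c1.2 (by rw [← this, ← mul_assoc, mul_inv_cancel_left, this])
  have l3 : S.hom.im S2 l0 ⊓ U = ⊥ := eq_bot_iff.2 fun x hx => by
    obtain ⟨h1, h2⟩ := mem_inf.1 hx
    obtain ⟨σ, h3, rfl⟩ := S.hom.mem_im.1 h1
    rw [← S.pi σ h3.1, h.pi_V h2, S.hom.one]
    exact one_mem _
  have e2 : S2 ≃* S.hom.im S2 l0 := MonoidHom.ofInjective fun x y e =>
    Subtype.ext ((S.pi _ x.2.1).symm.trans ((congrArg (pm24 U ν) e).trans (S.pi _ y.2.1)))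
  have l4 : S.hom.im S2 l0 ⊔ U = 𝐂₁(d) := by
    refine CF.Comp.eq_of_le_of_card_le (sup_le l2 l1) ?_
    have c1 := card_sup_mul_card_inf' (l2.trans (h.cent_d hd e))
    have c2 := h.card_Cd 1 (d := d) (by rwa [cj_one]) ((h.dt hd).1 e).1 ((h.dt hd).1 e).2
    rw [cj_one, inf_eq_right.2 (h.cent_d hd e)] at c2
    rw [inf_comm, l3, card_bot, mul_one, h.card_V, ← Nat.card_congr e2.toEquiv, card_S2] at c1
    rw [sup_comm, c1, c2]
  obtain ⟨e3⟩ := autS2
  rw [← cj_centralizer_singleton]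
  exact ⟨cj[g] U, cj[g] (S.hom.im S2 l0), cj_mono g l1, cj_mono g l2, cj_normalizer g U ▸ cj_mono g (h.cent_d hd e),
    ⟨⟨⟨fun x y => Subtype.ext (a.comm _ x.2 _ y.2)⟩⟩, fun x hx => (pow_two x).trans (a x hx)⟩,
    by rw [card_cj, h.card_V], by rw [← cj_inf, l3, cj_bot], by rw [← cj_sup, l4],
    ⟨(((S.hom.im S2 l0).equivMapOfInjective _ (MulAut.conj g).injective).symm.trans e2.symm).trans e3⟩⟩

end Cfsg.Agent.S5569
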