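import Cfsg.Statements.S5570
import Cfsg.Agent.J4.X

set_option autoImplicit false
open Cfsg

namespace Cfsg.Agent.S5570

open Subgroup CF.Loc CF.J4

/-- Let G be a finite non-abelian simple group of Janko-four type (an involution z whose centralizer H has an extraspecial largest normal 2-subgroup E of order 2^13 containing its centralizer in H, a normal subgroup N ≥ E of H with N/E of order 3 and H/N the automorphism group of M₂₂, and a subgroup P ≤ N of order 3 with C_E(P) = ⟨z⟩, N_H(P) ≠ C_H(P) and P ≤ C_H(P)′). Then G has self-centralizing elementary abelian subgroups of order 2^10, any two of them are conjugate, and for such a subgroup A the normalizer of A is a split extension of A by a complement isomorphic to L₅(2) under which A has no proper non-trivial invariant subgroup. -/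
theorem result {G : Type*} [Group G] [Finite G] [IsSimpleGroup G] (hG : ¬ IsMulCommutative G) (hJ : Cfsg.IsOfJankoFourType G) :
    (∃ A : Subgroup G, Cfsg.IsElementaryAbelian 2 A ∧ Nat.card ↥A = 2 ^ 10 ∧ Subgroup.centralizer (A : Set G) = A) ∧
    (∀ A A' : Subgroup G, Cfsg.IsElementaryAbelian 2 A → Nat.card ↥A = 2 ^ 10 → Subgroup.centralizer (A : Set G) = A → Cfsg.IsElementaryAbelian 2 A' → Nat.card ↥A' = 2 ^ 10 → Subgroup.centralizer (A' : Set G) = A' → ∃ g : G, A' = A.map (MulAut.conj g).toMonoidHom) ∧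
    ∀ A : Subgroup G, Cfsg.IsElementaryAbelian 2 A → Nat.card ↥A = 2 ^ 10 → Subgroup.centralizer (A : Set G) = A →
      (∃ B : Subgroup G, B ≤ Subgroup.normalizer (A : Set G) ∧ B ⊓ A = ⊥ ∧ B ⊔ A = Subgroup.normalizer (A : Set G) ∧
        Nonempty (↥B ≃* Matrix.SpecialLinearGroup (Fin 5) (ZMod 2))) ∧
      ∀ W : Subgroup G, W ≤ A → Subgroup.normalizer (A : Set G) ≤ Subgroup.normalizer (W : Set G) → W = ⊥ ∨ W = A := by
  obtain ⟨z, P, hJ⟩ := hJ
  obtain ⟨E, p, Φ, π, f, U, ν, κ, h, -⟩ := jk_with hJ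
  obtain ⟨A, μ, C⟩ := h.ex_ca
  have k : ∀ X : Subgroup G, IsElementaryAbelian 2 X → Nat.card X = 2 ^ 10 → 𝐂(X) = X → ∃ g, X = cj[g] A :=
    fun X h1 h2 h3 => h.cjA C (fun x hx => (pow_two x).symm.trans (h1.2 x hx)) h2 h3.le
  refine ⟨⟨A, ⟨⟨⟨fun x y => Subtype.ext (C.co.comm x.2 y.2)⟩⟩, fun x hx => (pow_two x).trans (C.co.sq hx)⟩,
    h.card_A C, le_antisymm (h.cent_A C) (EA.le_cent fun _ => C.co.sq)⟩, fun X Y a1 a2 a3 b1 b2 b3 => ?_,
    fun X a1 a2 a3 => ?_⟩
  · obtain ⟨g, rfl⟩ := k X a1 a2 a3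
    obtain ⟨u, rfl⟩ := k Y b1 b2 b3
    exact ⟨u * g⁻¹, show _ = cj[u * g⁻¹] (cj[g] A) by rw [← cj_mul, inv_mul_cancel_right]⟩
  obtain ⟨g, rfl⟩ := k X a1 a2 a3
  obtain ⟨B, h1, h2, h3, e⟩ := h.cplA C
  refine ⟨⟨cj[g] B, cj_normalizer g A ▸ cj_mono g h1, by rw [← cj_inf, h2, cj_bot],
    by rw [← cj_sup, h3, cj_normalizer], e.map fun e =>
      (B.equivMapOfInjective _ (MulAut.conj g).injective).symm.trans e⟩, fun W w1 w2 => ?_⟩
  refine (h.irrA C (W := cj[g⁻¹] W) (le_cj_iff.1 w1) ?_).imp cj_eq_bot_iff.1 fun e => ?_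
  · rw [← cj_normalizer, ← cj_le_iff, cj_normalizer]; exact w2
  · rw [← e, cj_cj_inv]

end Cfsg.Agent.S5570
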