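import Cfsg.Statements.S5572
import Cfsg.Agent.J4F.F
import Cfsg.Agent.J4.R

set_option autoImplicit false
open Cfsg

namespace Cfsg.Agent.S5572

/-- Let G be a finite non-abelian simple group of Janko-four type (an involution z whose centralizer H has an extraspecial largest normal 2-subgroup E of order 2^13 containing its centralizer in H, a normal subgroup N ≥ E of H with N/E of order 3 and H/N the automorphism group of M₂₂, and a subgroup P ≤ N of order 3 with C_E(P) = ⟨z⟩, N_H(P) ≠ C_H(P) and P ≤ C_H(P)′). Let Q ≤ H have order 5. Then Q is a Sylow 5-subgroup of G; its centralizer is Q × J with J a non-split extension of an elementary abelian group of order 8 by L₃(2); its normalizer contains a subgroup of order 20 containing Q in which Q is self-centralizing (a Frobenius group of order 20); and the normalizer of Q has order 2^8·3·5·7. -/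
theorem result {G : Type*} [Group G] [Finite G] [IsSimpleGroup G] (hG : ¬ IsMulCommutative G) (z : G) (hJ : Cfsg.IsOfJankoFourTypeAt z) (Q : Subgroup G) (hQ : Nat.card ↥Q = 5) (hQz : Q ≤ Subgroup.centralizer ({z} : Set G)) :
    ¬ (25 ∣ Nat.card G) ∧
    (∃ J : Subgroup G, Cfsg.IsInternalDirectProduct Q J (Subgroup.centralizer (Q : Set G)) ∧
      ∃ (E : Subgroup ↥J) (_ : E.Normal), Cfsg.IsElementaryAbelian 2 E ∧ Nat.card ↥E = 8 ∧
        Nonempty (↥J ⧸ E ≃* Matrix.SpecialLinearGroup (Fin 3) (ZMod 2)) ∧ ∀ K : Subgroup ↥J, ¬ E.IsComplement' K) ∧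
    (∃ R : Subgroup G, Q ≤ R ∧ R ≤ Subgroup.normalizer (Q : Set G) ∧ Nat.card ↥R = 20 ∧ R ⊓ Subgroup.centralizer (Q : Set G) = Q) ∧
    Nat.card ↥(Subgroup.normalizer (Q : Set G)) = 2 ^ 8 * 3 * 5 * 7 := by
  open CF.J4F CF.Bt CF.Dce.J4 CF.Comp Subgroup in
  obtain ⟨e, -⟩ := CF.J4.rec_J4 hJ
  have hc : Nat.card G = 86775571046077562880 := (Nat.card_congr e.toEquiv).trans card_L
  obtain ⟨e, rfl⟩ := prime_comap e (m := 17355114209215512576) (by norm_num) (by norm_num) (by norm_num) ord5 hQ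
  obtain ⟨ψ, h1, h2⟩ := J7_spec
  obtain ⟨φ, hφ⟩ := exists_equiv_comap e J7
  obtain ⟨r1, r2, r3, r4⟩ := R20_spec
  have h3 : Function.Surjective (ψ.comp φ.toMonoidHom) := h1.comp φ.surjective
  have h4 : ∀ x, x ∈ (ψ.comp φ.toMonoidHom).ker ↔ (φ x : L) ∈ Z3 := fun x => h2 (φ x)
  rw [hc, cent_comap, norm_comap, card_comap_equiv, cent_zpowers, rat5]
  refine ⟨by norm_num, ⟨_, idp_comap e idp5, (ψ.comp φ.toMonoidHom).ker, inferInstance,
    ⟨⟨⟨fun a b => Subtype.ext (φ.injective (Subtype.ext ?_))⟩⟩, fun a ha => φ.injective (Subtype.ext ?_)⟩, ?_,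
    ⟨QuotientGroup.quotientKerEquivOfSurjective _ h3⟩, ns_of (y := φ.symm ⟨_, y8_J7⟩) (m := 4) ?_ fun x hx h => ?_⟩,
    ⟨_, comap_mono r1, comap_mono r2, (card_comap_equiv e _).trans r3, by rw [← comap_inf, r4]⟩, by norm_num⟩
  · rw [coe_mul, coe_mul, map_mul, map_mul]
    exact mem_centralizer_iff.1 (Z3_comm ((h4 _).1 b.2)) _ ((h4 _).1 a.2)
  · rw [map_pow, map_one]
    exact Z3_sq _ ((h4 _).1 ha)
  · rw [← card_Z3, ← card_sub_of Z3_J7, ← card_comap_equiv φ]
    exact congrArg (fun X : Subgroup _ => Nat.card X) (Subgroup.ext h4)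
  · rw [← map_pow]
    exact (h4 _).2 (by rw [map_pow, φ.apply_symm_apply]; exact (y8_pow.symm ▸ s_Z3 : ev R _ ^ 4 ∈ Z3))
  · have := congrArg φ h
    rw [map_pow, map_mul, φ.apply_symm_apply, map_one] at this
    exact y8_ns ((h4 _).1 hx) (congrArg Subtype.val this)

end Cfsg.Agent.S5572
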