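import Cfsg.Statements.S5574
import Cfsg.Agent.J4F.N
import Cfsg.Agent.J4.R
import Cfsg.Agent.Even.Extra

set_option autoImplicit false
open Cfsg

namespace Cfsg.Agent.S5574

/-- Let G be a finite non-abelian simple group of Janko-four type (an involution z whose centralizer H has an extraspecial largest normal 2-subgroup E of order 2^13 containing its centralizer in H, a normal subgroup N ≥ E of H with N/E of order 3 and H/N the automorphism group of M₂₂, and a subgroup P ≤ N of order 3 with C_E(P) = ⟨z⟩, N_H(P) ≠ C_H(P) and P ≤ C_H(P)′). Then G has a special 2-subgroup L of order 2^15 with centre of order 8 whose normalizer M satisfies: M/L is isomorphic to the direct product of the symmetric group of degree 5 and L₃(2); L has no complement in M; M nevertheless contains subgroups isomorphic to the symmetric group of degree 5 and to L₃(2); and M contains the normalizer of some Sylow 5-subgroup and of some Sylow 7-subgroup of G. -/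
theorem result {G : Type*} [Group G] [Finite G] [IsSimpleGroup G] (hG : ¬ IsMulCommutative G) (hJ : Cfsg.IsOfJankoFourType G) :
    ∃ L : Subgroup G, Cfsg.IsSpecial 2 ↥L ∧ Nat.card ↥L = 2 ^ 15 ∧ Nat.card ↥(Subgroup.center ↥L) = 8 ∧
    Nonempty (↥(Subgroup.normalizer (L : Set G)) ⧸ L.subgroupOf (Subgroup.normalizer (L : Set G)) ≃* Equiv.Perm (Fin 5) × Matrix.SpecialLinearGroup (Fin 3) (ZMod 2)) ∧
    (∀ K : Subgroup ↥(Subgroup.normalizer (L : Set G)), ¬ (L.subgroupOf (Subgroup.normalizer (L : Set G))).IsComplement' K) ∧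
    (∃ K₁ : Subgroup G, K₁ ≤ Subgroup.normalizer (L : Set G) ∧ Nonempty (↥K₁ ≃* Equiv.Perm (Fin 5))) ∧
    (∃ K₂ : Subgroup G, K₂ ≤ Subgroup.normalizer (L : Set G) ∧ Nonempty (↥K₂ ≃* Matrix.SpecialLinearGroup (Fin 3) (ZMod 2))) ∧
    (∃ Q : Sylow 5 G, Subgroup.normalizer ((Q : Subgroup G) : Set G) ≤ Subgroup.normalizer (L : Set G)) ∧
    (∃ S : Sylow 7 G, Subgroup.normalizer ((S : Subgroup G) : Set G) ≤ Subgroup.normalizer (L : Set G)) := by
  open CF.J4F CF.Bt CF.Dce.J4 CF.Comp Subgroup in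
  obtain ⟨z, hz⟩ := hJ
  obtain ⟨e, -⟩ := CF.J4.rec_J4 hz
  have hc : Nat.card G = 86775571046077562880 := (Nat.card_congr e.toEquiv).trans card_L
  obtain ⟨h0, h1, ψ, h2, h3⟩ := N_spec
  obtain ⟨a⟩ := comap_equiv e L15
  obtain ⟨φ, hφ⟩ := exists_equiv_comap e (clo R TN)
  have hn : normalizer (L15.comap e.toMonoidHom : Set G) = (clo R TN).comap e.toMonoidHom := by rw [norm_comap, h0]
  let θ := (MulEquiv.subgroupCongr hn).trans φ
  have hθ : ∀ x, (θ x : L) = e x := fun x => hφ _
  have hk : ∀ x, (ψ.comp θ.toMonoidHom) x = 1 ↔ e x ∈ L15 := fun x => by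
    rw [← hθ, ← mem_subgroupOf, ← h3]; rfl
  have hker : (ψ.comp θ.toMonoidHom).ker = (L15.comap e.toMonoidHom).subgroupOf _ := Subgroup.ext hk
  have syl : ∀ {p : ℕ} [Fact p.Prime] {x : L}, p ∈ [5, 7, 23, 29, 31, 37, 43] → orderOf x = p →
      normalizer (zpowers x : Set L) ≤ normalizer (L15 : Set L) → ∃ P : Sylow p G,
        normalizer ((P : Subgroup G) : Set G) ≤ normalizer (L15.comap e.toMonoidHom : Set G) := fun {p} _ x h hx hl => by
    obtain ⟨P, hP⟩ := exists_sylow_zpowers (G := G) (Nat.card_congr e.toEquiv ▸ not_sq_L h)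
      ((e.symm.orderOf_eq x).trans hx)
    refine ⟨P, ?_⟩
    rw [hP, show zpowers (e.symm x) = (zpowers x).comap e.toMonoidHom from
      (MonoidHom.map_zpowers e.symm.toMonoidHom x).symm.trans (map_equiv_eq_comap_symm' _ _), norm_comap, norm_comap]
    exact comap_mono hl
  have : Fact (Nat.Prime 5) := ⟨by norm_num⟩
  have : Fact (Nat.Prime 7) := ⟨by norm_num⟩
  obtain ⟨b1⟩ := comap_equiv e I5
  obtain ⟨b2⟩ := comap_equiv e Kl
  obtain ⟨c1⟩ := I5_iso
  obtain ⟨c2⟩ := Kl_iso
  refine ⟨L15.comap e.toMonoidHom, CF.Even.isSpecial_of_equiv special_L a.symm, (card_comap_equiv e _).trans h1, ?_,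
    ⟨(QuotientGroup.quotientMulEquivOfEq hker.symm).trans
      (QuotientGroup.quotientKerEquivOfSurjective _ (h2.comp θ.surjective))⟩,
    hker ▸ ns15 (ι := e.toMonoidHom.comp (Subgroup.subtype _)) (e.injective.comp Subtype.val_injective) hk
      (h := θ.symm ⟨h5, ev_mem_clo R (by decide +kernel)⟩)
      (y := θ.symm ⟨_, (clo_mono (by decide +kernel) : J7 ≤ _) y8_J7⟩) ?_ ?_,
    ⟨_, hn ▸ comap_mono (clo_mono (by decide +kernel)), ⟨b1.trans c1⟩⟩,
    ⟨_, hn ▸ comap_mono (clo_mono (by decide +kernel)), ⟨b2.trans c2⟩⟩,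
    syl (by decide) ord5 norm5_le, syl (by decide) ord7 norm7_le⟩
  · rw [← CF.Even.map_center_equiv a.symm, card_map_of_injective a.symm.injective, center_L, card_sub_of Z3_L, card_Z3]
  all_goals exact (hθ _).symm.trans (congrArg Subtype.val (θ.apply_symm_apply _))

end Cfsg.Agent.S5574
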