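import Cfsg.Statements.S5576
import Cfsg.Agent.J4F.U
import Cfsg.Agent.J4.R

set_option autoImplicit false
open Cfsg

namespace Cfsg.Agent.S5576

/-- Let G be a finite non-abelian simple group of Janko-four type (an involution z whose centralizer H has an extraspecial largest normal 2-subgroup E of order 2^13 containing its centralizer in H, a normal subgroup N ≥ E of H with N/E of order 3 and H/N the automorphism group of M₂₂, and a subgroup P ≤ N of order 3 with C_E(P) = ⟨z⟩, N_H(P) ≠ C_H(P) and P ≤ C_H(P)′). Then G has exactly two conjugacy classes of elements of order 11. -/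
theorem result {G : Type*} [Group G] [Finite G] [IsSimpleGroup G] (hG : ¬ IsMulCommutative G) (hJ : Cfsg.IsOfJankoFourType G) :
    ∃ x y : G, orderOf x = 11 ∧ orderOf y = 11 ∧ ¬ IsConj x y ∧ ∀ w : G, orderOf w = 11 → IsConj w x ∨ IsConj w y := by
  open CF.J4F in
  obtain ⟨z, hz⟩ := hJ
  obtain ⟨e, -⟩ := CF.J4.rec_J4 hz
  refine ⟨e.symm y11, e.symm t11, (e.symm.orderOf_eq _).trans ord_y, (e.symm.orderOf_eq _).trans ord_t, fun h => ?_,
    fun w hw => ?_⟩
  · exact nc_ty 1 (by simpa only [pow_one, MulEquiv.toMonoidHom_eq_coe, MonoidHom.coe_coe, MulEquiv.apply_symm_apply]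
      using e.toMonoidHom.map_isConj h)
  · refine (conj11 ((e.orderOf_eq w).trans hw)).symm.imp (fun h => ?_) fun h => ?_ <;>
    simpa only [MulEquiv.toMonoidHom_eq_coe, MonoidHom.coe_coe, MulEquiv.symm_apply_apply]
      using e.symm.toMonoidHom.map_isConj h

end Cfsg.Agent.S5576
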