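import Cfsg.Statements.S5577
import Cfsg.Agent.J4F.U
import Cfsg.Agent.J4.R

set_option autoImplicit false
open Cfsg

namespace Cfsg.Agent.S5577

/-- Let G be a finite non-abelian simple group of Janko-four type (an involution z whose centralizer H has an extraspecial largest normal 2-subgroup E of order 2^13 containing its centralizer in H, a normal subgroup N ≥ E of H with N/E of order 3 and H/N the automorphism group of M₂₂, and a subgroup P ≤ N of order 3 with C_E(P) = ⟨z⟩, N_H(P) ≠ C_H(P) and P ≤ C_H(P)′). Then for p = 23, 29, 31, 37 and 43 every Sylow p-subgroup of G is self-centralizing, with normalizer of order 23·22, 29·28, 31·10, 37·12 and 43·14 respectively. -/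
theorem result {G : Type*} [Group G] [Finite G] [IsSimpleGroup G] (hG : ¬ IsMulCommutative G) (hJ : Cfsg.IsOfJankoFourType G) :
    (∀ U : Sylow 23 G, Subgroup.centralizer ((U : Subgroup G) : Set G) = (U : Subgroup G) ∧ Nat.card ↥(Subgroup.normalizer ((U : Subgroup G) : Set G)) = 23 * 22) ∧
    (∀ U : Sylow 29 G, Subgroup.centralizer ((U : Subgroup G) : Set G) = (U : Subgroup G) ∧ Nat.card ↥(Subgroup.normalizer ((U : Subgroup G) : Set G)) = 29 * 28) ∧
    (∀ U : Sylow 31 G, Subgroup.centralizer ((U : Subgroup G) : Set G) = (U : Subgroup G) ∧ Nat.card ↥(Subgroup.normalizer ((U : Subgroup G) : Set G)) = 31 * 10) ∧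
    (∀ U : Sylow 37 G, Subgroup.centralizer ((U : Subgroup G) : Set G) = (U : Subgroup G) ∧ Nat.card ↥(Subgroup.normalizer ((U : Subgroup G) : Set G)) = 37 * 12) ∧
    (∀ U : Sylow 43 G, Subgroup.centralizer ((U : Subgroup G) : Set G) = (U : Subgroup G) ∧ Nat.card ↥(Subgroup.normalizer ((U : Subgroup G) : Set G)) = 43 * 14) := by
  open CF.J4F in
  obtain ⟨z, hz⟩ := hJ
  obtain ⟨e, -⟩ := CF.J4.rec_J4 hz
  have : Fact (Nat.Prime 23) := ⟨by norm_num⟩
  have : Fact (Nat.Prime 29) := ⟨by norm_num⟩
  have : Fact (Nat.Prime 31) := ⟨by norm_num⟩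
  have : Fact (Nat.Prime 37) := ⟨by norm_num⟩
  have : Fact (Nat.Prime 43) := ⟨by norm_num⟩
  exact ⟨syl_big e (m := 86775571046077562880 / 23) (by decide) pr23.1 card_c23 (by decide +kernel) (by norm_num) (by norm_num),
    syl_big e (m := 86775571046077562880 / 29) (by decide) ord29 card_c29 (by decide +kernel) (by norm_num) (by norm_num),
    syl_big e (m := 86775571046077562880 / 31) (by decide) ord31 card_c31 (by decide +kernel) (by norm_num) (by norm_num),
    syl_big e (m := 86775571046077562880 / 37) (by decide) ord37 card_c37 (by decide +kernel) (by norm_num) (by norm_num),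
    syl_big e (m := 86775571046077562880 / 43) (by decide) ord43 card_c43 (by decide +kernel) (by norm_num) (by norm_num)⟩

end Cfsg.Agent.S5577
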