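import Cfsg.Statements.S5579
import Cfsg.Agent.J4F.U
import Cfsg.Agent.J4.R

set_option autoImplicit false
open Cfsg

namespace Cfsg.Agent.S5579

/-- Let G be a finite non-abelian simple group of Janko-four type (an involution z whose centralizer H has an extraspecial largest normal 2-subgroup E of order 2^13 containing its centralizer in H, a normal subgroup N ≥ E of H with N/E of order 3 and H/N the automorphism group of M₂₂, and a subgroup P ≤ N of order 3 with C_E(P) = ⟨z⟩, N_H(P) ≠ C_H(P) and P ≤ C_H(P)′). Then G has exactly 62 conjugacy classes. -/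
theorem result {G : Type*} [Group G] [Finite G] [IsSimpleGroup G] (hG : ¬ IsMulCommutative G) (hJ : Cfsg.IsOfJankoFourType G) :
    Nat.card (ConjClasses G) = 62 := by
  obtain ⟨z, hz⟩ := hJ
  obtain ⟨e, -⟩ := CF.J4.rec_J4 hz
  rw [← CF.J4F.classes]
  refine Nat.card_congr (Quotient.congr e.toEquiv fun a b => ⟨e.toMonoidHom.map_isConj, fun h => ?_⟩)
  have := e.symm.toMonoidHom.map_isConj h
  simp only [MulEquiv.toMonoidHom_eq_coe, MonoidHom.coe_coe, MulEquiv.toEquiv_eq_coe, EquivLike.coe_coe,
    MulEquiv.symm_apply_apply] at this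
  exact this

end Cfsg.Agent.S5579
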