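import Cfsg.Statements.S5582
import Cfsg.Agent.J4F.Mx6
import Cfsg.Agent.J4F.Orb
import Cfsg.Agent.S5570
import Cfsg.Agent.J4.R
import Cfsg.Agent.Even.Extra

set_option autoImplicit false
open Cfsg

namespace Cfsg.Agent.S5582

/-- Let G be a finite non-abelian simple group of Janko-four type (Janko's involution-centralizer conditions; such a group is the fourth Janko group). Then the following subgroups are maximal: the centralizer of the involution z of the hypothesis; the normalizer of every elementary abelian subgroup of order 2^11; the normalizer of every self-centralizing elementary abelian subgroup of order 2^10; the normalizer of some special 2-subgroup of order 2^15 with centre of order 8; and the normalizer of every Sylow p-subgroup for p = 11, 29, 37 and 43. -/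
theorem result {G : Type*} [Group G] [Finite G] [IsSimpleGroup G] (hG : ¬ IsMulCommutative G) (z : G) (hJ : Cfsg.IsOfJankoFourTypeAt z) :
    IsCoatom (Subgroup.centralizer ({z} : Set G)) ∧
    (∀ V : Subgroup G, Cfsg.IsElementaryAbelian 2 V → Nat.card ↥V = 2 ^ 11 → IsCoatom (Subgroup.normalizer (V : Set G))) ∧
    (∀ A : Subgroup G, Cfsg.IsElementaryAbelian 2 A → Nat.card ↥A = 2 ^ 10 → Subgroup.centralizer (A : Set G) = A → IsCoatom (Subgroup.normalizer (A : Set G))) ∧
    (∃ L : Subgroup G, Cfsg.IsSpecial 2 ↥L ∧ Nat.card ↥L = 2 ^ 15 ∧ Nat.card ↥(Subgroup.center ↥L) = 8 ∧ IsCoatom (Subgroup.normalizer (L : Set G))) ∧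
    (∀ U : Sylow 11 G, IsCoatom (Subgroup.normalizer ((U : Subgroup G) : Set G))) ∧ (∀ U : Sylow 29 G, IsCoatom (Subgroup.normalizer ((U : Subgroup G) : Set G))) ∧
    (∀ U : Sylow 37 G, IsCoatom (Subgroup.normalizer ((U : Subgroup G) : Set G))) ∧ (∀ U : Sylow 43 G, IsCoatom (Subgroup.normalizer ((U : Subgroup G) : Set G))) := by
  open CF.J4F CF.Bt CF.Dce.J4 CF.Comp Subgroup in
  obtain ⟨e, he⟩ := CF.J4.rec_J4 hJ
  have k : ∀ (e : G ≃* L) {S : Subgroup L}, IsCoatom (normalizer (S : Set L)) →
      IsCoatom (normalizer (S.comap e.toMonoidHom : Set G)) := fun e S h => by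
    rw [norm_comap]; exact (isCoatom_comap e).2 h
  have syl : ∀ {p m : ℕ} [Fact p.Prime], 86775571046077562880 = p ^ 1 * m → ¬ p ∣ m →
      (∃ x : L, orderOf x = p ∧ IsCoatom (normalizer (zpowers x : Set L))) →
        ∀ U : Sylow p G, IsCoatom (normalizer ((U : Subgroup G) : Set G)) := fun h1 h2 ⟨x, h3, h4⟩ U => by
    obtain ⟨f, hf⟩ := sylow_eq_comap (cz h3) (card_L.trans h1) h2 e U
    exact hf ▸ k f h4
  refine ⟨?_, fun A h1 h2 => ?_, fun A h1 h2 h3 => ?_, ⟨L15.comap e.toMonoidHom, ?_⟩, fun U => ?_,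
    syl (m := 86775571046077562880 / 29) (by norm_num) (by norm_num) max_29,
    syl (m := 86775571046077562880 / 37) (by norm_num) (by norm_num) max_37,
    syl (m := 86775571046077562880 / 43) (by norm_num) (by norm_num) max_43⟩
  · rw [show centralizer {z} = B.comap (e : G →* L) from Subgroup.ext fun g => by
      rw [mem_comap, ← cent_s.1, mem_centralizer_singleton_iff, mem_centralizer_singleton_iff, ← he, MonoidHom.coe_coe,
        ← map_mul, ← map_mul, e.injective.eq_iff]]
    exact (isCoatom_comap e).2 max_B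
  · obtain ⟨f, rfl⟩ := exists_V e h1 h2
    exact k f (normV ▸ max_H.isCoatom_top)
  · obtain ⟨a1, a2, a3⟩ := A10_spec
    obtain ⟨-, b1, b2⟩ := S5570.result hG ⟨z, hJ⟩
    have c1 : IsElementaryAbelian 2 (A10.comap e.toMonoidHom) := ⟨⟨⟨fun x y => Subtype.ext (e.injective ((map_mul e _ _).trans
      ((congrArg Subtype.val (a1.1.1.1 ⟨_, x.2⟩ ⟨_, y.2⟩)).trans (map_mul e _ _).symm)))⟩⟩, fun x hx => e.injective (by
        simpa using a1.2 _ hx)⟩
    have c2 := (card_comap_equiv e _).trans a2
    have c3 := (cent_comap e A10).trans (congrArg _ a3)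
    obtain ⟨⟨K, d1, d2, d3, ⟨d4⟩⟩, -⟩ := b2 _ c1 c2 c3
    have c4 := CF.Loc.card_sup_mul_card_inf' d1
    rw [sup_comm, inf_comm, d2, d3, card_bot, mul_one, c2, Nat.card_congr d4.toEquiv, CF.Held.card_L, norm_comap,
      card_comap_equiv] at c4
    obtain ⟨g, rfl⟩ := b1 _ A c1 c2 c3 h1 h2 h3
    rw [map_equiv_eq_comap_symm', comap_comap]
    exact k ((MulAut.conj g).symm.trans e) (max_A c4)
  · obtain ⟨a⟩ := comap_equiv e L15
    refine ⟨CF.Even.isSpecial_of_equiv special_L a.symm, (card_comap_equiv e _).trans N_spec.2.1, ?_, k e max_NL⟩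
    rw [← CF.Even.map_center_equiv a.symm, card_map_of_injective a.symm.injective, center_L, card_sub_of Z3_L, card_Z3]
  · obtain ⟨f, hf⟩ := sylow_eq_comap card_U.1 (card_L.trans (show _ = 11 ^ 3 * 65195770883604480 by norm_num))
      (by norm_num) e U
    exact hf ▸ k f max_11

end Cfsg.Agent.S5582
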