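import Cfsg.Statements.S5584
import Cfsg.Agent.MonU.E3
import Cfsg.Agent.Mon.Cert

set_option autoImplicit false
open Cfsg

namespace Cfsg.Agent.S5584

/-- Let G be a finite non-abelian simple group with an involution τ whose centralizer C has generalized Fitting subgroup an extraspecial 2-group Q of order 2^25 of plus type (Q contains an elementary abelian subgroup of order 2^13), with C/Q isomorphic to the first Conway group, and suppose some conjugate of τ other than τ lies in Q. Then G is isomorphic to the Monster. -/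
theorem result {G : Type*} [Group G] [Finite G] [IsSimpleGroup G] (hG : ¬ IsMulCommutative G) (τ : G) (Q : Subgroup ↥(Subgroup.centralizer ({τ} : Set G))) [Q.Normal] (hS : Cfsg.IsExtraspecialCentralizerSetting τ Q 12) (hplus : ∃ E : Subgroup ↥Q, Cfsg.IsElementaryAbelian 2 E ∧ Nat.card ↥E = 2 ^ 13) (hCo : Cfsg.Spor.IsoCo1 (↥(Subgroup.centralizer ({τ} : Set G)) ⧸ Q)) :
    Cfsg.Spor.IsoM G := by
  obtain ⟨ρ, h, rfl, e⟩ := CF.MonU.exists_Ro' (CF.Known.Mon.lq_of_setting hS) hS.2.2.2.1 hCo
  obtain ⟨g, a, b⟩ := hS.2.2.2.2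
  obtain ⟨τ, O⟩ := h.exists_out CF.Mon.certs.c ⟨g, e ▸ CF.Known.Mon.mem_map_c1.2 a, b⟩
  exact CF.Mon.certs.equivM O

end Cfsg.Agent.S5584
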