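import Cfsg.Statements.S5586
import Cfsg.Agent.MonA.E

set_option autoImplicit false
open Cfsg

namespace Cfsg.Agent.S5586

open Subgroup CF.MonA CF.MonU CF.LX CF.Loc Function

theorem exists_rc {G : Type*} [Group G] {C : Subgroup G} [Finite C]
    (hQ : IsExtraspecial 2 ↥((pCore 2 C).map C.subtype)) (hQc : Nat.card (pCore 2 C) = 2 ^ 25)
    (hcc : C ⊓ centralizer (((pCore 2 C).map C.subtype) : Set G) ≤ (pCore 2 C).map C.subtype)
    (e : ↥C ⧸ pCore 2 ↥C ≃* Spor.Co1) : ∃ ρ, Rc ρ C := by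
  obtain ⟨z, x⟩ := exists_ex (CF.Even.isExtraspecial_of_equiv hQ
    ((pCore 2 C).equivMapOfInjective _ (subtype_injective _)).symm)
  have t : ∀ c : C, c ∈ centralizer ({z} : Set C) := fun c => x.norm_le ((normalizer_eq_top _).ge (mem_top c))
  obtain ⟨ρ, h, rfl, -⟩ := exists_Ro ⟨x, fun c hc => by
      obtain ⟨d, a, b⟩ := hcc (x := c.1) ⟨c.2, by rintro _ ⟨q, a, rfl⟩; exact congrArg Subtype.val (hc q a)⟩
      exact Subtype.ext b ▸ a, fun c _ => (normalizer_eq_top _).ge (mem_top c)⟩ hQc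
    (e.toMonoidHom.comp ((QuotientGroup.mk' _).comp (Subgroup.subtype _)))
    (e.surjective.comp ((QuotientGroup.mk'_surjective _).comp fun c => ⟨⟨c, t c⟩, rfl⟩))
    fun c => (map_eq_one_iff e e.injective).trans (QuotientGroup.eq_one_iff _)
  refine ⟨C.subtype.comp ρ, fun k => h.x_ne (Subtype.ext k), ?_, h.kp.imp (congrArg Subtype.val) (congrArg Subtype.val)⟩
  rw [MonoidHom.range_comp, ← h.cx, (eq_top_iff' _).2 t, ← MonoidHom.range_eq_map, range_subtype]

theorem fin {G : Type*} [Group G] {C N : Subgroup G} [Finite C] (h : C.relIndex N ≠ 0) : Finite N :=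
  (finite_iff_finite_and_finiteIndex (H := C.subgroupOf N)).2
    ⟨Finite.of_injective (fun x => (⟨x.1.1, x.2⟩ : C)) fun _ _ k =>
      Subtype.ext (Subtype.ext (congrArg Subtype.val k :)), ⟨h⟩⟩

/-- The Monster is the only group generated by three subgroups C, N, L of the following kind: the largest normal 2-subgroup of C is extraspecial of order 2^25 of plus type, contains its centralizer in C, and has quotient C modulo it isomorphic to the first Conway group; N modulo its largest normal 2-subgroup is isomorphic to the direct product of the symmetric group of degree 3 and M₂₄; L modulo its largest normal 2-subgroup is the direct product of a normal subgroup isomorphic to L₃(2) and a normal subgroup B of order 2160 having a normal subgroup T of order 3 with B/T the symmetric group of degree 6, with T centralized by a subgroup of index 2 of B and with the commutator subgroup of B perfect of order 1080 (the triple cover of the alternating group of degree 6 extended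 by an automorphism); and the indices [N : N ∩ C] = 3, [L : L ∩ N] = [L : L ∩ C] = 7 and [L : L ∩ N ∩ C] = 21. -/
theorem result {G : Type*} [Group G] (C N L : Subgroup G) (hgen : C ⊔ N ⊔ L = ⊤)
    (hQ : Cfsg.IsExtraspecial 2 ↥((Cfsg.pCore 2 ↥C).map C.subtype)) (hQc : Nat.card ↥((Cfsg.pCore 2 ↥C).map C.subtype) = 2 ^ 25)
    (hplus : ∃ E : Subgroup G, E ≤ ((Cfsg.pCore 2 ↥C).map C.subtype) ∧ Cfsg.IsElementaryAbelian 2 E ∧ Nat.card ↥E = 2 ^ 13)
    (hcc : C ⊓ Subgroup.centralizer (((Cfsg.pCore 2 ↥C).map C.subtype) : Set G) ≤ ((Cfsg.pCore 2 ↥C).map C.subtype))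
    (hCo : Cfsg.Spor.IsoCo1 (↥C ⧸ Cfsg.pCore 2 ↥C))
    (hN : Nonempty (↥N ⧸ Cfsg.pCore 2 ↥N ≃* Equiv.Perm (Fin 3) × ↥Cfsg.M24))
    (hL : ∃ A B : Subgroup (↥L ⧸ Cfsg.pCore 2 ↥L), A.Normal ∧ B.Normal ∧ A ⊓ B = ⊥ ∧ A ⊔ B = ⊤ ∧
      Nonempty (↥A ≃* Matrix.SpecialLinearGroup (Fin 3) (ZMod 2)) ∧ Nat.card ↥B = 2160 ∧
      ∃ (T : Subgroup ↥B) (_ : T.Normal), Nat.card ↥T = 3 ∧ Nonempty (↥B ⧸ T ≃* Equiv.Perm (Fin 6)) ∧
        (Subgroup.centralizer (T : Set ↥B)).index = 2 ∧ Nat.card ↥(commutator ↥B) = 1080 ∧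
        ⁅commutator ↥B, commutator ↥B⁆ = commutator ↥B)
    (hNC : C.relIndex N = 3) (hLN : N.relIndex L = 7) (hLC : C.relIndex L = 7) (hLNC : (N ⊓ C).relIndex L = 21) :
    Cfsg.Spor.IsoM G := by
  rw [card_map_of_injective (subtype_injective _)] at hQc
  obtain ⟨e⟩ := hCo
  haveI : Finite Spor.Co1 := Nat.finite_of_card_ne_zero (CF.Leech.card_Co1 ▸ by decide)
  haveI := Nat.finite_of_card_ne_zero (hQc.trans_ne (by decide))
  haveI := Finite.of_equiv _ e.toEquiv.symm
  haveI := Finite.of_subgroup_quotient (pCore 2 C)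
  haveI := fin (hNC.trans_ne (by decide))
  haveI := fin (hLC.trans_ne (by decide))
  obtain ⟨ρ, h⟩ := exists_rc hQ hQc hcc e
  obtain ⟨f⟩ := hN
  obtain ⟨A, B, nA, nB, d, s, ⟨g⟩, c, -⟩ := hL
  have cp : A.IsComplement' B := isComplement'_of_disjoint_and_mul_eq_univ
    (disjoint_iff.2 d) (by rw [← normal_mul, s, coe_top])
  let β := (g.toMonoidHom.comp cp.QuotientMulEquiv.toMonoidHom).comp (QuotientGroup.mk' B)
  have kβ : β.ker = B := by
    rw [← MonoidHom.comap_ker, (MonoidHom.ker_eq_bot_iff _).2 (g.injective.comp cp.QuotientMulEquiv.injective),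
      MonoidHom.comap_bot, QuotientGroup.ker_mk']
  obtain ⟨k, hk⟩ := (isPGroup_pCore 2 L).exists_card_eq
  have cα : Nat.card (β.comp (QuotientGroup.mk' _)).ker = 2160 * 2 ^ k := by
    rw [← MonoidHom.comap_ker, kβ, ← c, ← hk]
    exact (Nat.card_congr (QuotientGroup.preimageMkEquivSubgroupProdSet _ _)).trans (by rw [Nat.card_prod, mul_comm]; rfl)
  let π := f.toMonoidHom.comp (QuotientGroup.mk' _)
  obtain ⟨t, a, b⟩ := exists_ab ((MonoidHom.fst _ _).comp π) ((MonoidHom.snd _ _).comp π) (β.comp (QuotientGroup.mk' _))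
    (fun a b => (f.surjective.comp (QuotientGroup.mk'_surjective _) (a, b)).imp fun n e =>
      ⟨congrArg Prod.fst e, congrArg Prod.snd e⟩)
    ((isPGroup_pCore 2 N).to_le fun n hn => (QuotientGroup.eq_one_iff _).1
      ((map_eq_one_iff f f.injective).1 (Prod.ext hn.1 hn.2)))
    (((g.surjective.comp cp.QuotientMulEquiv.surjective).comp (QuotientGroup.mk'_surjective _)).comp
      (QuotientGroup.mk'_surjective _))
    (by
      rw [cα, (by norm_num : Nat.Prime 7).dvd_mul]
      rintro (k | k)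
      exacts [absurd k (by decide), absurd ((by norm_num : Nat.Prime 7).dvd_of_dvd_pow k) (by decide)])
    (cα ▸ Dvd.dvd.mul_right (by decide) _) hNC hLN hLC hLNC
  exact h.main b hgen

end Cfsg.Agent.S5586
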