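import Cfsg.Statements.S5587
import Cfsg.Agent.Bv.Q
import Cfsg.Agent.Bv.U2

set_option autoImplicit false
open Cfsg

namespace Cfsg.Agent.S5587

open CF.Bv CF.Mon CF.Mon.G Lab Module

theorem irr {K V : Type*} [Field K] [AddCommGroup V] [Module K V] [FiniteDimensional K V] (h2 : (2 : K) ≠ 0)
    (σ : Spor.BabyMonster →* End K V) (hx : σ (jB (pauli xc)) ≠ 1) (hn : finrank K V = 4371)
    (U : Submodule K V) (hU : ∀ g, ∀ v ∈ U, σ g v ∈ U) : U = ⊥ ∨ U = ⊤ := by
  have d := U.finrank_quotient_add_finrank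
  rcases fr_eq (W := U) ⟨⟨fun g => (σ g).restrict (hU g), LinearMap.ext fun v => Subtype.ext (by
      simp [LinearMap.restrict_apply])⟩, fun a b => LinearMap.ext fun v => Subtype.ext
      (LinearMap.congr_fun (map_mul σ a b) v)⟩ h2 (by omega) with a | a
  swap
  · exact .inr (Submodule.eq_top_of_finrank_eq (a.trans hn.symm))
  rcases fr_eq (W := V ⧸ U) ⟨⟨fun g => U.mapQ U (σ g) (hU g), U.linearMap_qext (LinearMap.ext fun v => by simp)⟩,
    fun a b => U.linearMap_qext (LinearMap.ext fun v => by simp)⟩ h2 (by omega) with b | b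
  swap
  · exact .inl (Submodule.finrank_eq_zero.1 (by omega))
  refine absurd (LinearMap.ext fun v => ?_) hx
  have k : σ (jB (pauli xc)) v - v ∈ U := (Submodule.Quotient.eq U).1 (LinearMap.congr_fun b (U.mkQ v))
  have l : σ (jB (pauli xc)) (σ (jB (pauli xc)) v - v) = σ (jB (pauli xc)) v - v :=
    congrArg Subtype.val (LinearMap.congr_fun a ⟨_, k⟩)
  rw [map_sub, show σ _ (σ _ v) = v from (mkRp σ h2).xx v, ← neg_sub] at l
  exact sub_eq_zero.1 (eq_zero_of_neg h2 l.symm)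

/-- Over any field F whose characteristic is not 2, the Baby Monster (the finitely presented group of the definitions) has a faithful linear representation of degree 4371; every such representation is irreducible over F, and any two are equivalent. -/
theorem result (F : Type*) [Field F] (hF : ringChar F ≠ 2) :
    (∃ ρ : Cfsg.Spor.BabyMonster →* GL (Fin 4371) F, Function.Injective ρ) ∧
    ∀ ρ : Cfsg.Spor.BabyMonster →* GL (Fin 4371) F, Function.Injective ρ →
      (∀ W : Submodule F (Fin 4371 → F), (∀ g : Cfsg.Spor.BabyMonster, ∀ v ∈ W, (ρ g : Matrix (Fin 4371) (Fin 4371) F).mulVec v ∈ W) → W = ⊥ ∨ W = ⊤) ∧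
      ∀ ρ' : Cfsg.Spor.BabyMonster →* GL (Fin 4371) F, Function.Injective ρ' →
        ∃ P : GL (Fin 4371) F, ∀ g : Cfsg.Spor.BabyMonster, ρ' g = P * ρ g * P⁻¹ := by
  have h2 : (2 : F) ≠ 0 := Ring.two_ne_zero hF
  refine ⟨exists_rep F h2, fun ρ h => ⟨fun W k => irr h2 (toEnd ρ) (toEnd_x h) (by simp) W
    fun g v x => toEnd_apply ρ g v ▸ k g v x, fun ρ' h' => ?_⟩⟩
  obtain ⟨A⟩ := exists_FrB h h2
  obtain ⟨A'⟩ := exists_FrB h' h2
  obtain ⟨Φ, m⟩ := exists_Mt A A'
  let P := Matrix.GeneralLinearGroup.toLin.symm (LinearMap.GeneralLinearGroup.ofLinearEquiv Φ)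
  have hP : ∀ v, (P : Matrix (Fin 4371) (Fin 4371) F).mulVec v = Φ v := fun v =>
    (Matrix.toLinAlgEquiv'_apply ..).symm.trans
      (LinearMap.congr_fun (Matrix.toLinAlgEquiv'.apply_symm_apply Φ.toLinearMap) v)
  have k : ∀ g, (∀ v, Φ (toEnd ρ g v) = toEnd ρ' g (Φ v)) → ρ' g = P * ρ g * P⁻¹ := fun g e =>
    eq_mul_inv_of_mul_eq (Units.ext (Matrix.toLin'.injective (LinearMap.ext fun v => by
      rw [Matrix.toLin'_apply, Matrix.toLin'_apply, Units.val_mul, Units.val_mul, ← Matrix.mulVec_mulVec,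
        ← Matrix.mulVec_mulVec, hP, hP, ← toEnd_apply, ← toEnd_apply, e])))
  exact ⟨P, genB (S := ρ'.eqLocus ((MulAut.conj P).toMonoidHom.comp ρ)) (fun γ x => k _ (m.R γ x)) (k _ m.T)⟩

end Cfsg.Agent.S5587
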