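import Cfsg.Statements.S5589
import Cfsg.Agent.Mon.Cert

set_option autoImplicit false
open Cfsg

namespace Cfsg.Agent.S5589

/-- The presented Bimonster is the wreath product of the Monster by a group of order 2: its commutator subgroup has index 2 and is isomorphic to the direct product of two copies of the Monster (the Monster being realised as in the definitions inside that commutator subgroup), and the Bimonster has trivial centre. -/
theorem result :
    (commutator Cfsg.Spor.Bimonster).index = 2 ∧ Subgroup.center Cfsg.Spor.Bimonster = ⊥ ∧
    Nonempty (↥(commutator Cfsg.Spor.Bimonster) ≃* Cfsg.Spor.Monster × Cfsg.Spor.Monster) := by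
  exact let ⟨_, _, h⟩ := CF.Mon.certs.monOut; h.bimonster

end Cfsg.Agent.S5589
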