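import Cfsg.Statements.S5590
import Cfsg.Agent.Bv.Q
import Cfsg.Agent.Bv.Y3

set_option autoImplicit false
open Cfsg

namespace Cfsg.Agent.S5590

/-- Let F be a field of characteristic neither 2 nor 3 and ρ a faithful linear representation of the Baby Monster of degree 4371 over F. Then every extension of the Baby Monster by the corresponding module splits: if E is a group with an abelian normal subgroup A, an identification of E/A with the Baby Monster, and an additive identification of A with F^4371 under which conjugation by g ∈ E acts as ρ of the image of g, then A has a complement in E. -/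
theorem result (F : Type*) [Field F] (hF2 : ringChar F ≠ 2) (hF3 : ringChar F ≠ 3) (ρ : Cfsg.Spor.BabyMonster →* GL (Fin 4371) F) (hρ : Function.Injective ρ)
    (E : Type*) [Group E] (A : Subgroup E) [A.Normal] (e : E ⧸ A ≃* Cfsg.Spor.BabyMonster)
    (φ : Additive ↥A ≃+ (Fin 4371 → F))
    (hφ : ∀ (g : E) (a b : ↥A), (b : E) = g * a * g⁻¹ → φ (Additive.ofMul b) =
      (ρ (e (QuotientGroup.mk g)) : Matrix (Fin 4371) (Fin 4371) F).mulVec (φ (Additive.ofMul a))) :
    ∃ K : Subgroup E, A.IsComplement' K := by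
  open CF.Bv CF.Mon CF.Mon.G Lab in
  have h2 : (2 : F) ≠ 0 := Ring.two_ne_zero hF2
  have h3 : (3 : F) ≠ 0 := fun h => hF3 (CharP.ringChar_of_prime_eq_zero Nat.prime_three (by exact_mod_cast h))
  let p := e.toMonoidHom.comp (QuotientGroup.mk' A)
  have pk : ∀ g, p g = 1 ↔ g ∈ A := fun g => e.map_eq_one_iff.trans (QuotientGroup.eq_one_iff g)
  let X : Xt F (Fin 4371 → F) E Spor.BabyMonster Gt :=
    { ι := fun w => (φ.symm w).toMul, p := p, σ := toEnd ρ, j := jB, P := PA
      add := fun v w => by rw [map_add]; rfl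
      inj := fun v w h => φ.symm.injective (Subtype.ext h)
      ker := fun g => (pk g).trans ⟨fun h => ⟨φ (.ofMul ⟨g, h⟩), by rw [φ.symm_apply_apply]; rfl⟩,
        fun ⟨w, h⟩ => h ▸ (φ.symm w).toMul.2⟩
      sur := e.surjective.comp (QuotientGroup.mk'_surjective A)
      act := fun g w => by
        have := hφ g (φ.symm w).toMul ⟨_, Subgroup.Normal.conj_mem inferInstance _ (φ.symm w).toMul.2 g⟩ rfl
        rw [ofMul_toMul, φ.apply_symm_apply, ← toEnd_apply] at this
        exact (congrArg (fun w => ((φ.symm w).toMul : E)) this).symm.trans (by rw [φ.symm_apply_apply]; rfl) |>.symm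
      jm := fun a x b y => jB_mul x y }
  have h : Xb (mkRp (toEnd ρ) h2) X tBB :=
    ⟨rfl, fun _ _ => rfl, rfl, jB_kap, fun a x b y => jB_th x y, tBB_cube, tBB_odd, tBB_rel, h3⟩
  obtain ⟨Fr⟩ := exists_FrB hρ h2
  obtain ⟨r, hr⟩ := h.spA Fr
  obtain ⟨s, s1, s2, s3, s4, s5⟩ := h.lift Fr hr
  obtain ⟨ψ, a, b⟩ := presB ⟨⟨hr.1, kap_PA, h.sp_kap kap_PA hr⟩, s2, s3, s4, s5⟩ (by
    obtain ⟨w, e⟩ := (X.ker _).1 ((hr.2 _ tA_mem_PA).trans jB_tA)
    have := hr.1 _ tA_mem_PA _ tA_mem_PA
    rw [← map_mul, tA_sq, map_one, hr.one, ← e, ← X.add, ← X.i0, X.inj.eq_iff] at this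
    rw [← e, eq_zero_of_neg h2 (eq_neg_of_add_eq_zero_left this.symm), X.i0])
  have k : ∀ g, p (ψ g) = g := genB (S := (p.comp ψ).eqLocus (MonoidHom.id _))
    (fun γ x => (congrArg p (a γ x)).trans (hr.2 γ x)) ((congrArg p b).trans s1)
  refine ⟨ψ.range, Subgroup.isComplement'_of_disjoint_and_mul_eq_univ (Subgroup.disjoint_def.2 ?_)
    (Set.eq_univ_of_forall fun g => ⟨g * (ψ (p g))⁻¹, (pk _).1 (by simp [k]), _, ⟨p g, rfl⟩, by simp⟩)⟩
  rintro _ x ⟨g, rfl⟩
  rw [← k g, (pk _).2 x, map_one]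

end Cfsg.Agent.S5590
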