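import Cfsg.Statements.S5594
import Cfsg.Agent.Leech.Co0

set_option autoImplicit false
open Cfsg
open scoped Pointwise

set_option maxRecDepth 1000000

namespace Cfsg.Agent.S5594

/-- The automorphism group of the Leech lattice contains the negation map, and the subgroup of order 2 it generates has no complement: the automorphism group is a non-split extension of its quotient by that subgroup (it is not the direct product of a group of order 2 with the first Conway group). -/
theorem result :
    ∃ n : ↥Cfsg.Co0, (∀ v : ↥Cfsg.leechLattice, ((n • v : ↥Cfsg.leechLattice) : Cfsg.GolayPt → ℤ) = -(v : Cfsg.GolayPt → ℤ)) ∧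
    ∀ K : Subgroup ↥Cfsg.Co0, ¬ (Subgroup.zpowers n).IsComplement' K := by
  open CF.Leech CF.Comp in
  refine ⟨negCo, fun v => rfl, fun K hK => ?_⟩
  have hc : Nat.card (Subgroup.zpowers CF.Leech.negCo) = 2 := by
    rw [Nat.card_zpowers]
    exact orderOf_eq_prime (by rw [sq, CF.Leech.negCo_mul_self]) CF.Leech.negCo_ne_one
  have h2 : K.index = 2 := hK.index_eq_card.trans hc
  have hd := CF.Comp.Mat.sqD_mem
  obtain ⟨σ, hσ, e⟩ := CF.Comp.Mat.M24_dodecads hd
    (o' := (Spor.squareDodecad)ᶜ) ⟨CF.Leech.compl_mem_CS hd.1, by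
      rw [Finset.card_compl, hd.2, CF.Leech.card_pts]⟩
  have h3 : CF.Leech.negCo = CF.Leech.mono hσ CF.Leech.empty_mem_CS *
      (CF.Leech.mono M24.one_mem hd.1 * ((CF.Leech.mono hσ CF.Leech.empty_mem_CS)⁻¹ *
        CF.Leech.mono M24.one_mem hd.1)) := by
    rw [← CF.Leech.mono_neg, CF.Leech.mono_inv, CF.Leech.mono_mul, CF.Leech.mono_mul,
      CF.Leech.mono_mul]
    refine CF.Leech.mono_congr _ _ _ _ (by simp) ?_
    rw [show ∀ s : Finset GolayPt, (1 : Equiv.Perm GolayPt) • s = s from one_smul _, CF.Leech.smul_symmDiff, CF.Leech.smul_symmDiff, smul_inv_smul, smul_inv_smul, e]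
    ext i
    simp [Finset.mem_symmDiff]
    tauto
  have h4 : CF.Leech.negCo ∈ K := by
    rw [h3]
    simp only [Subgroup.mul_mem_iff_of_index_two h2, inv_mem_iff]
    tauto
  exact CF.Leech.negCo_ne_one
    (Subgroup.disjoint_def.1 hK.disjoint (Subgroup.mem_zpowers _) h4)

end Cfsg.Agent.S5594
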