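import Cfsg.Statements.S5599
import Cfsg.Agent.Leech.M24c

set_option autoImplicit false
open scoped Pointwise
open Cfsg

set_option maxRecDepth 1000000

namespace Cfsg.Agent.S5599

open CF.Comp CF.Comp.Mat CF.Bt CF.Leech CF.Leech.M MulAction

noncomputable def CT : Tr := (.cons [] 0 1 (.op 2 0 (.xor 0 1 (.focus 0 (.cons [] 0 1 (.focus 1 (.xor 2 0 (.focus 0 (.cons [] 0 1 (.op 7 0 (.op 10 0 (.focus 0 (.cons [] 0 1 (.focus 4 (.focus 6 (.xor 7 0 (.focus 0 (.xor 8 4 (.focus 0 (.xor 9 4 (.focus 0 (.op 7 3 (.op 7 0 (.op 13 0 (.focus 0 (.cons [] 0 1 (.op 10 7 (.op 7 0 (.focus 0 (.cons [] 0 1 (.op 7 3 (.focus 0 (.cons [] 0 1 .triv .nil))) .nil)))) .nil))))))))))))) .nil)))) (.cons [3] 0 0 (.op 4 0 (.op 8 0 (.and 1 0 (.dead0 0)))) (.cons [4] 0 0 (.op 4 0 (.op 8 0 (.and 1 0 (.dead0 0)))) (.cons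 [1] 0 0 (.op 8 0 (.and 1 0 (.dead0 0))) (.cons [2] 0 0 (.op 4 0 (.op 8 0 (.and 1 0 (.dead0 0)))) (.cons [3, 2] 0 0 (.op 4 0 (.op 8 0 (.and 1 0 (.dead0 0)))) (.cons [8, 2] 0 0 (.op 4 0 (.op 8 0 (.and 1 0 (.dead0 0)))) (.cons [3, 3] 0 0 (.op 4 0 (.op 8 0 (.and 1 0 (.dead0 0)))) (.cons [7, 1] 0 0 (.op 4 0 (.op 8 0 (.and 1 0 (.dead0 0)))) (.cons [2, 4] 0 0 (.op 4 0 (.op 8 0 (.and 1 0 (.dead0 0)))) (.cons [6, 3] 0 0 (.op 4 0 (.op 8 0 (.and 1 0 (.dead0 0)))) (.cons [1, 3] 0 0 (.op 4 0 (.op 8 0 (.and 1 0 (.dead0 0)))) (.cons [5, 1] 0 0 (.op 8 0 (.and 1 0 (.dead0 0))) (.cons [4, 4] 0 0 (.op 5 0 (.and 1 0 (.dead0 0))) (.cons [10, 4] 0 0 (.op 4 0 (.op 8 0 (.and 1 0 (.dead0 0)))) (.cons [5, 4] 0 0 (.op 4 0 (.op 8 0 (.and 1 0 (.dead0 0)))) (.cons [12, 3] 0 0 (.op 4 0 (.op 8 0 (.and 1 0 (.dead0 0))))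 (.cons [2, 2] 0 0 (.op 4 0 (.op 8 0 (.and 1 0 (.dead0 0)))) (.cons [1, 4] 0 0 (.op 4 0 (.op 8 0 (.and 1 0 (.dead0 0)))) (.cons [9, 1] 0 0 (.op 4 0 (.op 8 0 (.and 1 0 (.dead0 0)))) (.cons [6, 3, 3] 0 0 (.op 10 0 (.op 7 1 (.and 1 0 (.dead0 0)))) (.cons [1, 3, 2] 0 0 (.op 4 0 (.op 8 0 (.and 1 0 (.dead0 0)))) .nil))))))))))))))))))))))))) (.cons [1] 0 0 (.op 5 0 (.and 1 0 (.dead0 0))) (.cons [3] 0 0 (.op 5 0 (.and 1 0 (.dead0 0))) (.cons [2] 0 0 (.op 5 0 (.and 1 0 (.dead0 0))) (.cons [1, 1] 0 0 (.op 5 0 (.and 1 0 (.dead0 0))) (.cons [4, 1] 0 0 (.op 5 0 (.and 1 0 (.dead0 0))) (.cons [1, 3] 0 0 (.op 5 0 (.and 1 0 (.dead0 0))) (.cons [2, 2] 0 0 (.op 5 0 (.and 1 0 (.dead0 0))) (.cons [1, 1, 1] 0 0 (.op 5 0 (.and 1 0 (.dead0 0))) (.cons [4, 2, 2] 0 0 (.op 5 0 (.and 1 0 (.dead0 0))) (.cons [2,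 4, 1] 0 0 (.op 5 0 (.and 1 0 (.dead0 0))) (.cons [1, 1, 3] 0 0 (.op 8 0 (.and 1 0 (.dead0 0))) (.cons [3, 1, 1] 0 0 (.op 5 0 (.and 1 0 (.dead0 0))) (.cons [2, 2, 2] 0 0 (.op 5 0 (.and 1 0 (.dead0 0))) (.cons [1, 1, 1, 1] 0 0 (.op 5 0 (.and 1 0 (.dead0 0))) (.cons [1, 1, 1, 3] 0 0 (.op 5 0 (.and 1 0 (.dead0 0))) (.cons [3, 2, 2, 2] 0 0 (.op 5 0 (.and 1 0 (.dead0 0))) (.cons [2, 3, 1, 1] 0 0 (.op 5 0 (.and 1 0 (.dead0 0))) (.cons [2, 2, 2, 2] 0 0 (.op 5 0 (.and 1 0 (.dead0 0))) (.cons [1, 1, 1, 1, 1] 0 0 (.op 5 0 (.and 1 0 (.dead0 0))) (.cons [2, 2, 2, 2, 2] 0 0 (.op 5 0 (.and 1 0 (.dead0 0))) (.cons [1, 1, 1, 1, 1, 1] 0 0 (.op 5 0 (.and 1 0 (.dead0 0))) (.cons [1, 1, 1, 1, 1, 1, 1] 0 0 (.op 5 0 (.and 1 0 (.dead0 0))) .nil)))))))))))))))))))))))))) (.cons [3] 0 0 (.op 5 0 (.and 1 0 (.dead0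 0))) (.cons [4] 0 0 (.op 5 0 (.and 1 0 (.dead0 0))) (.cons [4, 4] 0 0 (.op 5 0 (.and 1 0 (.dead0 0))) (.cons [2, 3] 0 0 (.op 5 0 (.and 1 0 (.dead0 0))) (.cons [1, 3] 0 0 (.op 5 0 (.and 1 0 (.dead0 0))) (.cons [2, 4] 0 0 (.op 5 0 (.and 1 0 (.dead0 0))) (.cons [3, 3] 0 0 (.op 5 0 (.and 1 0 (.dead0 0))) (.cons [3, 2, 4] 0 0 (.op 5 0 (.and 1 0 (.dead0 0))) (.cons [4, 2, 4] 0 0 (.op 5 0 (.and 1 0 (.dead0 0))) (.cons [3, 2, 3] 0 0 (.op 5 0 (.and 1 0 (.dead0 0))) (.cons [2, 4, 4] 0 0 (.op 5 0 (.and 1 0 (.dead0 0))) (.cons [1, 4, 4] 0 0 (.op 5 0 (.and 1 0 (.dead0 0))) (.cons [3, 1, 3] 0 0 (.op 5 0 (.and 1 0 (.dead0 0))) (.cons [2, 2, 3] 0 0 (.op 8 0 (.and 1 0 (.dead0 0))) (.cons [4, 4, 4] 0 0 (.op 5 0 (.and 1 0 (.dead0 0))) (.cons [1, 3, 3] 0 0 (.op 5 0 (.and 1 0 (.dead0 0))) (.cons [4, 2, 3]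 0 0 (.op 5 0 (.and 1 0 (.dead0 0))) (.cons [4, 1, 4, 4] 0 0 (.op 2 0 (.xor 0 1 (.focus 0 (.op 5 0 (.focus 0 (.cons [2, 2] 0 0 (.xor 3 1 (.focus 0 (.cons [] 0 0 (.op 4 0 (.op 8 0 (.and 1 0 (.dead0 0)))) (.cons [1] 0 0 (.op 4 0 (.op 8 0 (.and 1 0 (.dead0 0)))) (.cons [2] 0 0 (.op 4 0 (.op 8 0 (.and 1 0 (.dead0 0)))) (.cons [3] 0 0 (.op 4 0 (.op 8 0 (.and 1 0 (.dead0 0)))) (.cons [4] 0 0 (.op 4 0 (.op 8 0 (.and 1 0 (.dead0 0)))) (.cons [4, 4] 0 0 (.focus 1 (.op 7 0 (.op 10 0 (.focus 0 (.cons [7, 1] 0 0 (.focus 4 (.xor 8 0 (.focus 0 (.xor 9 4 (.focus 0 (.xor 10 4 (.focus 0 (.op 7 3 (.op 7 0 (.op 13 0 (.focus 0 (.cons [1, 1] 0 0 (.focus 11 (.op 10 7 (.op 7 0 (.focus 0 (.cons [1, 8, 3] 0 0 (.base (nat_lit 294976) (.op 4 14 (.and 1 0 (.dead0 0)))) .nil))))) .nil)))))))))))) .nil))))) (.cons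 [9, 1] 0 0 (.op 4 0 (.op 8 0 (.and 1 0 (.dead0 0)))) (.cons [1, 3] 0 0 (.op 4 0 (.op 8 0 (.and 1 0 (.dead0 0)))) (.cons [3, 3] 0 0 (.op 4 0 (.op 8 0 (.and 1 0 (.dead0 0)))) (.cons [7, 1] 0 0 (.op 4 0 (.op 8 0 (.and 1 0 (.dead0 0)))) (.cons [10, 4] 0 0 (.op 4 0 (.op 8 0 (.and 1 0 (.dead0 0)))) (.cons [5, 1] 0 0 (.op 4 0 (.op 8 0 (.and 1 0 (.dead0 0)))) (.cons [6, 3] 0 0 (.op 8 0 (.and 1 0 (.dead0 0))) (.cons [3, 2] 0 0 (.op 4 0 (.op 8 0 (.and 1 0 (.dead0 0)))) (.cons [2, 4] 0 0 (.op 4 0 (.op 8 0 (.and 1 0 (.dead0 0)))) (.cons [12, 3] 0 0 (.op 8 0 (.and 1 0 (.dead0 0))) (.cons [5, 4] 0 0 (.op 4 0 (.op 8 0 (.and 1 0 (.dead0 0)))) (.cons [1, 4] 0 0 (.op 4 0 (.op 8 0 (.and 1 0 (.dead0 0)))) (.cons [8, 2] 0 0 (.op 4 0 (.op 8 0 (.and 1 0 (.dead0 0)))) (.cons [2, 2] 0 0 (.op 4 0 (.op 8 0 (.and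 1 0 (.dead0 0)))) (.cons [1, 3, 2] 0 0 (.op 10 0 (.op 7 1 (.and 1 0 (.dead0 0)))) .nil))))))))))))))))))))))) (.cons [1, 1, 1, 1, 1, 1, 1] 0 0 (.op 8 0 (.and 1 0 (.dead0 0))) .nil))))))) (.cons [2, 3, 2, 4] 0 0 (.op 5 0 (.and 1 0 (.dead0 0))) (.cons [1, 4, 2, 4] 0 0 (.op 5 0 (.and 1 0 (.dead0 0))) (.cons [2, 3, 2, 3] 0 0 (.op 5 0 (.and 1 0 (.dead0 0))) (.cons [1, 1, 4, 4] 0 0 (.op 5 0 (.and 1 0 (.dead0 0))) (.cons [1, 1, 4, 2, 4] 0 0 (.op 5 0 (.and 1 0 (.dead0 0))) .nil))))))))))))))))))))))))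
noncomputable def CTK : List (List Nat) := []
noncomputable def CTF : List (List Nat) := [[], [1], [3]]
noncomputable def C : CD := ⟨[⟨23, [[1], [3]], 5⟩, ⟨0, [[1], [4, 4, 1, 4]], 4⟩, ⟨1, [[3, 2, 4, 1, 3, 2, 2], [3, 3, 3, 1, 1, 3, 2]], 4⟩, ⟨2, [[4, 1, 4, 4, 1, 4, 1, 3, 2], [1, 1, 3, 3, 3, 3, 3, 2, 4, 2]], 4⟩, ⟨3, [[3, 2, 2, 3, 3, 1, 1, 3, 1, 3, 1], [4, 4, 1, 4, 1, 4, 1, 1, 3, 3, 1, 3, 1]], 4⟩, ⟨4, [[3, 1, 3, 1, 1, 4, 4, 2, 2, 4, 2, 4, 2], [2, 2, 2, 4, 1, 1, 1, 4, 2, 2, 2, 2, 4, 4, 4, 1], [1, 3, 3, 3, 1, 4, 4, 2, 2, 3, 3, 2, 4, 1, 3, 1, 1]], 2⟩, ⟨5, [[4, 2, 2, 2, 3, 2, 4, 2, 3, 2, 3, 1, 4, 2, 2, 4, 2]], 2⟩], CTF, CTK, CT⟩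

/-- In the automorphism group of the length-24 code, the two-point Mathieu group (permutations of the code's group fixing the extra point and the residue 0) has index 2 in the setwise stabiliser of that pair of points, and an element of the code's group interchanging the two points normalises the two-point group and induces on it, by conjugation, an automorphism that is not inner. -/
theorem result (g : Equiv.Perm Cfsg.GolayPt) (hg : g ∈ Cfsg.M24) (h₁ : g none = some 0) (h₂ : g (some 0) = none) : Cfsg.Spor.M22.relIndex (Cfsg.M24 ⊓ MulAction.stabilizer (Equiv.Perm Cfsg.GolayPt) ({none, some 0} : Finset Cfsg.GolayPt)) = 2 ∧ (∀ x ∈ Cfsg.Spor.M22, g * x * g⁻¹ ∈ Cfsg.Spor.M22) ∧ ¬ ∃ h ∈ Cfsg.Spor.M22, ∀ x ∈ Cfsg.Spor.M22, g * x * g⁻¹ = h * x * h⁻¹ := by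
  have h1 : ∀ x ∈ Spor.M22, ∀ k : Pm, k ∈ M24 → k⁻¹ none = none ∨ k⁻¹ none = some 0 →
      k⁻¹ (some 0) = none ∨ k⁻¹ (some 0) = some 0 → k * x * k⁻¹ ∈ Spor.M22 := fun x hx k hk a b =>
    have c : ∀ p, k⁻¹ p = none ∨ k⁻¹ p = some 0 → k (x (k⁻¹ p)) = p := fun p e => by
      rw [show x (k⁻¹ p) = k⁻¹ p from e.elim (fun e => e ▸ hx.1.2) fun e => e ▸ hx.2]; simp
    ⟨⟨M24.mul_mem (M24.mul_mem hk hx.1.1) (M24.inv_mem hk), c _ a⟩, c _ b⟩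
  refine ⟨?_, fun x hx => h1 x hx g hg (.inr (g.symm_apply_eq.2 h₂.symm)) (.inl (g.symm_apply_eq.2 h₁.symm)),
    fun ⟨k, hk, h⟩ => ?_⟩
  · have h2 : Spor.M22 ≤ M24 ⊓ stabilizer Pm s2 := fun x hx => ⟨hx.1.1, show x • s2 = s2 by
      rw [show s2 = {none, some 0} by decide +kernel, pair_sm, show x none = none from hx.1.2,
        show x (some 0) = some 0 from hx.2]⟩
    have h3 := (Spor.M22.subgroupOf (M24 ⊓ stabilizer Pm s2)).card_mul_index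
    rw [card_sub_of h2, card_M22, Exact.card_eq (Exact.up x2 (B := M24 ⊓ stabilizer Pm s2) fun _ => ⟨fun h => ⟨h.1, h.2⟩, fun ⟨a, h⟩ => ⟨a, h⟩⟩)
      (s := 443520 * 2) (by decide +kernel)] at h3
    rw [show ({none, some 0} : Finset GolayPt) = s2 by decide +kernel]
    exact Nat.eq_of_mul_eq_mul_left (by decide) h3
  have h2 := Subgroup.eq_bot_of_card_le _ (cleOK_spec xM k5 (by decide) card_M24 (as := [[3, 2, 4, 1, 3, 2, 2], [3, 3, 3, 1, 1, 3, 2]]) (C := C) (by decide +kernel))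
  have h3 : (⟨k⁻¹ * g, M24.mul_mem (M24.inv_mem hk.1.1) hg⟩ : M24) = 1 := h2.le fun x hx => Subtype.ext (by
    have e := clo_le.2 w11 hx
    have := h x ⟨⟨x.2, e.1⟩, e.2⟩
    show x * (k⁻¹ * g) = k⁻¹ * g * x
    rw [mul_assoc, mul_inv_eq_iff_eq_mul.1 this]; group)
  rw [← inv_mul_eq_one.1 (congrArg Subtype.val h3), show k none = none from hk.1.2] at h₁
  cases h₁

end Cfsg.Agent.S5599
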