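import Cfsg.Statements.S5601
import Cfsg.Agent.Leech.MCls
import Cfsg.Agent.Leech.MCls2

set_option autoImplicit false
open scoped Pointwise
open Cfsg

set_option maxRecDepth 1000000

namespace Cfsg.Agent.S5601

/-- The group of the length-24 code has exactly two conjugacy classes of subgroups of order 3: a subgroup of order 3 fixes either exactly 6 of the 24 points or none of them, both cases occur, and two subgroups of order 3 with the same number of fixed points are conjugate. -/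
theorem result : (∀ X : Subgroup ↥Cfsg.M24, Nat.card X = 3 → {p : Cfsg.GolayPt | ∀ x ∈ X, ((x : ↥Cfsg.M24) : Equiv.Perm Cfsg.GolayPt) p = p}.ncard = 6 ∨ {p : Cfsg.GolayPt | ∀ x ∈ X, ((x : ↥Cfsg.M24) : Equiv.Perm Cfsg.GolayPt) p = p}.ncard = 0) ∧ (∃ X : Subgroup ↥Cfsg.M24, Nat.card X = 3 ∧ {p : Cfsg.GolayPt | ∀ x ∈ X, ((x : ↥Cfsg.M24) : Equiv.Perm Cfsg.GolayPt) p = p}.ncard = 6) ∧ (∃ X : Subgroup ↥Cfsg.M24, Nat.card X = 3 ∧ {p : Cfsg.GolayPt | ∀ x ∈ X, ((x : ↥Cfsg.M24) : Equiv.Perm Cfsg.GolayPt) p = p}.ncard = 0) ∧ ∀ X Y : Subgroup ↥Cfsg.M24, Nat.card X = 3 → Nat.card Y = 3 → {p : Cfsg.GolayPt | ∀ x ∈ X, ((x : ↥Cfsg.M24) : Equiv.Perm Cfsg.GolayPt) p = p}.ncard = {p : Cfsg.GolayPt | ∀ x ∈ Y, ((x : ↥Cfsg.M24) : Equiv.Perm Cfsg.GolayPt) p = p}.ncard → ∃ k : ↥Cfsg.M24, MulAut.conj k • X = Y := by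
  open CF.Comp CF.Comp.Mat CF.Bt CF.Leech CF.Leech.M MulAction in
  refine ⟨fun X hX => ?_, ⟨_, (Nat.card_zpowers _).trans (ord_m Nat.prime_three oe3a),
      (ncard_fix_zpowers _).trans (fx_ev fx3a ▸ card_ofMask (by decide))⟩,
    ⟨_, (Nat.card_zpowers _).trans (ord_m Nat.prime_three oe3b),
      (ncard_fix_zpowers _).trans (fx_ev fx3b ▸ card_ofMask (by decide))⟩, fun X Y hX hY c => ?_⟩
  · obtain ⟨x, h, rfl⟩ := eq_zpowers_of_card Nat.prime_three hX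
    rw [ncard_fix_zpowers]
    exact (cls3 h).imp And.left And.left
  obtain ⟨x, a, rfl⟩ := eq_zpowers_of_card Nat.prime_three hX
  obtain ⟨y, b, rfl⟩ := eq_zpowers_of_card Nat.prime_three hY
  rw [ncard_fix_zpowers, ncard_fix_zpowers] at c
  obtain ⟨k, rfl⟩ : ∃ k, k * x * k⁻¹ = y := isConj_iff.1 (by
    by_cases d : (fx x).card = 0
    · exact (isConj_iff.2 (cls3b a d)).trans (isConj_iff.2 (cls3b b (c ▸ d))).symm
    · exact (isConj_iff.2 (cls3a a d)).trans (isConj_iff.2 (cls3a b (c ▸ d))).symm)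
  exact ⟨k, conj_smul_zpowers k x⟩

end Cfsg.Agent.S5601
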