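import Cfsg.Statements.S5603
import Cfsg.Agent.Leech.MCls

set_option autoImplicit false
open scoped Pointwise
open Cfsg

set_option maxRecDepth 1000000

namespace Cfsg.Agent.S5603

/-- A fixed-point-free element of order 3 of the group of the length-24 code maps to themselves exactly 7 sextets and exactly 15 trios. -/
theorem result (g : Equiv.Perm Cfsg.GolayPt) (hg : g ∈ Cfsg.M24) (h₃ : orderOf g = 3) (h₀ : ∀ p, g p ≠ p) : {S : Finset (Finset Cfsg.GolayPt) | S ∈ Cfsg.sextets ∧ g • S = S}.ncard = 7 ∧ {T : Finset (Finset Cfsg.GolayPt) | T ∈ Cfsg.trios ∧ g • T = T}.ncard = 15 := by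
  open CF.Comp CF.Comp.Mat CF.Bt CF.Leech CF.Leech.M MulAction in
  have h := cls3b (ord_mk hg h₃) (fx_empty.2 h₀)
  exact ⟨fixX h (by decide +kernel), fixT h (by decide +kernel)⟩

end Cfsg.Agent.S5603
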