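import Cfsg.Statements.S5607
import Cfsg.Agent.Leech.MCls
import Cfsg.Agent.Leech.MCls2

set_option autoImplicit false
open scoped Pointwise
open Cfsg

set_option maxRecDepth 1000000

namespace Cfsg.Agent.S5607

/-- For a fixed-point-free involution t of the group of the length-24 code: its centraliser in that group has order 7680, is transitive on the 24 points, and is contained, together with t, in the stabiliser of some sextet. -/
theorem result (t : Equiv.Perm Cfsg.GolayPt) (ht : t ∈ Cfsg.M24) (h₂ : orderOf t = 2) (h₀ : ∀ p, t p ≠ p) : Nat.card {c : Equiv.Perm Cfsg.GolayPt // c ∈ Cfsg.M24 ∧ c * t = t * c} = 7680 ∧ (∀ p q : Cfsg.GolayPt, ∃ c ∈ Cfsg.M24, c * t = t * c ∧ c p = q) ∧ ∃ S ∈ Cfsg.sextets, t • S = S ∧ ∀ c ∈ Cfsg.M24, c * t = t * c → c • S = S := by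
  open CF.Comp CF.Comp.Mat CF.Bt CF.Leech CF.Leech.M MulAction in
  obtain ⟨x, e⟩ := cls2b (ord_mk ht h₂) (fx_empty.2 h₀)
  have c := Cj.cent x ⟨t, ht⟩
  rw [e] at c
  obtain ⟨S, hS, h1⟩ : ∃ S ∈ sextets, Subgroup.centralizer {ev m e2b} ≤ stabilizer M24 S :=
    ⟨DS.pt 1605, fS.le (Dom.mem_set_full.2 ⟨_, by decide, rfl⟩),
      (cen_m ke2b).1.eq_clo.ge.trans (clo_le.2 (mem_stab rS' (by decide +kernel)))⟩
  have h2 : ∀ g ∈ M24, g * t = t * g → g • x⁻¹ • S = x⁻¹ • S := fun g hg h =>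
    smul_inv_of_conj (h1 ((c ⟨g, hg⟩).1 (Subgroup.mem_centralizer_singleton_iff.2 (Subtype.ext h))))
  refine ⟨(card_cent_sub ht).trans (c.card.symm.trans (cen_m ke2b).2), fun p q => ?_,
    x⁻¹ • S, (sext_iff _).2 hS, h2 t ht rfl, h2⟩
  obtain ⟨k, a, b⟩ := c.symm.exists_smul (conj_of_inOrb r0 (cen_m ke2b).1.mem (r := (0, 2)) (M := full 24) (by decide +kernel)
    (x := x • p) (y := x • q) (f0.ge trivial) (f0.ge trivial))
  rw [inv_smul_smul, inv_smul_smul] at b
  exact ⟨k, k.2, congrArg Subtype.val (Subgroup.mem_centralizer_singleton_iff.1 a), b⟩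

end Cfsg.Agent.S5607
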