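import Cfsg.Statements.S5608
import Cfsg.Agent.Leech.MCls
import Cfsg.Agent.Leech.MCls2

set_option autoImplicit false
open scoped Pointwise
open Cfsg

set_option maxRecDepth 1000000

namespace Cfsg.Agent.S5608

/-- If an element of order 3 and an involution of the group of the length-24 code commute, then either the element of order 3 has exactly 6 fixed points and the involution exactly 8, or both are fixed-point-free. -/
theorem result (x s : Equiv.Perm Cfsg.GolayPt) (hx : x ∈ Cfsg.M24) (hs : s ∈ Cfsg.M24) (h₃ : orderOf x = 3) (h₂ : orderOf s = 2) (hc : Commute x s) : ((Finset.univ.filter fun p => x p = p).card = 6 ∧ (Finset.univ.filter fun p => s p = p).card = 8) ∨ ((Finset.univ.filter fun p => x p = p).card = 0 ∧ (Finset.univ.filter fun p => s p = p).card = 0) := by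
  open CF.Comp CF.Comp.Mat CF.Bt CF.Leech CF.Leech.M MulAction in
  rcases cls2 (ord_mk hs h₂) with ⟨a, e⟩ | ⟨a, e⟩
  · exact .inl ⟨card_fx_comm (ord_mk hx h₃) (s := ⟨s, hs⟩) (Subtype.ext hc) e (cen_m ke2a).2 (r := 7168) (y := [3, 2, 4, 2, 2, 3, 1, 1, 4, 4, 4, 1, 1, 3])
      (a := 4620305) rfl (by decide) (by decide +kernel) (by decide +kernel) (by decide +kernel), a⟩
  · exact .inr ⟨card_fx_comm (ord_mk hx h₃) (s := ⟨s, hs⟩) (Subtype.ext hc) e (cen_m ke2b).2 (r := 2560) (y := [4, 2, 2, 2, 3, 2, 4, 4, 2, 3, 3, 1, 4, 2])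
      (a := 0) rfl (by decide) (by decide +kernel) (by decide +kernel) (by decide +kernel), a⟩

end Cfsg.Agent.S5608
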