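import Cfsg.Statements.S5609
import Cfsg.Agent.Leech.Coset

set_option autoImplicit false
open scoped Pointwise
open Cfsg

namespace Cfsg.Agent.S5609

open CF.Leech Finset SimpleGraph

theorem adj {a b : octads} : (blockGraph octads).Adj a b ↔ Disjoint a.1 b.1 := by
  simp only [blockGraph, fromRel_adj]
  exact ⟨fun h => h.2.elim id fun h => h.symm, fun h => ⟨Subtype.coe_ne_coe.1 (ne_of_disjoint_octads a.2 h), .inl h⟩⟩

theorem four {a b : octads} (h : (a.1 ∩ b.1).card = 4) :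
    ∃ c, (blockGraph octads).Adj a c ∧ (blockGraph octads).Adj c b := by
  have hS := sextetOf_mem h
  have h1 : ∀ o ∈ octads, a.1 ∩ b.1 ⊆ o → o \ (a.1 ∩ b.1) ∈ sextetOf (a.1 ∩ b.1) := fun o ho hs =>
    mem_sextetOf.2 ⟨by rw [card_sdiff_of_subset hs, ho.2, h], by
      rw [disjoint_sdiff.symmDiff_eq_sup, sup_eq_union, union_sdiff_of_subset hs]; exact ho.1⟩
  obtain ⟨u, hu, v, hv, e⟩ := one_lt_card.1 (show 1 < (sextetOf (a.1 ∩ b.1) \
      {a.1 ∩ b.1, a.1 \ (a.1 ∩ b.1), b.1 \ (a.1 ∩ b.1)}).card by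
    have := le_card_sdiff {a.1 ∩ b.1, a.1 \ (a.1 ∩ b.1), b.1 \ (a.1 ∩ b.1)} (sextetOf (a.1 ∩ b.1))
    have := card_le_three (a := a.1 ∩ b.1) (b := a.1 \ (a.1 ∩ b.1)) (c := b.1 \ (a.1 ∩ b.1))
    rw [card_sextetOf h] at *; omega)
  have h2 : ∀ w ∈ sextetOf (a.1 ∩ b.1) \ {a.1 ∩ b.1, a.1 \ (a.1 ∩ b.1), b.1 \ (a.1 ∩ b.1)},
      Disjoint a.1 w ∧ Disjoint b.1 w := fun w hw => by
    simp only [mem_sdiff, mem_insert, mem_singleton, not_or] at hw
    have d := fun t ht e => sextet_disjoint hS t ht w hw.1 e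
    have d0 := d _ (self_mem_sextetOf h) (Ne.symm hw.2.1)
    exact ⟨(disjoint_union_left.2 ⟨d0, d _ (h1 _ a.2 inter_subset_left) (Ne.symm hw.2.2.1)⟩).mono_left
      (union_sdiff_of_subset inter_subset_left).ge, (disjoint_union_left.2 ⟨d0, d _ (h1 _ b.2
      inter_subset_right) (Ne.symm hw.2.2.2)⟩).mono_left (union_sdiff_of_subset inter_subset_right).ge⟩
  exact ⟨⟨u ∪ v, hS.2.2 u (mem_sdiff.1 hu).1 v (mem_sdiff.1 hv).1 e⟩,
    adj.2 (disjoint_union_right.2 ⟨(h2 u hu).1, (h2 v hv).1⟩),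
    adj.2 (disjoint_union_left.2 ⟨(h2 u hu).2.symm, (h2 v hv).2.symm⟩)⟩

theorem split {a c : Finset GolayPt} (h : Disjoint a c) (b : Finset GolayPt) :
    (a ∩ b).card + (c ∩ b).card + ((a ∪ c)ᶜ ∩ b).card = b.card := by
  rw [← card_union_of_disjoint (h.mono inter_subset_left inter_subset_left), ← union_inter_distrib_right,
    ← card_union_of_disjoint (disjoint_compl_right.mono inter_subset_left inter_subset_left),
    ← union_inter_distrib_right, union_compl, univ_inter]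

theorem two {a b : octads} (h : (a.1 ∩ b.1).card = 2) :
    (∃ c, (blockGraph octads).Adj a c ∧ (c.1 ∩ b.1).card = 4) ∧
      ∀ c, (blockGraph octads).Adj a c → ¬ (blockGraph octads).Adj c b := by
  have h1 : ∀ c : octads, Disjoint a.1 c.1 → (c.1 ∩ b.1).card ≠ 8 := fun c hc e => by
    rw [eq_of_subset_of_card_le inter_subset_right (b.2.2.trans e.symm).le |>.symm,
      ← inter_assoc, disjoint_iff_inter_eq_empty.1 hc] at h
    simp at h
  have h2 : ∀ c : octads, Disjoint a.1 c.1 → (c.1 ∩ b.1).card = 4 ∨ ((a.1 ∪ c.1)ᶜ ∩ b.1).card = 4 ∧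
      (c.1 ∩ b.1).card = 2 := fun c hc => by
    have h3 := split hc b.1
    have h4 := compl_union_mem_octads a.2 c.2 hc
    have h5 := h1 ⟨_, h4⟩ (disjoint_compl_right.mono_left subset_union_left)
    have h6 := h1 c hc
    have h7 := octad_inter_card c.2 b.2
    have h8 := octad_inter_card h4 b.2
    rw [or_iff_left (b := c.1 = b.1) fun e => h6 (by rw [e, inter_self, b.2.2])] at h7
    rw [or_iff_left (b := (a.1 ∪ c.1)ᶜ = b.1) fun e => h5 (by simp only [e, inter_self, b.2.2])] at h8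
    rw [b.2.2] at h3
    omega
  refine ⟨?_, fun c h3 h4 => by
    have := h2 c (adj.1 h3)
    rw [disjoint_iff_inter_eq_empty.1 (adj.1 h4), card_empty] at this; omega⟩
  obtain ⟨c, hc, e⟩ := Set.nonempty_of_ncard_ne_zero ((meet24 card_pts steiner_octads a.2 ∅
    (empty_subset _)).trans_ne (by decide))
  have d := disjoint_iff_inter_eq_empty.2 e
  exact (h2 ⟨c, hc⟩ d).elim (fun e => ⟨_, adj.2 d, e⟩) fun e => ⟨⟨_, compl_union_mem_octads a.2 hc d⟩,
    adj.2 (disjoint_compl_right.mono_left subset_union_left), e.1⟩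

theorem conn : (blockGraph octads).Connected := by
  obtain ⟨o, ho, -⟩ := exists_octad_supset (s := ∅) (by simp)
  have : Nonempty octads := ⟨⟨o, ho⟩⟩
  have h : ∀ a b : octads, (a.1 ∩ b.1).card = 4 → (blockGraph octads).Reachable a b := fun a b h =>
    (four h).elim fun _ h => h.1.reachable.trans h.2.reachable
  refine ⟨fun a b => ?_⟩
  rcases octad_inter_card a.2 b.2 with e | e | e | e
  exacts [(adj.2 (disjoint_iff_inter_eq_empty.2 (card_eq_zero.1 e))).reachable,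
    (two e).1.elim fun _ k => k.1.reachable.trans (h _ _ k.2), h _ _ e, Subtype.ext e ▸ .refl _]

theorem d4 {a b : octads} (h : (a.1 ∩ b.1).card = 4) : (blockGraph octads).dist a b = 2 := by
  obtain ⟨c, h1, h2⟩ := four h
  refine le_antisymm (dist_le (.cons h1 (.cons h2 .nil))) (conn.one_lt_dist_of_ne_of_not_adj ?_ fun e => ?_)
  · rintro rfl; rw [inter_self, a.2.2] at h; omega
  · rw [disjoint_iff_inter_eq_empty.1 (adj.1 e)] at h; simp at h

/-- In the graph on the 759 octads of the length-24 code in which two octads are adjacent when they are disjoint, the graph is connected (of diameter 3) and two distinct octads are at distance 1, 2 or 3 exactly when they meet in 0, 4 or 2 points respectively. -/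
theorem result (o o' : Finset Cfsg.GolayPt) (ho : o ∈ Cfsg.octads) (ho' : o' ∈ Cfsg.octads) (hne : o ≠ o') : (Cfsg.blockGraph Cfsg.octads).Connected ∧ ((Cfsg.blockGraph Cfsg.octads).dist ⟨o, ho⟩ ⟨o', ho'⟩ = 1 ↔ (o ∩ o').card = 0) ∧ ((Cfsg.blockGraph Cfsg.octads).dist ⟨o, ho⟩ ⟨o', ho'⟩ = 2 ↔ (o ∩ o').card = 4) ∧ ((Cfsg.blockGraph Cfsg.octads).dist ⟨o, ho⟩ ⟨o', ho'⟩ = 3 ↔ (o ∩ o').card = 2) := by
  refine ⟨conn, ?_⟩
  rcases octad_inter_card ho ho' with e | e | e | e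
  · simp [e, dist_eq_one_iff_adj.2 (adj (a := ⟨o, ho⟩) (b := ⟨o', ho'⟩).2
      (disjoint_iff_inter_eq_empty.2 (card_eq_zero.1 e)))]
  · obtain ⟨⟨c, h1, h2⟩, h3⟩ := two (a := ⟨o, ho⟩) (b := ⟨o', ho'⟩) e
    have h4 := conn.dist_triangle (u := ⟨o, ho⟩) (v := c) (w := ⟨o', ho'⟩)
    rw [dist_eq_one_iff_adj.2 h1, d4 h2] at h4
    have h5 := (two_lt_edist_iff (G := blockGraph octads) (u := ⟨o, ho⟩) (v := ⟨o', ho'⟩)).2
      ⟨Subtype.coe_ne_coe.1 hne, fun k => by
        rw [disjoint_iff_inter_eq_empty.1 (adj.1 k)] at e; simp at e,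
        Set.eq_empty_of_forall_notMem fun c hc => h3 c hc.1 hc.2.symm⟩
    rw [← (conn _ _).coe_dist_eq_edist] at h5
    norm_cast at h5
    simp [e, show (blockGraph octads).dist ⟨o, ho⟩ ⟨o', ho'⟩ = 3 by omega]
  · simp [e, d4 (a := ⟨o, ho⟩) (b := ⟨o', ho'⟩) e]
  · exact (hne e).elim

end Cfsg.Agent.S5609
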