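import Cfsg.Statements.S5613
import Cfsg.Agent.Leech.M24b

set_option autoImplicit false
open scoped Pointwise
open Cfsg

set_option maxRecDepth 1000000

namespace Cfsg.Agent.S5613

open CF.Comp CF.Comp.Mat CF.Bt CF.Leech CF.Leech.M MulAction


/-- In the group of the length-24 code, the joint stabiliser of two octads has order 10752, 1152 or 720 according as the octads meet in 0, 4 or 2 points. -/
theorem result (o o' : Finset Cfsg.GolayPt) (ho : o ∈ Cfsg.octads) (ho' : o' ∈ Cfsg.octads) : ((o ∩ o').card = 0 → Nat.card ↥(MulAction.stabilizer Cfsg.M24 o ⊓ MulAction.stabilizer Cfsg.M24 o') = 10752) ∧ ((o ∩ o').card = 4 → Nat.card ↥(MulAction.stabilizer Cfsg.M24 o ⊓ MulAction.stabilizer Cfsg.M24 o') = 1152) ∧ ((o ∩ o').card = 2 → Nat.card ↥(MulAction.stabilizer Cfsg.M24 o ⊓ MulAction.stabilizer Cfsg.M24 o') = 720) := by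
  have key : ∀ a b k s c : ℕ, (isCode a = true ∧ pc a = 8) → (o ∩ o').card = pc (Nat.land 8536111 a) →
      Nat.beq (column eP b) a = true → orbIs eN 759 (cgens cO) k b s = true → 322560 = s * c → s ≠ 0 →
      Nat.card ↥(stabilizer M24 o ⊓ stabilizer M24 o') = c := by
    intro a b k s c ha h hb hs e h0
    obtain ⟨g, hg, e1⟩ := tOO ho ho' ha h
    obtain ⟨rfl, rfl⟩ : g • oO = o ∧ g • ofMask a = o' := Prod.ext_iff.1 e1
    have h1 := card_eq_orb_mul (stabilizer M24 oO) (ofMask a)
    have h2 := rO.ncard_orbIn (by norm_num) hs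
    rw [xO.eq_clo, ptO' hb] at h2
    rw [h2, Exact.card_eq xO (s := 322560) (by decide +kernel), e] at h1
    exact (((Cj.stab (⟨g, hg⟩ : M24) oO).inf (Cj.stab (⟨g, hg⟩ : M24) (ofMask a))).card.trans
      (Nat.eq_of_mul_eq_mul_left (Nat.pos_of_ne_zero h0) h1).symm)
  exact ⟨fun h => key 337856 44 1 30 _ (by decide +kernel) (h.trans (by decide +kernel)) (by decide +kernel) (by decide +kernel) (by norm_num) (by norm_num),
    fun h => key 5279 758 2 280 _ (by decide +kernel) (h.trans (by decide +kernel)) (by decide +kernel) (by decide +kernel) (by norm_num) (by norm_num),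
    fun h => key 15777 550 2 448 _ (by decide +kernel) (h.trans (by decide +kernel)) (by decide +kernel) (by decide +kernel) (by norm_num) (by norm_num)⟩

end Cfsg.Agent.S5613
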