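import Cfsg.Statements.S5615
import Cfsg.Agent.Leech.M24c

set_option autoImplicit false
open scoped Pointwise
open Cfsg

set_option maxRecDepth 1000000

namespace Cfsg.Agent.S5615

open CF.Comp CF.Comp.Mat CF.Bt CF.Leech CF.Leech.M MulAction


/-- An octad of the length-24 code lies in exactly 15 trios; the stabiliser of the octad in the code's group acts doubly transitively on these 15 trios, and the kernel of this action is the pointwise stabiliser of the octad. -/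
theorem result (o : Finset Cfsg.GolayPt) (ho : o ∈ Cfsg.octads) : {T : Finset (Finset Cfsg.GolayPt) | T ∈ Cfsg.trios ∧ o ∈ T}.ncard = 15 ∧ (∀ T₁ T₂ T₁' T₂' : Finset (Finset Cfsg.GolayPt), T₁ ∈ Cfsg.trios → T₂ ∈ Cfsg.trios → T₁' ∈ Cfsg.trios → T₂' ∈ Cfsg.trios → o ∈ T₁ → o ∈ T₂ → o ∈ T₁' → o ∈ T₂' → T₁ ≠ T₂ → T₁' ≠ T₂' → ∃ g ∈ Cfsg.M24, g • o = o ∧ g • T₁ = T₁' ∧ g • T₂ = T₂') ∧ ∀ g ∈ Cfsg.M24, g • o = o → ((∀ T ∈ Cfsg.trios, o ∈ T → g • T = T) ↔ ∀ p ∈ o, g p = p) := by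
  have hP : ∀ i, oO ∈ DT.pt i ↔ lany (Nat.beq 8536111) (cF pT i) = true := fun i => by
    rw [ptT]; exact ofMask_mem_mfam (by decide) (ltT i)
  have t1 : ∀ T ∈ trios, o ∈ T → ∃ g ∈ M24, g • (oO, T0) = (o, T) := fun T h1 h2 =>
    trans_pair (R := fun o T => T ∈ trios ∧ o ∈ T) (tO ho) (by simp) (fun y hy =>
      let ⟨k, hk, e⟩ := trans_of_orb rT' fT (Exact.mem0 xO) (Q := (oO ∈ ·)) (fun i _ => (hP i).1)
        (b := 1376) (k := 4) bT (by decide +kernel) hy.1 hy.2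
      ⟨k, hk, e⟩) ⟨h1, h2⟩
  obtain ⟨U, hU⟩ : ∃ U, DT.pt 100 = U := ⟨_, rfl⟩
  have t2 : ∀ T T', T ∈ trios → T' ∈ trios → o ∈ T → o ∈ T' → T ≠ T' →
      ∃ g ∈ M24, g • ((oO, T0), U) = ((o, T), T') := fun T T' h1 h2 h3 h4 h5 =>
    trans_pair (R := fun (x : Finset GolayPt × Finset (Finset GolayPt)) T => T ∈ trios ∧ x.1 ∈ T ∧ x.2 ≠ T)
      (t1 T h1 h3) (by simp) (fun y hy =>
      let ⟨k, hk, e⟩ := trans_of_orb rT' fT (ws := [[4, 4, 2, 3, 1, 3, 2, 2, 2], [3, 1, 1, 3, 1, 4, 4, 2, 2]]) (mem_inf (mem_st r0 (a := 8536111) (by decide +kernel)) (mem_fm (ms := [1351424, 6889680, 8536111]) (by decide +kernel))) (Q := fun T => oO ∈ T ∧ T0 ≠ T)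
        (P := fun i => band (lany (Nat.beq 8536111) (cF pT i)) (!Nat.beq i 1376))
        (fun i _ h => band2.2 ⟨(hP i).1 h.1, by
          rw [Bool.not_eq_true', beq_false_iff]; rintro rfl; exact h.2 bT.symm⟩)
        (b := 100) (k := 4) hU (by decide +kernel) hy.1 hy.2
      ⟨k, Prod.ext hk.1 hk.2, e⟩) ⟨h2, h4, h5⟩
  refine ⟨(wlog_ncard (tO ho) (fun o T => T ∈ trios ∧ o ∈ T) (by simp)).trans
    ((ncard_eq_pop DT (by decide) fT fun i _ => hP i).trans (by decide +kernel)), fun _ _ _ _ a b c d e f g h i j => ?_,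
    fun k hk h => ?_⟩
  · obtain ⟨g, hg, e⟩ := conj_of_trans (t2 _ _ a b e f i) (t2 _ _ c d g h j)
    exact ⟨g, hg, congrArg (·.1.1) e, congrArg (·.1.2) e, congrArg Prod.snd e⟩
  obtain ⟨g, hg, rfl⟩ := tO ho
  have x := Exact.fix xO rT' (by decide) (k := 12) (by decide) (c1 := [⟨100, [[4, 4, 4, 2, 2, 4, 1], [3, 2, 3, 3, 3, 1, 3]], 4⟩, ⟨239, [[4, 4, 2, 3, 1, 3, 2, 2, 2], [2, 4, 4, 1, 4, 2, 3, 3, 2, 3]], 5⟩, ⟨885, [[2, 3, 1, 1, 4, 1, 3, 1, 4, 4], [3, 2, 4, 4, 2, 3, 1, 4, 2, 2, 2], [4, 2, 3, 3, 3, 3, 2, 2, 3, 1, 1, 4, 2]], 2⟩, ⟨1302, [[3, 1, 3, 1, 1, 4, 4, 2, 2, 4, 2, 4, 2], [2, 4, 2, 4, 4, 2, 2, 2, 3, 1, 4, 2, 4, 1], [2, 4, 2, 3, 1, 1, 4, 2, 4, 4, 1, 4, 4, 1], [3, 3, 2, 3, 2, 3, 3, 1, 3, 3, 1, 3, 1, 3, 3], [2, 2, 2, 4, 1, 1, 1, 4, 2, 2, 2, 2, 4, 4, 4, 1], [1, 3, 1, 1, 3, 3, 1, 3, 1, 1, 1, 1, 1, 1, 1, 3]], 1⟩]) (mem_st r0 (a := 8536111)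 (by decide +kernel))
    (fun w hw => fix_le_stab (xFO.mem w hw)) (S := {T | T ∈ trios ∧ oO ∈ T})
    ((set_maskP DT (Q := (oO ∈ ·)) (P := (fun i => lany (Nat.beq 8536111) (cF pT i))) fun i _ => hP i).trans (by rw [fT])) (by decide +kernel)
  have c := (Cj.stab (⟨g, hg⟩ : M24) oO).inf (Cj.fix _ {T | T ∈ trios ∧ oO ∈ T})
  rw [show (⟨g, hg⟩ : M24) • {T | T ∈ trios ∧ oO ∈ T} = {T | T ∈ trios ∧ g • oO ∈ T} from Set.ext fun T => by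
    obtain ⟨T, rfl⟩ := MulAction.surjective (⟨g, hg⟩ : M24) T
    rw [Set.smul_mem_smul_set_iff]
    exact and_congr (trio_iff _).symm (Finset.smul_mem_smul_finset_iff g).symm] at c
  have e := SetLike.ext_iff.1 (c.eq (Cj.fixF _ oO) (x.eq_clo.symm.trans xFO.eq_clo)) ⟨k, hk⟩
  exact ⟨fun a => mem_fixF.1 (e.1 ⟨h, (mem_fixingSubgroup_iff _).2 fun T hT => a T hT.1 hT.2⟩),
    fun a T h1 h2 => (mem_fixingSubgroup_iff _).1 (e.2 (mem_fixF.2 a)).2 T ⟨h1, h2⟩⟩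

end Cfsg.Agent.S5615
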