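import Cfsg.Statements.S5616
import Cfsg.Agent.Leech.M24b

set_option autoImplicit false
open scoped Pointwise
open Cfsg

set_option maxRecDepth 1000000

namespace Cfsg.Agent.S5616

open CF.Comp CF.Comp.Mat CF.Bt CF.Leech CF.Leech.M MulAction


/-- Let Y be a set of 3 of the 24 points. The sextets of the length-24 code whose tetrads meeting Y number 1, 2 or 3 are respectively 21, 630 and 1120 in number, and two sextets with the same number of tetrads meeting Y are conjugate under the setwise stabiliser of Y in the code's group. -/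
theorem result (Y : Finset Cfsg.GolayPt) (hY : Y.card = 3) : {S : Finset (Finset Cfsg.GolayPt) | S ∈ Cfsg.sextets ∧ (S.filter fun t => (t ∩ Y).Nonempty).card = 1}.ncard = 21 ∧ {S : Finset (Finset Cfsg.GolayPt) | S ∈ Cfsg.sextets ∧ (S.filter fun t => (t ∩ Y).Nonempty).card = 2}.ncard = 630 ∧ {S : Finset (Finset Cfsg.GolayPt) | S ∈ Cfsg.sextets ∧ (S.filter fun t => (t ∩ Y).Nonempty).card = 3}.ncard = 1120 ∧ ∀ S S' : Finset (Finset Cfsg.GolayPt), S ∈ Cfsg.sextets → S' ∈ Cfsg.sextets → (S.filter fun t => (t ∩ Y).Nonempty).card = (S'.filter fun t => (t ∩ Y).Nonempty).card → ∃ g ∈ Cfsg.M24, g • Y = Y ∧ g • S = S' := by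
  have ht := t3 hY
  have hv : ∀ i < 1771, ((DS.pt i).filter fun t => (t ∩ s3).Nonempty).card =
      ((cF pS i).filter fun a => !Nat.beq (Nat.land a 8388611) 0).length := fun i hi => by
    have h1 : DS.pt i ∈ sextets := fS.le (Dom.mem_set_full.2 ⟨i, hi, rfl⟩)
    rw [ptS] at h1 ⊢
    have h2 : ((cF pS i).map ofMask).Nodup := by
      rw [← List.dedup_eq_self]
      refine (List.dedup_sublist _).eq_of_length ?_
      rw [← List.card_toFinset, List.length_map, ← llen_eq]
      exact h1.1
    have h3 := List.toFinset_filter ((cF pS i).map ofMask) fun t => decide (t ∩ s3).Nonempty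
    simp only [decide_eq_true_eq] at h3
    rw [mfam, ← h3, List.toFinset_card_of_nodup (h2.filter _), List.filter_map, List.length_map]
    congr 1
    refine List.filter_congr fun a ha => ?_
    rw [Bool.eq_iff_iff, Function.comp, decide_eq_true_iff, Finset.nonempty_iff_ne_empty, Ne,
      ← Finset.disjoint_iff_inter_eq_empty, s3, ofMask_disjoint_iff (ltS i a ha), Bool.not_eq_true',
      CF.Comp.beq_false_iff]
  have hs : ∀ (g : Pm) (S : Finset (Finset GolayPt)) (Y : Finset GolayPt),
      ((g • S).filter fun t => (t ∩ g • Y).Nonempty).card = (S.filter fun t => (t ∩ Y).Nonempty).card := by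
    intro g S Y
    rw [← Finset.card_smul_finset g (S.filter _)]
    congr 1
    ext t
    obtain ⟨t, rfl⟩ := MulAction.surjective g t
    simp
  have hc : ∀ c, {S : Finset (Finset GolayPt) | S ∈ sextets ∧ (S.filter fun t => (t ∩ Y).Nonempty).card = c}.ncard =
      pop 1771 (maskP 1771 fun i => Nat.beq ((cF pS i).filter fun a => !Nat.beq (Nat.land a 8388611) 0).length c) := fun c =>
    (wlog_ncard ht (fun z S => S ∈ sextets ∧ (S.filter fun t => (t ∩ z).Nonempty).card = c) (by simp [hs])).trans
      (ncard_eq_pop DS (by norm_num) fS fun i hi => by rw [hv i hi, CF.Comp.beq_iff])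
  refine ⟨(hc _).trans (by decide +kernel), (hc _).trans (by decide +kernel), (hc _).trans (by decide +kernel),
    fun a b h1 h2 h3 => ?_⟩
  exact wlog_conj ht (R := fun z a b => a ∈ sextets ∧ b ∈ sextets ∧
    (a.filter fun t => (t ∩ z).Nonempty).card = (b.filter fun t => (t ∩ z).Nonempty).card) (by simp [hs]) (fun y y' h =>
    let ⟨k, hk, e⟩ := conj_of_cls rS' fS (Exact.mem0 x3) (Q := fun _ => True) (P := fun _ => true)
      (fun _ _ _ => rfl) (val := fun S => (S.filter fun t => (t ∩ s3).Nonempty).card) hv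
      (rs := [(1771, 0), (44, 5), (3, 9), (0, 10)]) (by decide +kernel) h.1 h.2.1 trivial trivial h.2.2
    ⟨k, hk, e⟩) ⟨h1, h2, h3⟩

end Cfsg.Agent.S5616
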