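import Cfsg.Statements.S5617
import Cfsg.Agent.Leech.M24

set_option autoImplicit false
open scoped Pointwise
open Cfsg

set_option maxRecDepth 1000000

namespace Cfsg.Agent.S5617

open CF.Comp CF.Comp.Mat CF.Bt CF.Leech CF.Leech.M MulAction

theorem tP {d : Finset GolayPt} (hd : d ∈ dodecads) :
    ∃ g ∈ M24, g • ({sD, sDᶜ} : Finset (Finset GolayPt)) = {d, dᶜ} := by
  obtain ⟨g, hg, rfl⟩ := tD hd
  exact ⟨g, hg, by rw [pair_sm', compl_sm]⟩


/-- The setwise stabiliser, in the group of the length-24 code, of a complementary pair of dodecads has exactly three orbits on the 1771 sextets, of sizes 396, 495 and 880. -/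
theorem result (d : Finset Cfsg.GolayPt) (hd : d ∈ Cfsg.dodecads) : ∃ X₁ ∈ Cfsg.sextets, ∃ X₂ ∈ Cfsg.sextets, ∃ X₃ ∈ Cfsg.sextets, (MulAction.orbit ↥(MulAction.stabilizer Cfsg.M24 ({d, Finset.univ \ d} : Finset (Finset Cfsg.GolayPt))) X₁).ncard = 396 ∧ (MulAction.orbit ↥(MulAction.stabilizer Cfsg.M24 ({d, Finset.univ \ d} : Finset (Finset Cfsg.GolayPt))) X₂).ncard = 495 ∧ (MulAction.orbit ↥(MulAction.stabilizer Cfsg.M24 ({d, Finset.univ \ d} : Finset (Finset Cfsg.GolayPt))) X₃).ncard = 880 ∧ Cfsg.sextets = MulAction.orbit ↥(MulAction.stabilizer Cfsg.M24 ({d, Finset.univ \ d} : Finset (Finset Cfsg.GolayPt))) X₁ ∪ MulAction.orbit ↥(MulAction.stabilizer Cfsg.M24 ({d, Finset.univ \ d} : Finset (Finset Cfsg.GolayPt))) X₂ ∪ MulAction.orbit ↥(MulAction.stabilizer Cfsg.M24 ({d, Finset.univ \ d} : Finset (Finset Cfsg.GolayPt))) X₃ := by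
  rw [← Finset.compl_eq_univ_sdiff]
  exact ((orbs_of xP rS' (by norm_num) fS [(0, 8, 396), (3, 8, 495), (1, 9, 880)] (by decide +kernel)).exists_smul (by simp [Subgroup.smul_def]) (up (tP hd))).choose_spec.three

end Cfsg.Agent.S5617
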