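import Cfsg.Statements.S5618
import Cfsg.Agent.Leech.M24c

set_option autoImplicit false
open scoped Pointwise
open Cfsg

set_option maxRecDepth 1000000

namespace Cfsg.Agent.S5618

open CF.Comp CF.Comp.Mat CF.Bt CF.Leech CF.Leech.M MulAction

noncomputable def M : MD := ⟨[[2, 4, 2, 2, 2, 4, 4, 1, 1, 4, 4, 2], [2, 2, 3, 3, 1, 4, 1, 4, 2, 3, 2, 3]], [(nat_lit 1), (nat_lit 2), (nat_lit 4), (nat_lit 8), (nat_lit 16), (nat_lit 4096)], [(Net.cons (nat_lit 1) (nat_lit 4) (Net.cons (nat_lit 2) (nat_lit 2) (Net.cons (nat_lit 1) (nat_lit 1) Net.nil))), (Net.cons (nat_lit 1) (nat_lit 16) (Net.cons (nat_lit 2) (nat_lit 3) (Net.cons (nat_lit 4) (nat_lit 3) (Net.cons (nat_lit 2) (nat_lit 2) (Net.cons (nat_lit 1) (nat_lit 16) Net.nil)))))], [⟨0, [[1], [3]], 3⟩, ⟨1, [[1, 3], [2, 3, 1]], 2⟩, ⟨3, [[3, 3, 3], [2, 4, 4, 1]], 2⟩, ⟨4, [[1, 3, 3, 3, 2], [4,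 2, 4, 4, 1, 4]], 2⟩, ⟨2, [[4, 1, 3, 2, 3, 1, 1]], 1⟩]⟩

/-- For a dodecad d of the length-24 code and a hexad C on it (a 6-point intersection of d with an octad): the joint stabiliser of d and C in the code's group is isomorphic to the symmetric group of degree 6, and it acts faithfully both on the six points of C and on the six points of d outside C. -/
theorem result (d : Finset Cfsg.GolayPt) (hd : d ∈ Cfsg.dodecads) (C : Finset Cfsg.GolayPt) (hC : C ∈ Cfsg.hexadsOn d) : Nonempty (↥(MulAction.stabilizer Cfsg.M24 d ⊓ MulAction.stabilizer Cfsg.M24 C) ≃* Equiv.Perm (Fin 6)) ∧ (∀ g ∈ MulAction.stabilizer Cfsg.M24 d ⊓ MulAction.stabilizer Cfsg.M24 C, (∀ p ∈ C, ((g : ↥Cfsg.M24) : Equiv.Perm Cfsg.GolayPt) p = p) → g = 1) ∧ ∀ g ∈ MulAction.stabilizer Cfsg.M24 d ⊓ MulAction.stabilizer Cfsg.M24 C, (∀ p ∈ d \ C, ((g : ↥Cfsg.M24) : Equiv.Perm Cfsg.GolayPt)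 p = p) → g = 1 := by
  obtain ⟨g, hg, e⟩ := tDH hd hC
  obtain ⟨rfl, rfl⟩ : g • sD = d ∧ g • ofMask 4127 = C := by
    simpa [Prod.ext_iff] using e
  have c := ((Cj.stab (⟨g, hg⟩ : M24) sD).inf (Cj.stab _ (ofMask 4127)))
  obtain ⟨e⟩ := c.equiv
  obtain ⟨e'⟩ := Exact.equiv_perm (md_exact r0 (M := M) (k := 6) (m := 2) (s := 720) (by decide +kernel) (mem_inf (mem_st r0 (a := 340831) (by decide +kernel)) (mem_st r0 (a := 4127) (by decide +kernel)))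
    (Exact.card_eq xH (by decide +kernel)).le) (by decide +kernel)
  have h1 := (c.inf (Cj.fixF _ (ofMask 4127))).eq_bot (Exact.fix xH r0 (by decide) k5 xH.mem (c2 := [])
    (by simp [cgens]) (set_eq _) (by decide +kernel)).eq_bot
  have h2 := (c.inf (Cj.fixF _ (sD \ ofMask 4127))).eq_bot (Exact.fix xH r0 (by decide) k5
    (c1 := [⟨6, [[2, 4, 2, 2, 2, 4, 4, 1, 1, 4, 4, 2], [2, 2, 3, 3, 1, 4, 1, 4, 2, 3, 2, 3]], 3⟩, ⟨8, [[2, 4, 4, 1, 3, 3, 2, 4, 4, 1, 3, 3, 1], [4, 2, 4, 4, 1, 4, 4, 2, 4, 4, 2, 2, 2, 3]], 2⟩, ⟨9, [[3, 1, 4, 2, 3, 2, 3, 3, 1, 3, 3, 2, 4, 2, 2], [3, 3, 2, 3, 2, 2, 2, 2, 2, 3, 2, 3, 2, 3, 3]], 2⟩, ⟨13, [[1, 4, 4, 1, 3, 2, 4, 4, 4, 4, 4, 2, 2, 2, 3, 1, 1], [1, 4, 1, 1, 4, 2, 3, 2, 2, 3, 1, 4, 1, 3, 3, 2, 2]], 2⟩, ⟨16, [[1, 4, 1, 1, 4, 2, 3, 2, 2, 3, 1, 4, 1, 3, 3, 2, 2]], 1⟩]) (mem_inf (mem_st r0 (a := 340831) (by decide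 +kernel)) (mem_st r0 (a := 4127) (by decide +kernel))) (c2 := []) (by simp [cgens]) (a := 336704)
    ((set_eq _).trans (congrArg _ (by decide +kernel))) (by decide +kernel)).eq_bot
  exact ⟨⟨e.symm.trans e'⟩, fun k hk h => h1.le ⟨hk, mem_fixF.2 h⟩,
    fun k hk h => h2.le ⟨hk, mem_fixF.2 (sdiff_sm g ▸ h)⟩⟩

end Cfsg.Agent.S5618
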