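import Cfsg.Statements.S5619
import Cfsg.Agent.Leech.M24c

set_option autoImplicit false
open scoped Pointwise
open Cfsg

set_option maxRecDepth 1000000

namespace Cfsg.Agent.S5619

open CF.Comp CF.Comp.Mat CF.Bt CF.Leech CF.Leech.M MulAction

noncomputable def Q : PD := ⟨[[3, 1, 3, 2, 4, 2, 2, 4, 4, 2, 4, 2, 2, 3, 1, 3], [1, 3, 1, 3, 3, 2, 3, 3, 2, 4, 2, 3, 2, 2, 3, 3, 1]], [([], [[1]]), ([], [])], [⟨3, [[3, 1, 3, 2, 4, 2, 2, 4, 4, 2, 4, 2, 2, 3, 1, 3], [1, 3, 1, 3, 3, 2, 3, 3, 2, 4, 2, 3, 2, 2, 3, 3, 1]], 2⟩], [[1], [3]]⟩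
noncomputable def QN : List (List (List Nat)) := [[[3, 1, 1], [3, 1]], [[3, 1], [3, 3, 1]], [[3, 1], [3, 3, 1]], [[3, 3, 1], [3, 3, 1, 1]]]
noncomputable def S : PD := ⟨[[3, 1, 3, 1, 1, 1, 4, 1, 4, 2, 2, 4, 2, 4], [2, 3, 3, 1, 3, 3, 1, 3, 2, 4, 4, 1, 1, 3, 2, 4, 2, 3], [2, 2, 2, 2, 4, 2, 2, 3, 1, 1, 1, 3, 2, 4, 2, 2, 3, 2]], [([3], [[3, 1], [3]]), ([1], [[1]]), ([], [])], [⟨11, [[3, 1, 3, 1, 1, 1, 4, 1, 4, 2, 2, 4, 2, 4], [2, 2, 2, 4, 1, 1, 3, 1, 3, 2, 2, 2, 4, 1, 4, 4]], 2⟩], [[1], [3, 1]]⟩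
noncomputable def M : MD := ⟨[[3, 1, 3, 1, 1, 1, 4, 1, 4, 2, 2, 4, 2, 4], [2, 2, 2, 4, 1, 1, 3, 1, 3, 2, 2, 2, 4, 1, 4, 4]], [(nat_lit 8), (nat_lit 16), (nat_lit 256), (nat_lit 512), (nat_lit 4096), (nat_lit 8192), (nat_lit 65536), (nat_lit 262144)], [(Net.cons (nat_lit 1) (nat_lit 4) (Net.cons (nat_lit 2) (nat_lit 50) (Net.cons (nat_lit 1) (nat_lit 65) Net.nil))), (Net.cons (nat_lit 4) (nat_lit 15) (Net.cons (nat_lit 2) (nat_lit 18) (Net.cons (nat_lit 1) (nat_lit 5) Net.nil)))], [⟨0, [[1], [3]], 2⟩]⟩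

/-- In the group of the length-24 code, the subgroup fixing a dodecad setwise and three of its points individually (a group of order 72) has a normal Sylow 3-subgroup that is elementary abelian of order 9, and its Sylow 2-subgroups are quaternion of order 8. -/
theorem result (d : Finset Cfsg.GolayPt) (hd : d ∈ Cfsg.dodecads) (p q r : Cfsg.GolayPt) (hp : p ∈ d) (hq : q ∈ d) (hr : r ∈ d) (hpq : p ≠ q) (hpr : p ≠ r) (hqr : q ≠ r) : (∀ Q : Sylow 3 ↥(MulAction.stabilizer Cfsg.M24 d ⊓ MulAction.stabilizer Cfsg.M24 p ⊓ MulAction.stabilizer Cfsg.M24 q ⊓ MulAction.stabilizer Cfsg.M24 r), (Q : Subgroup ↥(MulAction.stabilizer Cfsg.M24 d ⊓ MulAction.stabilizer Cfsg.M24 p ⊓ MulAction.stabilizer Cfsg.M24 q ⊓ MulAction.stabilizer Cfsg.M24 r)).Normal ∧ Nat.card ↥Q = 9 ∧ ∀ x ∈ (Q : Subgroup ↥(MulAction.stabilizer Cfsg.M24 d ⊓ MulAction.stabilizer Cfsg.M24 p ⊓ MulAction.stabilizer Cfsg.M24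 q ⊓ MulAction.stabilizer Cfsg.M24 r)), x ^ 3 = 1) ∧ ∀ P : Sylow 2 ↥(MulAction.stabilizer Cfsg.M24 d ⊓ MulAction.stabilizer Cfsg.M24 p ⊓ MulAction.stabilizer Cfsg.M24 q ⊓ MulAction.stabilizer Cfsg.M24 r), Nonempty (↥P ≃* QuaternionGroup 2) := by
  obtain ⟨g, hg, e⟩ := tD111 hd hp hq hr hpq hpr hqr
  obtain ⟨rfl, rfl, rfl, rfl⟩ : g • sD = d ∧ g • pt 0 = p ∧ g • pt 1 = q ∧ g • pt 2 = r := by
    simpa [Prod.ext_iff] using e
  have c := ((((Cj.stab (⟨g, hg⟩ : M24) sD).inf (Cj.stab _ (pt 0))).inf (Cj.stab _ (pt 1))).inf (Cj.stab _ (pt 2)))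
  obtain ⟨e⟩ := c.equiv
  have h := Exact.card_eq xD3 (s := 72) (by decide +kernel)
  have h1 : clo m Q.qs ≤ _ := clo_le.2 (mem_inf (mem_inf (mem_inf (mem_st r0 (a := 340831) (by decide +kernel)) (mem_stab r0 (b := 0) (by decide +kernel))) (mem_stab r0 (b := 1) (by decide +kernel))) (mem_stab r0 (b := 2) (by decide +kernel)))
  have h2 : clo m S.qs ≤ _ := clo_le.2 (mem_inf (mem_inf (mem_inf (mem_st r0 (a := 340831) (by decide +kernel)) (mem_stab r0 (b := 0) (by decide +kernel))) (mem_stab r0 (b := 1) (by decide +kernel))) (mem_stab r0 (b := 2) (by decide +kernel)))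
  have h3 := (card_sub_of h1).trans (abOK_spec xM k5 three_ne_zero (a := 2) (by decide +kernel)).2.2
  have h4 := (pOK_spec xM k5 two_ne_zero (P := S) (a := 3) (by decide +kernel)).2.1
  refine ⟨fun P => ?_, fun P => ?_⟩
  · obtain ⟨e', he⟩ := sylow_eq_comap h3 (m := 8) h (by decide) e.symm P
    change P.1.Normal ∧ Nat.card P.1 = 9 ∧ ∀ x ∈ P.1, _
    rw [he]
    exact ⟨((Subgroup.normal_subgroupOf_iff_le_normalizer h1).2
      (xD3.eq_clo.ge.trans (eqM.nrmAll (us := QN) (by decide +kernel)))).comap _, (card_comap_equiv _ _).trans h3,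
      fun x hx => e'.injective (by
        rw [map_pow, map_one]; exact Subtype.ext (eqM.pow_eq_one (by decide +kernel) (by decide +kernel) _ hx))⟩
  obtain ⟨e', he⟩ := sylow_eq_comap ((card_sub_of h2).trans h4) (m := 9) h (by decide) e.symm P
  obtain ⟨e1⟩ := comap_equiv e' ((clo m S.qs).subgroupOf _)
  obtain ⟨e2⟩ := md_equiv r0 (M := M) (k := 8) (m := 2) (s := 8) (by decide +kernel) (A := clo m S.qs)
    (clo_le.1 (eqM.memAll (us := [[1], [3, 1]]) (by decide +kernel))) h4.le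
    (hasReps_list (K := QuaternionGroup 2) [.a 0, .xa 1, .xa 3, .a 2, .a 1, .a 3, .xa 0, .xa 2] [.xa 1, .xa 0]
      (by decide +kernel) rfl rfl (by decide +kernel) (by decide +kernel)) (by rw [Nat.card_eq_fintype_card, QuaternionGroup.card])
  exact ⟨(((MulEquiv.subgroupCongr he).trans e1).trans (Subgroup.subgroupOfEquivOfLe h2)).trans e2⟩

end Cfsg.Agent.S5619
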