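import Cfsg.Statements.S5620
import Cfsg.Agent.Leech.M24c

set_option autoImplicit false
open scoped Pointwise
open Cfsg

set_option maxRecDepth 1000000

namespace Cfsg.Agent.S5620

open CF.Comp CF.Comp.Mat CF.Bt CF.Leech CF.Leech.M MulAction


/-- Inside the stabiliser of the dodecad of squares (a Mathieu group of degree 12), the stabiliser of the residue 0 (a point of the dodecad) and the stabiliser of the extra point (a point outside the dodecad) are isomorphic but not conjugate; conjugation by a suitable element of the code's group that maps the dodecad of squares onto its complement carries the first onto the second. -/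
theorem result : Nonempty (↥(Cfsg.Spor.M12 ⊓ MulAction.stabilizer (Equiv.Perm Cfsg.GolayPt) (none : Cfsg.GolayPt)) ≃* ↥Cfsg.Spor.M11) ∧ (¬ ∃ k ∈ Cfsg.Spor.M12, MulAut.conj k • Cfsg.Spor.M11 = Cfsg.Spor.M12 ⊓ MulAction.stabilizer (Equiv.Perm Cfsg.GolayPt) (none : Cfsg.GolayPt)) ∧ ∃ g ∈ Cfsg.M24, g • Cfsg.Spor.squareDodecad = Finset.univ \ Cfsg.Spor.squareDodecad ∧ MulAut.conj g • Cfsg.Spor.M11 = Cfsg.Spor.M12 ⊓ MulAction.stabilizer (Equiv.Perm Cfsg.GolayPt) (none : Cfsg.GolayPt) := by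
  have hg := ev_mem a2Mem [1, 1, 4, 2, 2, 2, 2, 2, 3, 1, 1, 3, 3, 3, 3, 2, 4, 2, 4]
  have h1 : ev (el a2) [1, 1, 4, 2, 2, 2, 2, 2, 3, 1, 1, 3, 3, 3, 3, 2, 4, 2, 4] • Spor.squareDodecad = Finset.univ \ Spor.squareDodecad := by
    rw [sqD_eq, ev_smul_ofMask a2Reps, ← Finset.compl_eq_univ_sdiff, ← ofMask_compl]
    exact congrArg _ (by decide +kernel)
  have h2 : ev (el a2) [1, 1, 4, 2, 2, 2, 2, 2, 3, 1, 1, 3, 3, 3, 3, 2, 4, 2, 4] • (some 0 : GolayPt) = none := a2Reps.mapW (a := 0) (b := 23) (by decide) (by decide +kernel)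
  generalize ev (el a2) [1, 1, 4, 2, 2, 2, 2, 2, 3, 1, 1, 3, 3, 3, 3, 2, 4, 2, 4] = g at *
  have c := ((Cj.self hg).inf (Cj.stab g Spor.squareDodecad)).inf (Cj.stab g (some 0 : GolayPt))
  have h3 : stabilizer Pm (g • Spor.squareDodecad) = stabilizer Pm Spor.squareDodecad := by
    ext k
    rw [h1, ← Finset.compl_eq_univ_sdiff, mem_stabilizer_iff, ← compl_sm, compl_inj_iff, mem_stabilizer_iff]
  rw [h2, h3] at c
  obtain ⟨e⟩ := c.equiv
  refine ⟨⟨e.symm⟩, fun ⟨k, hk, h⟩ => ?_, g, hg, h1, c.eq_smul⟩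
  have h4 : ∀ p, p ∉ Spor.squareDodecad → k⁻¹ p ∉ Spor.squareDodecad := fun p =>
    mt (M12_smul_mem (inv_mem hk) p).1
  have h5 : ∀ i, ![none, pt 5, pt 7] i ∉ Spor.squareDodecad := sqD_eq ▸ (by decide +kernel)
  have h6 : ∀ i, ![pt 5, none, pt 7] i ∉ Spor.squareDodecad := sqD_eq ▸ (by decide +kernel)
  obtain ⟨x, hx, e⟩ := M11_three_compl (fun i => k⁻¹ (![none, pt 5, pt 7] i))
    (fun i => k⁻¹ (![pt 5, none, pt 7] i)) (k⁻¹.injective.comp (by decide +kernel)) (k⁻¹.injective.comp (by decide +kernel))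
    (fun i => h4 _ (h5 i)) fun i => h4 _ (h6 i)
  have h7 : k (x (k⁻¹ none)) = none := (h.le ((cj_smul k _ x).1 hx)).2
  rw [show x (k⁻¹ none) = k⁻¹ (pt 5) from e 0] at h7
  simp [pt] at h7

end Cfsg.Agent.S5620
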