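import Cfsg.Statements.S5622
import Cfsg.Agent.Perm.Code24

set_option autoImplicit false
open Cfsg

namespace Cfsg.Agent.S5622

open CF.Perm CF.Leech Finset

/-- Let C be a self-dual binary code of length 24 with minimum weight at least 8 (a 12-dimensional subspace of the 24-dimensional space over the field with two elements, any two of whose words have dot product zero, with no non-zero word of weight below 8 — an abstract extended binary Golay code). Then the minimum weight of C is exactly 8, and the supports of the words of weight 8 (the octads) form a Steiner system S(5, 8, 24) on the 24 coordinates: every 5 coordinates lie in the support of exactly one word of weight 8. -/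
theorem result (C : Submodule (ZMod 2) (Fin 24 → ZMod 2)) (hdim : Module.finrank (ZMod 2) C = 12) (horth : ∀ v ∈ C, ∀ w ∈ C, ∑ i, v i * w i = 0) (hmin : ∀ w ∈ C, w ≠ 0 → 8 ≤ hammingNorm w) : (∃ w ∈ C, hammingNorm w = 8) ∧ Cfsg.IsSteinerSystem 5 8 (Cfsg.wordsOfWeight (C : Set (Fin 24 → ZMod 2)) 8) := by
  obtain ⟨e, h⟩ := exists_tr C hdim hmin
  have h1 : ∀ b, b ∈ wordsOfWeight (C : Set (Fin 24 → ZMod 2)) 8 ↔ b.map e.symm.toEmbedding ∈ octads :=
    fun b => and_congr ⟨fun ⟨w, hw, e'⟩ => e' ▸ tr_eq ▸ (h w).1 hw, fun hb =>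
      ⟨_, (h _).2 (by rwa [tr_word]), map_injective _ (tr_eq.symm.trans (tr_word _))⟩⟩
      (by rw [card_map])
  obtain ⟨o, ho, -⟩ := exists_octad_supset (s := ∅) (by simp)
  refine ⟨⟨_, (h _).2 ((tr_word o).symm ▸ ho.1), by rw [← card_tr (e := e), tr_word, ho.2]⟩,
    fun b hb => hb.2, fun s hs => ?_⟩
  obtain ⟨b, ⟨h2, h3⟩, h4⟩ := steiner_octads.2 (s.map e.symm.toEmbedding) (by rw [card_map, hs])
  have h5 : (b.map e.toEmbedding).map e.symm.toEmbedding = b := by ext; simp
  exact ⟨b.map e.toEmbedding, ⟨(h1 _).2 (h5.symm ▸ h2), map_subset_map.1 (h5.symm ▸ h3)⟩,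
    fun c hc => map_injective _ ((h4 _ ⟨(h1 c).1 hc.1, map_subset_map.2 hc.2⟩).trans h5.symm)⟩

end Cfsg.Agent.S5622
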