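import Cfsg.Statements.S5623
import Cfsg.Agent.Perm.Code24

set_option autoImplicit false
open Cfsg

namespace Cfsg.Agent.S5623

open CF.Perm CF.Leech Finset

/-- Let C be a self-dual binary code of length 24 with minimum weight at least 8 (a 12-dimensional subspace of the 24-dimensional space over the field with two elements, any two of whose words have dot product zero, with no non-zero word of weight below 8 — an abstract extended binary Golay code). Then every coset w + C of C in the ambient space contains either exactly one word of weight at most 4, which then has weight at most 3, or exactly six words of weight at most 4, all of weight exactly 4 and with pairwise disjoint supports (a sextet). -/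
theorem result (C : Submodule (ZMod 2) (Fin 24 → ZMod 2)) (hdim : Module.finrank (ZMod 2) C = 12) (horth : ∀ v ∈ C, ∀ w ∈ C, ∑ i, v i * w i = 0) (hmin : ∀ w ∈ C, w ≠ 0 → 8 ≤ hammingNorm w) (w : Fin 24 → ZMod 2) : (∃ u : Fin 24 → ZMod 2, {u : Fin 24 → ZMod 2 | u - w ∈ C ∧ hammingNorm u ≤ 4} = {u} ∧ hammingNorm u ≤ 3) ∨ ({u : Fin 24 → ZMod 2 | u - w ∈ C ∧ hammingNorm u ≤ 4}.ncard = 6 ∧ ∀ u ∈ {u : Fin 24 → ZMod 2 | u - w ∈ C ∧ hammingNorm u ≤ 4}, hammingNorm u = 4 ∧ ∀ u' ∈ {u : Fin 24 → ZMod 2 | u - w ∈ C ∧ hammingNorm u ≤ 4}, u ≠ u' → Disjoint (Finset.univ.filter fun i => u i ≠ 0) (Finset.univ.filter fun i => u' i ≠ 0)) := by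
  obtain ⟨e, h⟩ := exists_tr C hdim hmin
  obtain ⟨t, h1, h2⟩ := exists_small (tr e w)
  obtain ⟨u, rfl⟩ : ∃ u, tr e u = t := ⟨_, tr_word t⟩
  have h3 : ∀ v, v - w ∈ C ↔ symmDiff (tr e u) (tr e v) ∈ CS := fun v => by
    rw [h, tr_sub, symmDiff_comm]
    exact ⟨symmDiff_mem_trans h2, symmDiff_mem_trans (symmDiff_comm (tr e w) _ ▸ h2)⟩
  have h4 : ∀ v v', symmDiff (tr e v) (tr e v') ∈ CS → v ≠ v' → hammingNorm v ≤ 4 → hammingNorm v' ≤ 4 →
      hammingNorm v = 4 ∧ hammingNorm v' = 4 ∧ Disjoint (support₂ v) (support₂ v') := fun v v' a b c d => by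
    have := close_of_mem_CS a (tr_injective.ne b) (card_tr ▸ c) (card_tr ▸ d)
    rwa [card_tr, card_tr, tr_eq, tr_eq, Finset.disjoint_map] at this
  simp only [h3]
  rw [card_tr] at h1
  rcases h1.lt_or_eq with h5 | h5
  · refine .inl ⟨u, Set.eq_singleton_iff_unique_mem.2 ⟨⟨by simpa using empty_mem_CS, h1⟩,
      fun v hv => by_contra fun e' => ?_⟩, by omega⟩
    exact h5.ne (h4 _ _ hv.1 (Ne.symm e') h1 hv.2).1
  have h6 : ∀ v, symmDiff (tr e u) (tr e v) ∈ CS → hammingNorm v ≤ 4 → hammingNorm v = 4 := fun v a b => by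
    by_cases e' : u = v
    exacts [e' ▸ h5, (h4 _ _ a e' h1 b).2.1]
  refine .inr ⟨?_, fun v hv => ⟨h6 v hv.1 hv.2, fun v' hv' e' =>
    (h4 _ _ (symmDiff_mem_trans hv.1 hv'.1) e' hv.2 hv'.2).2.2⟩⟩
  rw [← card_sextetOf (card_tr.trans h5), ← Set.ncard_coe_finset,
    ← Set.ncard_image_of_injective _ (tr_injective (e := e))]
  congr 1
  ext s
  rw [mem_coe, mem_sextetOf]
  refine ⟨?_, fun hs => ⟨_, ⟨(tr_word s).symm ▸ hs.2, by rw [← card_tr (e := e), tr_word, hs.1]⟩, tr_word s⟩⟩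
  rintro ⟨v, hv, rfl⟩
  exact ⟨card_tr.trans (h6 v hv.1 hv.2), hv.1⟩

end Cfsg.Agent.S5623
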