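import Cfsg.Statements.S5624
import Cfsg.Agent.Perm.Code24

set_option autoImplicit false
open Cfsg

namespace Cfsg.Agent.S5624

open CF.Perm CF.Leech Finset

/-- Let C be a self-dual binary code of length 24 with minimum weight at least 8 (a 12-dimensional subspace of the 24-dimensional space over the field with two elements, any two of whose words have dot product zero, with no non-zero word of weight below 8 — an abstract extended binary Golay code). Then C is spanned, as a vector space over the field with two elements, by its words of weight 8. -/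
theorem result (C : Submodule (ZMod 2) (Fin 24 → ZMod 2)) (hdim : Module.finrank (ZMod 2) C = 12) (horth : ∀ v ∈ C, ∀ w ∈ C, ∑ i, v i * w i = 0) (hmin : ∀ w ∈ C, w ≠ 0 → 8 ≤ hammingNorm w) : Submodule.span (ZMod 2) {w : Fin 24 → ZMod 2 | w ∈ C ∧ hammingNorm w = 8} = C := by
  obtain ⟨e, h⟩ := exists_tr C hdim hmin
  refine le_antisymm (Submodule.span_le.2 fun _ h => h.1) fun w hw => ?_
  refine CS_induction_octads (P := fun s => ∀ w, tr e w = s → w ∈ Submodule.span (ZMod 2)
    {w | w ∈ C ∧ hammingNorm w = 8}) (fun w hw => ?_)
    (fun o ho w hw => Submodule.subset_span ⟨(h w).2 (hw ▸ ho.1), by rw [← card_tr (e := e), hw, ho.2]⟩)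
    (fun s t _ _ h1 h2 w hw => ?_) ((h w).1 hw) w rfl
  · rw [tr_injective (hw.trans support₂_zero.symm : _ = tr e 0)]; exact zero_mem _
  · rw [← tr_word (e := e) s, ← tr_word (e := e) t, ← tr_sub] at hw
    exact tr_injective hw ▸ sub_mem (h1 _ (tr_word s)) (h2 _ (tr_word t))

end Cfsg.Agent.S5624
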