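import Cfsg.Statements.S5625
import Cfsg.Agent.Leech.Steiner

set_option autoImplicit false
open Cfsg

namespace Cfsg.Agent.S5625

open CF.Leech Finset

/-- In any Steiner system S(5, 8, 24) and for any set Y of three points, the blocks meeting Y in exactly 3, 2, 1 and 0 points number 21, 168, 360 and 210 respectively (so there are 759 blocks in all). -/
theorem result (α : Type*) [Fintype α] [DecidableEq α] (hα : Fintype.card α = 24) (B : Set (Finset α)) (hB : Cfsg.IsSteinerSystem 5 8 B) (Y : Finset α) (hY : Y.card = 3) : {b : Finset α | b ∈ B ∧ (b ∩ Y).card = 3}.ncard = 21 ∧ {b : Finset α | b ∈ B ∧ (b ∩ Y).card = 2}.ncard = 168 ∧ {b : Finset α | b ∈ B ∧ (b ∩ Y).card = 1}.ncard = 360 ∧ {b : Finset α | b ∈ B ∧ (b ∩ Y).card = 0}.ncard = 210 := by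
  classical
  have h1 : ∀ i ≤ 3, ∀ l, l * (8 - i).choose (5 - i) = (24 - i).choose (5 - i) → 0 < (8 - i).choose (5 - i) →
      ∑ j ∈ range 4, {b | b ∈ B ∧ (b ∩ Y).card = j}.ncard * j.choose i = Nat.choose 3 i * l :=
    fun i hi l hl h0 => by
    have h2 := sum_card_bipartiteAbove_eq_sum_card_bipartiteBelow (s := Y.powersetCard i)
      (t := B.toFinset) (· ⊆ ·)
    rw [sum_congr rfl (g := fun _ => l) fun s hs => by
        have h3 := (mem_powersetCard.1 hs).2
        have := steiner_lam hB (s := s) (by omega)
        rw [h3, hα, ← hl, Set.ncard_eq_toFinset_card'] at this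
        rw [← Nat.eq_of_mul_eq_mul_right h0 this]; congr 1; ext; simp,
      sum_const, card_powersetCard, hY, smul_eq_mul, sum_congr rfl (g := fun b => (b ∩ Y).card.choose i)
        fun b _ => by
          rw [← card_powersetCard]; congr 1; ext; simp [subset_inter_iff]; tauto,
      ← sum_fiberwise_of_maps_to (g := fun b => (b ∩ Y).card) (t := range 4) fun b _ =>
        mem_range.2 ((card_le_card inter_subset_right).trans_lt (by omega))] at h2
    rw [h2]
    refine sum_congr rfl fun j _ => ?_
    rw [sum_congr rfl (g := fun _ => j.choose i) fun b hb => by rw [(mem_filter.1 hb).2], sum_const,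
      smul_eq_mul, Set.ncard_eq_toFinset_card']
    congr 2; ext; simp
  have a0 := h1 0 (by omega) 759 (by decide +kernel) (by decide)
  have a1 := h1 1 (by omega) 253 (by decide +kernel) (by decide)
  have a2 := h1 2 (by omega) 77 (by decide +kernel) (by decide)
  have a3 := h1 3 (by omega) 21 (by decide +kernel) (by decide)
  simp only [sum_range_succ, sum_range_zero, Nat.choose] at a0 a1 a2 a3
  omega

end Cfsg.Agent.S5625
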