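import Cfsg.Statements.S5626
import Cfsg.Agent.Perm.Plane4

set_option autoImplicit false
open Cfsg

namespace Cfsg.Agent.S5626

/-- Uniqueness of the projective plane of order 4: any two Steiner systems S(2, 5, 21) (21 points, lines of 5 points, two points on exactly one line) are isomorphic. -/
theorem result {α β : Type*} [Fintype α] [DecidableEq α] [Fintype β] [DecidableEq β] (hα : Fintype.card α = 21) (hβ : Fintype.card β = 21) {L : Set (Finset α)} {L' : Set (Finset β)} (hL : Cfsg.IsSteinerSystem 2 5 L) (hL' : Cfsg.IsSteinerSystem 2 5 L') : Cfsg.SetSystemIso L L' := by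
  have h : CF.Perm.Pl L := ⟨hα, hL⟩
  have h' : CF.Perm.Pl L' := ⟨hβ, hL'⟩
  obtain ⟨H, h1, h2⟩ := Set.nonempty_of_ncard_ne_zero (h.count_six.trans_ne (by omega))
  obtain ⟨H', h3, h4⟩ := Set.nonempty_of_ncard_ne_zero (h'.count_six.trans_ne (by omega))
  obtain ⟨e, rfl⟩ := CF.Perm.exists_emb h1
  obtain ⟨e', rfl⟩ := CF.Perm.exists_emb h3
  obtain ⟨ψ, -, h5⟩ := h.exists_iso h' e h2 e' h4
  exact ⟨ψ, h5⟩

end Cfsg.Agent.S5626
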