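import Cfsg.Statements.S5628
import Cfsg.Agent.Perm.Plane4

set_option autoImplicit false
open Cfsg

namespace Cfsg.Agent.S5628

/-- In a projective plane of order 4 (a Steiner system S(2, 5, 21)), every permutation of the six points of a hyperoval (a 6-set met by no line in more than two points) is the restriction of exactly one automorphism of the plane. In particular the stabiliser of a hyperoval in the automorphism group is isomorphic to the symmetric group of degree 6 acting faithfully on the hyperoval. -/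
theorem result {α : Type*} [Fintype α] [DecidableEq α] (hα : Fintype.card α = 21) (L : Set (Finset α)) (hL : Cfsg.IsSteinerSystem 2 5 L) (H : Finset α) (hH : (H.card = 6 ∧ ∀ l ∈ L, (l ∩ H).card ≤ 2)) (σ : Equiv.Perm ↥H) : ∃! g : Equiv.Perm α, g ∈ Cfsg.setSystemAut L ∧ ∀ p : ↥H, g p = σ p := by
  have h : CF.Perm.Pl L := ⟨hα, hL⟩
  let a := (H.equivFinOfCardEq hH.1).symm
  have k : ∀ b : Fin 6 ≃ H, CF.Perm.Arc L (Finset.univ.map (b.toEmbedding.trans (.subtype _))) := fun b => by
    rw [← Finset.map_map, Finset.map_univ_equiv, Finset.univ_eq_attach, Finset.attach_map_val]; exact hH.2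
  obtain ⟨ψ, h1, h2⟩ := h.exists_iso h _ (k a) _ (k (a.trans σ))
  have h3 : ∀ p : H, ψ p = σ p := fun p => by simpa using h1 (a.symm p)
  refine ⟨ψ, ⟨h2, h3⟩, fun g ⟨h4, h5⟩ => ?_⟩
  refine (inv_mul_eq_one.1 (h.aut_eq_one _ (k a) (mul_mem (inv_mem (show ψ ∈ Cfsg.setSystemAut L from h2)) h4)
    fun i => ?_)).symm
  exact Equiv.Perm.inv_eq_iff_eq.2 ((h5 _).trans (h3 _).symm)

end Cfsg.Agent.S5628
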