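import Cfsg.Statements.S5629
import Cfsg.Agent.J4F.Orb
import Cfsg.Agent.Bt.Fus

set_option autoImplicit false
open Cfsg

namespace Cfsg.Agent.S5629

/-- Let G be a finite non-abelian simple group of Janko-four type (an involution z whose centralizer H has an extraspecial largest normal 2-subgroup E of order 2^13 containing its centralizer in H, a normal subgroup N ≥ E of H with N/E of order 3 and H/N the automorphism group of M₂₂, and a subgroup P ≤ N of order 3 with C_E(P) = ⟨z⟩, N_H(P) ≠ C_H(P) and P ≤ C_H(P)′), and let V be an elementary abelian subgroup of G of order 2^11. Then the normalizer of V has index 173067389 in G, and in the action of G on the cosets of this normalizer the normalizer itself has exactly seven orbits, of sizes 1, 15180, 28336, 3400320, 32643072, 54405120 and 82575360 (a rank-7 permutation representation). -/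
theorem result {G : Type*} [Group G] [Finite G] [IsSimpleGroup G] (hG : ¬ IsMulCommutative G) (z : G) (hJ : Cfsg.IsOfJankoFourTypeAt z) (V : Subgroup G) (hV : Cfsg.IsElementaryAbelian 2 V) (hcard : Nat.card ↥V = 2 ^ 11) : (Subgroup.normalizer (V : Set G)).index = 173067389 ∧ ∃ c : Fin 7 → G ⧸ Subgroup.normalizer (V : Set G), (∀ i j : Fin 7, i ≠ j → MulAction.orbit ↥(Subgroup.normalizer (V : Set G)) (c i) ≠ MulAction.orbit ↥(Subgroup.normalizer (V : Set G)) (c j)) ∧ (∀ q : G ⧸ Subgroup.normalizer (V : Set G), ∃ i : Fin 7, q ∈ MulAction.orbit ↥(Subgroup.normalizer (V : Set G)) (c i)) ∧ (List.ofFn fun i => (MulAction.orbit ↥(Subgroup.normalizer (V : Set G)) (c i)).ncard) = [1, 15180, 28336, 3400320, 32643072, 54405120, 82575360] := by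
  obtain ⟨e, -⟩ := CF.J4.rec_J4 hJ
  obtain ⟨e, rfl⟩ := CF.J4F.exists_V e hV hcard
  rw [CF.Bt.norm_comap, CF.J4F.normV]
  obtain ⟨c, h1, h2, h3⟩ := CF.J4F.orbs
  obtain ⟨q, hq⟩ := CF.J4F.orb_transfer e (A := CF.Dce.J4.H.comap e.toMonoidHom) (B := CF.Dce.J4.H) fun _ => Iff.rfl
  have h4 := fun i => (hq (q.symm (c i))).trans (congrArg _ (q.apply_symm_apply _))
  refine ⟨(Subgroup.index_comap_of_surjective _ e.surjective).trans CF.Dce.J4.index_H, fun i => q.symm (c i),
    fun i j h e' => h1 i j h (by rw [← h4, ← h4, e']), fun x => (h2 (q x)).imp fun i h => ?_, ?_⟩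
  · rwa [← h4, q.injective.mem_set_image] at h
  · simp only [← Set.ncard_image_of_injective _ q.injective, h4, h3]
    rfl

end Cfsg.Agent.S5629
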