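import Cfsg.Statements.S5632
import Cfsg.Agent.Geom.SLT

set_option autoImplicit false
open Cfsg

namespace Cfsg.Agent.S5632

/-- For a finite field F and subspaces 0 < W < U of F^n with dim W + dim U = n, the elements of SL_n(F) stabilising both W and U form a subgroup that is not maximal in SL_n(F): some subgroup lies strictly between it and SL_n(F). -/
theorem result {F : Type*} [Field F] [Fintype F] (n : ℕ) (W U : Submodule F (Fin n → F)) (hW0 : W ≠ ⊥) (hWU : W < U) (hdim : Module.finrank F W + Module.finrank F U = n) : ∃ K : Subgroup (Matrix.GeneralLinearGroup (Fin n) F), Cfsg.Geo.subspaceStabilizer W ⊓ Cfsg.Geo.subspaceStabilizer U ⊓ Cfsg.Geo.specialLinear (Fin n) F < K ∧ K < Cfsg.Geo.specialLinear (Fin n) F := by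
  have hV : Module.finrank F (Fin n → F) = n := by simp
  have h1 := (Submodule.one_le_finrank_iff).2 hW0
  have hU : U ≠ ⊤ := fun e => by rw [e, finrank_top] at hdim; omega
  open CF.Geom in
  refine exists_between_of_equiv (glEquiv _ F) (H' := subStab W ⊓ subStab U) mem_specialLinear_iff
    (fun g _ => by simp only [Subgroup.mem_inf, mem_subspaceStabilizer_iff]) (subStab W)
    (fun g hg => hg.2.1) (SLG_not_le_subStab hW0 (hWU.trans_le le_top).ne) ?_
  obtain ⟨u, hu, huW⟩ := SetLike.exists_of_lt hWU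
  obtain ⟨v, -, hv⟩ := SetLike.exists_of_lt (lt_top_iff_ne_top.2 hU)
  obtain ⟨φ, e1, e2⟩ := CF.Geom.exists_dual_one (CF.Geom.notMem_sup_singleton_comm huW
    fun e => hv ((sup_le hWU.le ((Submodule.span_singleton_le_iff_mem _ _).2 hu)) e))
  have h0 : φ v = 0 := e2 v (Submodule.mem_sup_right (Submodule.mem_span_singleton_self v))
  exact ⟨CF.Geom.tvE h0, CF.Geom.tvE_mem_SLG h0, CF.Geom.tvE_mem_subStab h0
    (Or.inr fun w hw => e2 w (Submodule.mem_sup_left hw)), fun e =>
    CF.Geom.tvE_notMem_subStab h0 hv hu (by rw [e1]; exact one_ne_zero) e.2⟩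

end Cfsg.Agent.S5632
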