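import Cfsg.Statements.S5633
import Cfsg.Agent.Geom.SLT

set_option autoImplicit false
open Cfsg

namespace Cfsg.Agent.S5633

/-- For a finite field F and complementary non-zero subspaces W ⊕ U = F^n with dim W < dim U, the elements of SL_n(F) stabilising both W and U form a subgroup that is not maximal in SL_n(F): some subgroup lies strictly between it and SL_n(F). -/
theorem result {F : Type*} [Field F] [Fintype F] (n : ℕ) (W U : Submodule F (Fin n → F)) (hW0 : W ≠ ⊥) (hWU : W ⊓ U = ⊥) (hWU' : W ⊔ U = ⊤) (hdim : Module.finrank F W < Module.finrank F U) : ∃ K : Subgroup (Matrix.GeneralLinearGroup (Fin n) F), Cfsg.Geo.subspaceStabilizer W ⊓ Cfsg.Geo.subspaceStabilizer U ⊓ Cfsg.Geo.specialLinear (Fin n) F < K ∧ K < Cfsg.Geo.specialLinear (Fin n) F := by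
  have hW : W ≠ ⊤ := fun e => by
    have := Submodule.finrank_le U
    rw [e, finrank_top] at hdim; omega
  open CF.Geom in
  refine exists_between_of_equiv (glEquiv _ F) (H' := subStab W ⊓ subStab U) mem_specialLinear_iff
    (fun g _ => by simp only [Subgroup.mem_inf, mem_subspaceStabilizer_iff]) (subStab W)
    (fun g hg => hg.2.1) (SLG_not_le_subStab hW0 hW) ?_
  obtain ⟨w, hw, hw0⟩ := W.exists_mem_ne_zero_of_ne_bot hW0
  obtain ⟨u, hu, hu0⟩ := U.exists_mem_ne_zero_of_ne_bot (by
    rintro rfl; rw [finrank_bot] at hdim; omega)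
  have hd : Disjoint W U := disjoint_iff.2 hWU
  obtain ⟨φ, e1, e2⟩ := CF.Geom.exists_dual_one (W := W) (v := u)
    fun e => hu0 (Submodule.disjoint_def.1 hd u e hu)
  exact ⟨CF.Geom.tvE (e2 w hw), CF.Geom.tvE_mem_SLG _, CF.Geom.tvE_mem_subStab _ (Or.inl hw),
    fun e => CF.Geom.tvE_notMem_subStab _ (fun e => hw0 (Submodule.disjoint_def.1 hd w hw e)) hu
      (by rw [e1]; exact one_ne_zero) e.2⟩

end Cfsg.Agent.S5633
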