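import Cfsg.Statements.S5647
import Cfsg.Agent.Geom.MaxC2

set_option autoImplicit false
open Cfsg

namespace Cfsg.Agent.S5647

/-- For a finite field F with q elements and m ≥ 7, let D be a decomposition of F^(2m) into t ≥ 2 pairwise orthogonal subspaces of equal dimension k on each of which the standard alternating form is non-degenerate, spanning F^(2m). Unless k = 2 and q = 2, the elements of Sp_2m(F) permuting the members of D form a maximal subgroup of Sp_2m(F). -/
theorem result {F : Type*} [Field F] [Fintype F] (m : ℕ) (hm : 7 ≤ m) {t : ℕ} (k : ℕ) (D : Fin t → Submodule F (Fin m ⊕ Fin m → F)) (hD : Cfsg.Geo.IsNondegenerateMDecomposition (Cfsg.sympForm m F) k D) (hex : ¬ (k = 2 ∧ Fintype.card F = 2)) : Cfsg.Geo.IsMaximalIn (Cfsg.spGL m F) (Cfsg.Geo.decompositionStabilizer D ⊓ Cfsg.spGL m F) := by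
  have h := CF.Geom.odec_sp hD
  have := CF.Geom.nontrivial_fin hD.decomp
  open CF.Geom in
  refine (sp_maxIn_dec (sympBilin_nondegenerate m) (sympBilin_isAlt m) h ?_).isMaximalIn
    (glEquiv _ F) (mem_spGL_iff m) (mem_decompositionStabilizer_iff D)
  by_cases hq : Fintype.card F = 2
  · left
    obtain ⟨i⟩ : Nonempty (Fin t) := inferInstance
    have h1 := CF.Geom.even_finrank_of_alt (h.witt.restrict (h.nondeg i)).nondegenerate
      (fun x => CF.Geom.sympBilin_isAlt m x.1)
    rw [h.dim] at h1
    obtain ⟨j, hj⟩ := h1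
    have := h.pos
    omega
  · exact Or.inr (CF.Geom.exists_ne_zero_ne_one_of_card (by rwa [Nat.card_eq_fintype_card]))

end Cfsg.Agent.S5647
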