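import Cfsg.Statements.S5648
import Cfsg.Agent.Geom.NonMax3
import Cfsg.Agent.MaxSub.AschS

set_option autoImplicit false
open Cfsg

namespace Cfsg.Agent.S5648

/-- Over the field with 2 elements and for m ≥ 7, let D be a decomposition of F^(2m) into t pairwise orthogonal non-degenerate 2-dimensional subspaces for the standard alternating form (t = m ≥ 2). Then the elements of Sp_2m(2) permuting the members of D form a subgroup that is not maximal: some subgroup lies strictly between it and Sp_2m(2). -/
theorem result {F : Type*} [Field F] [Fintype F] (m : ℕ) (hm : 7 ≤ m) (hq : Fintype.card F = 2) {t : ℕ} (D : Fin t → Submodule F (Fin m ⊕ Fin m → F)) (hD : Cfsg.Geo.IsNondegenerateMDecomposition (Cfsg.sympForm m F) 2 D) : ∃ K : Subgroup (Matrix.GeneralLinearGroup (Fin m ⊕ Fin m) F), Cfsg.Geo.decompositionStabilizer D ⊓ Cfsg.spGL m F < K ∧ K < Cfsg.spGL m F := by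
  obtain ⟨φ, h1, h2, h3, -⟩ := CF.MaxSub.exists_FD_sp m F
  obtain ⟨Q, hQ, h4⟩ := φ.exists_quad_two h1 h2 hq (h3 ▸ hD)
  have e : QuadraticMap.polarBilin hQ.qf = CF.Geom.sympBilin m F := by
    refine LinearMap.ext₂ fun u v => ?_
    rw [QuadraticMap.polarBilin_apply_apply, hQ.polar_qf, CF.Geom.sympBilin_apply, h3]
  have e1 := CF.Geom.finrank_eq_of_isMDec hD.decomp
  open CF.Geom in
  have := sp_btw_two (Q := hQ.qf) (e ▸ odec_sp hD) (two_eq_zero_of_not_odd_card (by rw [hq]; decide))
    (by simp at e1 ⊢; omega) (by simp; omega) h4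
  rw [e] at this
  open CF.Geom in
  exact this.transfer (glEquiv _ F) (mem_spGL_iff m) (mem_decompositionStabilizer_iff D)

end Cfsg.Agent.S5648
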