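import Cfsg.Statements.S5650
import Cfsg.Agent.Geom.C5C

set_option autoImplicit false
open Cfsg

namespace Cfsg.Agent.S5650

/-- For a finite field F, a subfield F₀ with |F| = |F₀| ^ r for a prime r, and m ≥ 7, let P be an invertible matrix and ζ a non-zero scalar such that ζ times the standard alternating form takes values in F₀ on the F₀-span of the columns of P. Then the elements of Sp_2m(F) lying in the subfield group of P (the conjugate by P of the product of GL_2m(F₀) with the scalars) form a maximal subgroup of Sp_2m(F). -/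
theorem result {F : Type*} [Field F] [Fintype F] (m : ℕ) (hm : 7 ≤ m) (F₀ : Subfield F) (r : ℕ) (hr : r.Prime) (hcard : Fintype.card F = Nat.card F₀ ^ r) (P : Matrix.GeneralLinearGroup (Fin m ⊕ Fin m) F) (ζ : F) (hζ : ζ ≠ 0) (hP : Cfsg.Geo.IsFormRationalStructure (Cfsg.sympForm m F) F₀ ζ P) : Cfsg.Geo.IsMaximalIn (Cfsg.spGL m F) (Cfsg.Geo.subfieldSubgroup F₀ P ⊓ Cfsg.spGL m F) := by
  open CF.Geom in
  refine (sp_maxIn_RG (B := ζ • sympBilin m F) (ε := (glEquiv _ F P).symm) (F₀ := F₀)
    (((polarG_sp (sympBilin_nondegenerate m) (sympBilin_isAlt m)).smul_form hζ).witt.nondegenerate)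
    (fun x => by simp [sympBilin_isAlt m x]) (by simp; omega) hr
    (by rw [← hcard, Nat.card_eq_fintype_card]) fun x y hx hy => ?_).isMaximalIn (glEquiv _ F)
    (fun g => by rw [mem_spGL_iff, SpG, SpG, Isom_smul hζ]) (mem_subfieldSubgroup_iff P)
  simpa [CF.Geom.sympBilin_apply] using CF.Geom.rat_of_structure hP hx hy

end Cfsg.Agent.S5650
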