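import Cfsg.Statements.S5652
import Cfsg.Agent.Geom.C8S

set_option autoImplicit false
open Cfsg

namespace Cfsg.Agent.S5652

/-- For a finite field F of characteristic two and m ≥ 7, let Q be a non-degenerate quadratic form on F^(2m) whose polar form is the standard alternating form. Then the elements of Sp_2m(F) that are similarities of Q (they are exactly the isometries of Q) form a maximal subgroup of Sp_2m(F). -/
theorem result {F : Type*} [Field F] [Fintype F] (m : ℕ) (hm : 7 ≤ m) (heven : ¬ Odd (Fintype.card F)) (Q : (Fin m ⊕ Fin m → F) → F) (hQ : Cfsg.Geo.IsNondegenerateQuadraticForm Q) (hpol : ∀ u v, QuadraticMap.polar Q u v = Cfsg.sympForm m F u v) : Cfsg.Geo.IsMaximalIn (Cfsg.spGL m F) (Cfsg.Geo.quadSimilarityGroup Q ⊓ Cfsg.spGL m F) := by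
  obtain ⟨Q, rfl, h⟩ := CF.Geom.exists_quadraticForm hQ
  have e : CF.Geom.sympBilin m F = QuadraticMap.polarBilin Q :=
    LinearMap.ext₂ fun u v => (CF.Geom.sympBilin_apply m u v).trans (hpol u v).symm
  open CF.Geom in
  exact (o_sim_in_sp_maxIn h (two_eq_zero_of_not_odd_card heven) (by simp; omega)).isMaximalIn
    (glEquiv _ F) (fun g => by rw [mem_spGL_iff, e]) (mem_quadSimilarityGroup_iff Q)

end Cfsg.Agent.S5652
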