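import Cfsg.Statements.S5653
import Cfsg.Agent.Geom.MaxC1T

set_option autoImplicit false
open Cfsg

namespace Cfsg.Agent.S5653

/-- Let F be the field with q² elements and n ≥ 13, and let SU_n(q) be the group of matrices of determinant one preserving the standard unitary form Σ u_i v_i^q on F^n (the intersection of the unitary group GU_n with the kernel of the determinant). The elements of SU_n(q) stabilising a non-zero subspace on which the form vanishes identically form a maximal subgroup of SU_n(q). -/
theorem result {F : Type*} [Field F] [Fintype F] (n q : ℕ) (hF : Fintype.card F = q ^ 2) (hn : 13 ≤ n) (W : Submodule F (Fin n → F)) (hW0 : W ≠ ⊥) (hW : Cfsg.Geo.IsTotallySingularFor (Cfsg.hermForm n F q) W) : Cfsg.Geo.IsMaximalIn (Cfsg.GU n F q ⊓ Cfsg.Geo.specialLinear (Fin n) F) (Cfsg.Geo.subspaceStabilizer W ⊓ (Cfsg.GU n F q ⊓ Cfsg.Geo.specialLinear (Fin n) F)) := by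
  open CF.Geom in
  obtain ⟨σ, hσ, h1, h2⟩ := exists_conj hF
  open CF.Geom in
  exact (su_maxIn_ts (isHerm_hermSesq h1 h2) (hermSesq_nondegenerate σ) hW0
    (le_perp_of_orthogonalFor (isRefl_of_isSymm (hermSesq_isSymm h2))
      (Or.inr (hermForm_eq hσ)) hW)).isMaximalIn
    (glEquiv _ F) (mem_SU_iff hσ) (mem_subspaceStabilizer_iff W)

end Cfsg.Agent.S5653
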