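import Cfsg.Statements.S5656
import Cfsg.Agent.Geom.NonMax3

set_option autoImplicit false
open Cfsg

namespace Cfsg.Agent.S5656

/-- Let F be the field with 4 elements (q = 2) and n ≥ 13. Let D be a decomposition of F^n into t pairwise orthogonal 2-dimensional subspaces, each non-degenerate for the standard unitary form Σ u_i v_i². Then the elements of SU_n(2) permuting the members of D form a subgroup that is not maximal: some subgroup lies strictly between it and SU_n(2). -/
theorem result {F : Type*} [Field F] [Fintype F] (n : ℕ) (hF : Fintype.card F = 4) (hn : 13 ≤ n) {t : ℕ} (D : Fin t → Submodule F (Fin n → F)) (hD : Cfsg.Geo.IsNondegenerateMDecomposition (Cfsg.hermForm n F 2) 2 D) : ∃ K : Subgroup (Matrix.GeneralLinearGroup (Fin n) F), Cfsg.Geo.decompositionStabilizer D ⊓ (Cfsg.GU n F 2 ⊓ Cfsg.Geo.specialLinear (Fin n) F) < K ∧ K < (Cfsg.GU n F 2 ⊓ Cfsg.Geo.specialLinear (Fin n) F) := by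
  open CF.Geom in
  obtain ⟨σ, hσ, h1, h2⟩ := exists_conj (q := 2) (F := F) hF
  have := CF.Geom.nontrivial_fin hD.decomp
  open CF.Geom in
  exact (su_btw_two (isHerm_hermSesq h1 h2) (odec_su hσ h1 h2 hD)
    (two_eq_zero_of_not_odd_card (by rw [hF]; decide))
    (fun a ha => by rw [hσ, ← pow_succ]; exact pow_eq_one_of_card hF a ha)
    (by simp; omega)).transfer (glEquiv _ F) (mem_SU_iff hσ) (mem_decompositionStabilizer_iff D)

end Cfsg.Agent.S5656
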