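import Cfsg.Statements.S5658
import Cfsg.Agent.Geom.C5C

set_option autoImplicit false
open Cfsg

namespace Cfsg.Agent.S5658

/-- Let F be the field with q² elements, n ≥ 13, and F₀ a subfield with |F| = |F₀| ^ r for an odd prime r. Let P be an invertible matrix such that the standard unitary form takes values in F₀ on the F₀-span of the columns of P. Then the elements of SU_n(q) lying in the subfield group of P (the conjugate by P of the product of GL_n(F₀) with the scalars) form a maximal subgroup of SU_n(q). -/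
theorem result {F : Type*} [Field F] [Fintype F] (n q : ℕ) (hF : Fintype.card F = q ^ 2) (hn : 13 ≤ n) (F₀ : Subfield F) (r : ℕ) (hr : r.Prime) (hro : Odd r) (hcard : Fintype.card F = Nat.card F₀ ^ r) (P : Matrix.GeneralLinearGroup (Fin n) F) (hP : Cfsg.Geo.IsFormRationalStructure (Cfsg.hermForm n F q) F₀ 1 P) : Cfsg.Geo.IsMaximalIn (Cfsg.GU n F q ⊓ Cfsg.Geo.specialLinear (Fin n) F) (Cfsg.Geo.subfieldSubgroup F₀ P ⊓ (Cfsg.GU n F q ⊓ Cfsg.Geo.specialLinear (Fin n) F)) := by
  open CF.Geom in
  obtain ⟨σ, hσ, h1, h2⟩ := exists_conj hF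
  open CF.Geom in
  exact (su_maxIn_RG (ε := (glEquiv _ F P).symm) (isHerm_hermSesq h1 h2) (hermSesq_nondegenerate σ)
    (by simp; omega) hr (by rw [← hcard, Nat.card_eq_fintype_card])
    (fun a ha => hσ a ▸ pow_mem ha q)
    (fun x y hx hy => by simpa [hermForm_eq hσ] using rat_of_structure hP hy hx)
    (Or.inl (by rintro rfl; exact absurd hro (by decide)))).isMaximalIn (glEquiv _ F)
    (mem_SU_iff hσ) (mem_subfieldSubgroup_iff P)

end Cfsg.Agent.S5658
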