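import Cfsg.Statements.S5662
import Cfsg.Agent.MaxSub.AschS

set_option autoImplicit false
open Cfsg

namespace Cfsg.Agent.S5662

/-- Subgroup structure of the finite symplectic groups. Let F be a finite field and m ≥ 2 with (m, |F|) ≠ (2, 2), and let Sp_2m(F) be the group of invertible matrices preserving the standard alternating form on F^(2m). Let H be a subgroup of Sp_2m(F) whose product with the scalar matrices ±1 is not all of Sp_2m(F) (H does not cover PSp_2m(F)). Then either H is contained in a member of one of the eight geometric classes of subgroups of Sp_2m(F) (with the conditions built into InSymplecticClass), or H is in the residual class: modulo scalars it is almost simple, and the perfect preimage of its socle acts absolutely irreducibly, is realisable over no proper subfield, and fixes no non-degenerate quadratic form and no non-degenerate unitary form on F^(2m). -/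
theorem result {F : Type*} [Field F] [Fintype F] (m : ℕ) (hm : 2 ≤ m) (hex : ¬ (m = 2 ∧ Fintype.card F = 2)) (H : Subgroup (Matrix.GeneralLinearGroup (Fin m ⊕ Fin m) F)) (hH : H ≤ Cfsg.spGL m F) (hproper : H ⊔ (Cfsg.Geo.scalars (Fin m ⊕ Fin m) F ⊓ Cfsg.spGL m F) ≠ Cfsg.spGL m F) : (∃ M : Subgroup (Matrix.GeneralLinearGroup (Fin m ⊕ Fin m) F), Cfsg.Geo.InSymplecticClass m F M ∧ H ≤ M) ∨ Cfsg.Geo.InSymplecticResidualClass H := by
  obtain ⟨φ, hσ, halt, h1, h2⟩ := CF.MaxSub.exists_FD_sp m F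
  have hc : Fintype.card (Fin m ⊕ Fin m) = 2 * m := by simp [two_mul]
  simp only [Cfsg.Geo.InSymplecticClass, Cfsg.Geo.InSymplecticPartialClass, h1, h2] at hH ⊢
  refine (CF.MaxSub.exists_goodS hσ halt (by omega) hH).imp_left fun ⟨M, hM, e⟩ =>
    ⟨M ⊓ φ.isom, ?_, le_inf e hH⟩
  cases hM with
  | c1t W h0 h => exact .inl (.inl ⟨W, h0, h, rfl⟩)
  | c1n W h0 h hd => exact .inl (.inr (.inl ⟨W, h0, h, by omega, rfl⟩))
  | c2n t k D hD => exact .inl (.inr (.inr (.inl ⟨t, k, D, hD, rfl⟩)))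
  | c2t k D hq hD hts hn =>
    obtain rfl : k = m := by omega
    exact .inl (.inr (.inr (.inr (.inl ⟨D, hq, hD, hts, rfl⟩))))
  | c3s r K hr hK hs ha => exact .inr (.inl ⟨r, K, hr, hK, hs, ha, rfl⟩)
  | c3u K hq hK ha hs => exact .inr (.inr (.inl ⟨K, hq, hK, ha, hs, rfl⟩))
  | c4 a b ε P f₁ f₂ hq h3 hf₁ hf₂ hT =>
    exact .inr (.inr (.inr (.inl ⟨a, b, ε, P, f₁, f₂, hq, h3, hf₁, hf₂, hT, rfl⟩)))
  | c5 F₀ r P ζ hr h h0 hζ =>
    exact .inl (.inr (.inr (.inr (.inr (.inl ⟨F₀, r, P, ζ, hr, h, h0, hζ, rfl⟩)))))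
  | c6 R k hR hs _ hφ hp hq h3 hZ hm =>
    exact .inl (.inr (.inr (.inr (.inr (.inr (.inl ⟨R, _, k, hR,
      CF.MaxSub.absIrr_of_spanAlg_eq_top hs, hφ.trans φ.isom_le_sim, hp, hq, rfl, h3, hZ, hm, rfl⟩))))))
  | c7 k t ε P f₁ hq ho ht h hf₁ hT =>
    exact .inr (.inr (.inr (.inr ⟨k, t, ε, P, f₁, hq, ho, ht, h, hf₁, hT, rfl⟩)))
  | c8 Q hq hQ =>
    exact .inl (.inr (.inr (.inr (.inr (.inr (.inr ⟨Q, hq, hQ.isND, fun u v => by rw [hQ.polar], rfl⟩))))))

end Cfsg.Agent.S5662
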