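import Cfsg.Statements.S5663
import Cfsg.Agent.MaxSub.UnitC

set_option autoImplicit false
open Cfsg

namespace Cfsg.Agent.S5663

/-- Subgroup structure of the finite unitary groups. Let F be the field with q² elements and n ≥ 3 with (n, q) ≠ (3, 2), and let SU_n(q) be the group of matrices of determinant one preserving the standard unitary form Σ u_i v_i^q on F^n. Let H be a subgroup of SU_n(q) whose product with the scalar matrices in SU_n(q) is not all of SU_n(q) (H does not cover PSU_n(q)). Then either H is contained in a member of one of the geometric classes of subgroups of the unitary group GU_n(q) (with the conditions built into InUnitaryClass), or H is in the residual class: modulo scalars it is almost simple, and the perfect preimage of its socle acts absolutely irreducibly, is realisable over no proper subfield of F, and fixes no non-degenerate quadratic form and no non-degenerate symplectic form on F^n. -/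
theorem result {F : Type*} [Field F] [Fintype F] (n q : ℕ) (hF : Fintype.card F = q ^ 2) (hn : 3 ≤ n) (hex : ¬ (n = 3 ∧ q = 2)) (H : Subgroup (Matrix.GeneralLinearGroup (Fin n) F)) (hH : H ≤ (Cfsg.GU n F q ⊓ Cfsg.Geo.specialLinear (Fin n) F)) (hproper : H ⊔ (Cfsg.Geo.scalars (Fin n) F ⊓ (Cfsg.GU n F q ⊓ Cfsg.Geo.specialLinear (Fin n) F)) ≠ (Cfsg.GU n F q ⊓ Cfsg.Geo.specialLinear (Fin n) F)) : (∃ M : Subgroup (Matrix.GeneralLinearGroup (Fin n) F), Cfsg.Geo.InUnitaryClass n F q M ∧ H ≤ M) ∨ Cfsg.Geo.InUnitaryResidualClass H := by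
  obtain ⟨φ, h, h1, h2⟩ := CF.MaxSub.exists_FD_u hF n
  have hc : Fintype.card (Fin n) = n := by simp
  simp only [Cfsg.Geo.InUnitaryClass, Cfsg.Geo.InUnitaryPartialClass, h1, h2] at hH ⊢
  have hI := hH.trans inf_le_left
  refine (h.asch (by omega) hI).imp_left fun ⟨M, hM, e⟩ => ⟨M ⊓ φ.isom, ?_, le_inf e hI⟩
  cases hM with
  | c1t W h0 h => exact .inl (.inl ⟨W, h0, h, rfl⟩)
  | c1n W h0 h hd => exact .inl (.inr (.inl ⟨W, h0, h, by omega, rfl⟩))
  | c2n t k D hD => exact .inl (.inr (.inr (.inl ⟨t, k, D, hD, rfl⟩)))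
  | c2t k D hD hts hn => exact .inl (.inr (.inr (.inr (.inl ⟨k, D, by omega, hD, hts, rfl⟩))))
  | c3 r K hr ho hK ha => exact .inr (.inl ⟨r, K, hr, ho, hK, ha, rfl⟩)
  | c4 a b ε P f₁ f₂ h3 h4 hf₁ hf₂ hT => exact .inr (.inr (.inl ⟨a, b, ε, P, f₁, f₂, h3, h4, hf₁, hf₂, hT, rfl⟩))
  | c5u F₀ r P hr ho h3 hζ =>
    exact .inl (.inr (.inr (.inr (.inr (.inl ⟨F₀, r, P, hr, ho, h3, hζ, rfl⟩)))))
  | c5o F₀ P hq h3 hζ =>
    exact .inl (.inr (.inr (.inr (.inr (.inr (.inl ⟨F₀, P, hq, h3, hζ, rfl⟩))))))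
  | c5s F₀ P ζ he h3 h0 h4 hζ ha =>
    exact .inl (.inr (.inr (.inr (.inr (.inr (.inr (.inl ⟨F₀, P, ζ, hc ▸ he, h3, h0, h4, hζ, ha, rfl⟩)))))))
  | c6 r R H' Z hR hφ hs =>
    obtain ⟨p, f, k, hp, hp1, rfl, h3, h4, h5, h6, h7, h8⟩ := h.c6_arith (by omega) hR hs
    exact .inl (.inr (.inr (.inr (.inr (.inr (.inr (.inr ⟨r, R, p, 2 * f, k, hR.sympl,
      CF.MaxSub.absIrr_of_spanAlg_eq_top hR.span, hφ.trans φ.isom_le_sim, h4, h5,
      h8.imp (fun e => ⟨e.1, e.2.1, h6, e.2.2.1⟩) (fun e => ⟨e.1, by rw [e.2.1], e.2.2.1, e.2.2.2.1⟩), rfl⟩)))))))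
  | c7 k t ε P f₁ hk ht h3 hf₁ hT => exact .inr (.inr (.inr ⟨k, t, ε, P, f₁, hk, ht, h3, hf₁, hT, rfl⟩))

end Cfsg.Agent.S5663
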