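import Cfsg.Statements.S5673
import Cfsg.Agent.MaxSub.MaxO

set_option autoImplicit false
open Cfsg

namespace Cfsg.Agent.S5673

/-- Subgroup structure of the odd-dimensional orthogonal groups. Let F be a finite field of odd order and m ≥ 3, let Q be the standard quadratic form x₀² + Σ x_i y_i on F^(2m+1), and let Ω be the commutator subgroup of its isometry group, viewed inside GL_(2m+1)(F). Let H be a subgroup of Ω whose product with the scalar matrices in Ω is not all of Ω. Then either H is contained in a member of one of the geometric classes of subgroups of the isometry group (with the conditions built into InOrthogonalOddClass), or H is in the residual class: modulo scalars it is almost simple, and the perfect preimage of its socle acts absolutely irreducibly, is realisable over no proper subfield, and fixes no non-degenerate unitary form. -/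
theorem result {F : Type*} [Field F] [Fintype F] (hodd : Odd (Fintype.card F)) (m : ℕ) (hm : 3 ≤ m) (H : Subgroup (Matrix.GeneralLinearGroup (Unit ⊕ (Fin m ⊕ Fin m)) F)) (hH : H ≤ Cfsg.Geo.omegaGL (Cfsg.quadFormOdd m F)) (hproper : H ⊔ (Cfsg.Geo.scalars (Unit ⊕ (Fin m ⊕ Fin m)) F ⊓ Cfsg.Geo.omegaGL (Cfsg.quadFormOdd m F)) ≠ Cfsg.Geo.omegaGL (Cfsg.quadFormOdd m F)) : (∃ M : Subgroup (Matrix.GeneralLinearGroup (Unit ⊕ (Fin m ⊕ Fin m)) F), Cfsg.Geo.InOrthogonalOddClass m F M ∧ H ≤ M) ∨ Cfsg.Geo.InOrthogonalResidualClass H := by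
  obtain ⟨φ, h⟩ := CF.MaxSub.exists_isQ_odd hodd m
  have hc := CF.MaxSub.card_odd_eq m
  have ho : Odd (Fintype.card (Unit ⊕ (Fin m ⊕ Fin m))) := hc ▸ odd_two_mul_add_one m
  refine (CF.MaxSub.exists_goodO h ⟨by omega, .inl ho⟩ hH).imp_left fun ⟨M, hM, e⟩ =>
    ⟨_, ?_, le_inf e (hH.trans (CF.MaxSub.omegaGL_le _))⟩
  simp only [Cfsg.Geo.InOrthogonalOddClass, h.polar]
  cases hM with
  | c1t W h0 h1 => exact .inl ⟨W, h0, h1, rfl⟩
  | c1n W h0 h1 h2 => exact .inr (.inl ⟨W, h0, h1, h2, rfl⟩)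
  | c1l v hq => exact absurd hodd hq
  | c2n t k D hD _ h1 =>
    rcases (Nat.succ_le_of_lt hD.decomp.decomp.pos).eq_or_lt with rfl | h2
    · exact .inr (.inr (.inr (.inl ⟨t, D, h1 rfl, hD, rfl⟩)))
    · exact .inr (.inr (.inl ⟨t, k, D, h2, hD, rfl⟩))
  | c2p => omega
  | c2t => omega
  | c3s r K hr hK hs _ h0 => exact .inr (.inr (.inr (.inr (.inl ⟨r, K, hr, hc ▸ h0.symm, hK, hs, rfl⟩))))
  | c3u => omega
  | c4o a b ε P f₁ f₂ _ h3 hl hf₁ hf₂ hT =>
    exact .inr (.inr (.inr (.inr (.inr (.inl ⟨a, b, ε, P, f₁, f₂, h3, hl, hf₁, hf₂, hT, rfl⟩)))))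
  | c4s => omega
  | c5 F₀ r P ζ hr h1 h0 hζ =>
    obtain ⟨P', h2, h3⟩ := CF.MaxSub.rescale_odd h h0 hζ
    exact .inr (.inr (.inr (.inr (.inr (.inr (.inl ⟨F₀, r, P', hr, h1, h2, h3 ▸ rfl⟩))))))
  | c7 k t ε P f₁ hk ht h1 hf₁ hT =>
    exact .inr (.inr (.inr (.inr (.inr (.inr (.inr ⟨k, t, ε, P, f₁, hk, ht, h1, hf₁, hT, rfl⟩))))))

end Cfsg.Agent.S5673
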