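import Cfsg.Statements.S5675
import Cfsg.Agent.Geom.MaxC1T

set_option autoImplicit false
open Cfsg

namespace Cfsg.Agent.S5675

/-- Let F be a finite field of odd order q, m ≥ 6, Q the standard quadratic form on F^(2m+1) and Ω the commutator subgroup of its isometry group. Let W be a non-zero subspace of even dimension on which the polar form of Q is non-degenerate; exclude the case q = 3, dim W = 2 with Q vanishing on some line of W (a plus-type plane). Then the elements of Ω stabilising W (equivalently, stabilising its orthogonal complement, of odd dimension) form a maximal subgroup of Ω. -/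
theorem result {F : Type*} [Field F] [Fintype F] (hodd : Odd (Fintype.card F)) (m : ℕ) (hm : 6 ≤ m) (W : Submodule F (Unit ⊕ (Fin m ⊕ Fin m) → F)) (hW0 : W ≠ ⊥) (hev : Even (Module.finrank F W)) (hW : Cfsg.Geo.IsNondegenerateOn (QuadraticMap.polar (Cfsg.quadFormOdd m F)) W) (hex : ¬ (Fintype.card F = 3 ∧ Module.finrank F W = 2 ∧ Cfsg.Geo.IsPlusTypeOn (Cfsg.quadFormOdd m F) W)) : Cfsg.Geo.IsMaximalIn (Cfsg.Geo.omegaGL (Cfsg.quadFormOdd m F)) (Cfsg.Geo.subspaceStabilizer W ⊓ Cfsg.Geo.omegaGL (Cfsg.quadFormOdd m F)) := by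
  have hQ := CF.Geom.qOdd_nondegenerate (CF.Geom.two_ne_zero_of_odd_card hodd) m
  have hW' : Disjoint W (CF.Geom.perp (QuadraticMap.polarBilin (CF.Geom.qOdd m F)) W) :=
    CF.Geom.disjoint_perp_of_nondegOn (Or.inl fun _ _ => rfl) hW
  have hf := (CF.Geom.isWittPair_quad _ hQ).finrank_perp W
  have hV : Module.finrank F (Unit ⊕ (Fin m ⊕ Fin m) → F) = 2 * m + 1 := by simp; omega
  obtain ⟨k, hk⟩ := hev
  open CF.Geom in
  refine (omega_maxIn_nondeg' hQ (by omega) hW0 (by rintro rfl; rw [finrank_top] at hk; omega) hW'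
    (fun g _ => map_ne_perp_of_finrank hQ (by omega) g) ?_).isMaximalIn
    (glEquiv _ F) (mem_omegaGL_iff (qOdd m F)) (mem_subspaceStabilizer_iff W)
  rintro U (rfl | rfl) h2
  · by_contra! hc
    obtain ⟨h3, w, hw, hq, h0⟩ := hc
    refine hex ⟨?_, h2, CF.Geom.isPlusTypeOn_of_singular (Q := CF.Geom.qOdd m F) h2 hw hq h0⟩
    rw [Nat.card_eq_fintype_card] at h3
    have := Fintype.one_lt_card (α := F)
    obtain ⟨j, hj⟩ := hodd
    omega
  · omega

end Cfsg.Agent.S5675
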