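import Cfsg.Statements.S5689
import Cfsg.Agent.Geom.MaxC1T

set_option autoImplicit false
open Cfsg

namespace Cfsg.Agent.S5689

/-- Let F be a finite field with q elements, n ≥ 13 even, Q a non-degenerate quadratic form on F^n of minus type (no subspace of dimension n/2 is totally singular), and Ω the commutator subgroup of the isometry group of Q, viewed inside GL_n(F). Let W be a non-zero proper subspace on which the polar form of Q is non-degenerate, not of odd dimension n/2. Exclude the case q ≤ 3 in which W, or its orthogonal complement, is a plane containing a line on which Q vanishes. Then the elements of Ω stabilising W form a maximal subgroup of Ω. -/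
theorem result {F : Type*} [Field F] [Fintype F] {n : ℕ} (hn : 13 ≤ n) (heven : Even n) (Q : (Fin n → F) → F) (hQ : Cfsg.Geo.IsNondegenerateQuadraticForm Q) (hminus : ¬ Cfsg.Geo.IsPlusTypeOn Q ⊤) (W : Submodule F (Fin n → F)) (hW0 : W ≠ ⊥) (hW1 : W ≠ ⊤) (hdim : ¬ (2 * Module.finrank F W = n ∧ Odd (Module.finrank F W))) (hW : Cfsg.Geo.IsNondegenerateOn (QuadraticMap.polar Q) W) (hex : ¬ (Fintype.card F ≤ 3 ∧ (∃ U : Submodule F (Fin n → F), Module.finrank F U = 2 ∧ Cfsg.Geo.IsNondegenerateOn (QuadraticMap.polar Q) U ∧ Cfsg.Geo.IsPlusTypeOn Q U ∧ (U = W ∨ (Cfsg.Geo.AreOrthogonalFor (QuadraticMap.polar Q) U W ∧ Module.finrank F U + Module.finrank F W = n))))) : Cfsg.Geo.IsMaximalIn (Cfsg.Geo.omegaGL Q) (Cfsg.Geo.subspaceStabilizer W ⊓ Cfsg.Geo.omegaGL Q) := by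
  obtain ⟨Q, rfl, hQ'⟩ := CF.Geom.exists_quadraticForm hQ
  have hW' : Disjoint W (CF.Geom.perp (QuadraticMap.polarBilin Q) W) :=
    CF.Geom.disjoint_perp_of_nondegOn (Or.inl fun _ _ => rfl) hW
  open CF.Geom in
  refine (omega_maxIn_nondeg' hQ' (by simp; omega) hW0 hW1 hW' (fun g hg e => ?_)
    (plane_cond hQ' hW' hex)).isMaximalIn
    (glEquiv _ F) (mem_omegaGL_iff Q) (mem_subspaceStabilizer_iff W)
  by_cases hd : 2 * Module.finrank F W = n
  · obtain ⟨φ, hφ⟩ := CF.Geom.exists_isometry_of_map_eq hg e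
    obtain ⟨U, h1, h2⟩ := CF.Geom.isPlus_of_isom_perp hQ' hW'
      (Nat.not_odd_iff_even.1 fun h => hdim ⟨hd, h⟩) φ hφ
    exact hminus ⟨U, le_top, h2, by rwa [finrank_top]⟩
  · exact CF.Geom.map_ne_perp_of_finrank hQ' (by simpa using hd) g e

end Cfsg.Agent.S5689
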