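import Cfsg.Statements.S5699
import Cfsg.Agent.Geom.MaxC1T

set_option autoImplicit false
open Cfsg

namespace Cfsg.Agent.S5699

/-- Let F be a finite field with q elements, n ≥ 13 even, Q a non-degenerate quadratic form on F^n (of either type), and Ω the commutator subgroup of the isometry group of Q, viewed inside GL_n(F). Let D be a decomposition of F^n into two orthogonal subspaces of odd dimension n/2 on which the polar form is non-degenerate and which are not Q-isometric to each other. Then the elements of Ω permuting (necessarily fixing) the two subspaces form a maximal subgroup of Ω. -/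
theorem result {F : Type*} [Field F] [Fintype F] {n : ℕ} (hn : 13 ≤ n) (heven : Even n) (Q : (Fin n → F) → F) (hQ : Cfsg.Geo.IsNondegenerateQuadraticForm Q) (k : ℕ) (hk : 2 * k = n) (hko : Odd k) (D : Fin 2 → Submodule F (Fin n → F)) (hD : Cfsg.Geo.IsNondegenerateMDecomposition (QuadraticMap.polar Q) k D) (hni : ¬ Cfsg.Geo.AreIsometricFor Q (D 0) (D 1)) : Cfsg.Geo.IsMaximalIn (Cfsg.Geo.omegaGL Q) (Cfsg.Geo.decompositionStabilizer D ⊓ Cfsg.Geo.omegaGL Q) := by
  obtain ⟨Q, rfl, hQ'⟩ := CF.Geom.exists_quadraticForm hQ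
  have h := CF.Geom.isWittPair_quad Q hQ'
  have hW' : Disjoint (D 0) (CF.Geom.perp (QuadraticMap.polarBilin Q) (D 0)) :=
    CF.Geom.disjoint_perp_of_nondegOn (Or.inl fun _ _ => rfl) (hD.nondegenerate 0)
  have hf := h.finrank_perp (D 0)
  have h0 := hD.decomp.finrank_eq 0
  have h1 := hD.decomp.finrank_eq 1
  have hV : Module.finrank F (Fin n → F) = n := by simp
  have e1 : D 1 = CF.Geom.perp (QuadraticMap.polarBilin Q) (D 0) :=
    Submodule.eq_of_le_of_finrank_eq (CF.Geom.le_perp_of_orthogonalFor h.isRefl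
      (Or.inl fun _ _ => rfl) (hD.orthogonal 0 1 (by decide))) (by omega)
  have hne : ∀ g ∈ CF.Geom.OG Q, (D 0).map (g : (Fin n → F) →ₗ[F] (Fin n → F)) ≠ D 1 :=
    fun g hg e => hni (CF.Geom.exists_isometry_of_map_eq hg e)
  open CF.Geom in
  refine ((omega_maxIn_nondeg' hQ' (by omega) (W := D 0)
    (fun e => by rw [e, finrank_bot] at h0; omega) (fun e => by rw [e, finrank_top] at h0; omega)
    hW' (e1 ▸ hne) ?_).congr (H' := decStab D) fun g hg => ⟨fun e => ?_, ?_⟩).isMaximalIn
    (glEquiv _ F) (mem_omegaGL_iff Q) (mem_decompositionStabilizer_iff D)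
  · rintro U (rfl | rfl) h2 <;> omega
  · refine CF.Geom.mem_decStab_of_subStab fun i => ?_
    fin_cases i
    · exact e
    · change g ∈ CF.Geom.subStab (D 1)
      rw [e1]; exact CF.Geom.subStab_perp (CF.Geom.OmG_le hg) e
  · rintro ⟨s, hs⟩
    have := hs 0
    generalize s 0 = j at this
    fin_cases j
    · exact this
    · exact absurd this (hne g (CF.Geom.OmG_le hg))

end Cfsg.Agent.S5699
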