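import Cfsg.Statements.S5781
import Cfsg.Agent.MaxSub.MaxL

set_option autoImplicit false
open Cfsg

namespace Cfsg.Agent.S5781

/-- Every maximal subgroup of SL_4(q) is of one of the listed geometric types or lies in the residual class. Let F be a finite field with q elements and H a maximal subgroup of SL_4(F) (inside GL_4(F)). Then H is the intersection with SL_4(F) of one of: the stabiliser of a proper non-zero subspace; for q ≥ 7, the stabiliser of a decomposition into four independent lines; for q ≥ 4, the stabiliser of a decomposition into two independent planes; the normaliser of a degree-2 subfield of the matrix algebra; a subfield group for a subfield F₀ with |F| = |F₀|^r, r prime; for q = p ≡ 1 mod 4 prime, the normaliser of an absolutely irreducible 2-subgroup R of exponent 4 with centre of order 4, all of whose characteristic abelian subgroups are cyclic, of order 2^(2+2m) for some m (here |R| = 64), with 4 dividing p − 1; for q odd, the similarity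 group of a non-degenerate quadratic form; the similarity group of a non-degenerate symplectic form; the similarity group of a non-degenerate unitary form — or else H lies in the residual class of the linear case. -/
theorem result {F : Type*} [Field F] [Fintype F] (H : Subgroup (Matrix.GeneralLinearGroup (Fin 4) F)) (hH : Cfsg.Geo.IsMaximalIn (Cfsg.Geo.specialLinear (Fin 4) F) H) :
    (∃ W : Submodule F (Fin 4 → F), W ≠ ⊥ ∧ W ≠ ⊤ ∧ H = Cfsg.Geo.subspaceStabilizer W ⊓ Cfsg.Geo.specialLinear (Fin 4) F) ∨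
    (7 ≤ Fintype.card F ∧ ∃ D : Fin 4 → Submodule F (Fin 4 → F), Cfsg.Geo.IsMDecomposition 1 D ∧ H = Cfsg.Geo.decompositionStabilizer D ⊓ Cfsg.Geo.specialLinear (Fin 4) F) ∨
    (4 ≤ Fintype.card F ∧ ∃ D : Fin 2 → Submodule F (Fin 4 → F), Cfsg.Geo.IsMDecomposition 2 D ∧ H = Cfsg.Geo.decompositionStabilizer D ⊓ Cfsg.Geo.specialLinear (Fin 4) F) ∨
    (∃ K : Subalgebra F (Matrix (Fin 4) (Fin 4) F), Cfsg.Geo.IsFieldSubalgebra 2 K ∧ H = Cfsg.Geo.subalgebraNormalizer K ⊓ Cfsg.Geo.specialLinear (Fin 4) F) ∨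
    (∃ (F₀ : Subfield F) (r : ℕ) (P : Matrix.GeneralLinearGroup (Fin 4) F), r.Prime ∧ Fintype.card F = Nat.card F₀ ^ r ∧ H = Cfsg.Geo.subfieldSubgroup F₀ P ⊓ Cfsg.Geo.specialLinear (Fin 4) F) ∨
    (∃ (p : ℕ) (R : Subgroup (Matrix.GeneralLinearGroup (Fin 4) F)), p.Prime ∧ Fintype.card F = p ∧ p % 4 = 1 ∧ Cfsg.Geo.IsLinearSymplecticTypeData 2 R ∧ H = Cfsg.Geo.subgroupNormalizer R ⊓ Cfsg.Geo.specialLinear (Fin 4) F) ∨
    (Odd (Fintype.card F) ∧ ∃ Q : (Fin 4 → F) → F, Cfsg.Geo.IsNondegenerateQuadraticForm Q ∧ H = Cfsg.Geo.quadSimilarityGroup Q ⊓ Cfsg.Geo.specialLinear (Fin 4) F) ∨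
    (∃ f : (Fin 4 → F) → (Fin 4 → F) → F, Cfsg.Geo.IsSymplecticForm f ∧ H = Cfsg.Geo.similarityGroup f ⊓ Cfsg.Geo.specialLinear (Fin 4) F) ∨
    (∃ (σ : F ≃+* F) (f : (Fin 4 → F) → (Fin 4 → F) → F), Cfsg.Geo.IsUnitaryForm σ f ∧ H = Cfsg.Geo.similarityGroup f ⊓ Cfsg.Geo.specialLinear (Fin 4) F) ∨
    Cfsg.Geo.InLinearResidualClass H := by
  rcases CF.MaxSub.maximal_linear (by norm_num) hH with ⟨M, hM, e⟩ | h
  swap
  · exact .inr (.inr (.inr (.inr (.inr (.inr (.inr (.inr (.inr (h)))))))))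
  cases hM with
  | c1 W h0 h1 => exact .inl ⟨W, h0, h1, e⟩
  | c2 t m D hD hn h1 h2 =>
    have := hD.two_le
    have := hD.pos
    obtain ⟨rfl, rfl⟩ | ⟨rfl, rfl⟩ : (m = 1 ∧ t = 4) ∨ (m = 2 ∧ t = 2) := by
      have : m ≤ 4 := by nlinarith
      interval_cases m <;> omega
    · exact .inr (.inl ⟨by omega, D, hD, e⟩)
    · exact .inr (.inr (.inl ⟨by omega, D, hD, e⟩))
  | c3 r K hr hK hn h =>
    obtain rfl : r = 2 := by
      have := Nat.le_of_dvd (by norm_num) hn
      interval_cases r <;> first | omega | exact absurd hr (by norm_num)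
    · exact .inr (.inr (.inr (.inl ⟨K, hK, e⟩)))
  | c4 a b ε P h1 h2 hn h =>
    have : a ≤ 3 := by nlinarith
    interval_cases a <;> omega
  | c5 F₀ r P hr h => exact .inr (.inr (.inr (.inr (.inl ⟨F₀, r, P, hr, h, e⟩))))
  | c6 r m R h hn =>
    have hr := h.symplecticType.prime
    obtain rfl := CF.MaxSub.prime_eq_of_eq_pow hr hn (s := 2) (by norm_num) (by norm_num)
    obtain ⟨p, k, hp, hc, hq, h1⟩ := CF.MaxSub.c6_arith (by simp) h
    obtain ⟨-, rfl, h1⟩ | ⟨h1, -⟩ := h1
    · exact .inr (.inr (.inr (.inr (.inr (.inl ⟨p, R, hp, by simpa using hq, h1, h, e⟩)))))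
    · omega
  | c7 m t ε P hm ht hn =>
    exact absurd (CF.MaxSub.pow_small hm ht hn (by norm_num)).2.2 (by norm_num)
  | sp f h hn => exact .inr (.inr (.inr (.inr (.inr (.inr (.inr (.inl ⟨f, h, e⟩)))))))
  | u σ f h => exact .inr (.inr (.inr (.inr (.inr (.inr (.inr (.inr (.inl ⟨σ, f, h, e⟩))))))))
  | o Q h hq => exact .inr (.inr (.inr (.inr (.inr (.inr (.inl ⟨hq, Q, h, e⟩))))))

end Cfsg.Agent.S5781
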