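import Cfsg.Statements.S5784
import Cfsg.Agent.MaxSub.UnitD

set_option autoImplicit false
open Cfsg

namespace Cfsg.Agent.S5784

/-- Every maximal subgroup of SU_4(q) is of one of the listed geometric types or lies in the residual class. Let F be the field with q² elements, f the standard unitary form Σ u_i v_i^q on F^4, and H a maximal subgroup of SU_4(q) (inside GL_4(F)). Then H is the intersection with SU_4(q) of one of: the stabiliser of a non-zero subspace on which f vanishes; the stabiliser of a non-degenerate 1-space; for q ≠ 3, the stabiliser of a decomposition into four mutually orthogonal non-degenerate 1-spaces; for q ≥ 3, of a decomposition into two orthogonal non-degenerate 2-spaces; for q ≥ 4, of a decomposition into two totally isotropic 2-spaces; a subfield group of odd prime index whose F₀-structure carries f; a subfield group of index 2 whose F₀-structure carries ζ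 f, vanishing on pairs (u, u), for some non-zero ζ with ζ + ζ^q = 0; for q odd, a subfield group of index 2 whose F₀-structure carries f; for q = p ≡ 3 mod 4 prime, the normaliser of an absolutely irreducible symplectic-type 2-group of exponent 4, order 64 and centre of order 4 inside the similarity group of f — or else H lies in the residual class of the unitary case. -/
theorem result {F : Type*} [Field F] [Fintype F] (q : ℕ) (hF : Fintype.card F = q ^ 2) (H : Subgroup (Matrix.GeneralLinearGroup (Fin 4) F)) (hH : Cfsg.Geo.IsMaximalIn (Cfsg.GU 4 F q ⊓ Cfsg.Geo.specialLinear (Fin 4) F) H) :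
    (∃ W : Submodule F (Fin 4 → F), W ≠ ⊥ ∧ Cfsg.Geo.IsTotallySingularFor (Cfsg.hermForm 4 F q) W ∧ H = Cfsg.Geo.subspaceStabilizer W ⊓ (Cfsg.GU 4 F q ⊓ Cfsg.Geo.specialLinear (Fin 4) F)) ∨
    (∃ W : Submodule F (Fin 4 → F), W ≠ ⊥ ∧ Cfsg.Geo.IsNondegenerateOn (Cfsg.hermForm 4 F q) W ∧ 2 * Module.finrank F W < 4 ∧ H = Cfsg.Geo.subspaceStabilizer W ⊓ (Cfsg.GU 4 F q ⊓ Cfsg.Geo.specialLinear (Fin 4) F)) ∨
    (q ≠ 3 ∧ ∃ D : Fin 4 → Submodule F (Fin 4 → F), Cfsg.Geo.IsNondegenerateMDecomposition (Cfsg.hermForm 4 F q) 1 D ∧ H = Cfsg.Geo.decompositionStabilizer D ⊓ (Cfsg.GU 4 F q ⊓ Cfsg.Geo.specialLinear (Fin 4) F)) ∨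
    (3 ≤ q ∧ ∃ D : Fin 2 → Submodule F (Fin 4 → F), Cfsg.Geo.IsNondegenerateMDecomposition (Cfsg.hermForm 4 F q) 2 D ∧ H = Cfsg.Geo.decompositionStabilizer D ⊓ (Cfsg.GU 4 F q ⊓ Cfsg.Geo.specialLinear (Fin 4) F)) ∨
    (4 ≤ q ∧ ∃ D : Fin 2 → Submodule F (Fin 4 → F), Cfsg.Geo.IsMDecomposition 2 D ∧ (∀ i, Cfsg.Geo.IsTotallySingularFor (Cfsg.hermForm 4 F q) (D i)) ∧ H = Cfsg.Geo.decompositionStabilizer D ⊓ (Cfsg.GU 4 F q ⊓ Cfsg.Geo.specialLinear (Fin 4) F)) ∨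
    (∃ (F₀ : Subfield F) (r : ℕ) (P : Matrix.GeneralLinearGroup (Fin 4) F), r.Prime ∧ Odd r ∧ Fintype.card F = Nat.card F₀ ^ r ∧ Cfsg.Geo.IsFormRationalStructure (Cfsg.hermForm 4 F q) F₀ 1 P ∧ H = Cfsg.Geo.subfieldSubgroup F₀ P ⊓ (Cfsg.GU 4 F q ⊓ Cfsg.Geo.specialLinear (Fin 4) F)) ∨
    (∃ (F₀ : Subfield F) (P : Matrix.GeneralLinearGroup (Fin 4) F) (ζ : F), Fintype.card F = Nat.card F₀ ^ 2 ∧ ζ ≠ 0 ∧ ζ + ζ ^ q = 0 ∧ Cfsg.Geo.IsFormRationalStructure (Cfsg.hermForm 4 F q) F₀ ζ P ∧ (∀ u : Fin 4 → F, (∀ i, u i ∈ F₀) → (Cfsg.hermForm 4 F q) (Matrix.mulVec (P : Matrix (Fin 4) (Fin 4) F) u) (Matrix.mulVec (P : Matrix (Fin 4) (Fin 4) F) u) = 0) ∧ H = Cfsg.Geo.subfieldSubgroup F₀ P ⊓ (Cfsg.GU 4 F q ⊓ Cfsg.Geo.specialLinear (Fin 4) F)) ∨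
    (Odd q ∧ ∃ (F₀ : Subfield F) (P : Matrix.GeneralLinearGroup (Fin 4) F), Fintype.card F = Nat.card F₀ ^ 2 ∧ Cfsg.Geo.IsFormRationalStructure (Cfsg.hermForm 4 F q) F₀ 1 P ∧ H = Cfsg.Geo.subfieldSubgroup F₀ P ⊓ (Cfsg.GU 4 F q ⊓ Cfsg.Geo.specialLinear (Fin 4) F)) ∨
    (∃ (p : ℕ) (R : Subgroup (Matrix.GeneralLinearGroup (Fin 4) F)), p.Prime ∧ q = p ∧ p % 4 = 3 ∧ Cfsg.Geo.IsSymplecticTypeGroup 2 R ∧ Cfsg.Geo.ActsAbsolutelyIrreducibly (Cfsg.Geo.matrixSet R) ∧ R ≤ Cfsg.Geo.similarityGroup (Cfsg.hermForm 4 F q) ∧ Nat.card R = 64 ∧ Nat.card (Subgroup.center R) = 4 ∧ H = Cfsg.Geo.subgroupNormalizer R ⊓ (Cfsg.GU 4 F q ⊓ Cfsg.Geo.specialLinear (Fin 4) F)) ∨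
    Cfsg.Geo.InUnitaryResidualClass H := by
  obtain ⟨φ, h, e1, e2⟩ := CF.MaxSub.exists_FD_u hF 4
  have hc : Fintype.card (Fin 4) = 4 := by simp
  simp only [e1, e2] at hH ⊢
  rcases h.maximal (by omega) (by omega) hH with ⟨M, hM, e⟩ | hr
  swap
  · exact .inr (.inr (.inr (.inr (.inr (.inr (.inr (.inr (.inr (hr)))))))))
  cases hM with
  | c1t W h0 h1 => exact .inl ⟨W, h0, h1, e⟩
  | c1n W h0 h1 hd => exact .inr (.inl ⟨W, h0, h1, by omega, e⟩)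
  | c2n t k D hD h0 h1 =>
    have := hD.decomp.two_le
    have := hD.decomp.pos
    rw [hc] at h0
    obtain ⟨rfl, rfl⟩ | ⟨rfl, rfl⟩ : (k = 1 ∧ t = 4) ∨ (k = 2 ∧ t = 2) := by
      have : k ≤ 4 := by nlinarith
      interval_cases k <;> omega
    · by_cases hq : q = 3
      swap
      · exact .inr (.inr (.inl ⟨hq, D, hD, e⟩))
      obtain ⟨R, hR, hφ, hs, h2⟩ := h.mono_four hq hD
      obtain ⟨p, f, k, -, -, -, -, -, -, -, h3, h4⟩ := h.c6_arith (by omega) hR hs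
      obtain rfl : k = 2 := Nat.pow_right_injective (by norm_num : 2 ≤ 2) (h3.symm.trans hc)
      obtain ⟨-, -, h5, h6, -⟩ := h4.resolve_left fun e => absurd e.1 (by decide)
      exact .inr (.inr (.inr (.inr (.inr (.inr (.inr (.inr (.inl ⟨3, R, Nat.prime_three, hq, rfl, hR.sympl, CF.MaxSub.absIrr_of_spanAlg_eq_top hR.span, hφ.trans φ.isom_le_sim, h6, h5, CF.MaxSub.IsMaximalIn.eq_inf hH (e ▸ h2) (h.not_le_normalizer (by omega) hR hφ hs)⟩))))))))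
    · exact .inr (.inr (.inr (.inl ⟨h1 rfl, D, hD, e⟩)))
  | c2t k D hD hts h0 =>
    obtain rfl : k = 2 := by omega
    by_cases hq : 4 ≤ q
    · exact .inr (.inr (.inr (.inr (.inl ⟨hq, D, hD, hts, e⟩))))
    obtain ⟨F₀, P, ζ, h1, h2, h3, h4, h5, h6⟩ := h.ts_four (by omega) hD hts
    exact .inr (.inr (.inr (.inr (.inr (.inr (.inl ⟨F₀, P, ζ, h1, h2, h3, h4, h5, CF.MaxSub.IsMaximalIn.eq_inf hH (e ▸ h6) (h.not_le_subfield (by omega) (CF.MaxSub.ne_top_of_card_eq_pow le_rfl h1) P)⟩))))))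
  | c3 r K hr ho hK ha hd =>
    rw [hc] at hd
    have := Nat.le_of_dvd (by norm_num) hd
    interval_cases r <;> first | omega | exact absurd ho (by decide) | exact absurd hr (by norm_num)
  | c4 a b ε P f₁ f₂ h2 hl hf₁ hf₂ hT h0 h1 =>
    rw [hc] at h0
    have : a ≤ 3 := by nlinarith
    interval_cases a <;> omega
  | c5u F₀ r P hr ho h1 hζ => exact .inr (.inr (.inr (.inr (.inr (.inl ⟨F₀, r, P, hr, ho, h1, hζ, e⟩)))))
  | c5o F₀ P hq h1 hζ => exact .inr (.inr (.inr (.inr (.inr (.inr (.inr (.inl ⟨hq, F₀, P, h1, hζ, e⟩)))))))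
  | c5s F₀ P ζ he h1 h0 h2 hζ ha => exact .inr (.inr (.inr (.inr (.inr (.inr (.inl ⟨F₀, P, ζ, h1, h0, h2, hζ, ha, e⟩))))))
  | c6 r R H' Z hR hφ hs =>
    obtain ⟨p, f, k, hp, hp1, rfl, h1, -, -, h2, h3, h4⟩ := h.c6_arith (by omega) hR hs
    rw [hc] at h3
    obtain rfl := CF.MaxSub.prime_eq_of_eq_pow hR.prime h3 (s := 2) (by norm_num) (by norm_num)
    obtain rfl : k = 2 := Nat.pow_right_injective (by norm_num : 2 ≤ 2) h3.symm
    obtain ⟨-, rfl, h5, h6, h7⟩ := h4.resolve_left fun e => absurd e.1 (by decide)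
    exact .inr (.inr (.inr (.inr (.inr (.inr (.inr (.inr (.inl ⟨p, R, hp, pow_one p, h7, hR.sympl, CF.MaxSub.absIrr_of_spanAlg_eq_top hR.span, hφ.trans φ.isom_le_sim, h6, h5, e⟩))))))))
  | c7 k t ε P f₁ hk ht h1 hf₁ hT h0 =>
    obtain ⟨rfl, rfl, h2⟩ := CF.MaxSub.pow_small hk ht h0 (by omega)
    omega

end Cfsg.Agent.S5784
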