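import Cfsg.Statements.S5788
import Cfsg.Agent.MaxSub.O4P

set_option autoImplicit false
open Cfsg

namespace Cfsg.Agent.S5788

/-- The maximal subgroups of Sp_4(q), q odd, in the residual class. Let F be a finite field of odd order q and characteristic p, and H a maximal subgroup of Sp_4(F) (isometries of the standard alternating form on F^4) lying in the residual class of the symplectic case. Then the perfect socle preimage P of H satisfies one of: P modulo scalars is isomorphic to A_6 and q = p with p ≥ 5 and p ≠ 7; or P modulo scalars is isomorphic to A_7 and q = 7; or P modulo scalars is isomorphic to PSL_2(F) itself, with p ≥ 5 and q > 7. -/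
theorem result {F : Type*} [Field F] [Fintype F] (hodd : Odd (Fintype.card F)) (H : Subgroup (Matrix.GeneralLinearGroup (Fin 2 ⊕ Fin 2) F)) (hH : Cfsg.Geo.IsMaximalIn (Cfsg.spGL 2 F) H) (hS : Cfsg.Geo.InSymplecticResidualClass H) :
    ∃ (P : Subgroup (Matrix.GeneralLinearGroup (Fin 2 ⊕ Fin 2) F)) (p : ℕ), Cfsg.Geo.IsResidualCore H P ∧ p.Prime ∧ CharP F p ∧
    ((Nonempty ((P ⧸ (Cfsg.Geo.scalars (Fin 2 ⊕ Fin 2) F).subgroupOf P) ≃* alternatingGroup (Fin 6)) ∧ Fintype.card F = p ∧ 5 ≤ p ∧ p ≠ 7) ∨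
     (Nonempty ((P ⧸ (Cfsg.Geo.scalars (Fin 2 ⊕ Fin 2) F).subgroupOf P) ≃* alternatingGroup (Fin 7)) ∧ Fintype.card F = 7) ∨
     (Nonempty ((P ⧸ (Cfsg.Geo.scalars (Fin 2 ⊕ Fin 2) F).subgroupOf P) ≃* Matrix.ProjectiveSpecialLinearGroup (Fin 2) F) ∧ 5 ≤ p ∧ 7 < Fintype.card F)) := by
  obtain ⟨P, hP, -⟩ := hS
  obtain ⟨p, _⟩ := CharP.exists F
  have hp := CharP.char_is_prime F p
  have := Fact.mk hp
  obtain ⟨R, c, m, e⟩ := CF.MaxSub.O4.residual (fun e => by
    have := FiniteField.even_card_of_char_two (F := F) (ringChar.eq_iff.2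
      (CharTwo.of_one_ne_zero_of_two_eq_zero one_ne_zero e))
    have := Nat.odd_iff.1 hodd
    omega) hH hP
  have q := QuotientGroup.quotientMulEquivOfEq e
  refine ⟨P, p, hP, hp, ‹_›, ?_⟩
  rw [← Nat.card_eq_fintype_card]
  exact (c.main m p).imp (.imp_left fun ⟨f⟩ => ⟨q.trans f⟩) (.imp (.imp_left fun ⟨f⟩ => ⟨q.trans f⟩)
    (.imp_left fun ⟨f⟩ => ⟨q.trans f⟩))

end Cfsg.Agent.S5788
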