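import Cfsg.Statements.S5790
import Cfsg.Agent.MaxSub.AschS

set_option autoImplicit false
open Cfsg

namespace Cfsg.Agent.S5790

/-- Every maximal subgroup of Sp_4(q), q ≥ 4 even, is of one of the listed geometric types or lies in the residual class. Let F be a finite field of even order q ≥ 4, f the standard alternating form on F^4 (coordinates Fin 2 ⊕ Fin 2), and H a maximal subgroup of Sp_4(F) (inside GL_4(F)). Then H is the intersection with Sp_4(F) of one of: the stabiliser of a non-zero totally isotropic subspace; the stabiliser of a decomposition into two orthogonal non-degenerate 2-spaces; the normaliser of a degree-2 subfield K of the matrix algebra, self-adjoint with f(k v, v) = 0; a subfield group whose F₀-structure carries a non-zero multiple of f, |F| = |F₀|^r with r prime; the similarity group of a non-degenerate quadratic form whose polar form is f — or else H lies in the residual class of the symplectic case.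 -/
theorem result {F : Type*} [Field F] [Fintype F] (heven : ¬ Odd (Fintype.card F)) (h4 : 4 ≤ Fintype.card F) (H : Subgroup (Matrix.GeneralLinearGroup (Fin 2 ⊕ Fin 2) F)) (hH : Cfsg.Geo.IsMaximalIn (Cfsg.spGL 2 F) H) :
    (∃ W : Submodule F (Fin 2 ⊕ Fin 2 → F), W ≠ ⊥ ∧ Cfsg.Geo.IsTotallySingularFor (Cfsg.sympForm 2 F) W ∧ H = Cfsg.Geo.subspaceStabilizer W ⊓ Cfsg.spGL 2 F) ∨
    (∃ D : Fin 2 → Submodule F (Fin 2 ⊕ Fin 2 → F), Cfsg.Geo.IsNondegenerateMDecomposition (Cfsg.sympForm 2 F) 2 D ∧ H = Cfsg.Geo.decompositionStabilizer D ⊓ Cfsg.spGL 2 F) ∨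
    (∃ K : Subalgebra F (Matrix (Fin 2 ⊕ Fin 2) (Fin 2 ⊕ Fin 2) F), Cfsg.Geo.IsFieldSubalgebra 2 K ∧ Cfsg.Geo.IsSelfAdjointFor (Cfsg.sympForm 2 F) K ∧ (∀ k ∈ K, ∀ v : (Fin 2 ⊕ Fin 2 → F), (Cfsg.sympForm 2 F) (Matrix.mulVec k v) v = 0) ∧ H = Cfsg.Geo.subalgebraNormalizer K ⊓ Cfsg.spGL 2 F) ∨
    (∃ (F₀ : Subfield F) (r : ℕ) (P : Matrix.GeneralLinearGroup (Fin 2 ⊕ Fin 2) F) (ζ : F), r.Prime ∧ Fintype.card F = Nat.card F₀ ^ r ∧ ζ ≠ 0 ∧ Cfsg.Geo.IsFormRationalStructure (Cfsg.sympForm 2 F) F₀ ζ P ∧ H = Cfsg.Geo.subfieldSubgroup F₀ P ⊓ Cfsg.spGL 2 F) ∨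
    (∃ Q : (Fin 2 ⊕ Fin 2 → F) → F, Cfsg.Geo.IsNondegenerateQuadraticForm Q ∧ (∀ u v : (Fin 2 ⊕ Fin 2 → F), QuadraticMap.polar Q u v = (Cfsg.sympForm 2 F) u v) ∧ H = Cfsg.Geo.quadSimilarityGroup Q ⊓ Cfsg.spGL 2 F) ∨
    Cfsg.Geo.InSymplecticResidualClass H := by
  obtain ⟨φ, hσ, halt, h1, h2⟩ := CF.MaxSub.exists_FD_sp 2 F
  simp only [h1, h2] at hH ⊢
  have hc : Fintype.card (Fin 2 ⊕ Fin 2) = 4 := by simp
  rcases CF.MaxSub.maximal_symp hσ halt (by omega) hH with ⟨M, hM, e⟩ | h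
  swap
  · exact .inr (.inr (.inr (.inr (.inr (h)))))
  cases hM with
  | c1t W h0 h => exact .inl ⟨W, h0, h, e⟩
  | c1n W h0 h hd =>
    obtain ⟨k, hk⟩ := φ.even_of_nd hσ halt h
    exact absurd (Submodule.finrank_eq_zero.1 (by omega)) h0
  | c2n t k D hD hn he h =>
    have := hD.decomp.two_le
    have := hD.decomp.pos
    rw [hc] at hn
    obtain ⟨rfl, rfl⟩ : (k = 2 ∧ t = 2) := by
      have : k ≤ 4 := by nlinarith
      obtain ⟨l, hl⟩ := he
      interval_cases k <;> omega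
    · exact .inr (.inl ⟨D, hD, e⟩)
  | c2t k D hq => exact absurd hq heven
  | c3s r K hr hK hs ha hn =>
    obtain rfl : r = 2 := by
      rw [hc] at hn
      have := Nat.le_of_dvd (by norm_num) hn
      have : r ≤ 2 := by omega
      interval_cases r <;> first | omega | exact absurd hr (by norm_num)
    · exact .inr (.inr (.inl ⟨K, hK, hs, ha, e⟩))
  | c3u K hq => exact absurd hq heven
  | c4 a b ε P f₁ f₂ hq h3 hf₁ hf₂ hT hn ha he h hp =>
    rw [hc] at hn
    have : a ≤ 4 := by nlinarith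
    obtain ⟨l, hl⟩ := he
    interval_cases a <;> omega
  | c5 F₀ r P ζ hr h h0 hζ => exact .inr (.inr (.inr (.inl ⟨F₀, r, P, ζ, hr, h, h0, hζ, e⟩)))
  | c6 R k _ _ _ _ _ hq => exact absurd hq heven
  | c7 k t ε P f₁ hq ho ht h hf₁ hT hn hk =>
    rw [hc] at hn
    have h3 := Nat.pow_le_pow_left hk t
    have : t < 4 := (Nat.pow_lt_pow_iff_right (a := 2) (by norm_num)).1 (by omega)
    obtain rfl : t = 3 := by omega
    have : k < 3 := lt_of_pow_lt_pow_left₀ 3 (by norm_num) (by omega)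
    obtain rfl : k = 2 := by omega
    omega
  | c8 Q hq hQ => exact .inr (.inr (.inr (.inr (.inl ⟨Q, hQ.isND, fun u v => by rw [hQ.polar], e⟩))))

end Cfsg.Agent.S5790
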