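import Cfsg.Statements.S5802
import Cfsg.Agent.MaxSub.Cd8

set_option autoImplicit false
open Cfsg

namespace Cfsg.Agent.S5802

/-- Every maximal subgroup of SU_6(q) is of one of the listed geometric types or lies in the residual class. Let F be the field with q² elements, f the standard unitary form Σ u_i v_i^q on F^6, and H a maximal subgroup of SU_6(q) (inside GL_6(F)). Then H is the intersection with SU_6(q) of one of: the stabiliser of a non-zero totally isotropic subspace; the stabiliser of a non-degenerate 1- or 2-space; for q ≥ 3, the stabiliser of a decomposition into six mutually orthogonal non-degenerate 1-spaces; for q ≥ 3, of a decomposition into three mutually orthogonal non-degenerate 2-spaces; of a decomposition into two orthogonal non-degenerate 3-spaces; of a decomposition into two totally isotropic 3-spaces; for q ≥ 3, the normaliser of an adjoint-closed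 degree-3 subfield of the matrix algebra; for q ≥ 3, the stabiliser of a tensor decomposition of f into unitary forms on F^2 and F^3; a subfield group of odd prime index whose F₀-structure carries f; a subfield group of index 2 and symplectic type; for q odd, a subfield group of index 2 and orthogonal type — or else H lies in the residual class of the unitary case. -/
theorem result {F : Type*} [Field F] [Fintype F] (q : ℕ) (hF : Fintype.card F = q ^ 2) (H : Subgroup (Matrix.GeneralLinearGroup (Fin 6) F)) (hH : Cfsg.Geo.IsMaximalIn (Cfsg.GU 6 F q ⊓ Cfsg.Geo.specialLinear (Fin 6) F) H) :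
    (∃ W : Submodule F (Fin 6 → F), W ≠ ⊥ ∧ Cfsg.Geo.IsTotallySingularFor (Cfsg.hermForm 6 F q) W ∧ H = Cfsg.Geo.subspaceStabilizer W ⊓ (Cfsg.GU 6 F q ⊓ Cfsg.Geo.specialLinear (Fin 6) F)) ∨
    (∃ W : Submodule F (Fin 6 → F), W ≠ ⊥ ∧ Cfsg.Geo.IsNondegenerateOn (Cfsg.hermForm 6 F q) W ∧ 2 * Module.finrank F W < 6 ∧ H = Cfsg.Geo.subspaceStabilizer W ⊓ (Cfsg.GU 6 F q ⊓ Cfsg.Geo.specialLinear (Fin 6) F)) ∨
    (3 ≤ q ∧ ∃ D : Fin 6 → Submodule F (Fin 6 → F), Cfsg.Geo.IsNondegenerateMDecomposition (Cfsg.hermForm 6 F q) 1 D ∧ H = Cfsg.Geo.decompositionStabilizer D ⊓ (Cfsg.GU 6 F q ⊓ Cfsg.Geo.specialLinear (Fin 6) F)) ∨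
    (3 ≤ q ∧ ∃ D : Fin 3 → Submodule F (Fin 6 → F), Cfsg.Geo.IsNondegenerateMDecomposition (Cfsg.hermForm 6 F q) 2 D ∧ H = Cfsg.Geo.decompositionStabilizer D ⊓ (Cfsg.GU 6 F q ⊓ Cfsg.Geo.specialLinear (Fin 6) F)) ∨
    (∃ D : Fin 2 → Submodule F (Fin 6 → F), Cfsg.Geo.IsNondegenerateMDecomposition (Cfsg.hermForm 6 F q) 3 D ∧ H = Cfsg.Geo.decompositionStabilizer D ⊓ (Cfsg.GU 6 F q ⊓ Cfsg.Geo.specialLinear (Fin 6) F)) ∨
    (∃ D : Fin 2 → Submodule F (Fin 6 → F), Cfsg.Geo.IsMDecomposition 3 D ∧ (∀ i, Cfsg.Geo.IsTotallySingularFor (Cfsg.hermForm 6 F q) (D i)) ∧ H = Cfsg.Geo.decompositionStabilizer D ⊓ (Cfsg.GU 6 F q ⊓ Cfsg.Geo.specialLinear (Fin 6) F)) ∨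
    (3 ≤ q ∧ ∃ K : Subalgebra F (Matrix (Fin 6) (Fin 6) F), Cfsg.Geo.IsFieldSubalgebra 3 K ∧ Cfsg.Geo.IsAdjointClosedFor (Cfsg.hermForm 6 F q) K ∧ H = Cfsg.Geo.subalgebraNormalizer K ⊓ (Cfsg.GU 6 F q ⊓ Cfsg.Geo.specialLinear (Fin 6) F)) ∨
    (3 ≤ q ∧ ∃ (e : Fin 6 ≃ Fin 2 × Fin 3) (P : Matrix.GeneralLinearGroup (Fin 6) F) (f₁ : (Fin 2 → F) → (Fin 2 → F) → F) (f₂ : (Fin 3 → F) → (Fin 3 → F) → F), Cfsg.Geo.IsUnitaryFormPow q f₁ ∧ Cfsg.Geo.IsUnitaryFormPow q f₂ ∧ Cfsg.Geo.IsTensorFormStructure (fun x : F => x ^ q) (Cfsg.hermForm 6 F q) f₁ f₂ e P ∧ H = Cfsg.Geo.tensorProductSubgroup 2 3 e P ⊓ (Cfsg.GU 6 F q ⊓ Cfsg.Geo.specialLinear (Fin 6) F)) ∨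
    (∃ (F₀ : Subfield F) (r : ℕ) (P : Matrix.GeneralLinearGroup (Fin 6) F), r.Prime ∧ Odd r ∧ Fintype.card F = Nat.card F₀ ^ r ∧ Cfsg.Geo.IsFormRationalStructure (Cfsg.hermForm 6 F q) F₀ 1 P ∧ H = Cfsg.Geo.subfieldSubgroup F₀ P ⊓ (Cfsg.GU 6 F q ⊓ Cfsg.Geo.specialLinear (Fin 6) F)) ∨
    (∃ (F₀ : Subfield F) (P : Matrix.GeneralLinearGroup (Fin 6) F) (ζ : F), Fintype.card F = Nat.card F₀ ^ 2 ∧ ζ ≠ 0 ∧ ζ + ζ ^ q = 0 ∧ Cfsg.Geo.IsFormRationalStructure (Cfsg.hermForm 6 F q) F₀ ζ P ∧ (∀ u : Fin 6 → F, (∀ i, u i ∈ F₀) → (Cfsg.hermForm 6 F q) (Matrix.mulVec (P : Matrix (Fin 6) (Fin 6) F) u) (Matrix.mulVec (P : Matrix (Fin 6) (Fin 6) F) u) = 0) ∧ H = Cfsg.Geo.subfieldSubgroup F₀ P ⊓ (Cfsg.GU 6 F q ⊓ Cfsg.Geo.specialLinear (Fin 6) F)) ∨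
    (Odd q ∧ ∃ (F₀ : Subfield F) (P : Matrix.GeneralLinearGroup (Fin 6) F), Fintype.card F = Nat.card F₀ ^ 2 ∧ Cfsg.Geo.IsFormRationalStructure (Cfsg.hermForm 6 F q) F₀ 1 P ∧ H = Cfsg.Geo.subfieldSubgroup F₀ P ⊓ (Cfsg.GU 6 F q ⊓ Cfsg.Geo.specialLinear (Fin 6) F)) ∨
    Cfsg.Geo.InUnitaryResidualClass H := by
  obtain ⟨φ, h, e1, e2⟩ := CF.MaxSub.exists_FD_u hF 6
  have hc : Fintype.card (Fin 6) = 6 := by simp
  have hq := h.two_le
  simp only [e1, e2] at hH ⊢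
  rcases h.maximal (by omega) (by omega) hH with ⟨M, hM, e⟩ | hr
  swap
  · exact .inr (.inr (.inr (.inr (.inr (.inr (.inr (.inr (.inr (.inr (.inr hr))))))))))
  cases hM with
  | c1t W h0 h1 => exact .inl ⟨W, h0, h1, e⟩
  | c1n W h0 h1 hd => exact .inr (.inl ⟨W, h0, h1, by omega, e⟩)
  | c2n t k D hD h0 h1 =>
    have := hD.decomp.two_le
    have := hD.decomp.pos
    rw [hc] at h0
    obtain ⟨rfl, rfl⟩ | ⟨rfl, rfl⟩ | ⟨rfl, rfl⟩ : (k = 1 ∧ t = 6) ∨ (k = 2 ∧ t = 3) ∨ (k = 3 ∧ t = 2) := by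
      have : k ≤ 6 := by nlinarith
      interval_cases k <;> omega
    · exact .inr (.inr (.inl ⟨hq.lt_of_ne fun h2 => h.not_max_mono62 h2.symm hD (e ▸ hH), D, hD, e⟩))
    · exact .inr (.inr (.inr (.inl ⟨h1 rfl, D, hD, e⟩)))
    · exact .inr (.inr (.inr (.inr (.inl ⟨D, hD, e⟩))))
  | c2t k D hD hts h0 =>
    obtain rfl : k = 3 := by omega
    exact .inr (.inr (.inr (.inr (.inr (.inl ⟨D, hD, hts, e⟩)))))
  | c3 r K hr ho hK ha hd =>
    rw [hc] at hd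
    obtain rfl : r = 3 := by
      have := Nat.le_of_dvd (by norm_num) hd
      interval_cases r <;> first | omega | exact absurd ho (by decide) | exact absurd hr (by norm_num)
    by_cases h3 : 3 ≤ q
    · exact .inr (.inr (.inr (.inr (.inr (.inr (.inl ⟨h3, K, hK, ha, e⟩))))))
    obtain ⟨F₀, P, ζ, h1, h2, h3, h4, h5, h6⟩ := h.field_six (by omega) hc hK ha
    exact .inr (.inr (.inr (.inr (.inr (.inr (.inr (.inr (.inr (.inl ⟨F₀, P, ζ, h1, h2, h3, h4, h5, CF.MaxSub.IsMaximalIn.eq_inf hH (e ▸ h6) (h.not_le_subfield (by omega) (CF.MaxSub.ne_top_of_card_eq_pow le_rfl h1) P)⟩)))))))))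
  | c4 a b ε P f₁ f₂ h2 hl hf₁ hf₂ hT h0 h1 =>
    rw [hc] at h0
    obtain ⟨rfl, rfl⟩ : a = 2 ∧ b = 3 := by
      have : a ≤ 3 := by nlinarith
      interval_cases a <;> omega
    exact .inr (.inr (.inr (.inr (.inr (.inr (.inr (.inl ⟨h1 rfl, ε, P, f₁, f₂, hf₁, hf₂, hT, e⟩)))))))
  | c5u F₀ r P hr ho h1 hζ => exact .inr (.inr (.inr (.inr (.inr (.inr (.inr (.inr (.inl ⟨F₀, r, P, hr, ho, h1, hζ, e⟩))))))))
  | c5o F₀ P ho h1 hζ => exact .inr (.inr (.inr (.inr (.inr (.inr (.inr (.inr (.inr (.inr (.inl ⟨ho, F₀, P, h1, hζ, e⟩))))))))))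
  | c5s F₀ P ζ he h1 h0 h2 hζ ha => exact .inr (.inr (.inr (.inr (.inr (.inr (.inr (.inr (.inr (.inl ⟨F₀, P, ζ, h1, h0, h2, hζ, ha, e⟩)))))))))
  | c6 r R H' Z hR hφ hs =>
    obtain ⟨p, f, k, hp, hp1, rfl, h1, -, -, h2, h3, h4⟩ := h.c6_arith (by omega) hR hs
    rw [hc] at h3
    have h5 := CF.MaxSub.prime_eq_of_eq_pow hR.sympl.prime h3 (s := 2) (by norm_num) (by norm_num)
    have h6 := CF.MaxSub.prime_eq_of_eq_pow hR.sympl.prime h3 (s := 3) (by norm_num) (by norm_num)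
    omega
  | c7 k t ε P f₁ hk ht h1 hf₁ hT h0 =>
    obtain ⟨rfl, rfl, h2⟩ := CF.MaxSub.pow_small hk ht h0 (by omega)
    omega

end Cfsg.Agent.S5802
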