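import Cfsg.Statements.S5805
import Cfsg.Agent.MaxSub.AschS

set_option autoImplicit false
open Cfsg

namespace Cfsg.Agent.S5805

/-- Every maximal subgroup of Sp_6(q) is of one of the listed geometric types or lies in the residual class. Let F be a finite field with q elements, f the standard alternating form on F^6 (coordinates Fin 3 ⊕ Fin 3), and H a maximal subgroup of Sp_6(F) (inside GL_6(F)). Then H is the intersection with Sp_6(F) of one of: the stabiliser of a non-zero totally isotropic subspace; the stabiliser of a non-degenerate 2-space; for q ≥ 3, the stabiliser of a decomposition into three mutually orthogonal non-degenerate 2-spaces; for q odd, of a decomposition into two totally isotropic 3-spaces; the normaliser of a degree-3 subfield K of the matrix algebra, self-adjoint with f(k v, v) = 0; for q odd, the normaliser of a degree-2 subfield closed under adjoints but not self-adjoint;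 for q odd, q ≥ 5, the stabiliser of a tensor decomposition of f into an alternating form on F^2 and a symmetric form on F^3; a subfield group (|F| = |F₀|^r, r prime) whose F₀-structure carries a non-zero multiple of f; for q even, the similarity group of a non-degenerate quadratic form polarising to f — or else H lies in the residual class of the symplectic case. -/
theorem result {F : Type*} [Field F] [Fintype F] (H : Subgroup (Matrix.GeneralLinearGroup (Fin 3 ⊕ Fin 3) F)) (hH : Cfsg.Geo.IsMaximalIn (Cfsg.spGL 3 F) H) :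
    (∃ W : Submodule F (Fin 3 ⊕ Fin 3 → F), W ≠ ⊥ ∧ Cfsg.Geo.IsTotallySingularFor (Cfsg.sympForm 3 F) W ∧ H = Cfsg.Geo.subspaceStabilizer W ⊓ Cfsg.spGL 3 F) ∨
    (∃ W : Submodule F (Fin 3 ⊕ Fin 3 → F), W ≠ ⊥ ∧ Cfsg.Geo.IsNondegenerateOn (Cfsg.sympForm 3 F) W ∧ Module.finrank F W < 3 ∧ H = Cfsg.Geo.subspaceStabilizer W ⊓ Cfsg.spGL 3 F) ∨
    (3 ≤ Fintype.card F ∧ ∃ D : Fin 3 → Submodule F (Fin 3 ⊕ Fin 3 → F), Cfsg.Geo.IsNondegenerateMDecomposition (Cfsg.sympForm 3 F) 2 D ∧ H = Cfsg.Geo.decompositionStabilizer D ⊓ Cfsg.spGL 3 F) ∨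
    (Odd (Fintype.card F) ∧ ∃ D : Fin 2 → Submodule F (Fin 3 ⊕ Fin 3 → F), Cfsg.Geo.IsMDecomposition 3 D ∧ (∀ i, Cfsg.Geo.IsTotallySingularFor (Cfsg.sympForm 3 F) (D i)) ∧ H = Cfsg.Geo.decompositionStabilizer D ⊓ Cfsg.spGL 3 F) ∨
    (∃ K : Subalgebra F (Matrix (Fin 3 ⊕ Fin 3) (Fin 3 ⊕ Fin 3) F), Cfsg.Geo.IsFieldSubalgebra 3 K ∧ Cfsg.Geo.IsSelfAdjointFor (Cfsg.sympForm 3 F) K ∧ (∀ k ∈ K, ∀ v : (Fin 3 ⊕ Fin 3 → F), (Cfsg.sympForm 3 F) (Matrix.mulVec k v) v = 0) ∧ H = Cfsg.Geo.subalgebraNormalizer K ⊓ Cfsg.spGL 3 F) ∨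
    (Odd (Fintype.card F) ∧ ∃ K : Subalgebra F (Matrix (Fin 3 ⊕ Fin 3) (Fin 3 ⊕ Fin 3) F), Cfsg.Geo.IsFieldSubalgebra 2 K ∧ Cfsg.Geo.IsAdjointClosedFor (Cfsg.sympForm 3 F) K ∧ ¬ Cfsg.Geo.IsSelfAdjointFor (Cfsg.sympForm 3 F) K ∧ H = Cfsg.Geo.subalgebraNormalizer K ⊓ Cfsg.spGL 3 F) ∨
    (Odd (Fintype.card F) ∧ 5 ≤ Fintype.card F ∧ ∃ (e : (Fin 3 ⊕ Fin 3) ≃ Fin 2 × Fin 3) (P : Matrix.GeneralLinearGroup (Fin 3 ⊕ Fin 3) F) (f₁ : (Fin 2 → F) → (Fin 2 → F) → F) (f₂ : (Fin 3 → F) → (Fin 3 → F) → F), Cfsg.Geo.IsSymplecticForm f₁ ∧ Cfsg.Geo.IsSymmetricForm f₂ ∧ Cfsg.Geo.IsTensorFormStructure id (Cfsg.sympForm 3 F) f₁ f₂ e P ∧ H = Cfsg.Geo.tensorProductSubgroup 2 3 e P ⊓ Cfsg.spGL 3 F) ∨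
    (∃ (F₀ : Subfield F) (r : ℕ) (P : Matrix.GeneralLinearGroup (Fin 3 ⊕ Fin 3) F) (ζ : F), r.Prime ∧ Fintype.card F = Nat.card F₀ ^ r ∧ ζ ≠ 0 ∧ Cfsg.Geo.IsFormRationalStructure (Cfsg.sympForm 3 F) F₀ ζ P ∧ H = Cfsg.Geo.subfieldSubgroup F₀ P ⊓ Cfsg.spGL 3 F) ∨
    (¬ Odd (Fintype.card F) ∧ ∃ Q : (Fin 3 ⊕ Fin 3 → F) → F, Cfsg.Geo.IsNondegenerateQuadraticForm Q ∧ (∀ u v : (Fin 3 ⊕ Fin 3 → F), QuadraticMap.polar Q u v = (Cfsg.sympForm 3 F) u v) ∧ H = Cfsg.Geo.quadSimilarityGroup Q ⊓ Cfsg.spGL 3 F) ∨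
    Cfsg.Geo.InSymplecticResidualClass H := by
  obtain ⟨φ, hσ, halt, h1, h2⟩ := CF.MaxSub.exists_FD_sp 3 F
  simp only [h1, h2] at hH ⊢
  have hc : Fintype.card (Fin 3 ⊕ Fin 3) = 6 := by simp
  rcases CF.MaxSub.maximal_symp hσ halt (by omega) hH with ⟨M, hM, e⟩ | h
  swap
  · exact .inr (.inr (.inr (.inr (.inr (.inr (.inr (.inr (.inr (h)))))))))
  cases hM with
  | c1t W h0 h => exact .inl ⟨W, h0, h, e⟩
  | c1n W h0 h hd => exact .inr (.inl ⟨W, h0, h, by omega, e⟩)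
  | c2n t k D hD hn he h =>
    have := hD.decomp.two_le
    have := hD.decomp.pos
    rw [hc] at hn
    obtain ⟨rfl, rfl⟩ : (k = 2 ∧ t = 3) := by
      have : k ≤ 6 := by nlinarith
      obtain ⟨l, hl⟩ := he
      interval_cases k <;> omega
    · exact .inr (.inr (.inl ⟨h rfl, D, hD, e⟩))
  | c2t k D hq hD hts hn h =>
    obtain rfl : k = 3 := by omega
    exact .inr (.inr (.inr (.inl ⟨hq, D, hD, hts, e⟩)))
  | c3s r K hr hK hs ha hn =>
    obtain rfl : r = 3 := by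
      rw [hc] at hn
      have := Nat.le_of_dvd (by norm_num) hn
      have : r ≤ 3 := by omega
      interval_cases r <;> first | omega | exact absurd hr (by norm_num)
    · exact .inr (.inr (.inr (.inr (.inl ⟨K, hK, hs, ha, e⟩))))
  | c3u K hq hK ha hs h => exact .inr (.inr (.inr (.inr (.inr (.inl ⟨hq, K, hK, ha, hs, e⟩)))))
  | c4 a b ε P f₁ f₂ hq h3 hf₁ hf₂ hT hn ha he h hp =>
    rw [hc] at hn
    have : a ≤ 4 := by nlinarith
    obtain ⟨l, hl⟩ := he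
    obtain ⟨rfl, rfl⟩ : (a = 2 ∧ b = 3) := by
      interval_cases a <;> omega
    · exact .inr (.inr (.inr (.inr (.inr (.inr (.inl ⟨hq, h rfl, ε, P, f₁, f₂, hf₁, hf₂, hT, e⟩))))))
  | c5 F₀ r P ζ hr h h0 hζ => exact .inr (.inr (.inr (.inr (.inr (.inr (.inr (.inl ⟨F₀, r, P, ζ, hr, h, h0, hζ, e⟩)))))))
  | c6 R k hR hs _ hφ hp hq h3 hZ hm hn =>
    rw [hc] at hn
    have : k < 4 := (Nat.pow_lt_pow_iff_right (a := 2) (by norm_num)).1 (by omega)
    interval_cases k <;> omega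
  | c7 k t ε P f₁ hq ho ht h hf₁ hT hn hk =>
    rw [hc] at hn
    have h3 := Nat.pow_le_pow_left hk t
    have : t < 4 := (Nat.pow_lt_pow_iff_right (a := 2) (by norm_num)).1 (by omega)
    obtain rfl : t = 3 := by omega
    have : k < 3 := lt_of_pow_lt_pow_left₀ 3 (by norm_num) (by omega)
    obtain rfl : k = 2 := by omega
    omega
  | c8 Q hq hQ => exact .inr (.inr (.inr (.inr (.inr (.inr (.inr (.inr (.inl ⟨hq, Q, hQ.isND, fun u v => by rw [hQ.polar], e⟩))))))))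

end Cfsg.Agent.S5805
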