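import Cfsg.Statements.S5808
import Cfsg.Agent.MaxSub.MaxL

set_option autoImplicit false
open Cfsg

namespace Cfsg.Agent.S5808

/-- Every maximal subgroup of SL_7(q) is of one of the listed geometric types or lies in the residual class. Let F be a finite field with q elements (p its characteristic) and H a maximal subgroup of SL_7(F) (inside GL_7(F)). Then H is the intersection with SL_7(F) of one of: the stabiliser of a proper non-zero subspace; for q ≥ 5, the stabiliser of a decomposition into 7 independent 1-spaces; the normaliser of a degree-7 subfield of the matrix algebra; a subfield group for a subfield F₀ with |F| = |F₀|^r, r prime; for q = p prime with p ≡ 1 mod 7, or q = p³ with p ≡ 2 or 4 mod 7, the normaliser of an absolutely irreducible 7-subgroup R of exponent 7 and order 7^(1+2m) with centre of order 7, all of whose characteristic abelian subgroups are cyclic, F being the smallest field of characteristic p containing the seventh roots of unity (here R is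 extraspecial of order 343); for q odd, the similarity group of a non-degenerate quadratic form; the similarity group of a non-degenerate unitary form — or else H lies in the residual class of the linear case (modulo scalars H is almost simple, with absolutely irreducible perfect socle preimage realisable over no proper subfield and fixing no non-degenerate quadratic, symplectic or unitary form). -/
theorem result {F : Type*} [Field F] [Fintype F] (H : Subgroup (Matrix.GeneralLinearGroup (Fin 7) F)) (hH : Cfsg.Geo.IsMaximalIn (Cfsg.Geo.specialLinear (Fin 7) F) H) :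
    (∃ W : Submodule F (Fin 7 → F), W ≠ ⊥ ∧ W ≠ ⊤ ∧ H = Cfsg.Geo.subspaceStabilizer W ⊓ Cfsg.Geo.specialLinear (Fin 7) F) ∨
    (5 ≤ Fintype.card F ∧ ∃ D : Fin 7 → Submodule F (Fin 7 → F), Cfsg.Geo.IsMDecomposition 1 D ∧ H = Cfsg.Geo.decompositionStabilizer D ⊓ Cfsg.Geo.specialLinear (Fin 7) F) ∨
    (∃ K : Subalgebra F (Matrix (Fin 7) (Fin 7) F), Cfsg.Geo.IsFieldSubalgebra 7 K ∧ H = Cfsg.Geo.subalgebraNormalizer K ⊓ Cfsg.Geo.specialLinear (Fin 7) F) ∨
    (∃ (F₀ : Subfield F) (r : ℕ) (P : Matrix.GeneralLinearGroup (Fin 7) F), r.Prime ∧ Fintype.card F = Nat.card F₀ ^ r ∧ H = Cfsg.Geo.subfieldSubgroup F₀ P ⊓ Cfsg.Geo.specialLinear (Fin 7) F) ∨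
    ((∃ p : ℕ, p.Prime ∧ CharP F p ∧ ((Fintype.card F = p ∧ p % 7 = 1) ∨ (Fintype.card F = p ^ 3 ∧ (p % 7 = 2 ∨ p % 7 = 4)))) ∧ ∃ R : Subgroup (Matrix.GeneralLinearGroup (Fin 7) F), Cfsg.Geo.IsLinearSymplecticTypeData 7 R ∧ H = Cfsg.Geo.subgroupNormalizer R ⊓ Cfsg.Geo.specialLinear (Fin 7) F) ∨
    (Odd (Fintype.card F) ∧ ∃ Q : (Fin 7 → F) → F, Cfsg.Geo.IsNondegenerateQuadraticForm Q ∧ H = Cfsg.Geo.quadSimilarityGroup Q ⊓ Cfsg.Geo.specialLinear (Fin 7) F) ∨
    (∃ (σ : F ≃+* F) (f : (Fin 7 → F) → (Fin 7 → F) → F), Cfsg.Geo.IsUnitaryForm σ f ∧ H = Cfsg.Geo.similarityGroup f ⊓ Cfsg.Geo.specialLinear (Fin 7) F) ∨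
    Cfsg.Geo.InLinearResidualClass H := by
  rcases CF.MaxSub.maximal_linear (by norm_num) hH with ⟨M, hM, e⟩ | h
  swap
  · exact .inr (.inr (.inr (.inr (.inr (.inr (.inr (h)))))))
  cases hM with
  | c1 W h0 h1 => exact .inl ⟨W, h0, h1, e⟩
  | c2 t m D hD hn h1 h2 =>
    have := hD.two_le
    have := hD.pos
    obtain ⟨rfl, rfl⟩ : (m = 1 ∧ t = 7) := by
      have : m ≤ 7 := by nlinarith
      interval_cases m <;> omega
    · exact .inr (.inl ⟨by omega, D, hD, e⟩)
  | c3 r K hr hK hn h =>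
    obtain rfl : r = 7 := by
      have := Nat.le_of_dvd (by norm_num) hn
      interval_cases r <;> first | omega | exact absurd hr (by norm_num)
    · exact .inr (.inr (.inl ⟨K, hK, e⟩))
  | c4 a b ε P h1 h2 hn h =>
    have : a ≤ 3 := by nlinarith
    interval_cases a <;> omega
  | c5 F₀ r P hr h => exact .inr (.inr (.inr (.inl ⟨F₀, r, P, hr, h, e⟩)))
  | c6 r m R h hn =>
    have hr := h.symplecticType.prime
    obtain rfl := CF.MaxSub.prime_eq_of_eq_pow hr hn (s := 7) (by norm_num) (by norm_num)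
    obtain ⟨p, k, hp, hc, hq, h1⟩ := CF.MaxSub.c6_arith (by simp) h
    obtain ⟨h1, -⟩ | ⟨-, h1, h2, h3, h4⟩ := h1
    · omega
    have key : ∀ x < 7, ∀ k < 7, k % 2 = 1 → x ^ k % 7 = 1 → (∀ d < k, 0 < d → x ^ d % 7 ≠ 1) →
        k = 1 ∧ x = 1 ∨ k = 3 ∧ (x = 2 ∨ x = 4) := by
      intro x hx k hk; interval_cases x <;> interval_cases k <;> decide
    have h5 := key _ (Nat.mod_lt p (by norm_num)) k h2 h1 h3 h4
    refine .inr (.inr (.inr (.inr (.inl ⟨⟨p, hp, hc, ?_⟩, R, h, e⟩))))
    rcases h5 with ⟨rfl, h5⟩ | ⟨rfl, h5⟩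
    · exact .inl ⟨by simpa using hq, h5⟩
    · exact .inr ⟨hq, h5⟩
  | c7 m t ε P hm ht hn =>
    exact absurd (CF.MaxSub.pow_small hm ht hn (by norm_num)).2.2 (by norm_num)
  | sp f h hn => exact absurd hn (by decide)
  | u σ f h => exact .inr (.inr (.inr (.inr (.inr (.inr (.inl ⟨σ, f, h, e⟩))))))
  | o Q h hq => exact .inr (.inr (.inr (.inr (.inr (.inl ⟨hq, Q, h, e⟩)))))

end Cfsg.Agent.S5808
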