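import Cfsg.Statements.S5811
import Cfsg.Agent.MaxSub.UnitC

set_option autoImplicit false
open Cfsg

namespace Cfsg.Agent.S5811

/-- Every maximal subgroup of SU_7(q) is of one of the listed geometric types or lies in the residual class. Let F be the field with q² elements (characteristic p), f the standard unitary form Σ u_i v_i^q on F^7, and H a maximal subgroup of SU_7(q) (inside GL_7(F)). Then H is the intersection with SU_7(q) of one of: the stabiliser of a non-zero totally isotropic subspace; the stabiliser of a non-degenerate 1-, 2- or 3-space; the stabiliser of a decomposition into seven mutually orthogonal non-degenerate 1-spaces; the normaliser of an adjoint-closed degree-7 subfield of the matrix algebra; a subfield group of odd prime index whose F₀-structure carries f; for q odd, a subfield group of index 2 whose F₀-structure carries f; for q = p prime with p ≡ 6 mod 7, or q = p³ with p ≡ 3 or 5 mod 7,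 the normaliser of an absolutely irreducible 7-group R of exponent 7, order 343 and centre of order 7, all of whose characteristic abelian subgroups are cyclic, contained in the similarity group of f — or else H lies in the residual class of the unitary case (modulo scalars H is almost simple, with absolutely irreducible perfect socle preimage realisable over no proper subfield and fixing no non-degenerate quadratic or symplectic form). -/
theorem result {F : Type*} [Field F] [Fintype F] (q : ℕ) (hF : Fintype.card F = q ^ 2) (H : Subgroup (Matrix.GeneralLinearGroup (Fin 7) F)) (hH : Cfsg.Geo.IsMaximalIn (Cfsg.GU 7 F q ⊓ Cfsg.Geo.specialLinear (Fin 7) F) H) :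
    (∃ W : Submodule F (Fin 7 → F), W ≠ ⊥ ∧ Cfsg.Geo.IsTotallySingularFor (Cfsg.hermForm 7 F q) W ∧ H = Cfsg.Geo.subspaceStabilizer W ⊓ (Cfsg.GU 7 F q ⊓ Cfsg.Geo.specialLinear (Fin 7) F)) ∨
    (∃ W : Submodule F (Fin 7 → F), W ≠ ⊥ ∧ Cfsg.Geo.IsNondegenerateOn (Cfsg.hermForm 7 F q) W ∧ 2 * Module.finrank F W < 7 ∧ H = Cfsg.Geo.subspaceStabilizer W ⊓ (Cfsg.GU 7 F q ⊓ Cfsg.Geo.specialLinear (Fin 7) F)) ∨
    (∃ D : Fin 7 → Submodule F (Fin 7 → F), Cfsg.Geo.IsNondegenerateMDecomposition (Cfsg.hermForm 7 F q) 1 D ∧ H = Cfsg.Geo.decompositionStabilizer D ⊓ (Cfsg.GU 7 F q ⊓ Cfsg.Geo.specialLinear (Fin 7) F)) ∨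
    (∃ K : Subalgebra F (Matrix (Fin 7) (Fin 7) F), Cfsg.Geo.IsFieldSubalgebra 7 K ∧ Cfsg.Geo.IsAdjointClosedFor (Cfsg.hermForm 7 F q) K ∧ H = Cfsg.Geo.subalgebraNormalizer K ⊓ (Cfsg.GU 7 F q ⊓ Cfsg.Geo.specialLinear (Fin 7) F)) ∨
    (∃ (F₀ : Subfield F) (r : ℕ) (P : Matrix.GeneralLinearGroup (Fin 7) F), r.Prime ∧ Odd r ∧ Fintype.card F = Nat.card F₀ ^ r ∧ Cfsg.Geo.IsFormRationalStructure (Cfsg.hermForm 7 F q) F₀ 1 P ∧ H = Cfsg.Geo.subfieldSubgroup F₀ P ⊓ (Cfsg.GU 7 F q ⊓ Cfsg.Geo.specialLinear (Fin 7) F)) ∨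
    (Odd q ∧ ∃ (F₀ : Subfield F) (P : Matrix.GeneralLinearGroup (Fin 7) F), Fintype.card F = Nat.card F₀ ^ 2 ∧ Cfsg.Geo.IsFormRationalStructure (Cfsg.hermForm 7 F q) F₀ 1 P ∧ H = Cfsg.Geo.subfieldSubgroup F₀ P ⊓ (Cfsg.GU 7 F q ⊓ Cfsg.Geo.specialLinear (Fin 7) F)) ∨
    (∃ (p : ℕ) (R : Subgroup (Matrix.GeneralLinearGroup (Fin 7) F)), p.Prime ∧ CharP F p ∧ ((q = p ∧ p % 7 = 6) ∨ (q = p ^ 3 ∧ (p % 7 = 3 ∨ p % 7 = 5))) ∧ Cfsg.Geo.IsSymplecticTypeGroup 7 R ∧ Cfsg.Geo.ActsAbsolutelyIrreducibly (Cfsg.Geo.matrixSet R) ∧ R ≤ Cfsg.Geo.similarityGroup (Cfsg.hermForm 7 F q) ∧ Nat.card R = 343 ∧ Nat.card (Subgroup.center R) = 7 ∧ H = Cfsg.Geo.subgroupNormalizer R ⊓ (Cfsg.GU 7 F q ⊓ Cfsg.Geo.specialLinear (Fin 7) F)) ∨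
    Cfsg.Geo.InUnitaryResidualClass H := by
  obtain ⟨φ, h, e1, e2⟩ := CF.MaxSub.exists_FD_u hF 7
  have hc : Fintype.card (Fin 7) = 7 := by simp
  simp only [e1, e2] at hH ⊢
  rcases h.maximal (by omega) (by omega) hH with ⟨M, hM, e⟩ | hr
  swap
  · exact .inr (.inr (.inr (.inr (.inr (.inr (.inr (hr)))))))
  cases hM with
  | c1t W h0 h1 => exact .inl ⟨W, h0, h1, e⟩
  | c1n W h0 h1 hd => exact .inr (.inl ⟨W, h0, h1, by omega, e⟩)
  | c2n t k D hD h0 h1 =>
    have := hD.decomp.two_le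
    have := hD.decomp.pos
    rw [hc] at h0
    obtain ⟨rfl, rfl⟩ : (k = 1 ∧ t = 7) := by
      have : k ≤ 7 := by nlinarith
      interval_cases k <;> omega
    · exact .inr (.inr (.inl ⟨D, hD, e⟩))
  | c2t k D hD hts h0 =>
    omega
  | c3 r K hr ho hK ha hd =>
    rw [hc] at hd
    have := Nat.le_of_dvd (by norm_num) hd
    obtain rfl : r = 7 := by
      interval_cases r <;> first | omega | exact absurd ho (by decide) | exact absurd hr (by norm_num)
    exact .inr (.inr (.inr (.inl ⟨K, hK, ha, e⟩)))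
  | c4 a b ε P f₁ f₂ h2 hl hf₁ hf₂ hT h0 h1 =>
    rw [hc] at h0
    have : a ≤ 3 := by nlinarith
    interval_cases a <;> omega
  | c5u F₀ r P hr ho h1 hζ => exact .inr (.inr (.inr (.inr (.inl ⟨F₀, r, P, hr, ho, h1, hζ, e⟩))))
  | c5o F₀ P hq h1 hζ => exact .inr (.inr (.inr (.inr (.inr (.inl ⟨hq, F₀, P, h1, hζ, e⟩)))))
  | c5s F₀ P ζ he => exact absurd (hc ▸ he) (by decide)
  | c6 r R H' Z hR hφ hs =>
    obtain ⟨p, f, k, hp, hp1, rfl, h1, -, -, h2, h3, h4⟩ := h.c6_arith (by omega) hR hs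
    rw [hc] at h3
    obtain rfl := CF.MaxSub.prime_eq_of_eq_pow hR.prime h3 (s := 7) (by norm_num) (by norm_num)
    obtain rfl : k = 1 := Nat.pow_right_injective (by norm_num : 2 ≤ 7) h3.symm
    obtain ⟨-, h5, h6, h7, h8, h9⟩ := h4.resolve_right fun e => absurd e.1 (by decide)
    have h10 := (by set_option synthInstance.maxSize 1000 in decide : ∀ x < 7, ∀ f < 7, 1 ≤ f ∧ 2 * f < 7 ∧ x ^ (2 * f) % 7 = 1 ∧
      (∀ d < 2 * f, 0 < d → x ^ d % 7 ≠ 1) → (f = 1 ∧ x = 6) ∨ (f = 3 ∧ (x = 3 ∨ x = 5))) _ (Nat.mod_lt _ (by norm_num)) f (by omega) ⟨h1, h7, h8, h9⟩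
    exact .inr (.inr (.inr (.inr (.inr (.inr (.inl ⟨p, R, hp, hp1, h10.imp (fun e => ⟨by rw [e.1, pow_one], e.2⟩) (fun e => ⟨by rw [e.1], e.2⟩), hR.sympl, CF.MaxSub.absIrr_of_spanAlg_eq_top hR.span, hφ.trans φ.isom_le_sim, h6, h5, e⟩))))))
  | c7 k t ε P f₁ hk ht h1 hf₁ hT h0 =>
    obtain ⟨rfl, rfl, h2⟩ := CF.MaxSub.pow_small hk ht h0 (by omega)
    omega

end Cfsg.Agent.S5811
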