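import Cfsg.Statements.S5813
import Cfsg.Agent.Geom.FrO5
import Cfsg.Agent.Geom.UC2
import Cfsg.Agent.Geom.C5C

set_option autoImplicit false
open Cfsg

namespace Cfsg.Agent.S5813

/-- Maximal subgroups of Ω_7(q) of geometric type, q odd. Let F be a finite field of odd order q, Q the standard quadratic form x₀² + Σ x_i y_i on F^7 (coordinates Unit ⊕ (Fin 3 ⊕ Fin 3)), and Ω = Ω_7(q) the commutator subgroup of its isometry group, inside GL_7(F). Each of the following, intersected with Ω, is a maximal subgroup of Ω: (1) the stabiliser of any non-zero subspace on which Q vanishes identically (totally singular 1-, 2- and 3-spaces); (2) the stabiliser of any non-zero even-dimensional subspace W on which the polar form of Q is non-degenerate (equivalently of its odd-dimensional orthogonal complement), except when q = 3 and W is a 2-space containing a non-zero singular vector (a plus-type plane); (3) for q = p prime, the stabiliser of any decomposition of F^7 into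 seven pairwise orthogonal, pairwise Q-isometric non-degenerate 1-spaces; (4) every subfield group for a subfield F₀ with |F| = |F₀|^r, r prime, whose F₀-structure carries Q. -/
theorem result {F : Type*} [Field F] [Fintype F] (hodd : Odd (Fintype.card F)) :
    (∀ W : Submodule F (Unit ⊕ (Fin 3 ⊕ Fin 3) → F), W ≠ ⊥ → Cfsg.Geo.IsTotallySingularQuad (Cfsg.quadFormOdd 3 F) W → Cfsg.Geo.IsMaximalIn (Cfsg.Geo.omegaGL (Cfsg.quadFormOdd 3 F)) (Cfsg.Geo.subspaceStabilizer W ⊓ Cfsg.Geo.omegaGL (Cfsg.quadFormOdd 3 F))) ∧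
    (∀ W : Submodule F (Unit ⊕ (Fin 3 ⊕ Fin 3) → F), W ≠ ⊥ → Even (Module.finrank F W) → Cfsg.Geo.IsNondegenerateOn (QuadraticMap.polar (Cfsg.quadFormOdd 3 F)) W → ¬ (Fintype.card F = 3 ∧ Module.finrank F W = 2 ∧ Cfsg.Geo.IsPlusTypeOn (Cfsg.quadFormOdd 3 F) W) → Cfsg.Geo.IsMaximalIn (Cfsg.Geo.omegaGL (Cfsg.quadFormOdd 3 F)) (Cfsg.Geo.subspaceStabilizer W ⊓ Cfsg.Geo.omegaGL (Cfsg.quadFormOdd 3 F))) ∧
    ((Fintype.card F).Prime → ∀ D : Fin 7 → Submodule F (Unit ⊕ (Fin 3 ⊕ Fin 3) → F), Cfsg.Geo.IsOrthogonalMDecomposition (Cfsg.quadFormOdd 3 F) 1 D → Cfsg.Geo.IsMaximalIn (Cfsg.Geo.omegaGL (Cfsg.quadFormOdd 3 F)) (Cfsg.Geo.decompositionStabilizer D ⊓ Cfsg.Geo.omegaGL (Cfsg.quadFormOdd 3 F))) ∧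
    (∀ (F₀ : Subfield F) (r : ℕ) (P : Matrix.GeneralLinearGroup (Unit ⊕ (Fin 3 ⊕ Fin 3)) F), r.Prime → Fintype.card F = Nat.card F₀ ^ r → Cfsg.Geo.IsQuadFormRationalStructure (Cfsg.quadFormOdd 3 F) F₀ P → Cfsg.Geo.IsMaximalIn (Cfsg.Geo.omegaGL (Cfsg.quadFormOdd 3 F)) (Cfsg.Geo.subfieldSubgroup F₀ P ⊓ Cfsg.Geo.omegaGL (Cfsg.quadFormOdd 3 F))) := by
  have h2 := CF.Geom.two_ne_zero_of_odd_card hodd
  open CF.Geom in
  refine ⟨fun W hW0 hW => ?_, fun W hW0 ⟨k, hk⟩ hW hex => ?_, fun hp D hD => ?_,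
    fun F₀ r P hr hcard hP => ?_⟩
  · exact (omega_maxIn_ts (qOdd_nondegenerate h2 _) (by simp) hW0 hW
      (fun h => by have := h.1; simp at this; omega)).isMaximalIn
      (glEquiv _ F) (mem_omegaGL_iff (qOdd _ F)) (mem_subspaceStabilizer_iff W)
  · have hW' := disjoint_perp_of_nondegOn (B := QuadraticMap.polarBilin (qOdd _ F))
      (Or.inl fun _ _ => rfl) hW
    have hf := (isWittPair_quad _ (qOdd_nondegenerate h2 _)).finrank_perp W
    simp only [Module.finrank_fintype_fun_eq_card, Fintype.card_sum, Fintype.card_unit,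
      Fintype.card_fin] at hf
    refine (omega_maxIn_nondeg_odd' (qOdd_nondegenerate h2 _) h2 (by simp) hW0
      (by rintro rfl; simp at hk; omega) hW' (fun g _ => map_ne_perp_of_finrank
      (qOdd_nondegenerate h2 _) (by simp; omega) g) ?_).isMaximalIn
      (glEquiv _ F) (mem_omegaGL_iff (qOdd _ F)) (mem_subspaceStabilizer_iff W)
    rintro U (rfl | rfl) h3
    · by_contra! hc
      obtain ⟨h4, w, hw, hq, h0⟩ := hc
      refine hex ⟨?_, h3, isPlusTypeOn_of_singular (Q := qOdd _ F) h3 hw hq h0⟩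
      rw [Nat.card_eq_fintype_card] at h4
      have := Fintype.one_lt_card (α := F)
      obtain ⟨j, hj⟩ := hodd
      omega
    · omega
  · exact (omega_maxIn_frame (odec_quad (qOdd_nondegenerate h2 _) hD) (by simpa using hp) h2
      (by simp) (by simp)).isMaximalIn (glEquiv _ F) (mem_omegaGL_iff (qOdd _ F))
      (mem_decompositionStabilizer_iff D)
  · exact (omega_maxIn_RG (ε := (glEquiv _ F P).symm) (qOdd_nondegenerate h2 _) (by simp) hr
      (by rw [← hcard, Nat.card_eq_fintype_card]) one_ne_zero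
      (fun x hx => by simpa [coe_qOdd] using rat_of_quadStructure hP hx)).isMaximalIn (glEquiv _ F)
      (mem_omegaGL_iff (qOdd _ F)) (mem_subfieldSubgroup_iff P)

end Cfsg.Agent.S5813
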