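import Cfsg.Statements.S5814
import Cfsg.Agent.MaxSub.MaxO

set_option autoImplicit false
open Cfsg

namespace Cfsg.Agent.S5814

/-- Every maximal subgroup of Ω_7(q), q odd, is of one of the listed geometric types or lies in the residual class. Let F be a finite field of odd order q, Q the standard quadratic form x₀² + Σ x_i y_i on F^7 (coordinates Unit ⊕ (Fin 3 ⊕ Fin 3)), Ω the commutator subgroup of its isometry group, and H a maximal subgroup of Ω (inside GL_7(F)). Then H is the intersection with Ω of one of: the stabiliser of a non-zero totally singular subspace; the stabiliser of a non-zero non-degenerate subspace of even dimension (not a plus-type plane when q = 3); for q prime, the stabiliser of a decomposition into seven pairwise orthogonal, pairwise isometric non-degenerate 1-spaces; a subfield group (|F| = |F₀|^r, r prime) whose F₀-structure carries Q — or else H lies in the residual class of the orthogonal case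 (modulo scalars H is almost simple, with absolutely irreducible perfect socle preimage realisable over no proper subfield and fixing no non-degenerate unitary form). -/
theorem result {F : Type*} [Field F] [Fintype F] (hodd : Odd (Fintype.card F)) (H : Subgroup (Matrix.GeneralLinearGroup (Unit ⊕ (Fin 3 ⊕ Fin 3)) F)) (hH : Cfsg.Geo.IsMaximalIn (Cfsg.Geo.omegaGL (Cfsg.quadFormOdd 3 F)) H) :
    (∃ W : Submodule F (Unit ⊕ (Fin 3 ⊕ Fin 3) → F), W ≠ ⊥ ∧ Cfsg.Geo.IsTotallySingularQuad (Cfsg.quadFormOdd 3 F) W ∧ H = Cfsg.Geo.subspaceStabilizer W ⊓ Cfsg.Geo.omegaGL (Cfsg.quadFormOdd 3 F)) ∨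
    (∃ W : Submodule F (Unit ⊕ (Fin 3 ⊕ Fin 3) → F), W ≠ ⊥ ∧ Even (Module.finrank F W) ∧ Cfsg.Geo.IsNondegenerateOn (QuadraticMap.polar (Cfsg.quadFormOdd 3 F)) W ∧ ¬ (Fintype.card F = 3 ∧ Module.finrank F W = 2 ∧ Cfsg.Geo.IsPlusTypeOn (Cfsg.quadFormOdd 3 F) W) ∧ H = Cfsg.Geo.subspaceStabilizer W ⊓ Cfsg.Geo.omegaGL (Cfsg.quadFormOdd 3 F)) ∨
    ((Fintype.card F).Prime ∧ ∃ D : Fin 7 → Submodule F (Unit ⊕ (Fin 3 ⊕ Fin 3) → F), Cfsg.Geo.IsOrthogonalMDecomposition (Cfsg.quadFormOdd 3 F) 1 D ∧ H = Cfsg.Geo.decompositionStabilizer D ⊓ Cfsg.Geo.omegaGL (Cfsg.quadFormOdd 3 F)) ∨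
    (∃ (F₀ : Subfield F) (r : ℕ) (P : Matrix.GeneralLinearGroup (Unit ⊕ (Fin 3 ⊕ Fin 3)) F), r.Prime ∧ Fintype.card F = Nat.card F₀ ^ r ∧ Cfsg.Geo.IsQuadFormRationalStructure (Cfsg.quadFormOdd 3 F) F₀ P ∧ H = Cfsg.Geo.subfieldSubgroup F₀ P ⊓ Cfsg.Geo.omegaGL (Cfsg.quadFormOdd 3 F)) ∨
    Cfsg.Geo.InOrthogonalResidualClass H := by
  obtain ⟨φ, h⟩ := CF.MaxSub.exists_isQ_odd hodd 3
  have hc : Fintype.card (Unit ⊕ (Fin 3 ⊕ Fin 3)) = 7 := by simp
  have hn : CF.MaxSub.DimO (Cfsg.quadFormOdd 3 F) := ⟨by omega, .inl (hc ▸ by decide)⟩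
  simp only [h.polar]
  rcases CF.MaxSub.maximal_orth h hn (by omega) hH with ⟨M, hM, e⟩ | hr
  swap
  · exact .inr (.inr (.inr (.inr (hr))))
  cases hM with
  | c1t W h0 h1 => exact .inl ⟨W, h0, h1, e⟩
  | c1n W h0 h1 h2 ho he hh h3 hq =>
    exact .inr (.inl ⟨W, h0, ho (hc ▸ by decide), h2, fun h4 => by have := h3 h4.2.1 h4.2.2; omega, e⟩)
  | c1l v hq => exact absurd hodd hq
  | c2n t k D hD h0 h1 ho h2 h3 h4 =>
    have := hD.decomp.decomp.two_le
    have := hD.decomp.decomp.pos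
    rw [hc] at h0
    obtain ⟨rfl, rfl⟩ : (k = 1 ∧ t = 7) := by
      have : k ≤ 7 := by nlinarith
      interval_cases k <;> omega
    · exact .inr (.inr (.inl ⟨h1 rfl, D, hD, e⟩))
  | c2p k D hD hi h0 hk hq =>
    obtain ⟨_, _⟩ := hk
    omega
  | c2t k D hD hts h0 hk hp =>
    obtain ⟨_, _⟩ := hk
    omega
  | c3s r K hr hK hs hd h0 h2 hq =>
    rw [hc] at hd h0 h2 hq
    have := Nat.le_of_dvd (by norm_num) hd
    interval_cases r <;> first | omega | exact absurd rfl (h2 (by decide)) | exact absurd hr (by norm_num)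
  | c3u K hK ha hs hm h0 hp =>
    omega
  | c4o a b ε P f₁ f₂ hq h3 hl hf₁ hf₂ hT h0 h1 hp =>
    rw [hc] at h0
    obtain rfl : a = 3 := by nlinarith
    omega
  | c4s b ε P f₁ f₂ hq hf₁ hf₂ hT h0 h1 he hp =>
    obtain ⟨_, _⟩ := he
    omega
  | c5 F₀ r P ζ hr h1 h0 hζ ho =>
    obtain ⟨P', h2, h3⟩ := CF.MaxSub.rescale_odd h h0 hζ
    exact .inr (.inr (.inr (.inl ⟨F₀, r, P', hr, h1, h2, h3 ▸ e⟩)))
  | c7 k t ε P f₁ hk ht h1 hf₁ hT h0 ho hq =>
    obtain ⟨rfl, rfl, h2⟩ := CF.MaxSub.pow_small hk ht h0 (by omega)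
    omega

end Cfsg.Agent.S5814
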