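import Cfsg.Statements.S5826
import Cfsg.Agent.MaxSub.MaxO

set_option autoImplicit false
open Cfsg

namespace Cfsg.Agent.S5826

/-- Every maximal subgroup of Ω_8^-(q) is of one of the listed geometric types or lies in the residual class. Let F be a finite field with q elements, Q a non-degenerate quadratic form on F^8 of minus type (no totally singular 4-space), Ω the commutator subgroup of its isometry group, and H a maximal subgroup of Ω (inside GL_8(F)). Then H is the intersection with Ω of one of: the stabiliser of a non-zero totally singular subspace; for q odd, the stabiliser of a non-degenerate subspace of odd dimension; the stabiliser of a non-degenerate 2-space of minus type; for q ≥ 4, the stabiliser of a non-degenerate 2-space of plus type; the stabiliser of a non-degenerate 4-space; for q even, the stabiliser of the span of a non-singular vector; the normaliser of a degree-2 subfield of the matrix algebra; a subfield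 group of odd prime index whose F₀-structure carries a non-zero multiple of Q — or else H lies in the residual class of the orthogonal case (modulo scalars H is almost simple, with absolutely irreducible perfect socle preimage realisable over no proper subfield and fixing no non-degenerate unitary form). -/
theorem result {F : Type*} [Field F] [Fintype F] (Q : (Fin 8 → F) → F) (hQ : Cfsg.Geo.IsNondegenerateQuadraticForm Q) (hminus : ¬ Cfsg.Geo.IsPlusTypeOn Q ⊤) (H : Subgroup (Matrix.GeneralLinearGroup (Fin 8) F)) (hH : Cfsg.Geo.IsMaximalIn (Cfsg.Geo.omegaGL Q) H) :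
    (∃ W : Submodule F (Fin 8 → F), W ≠ ⊥ ∧ Cfsg.Geo.IsTotallySingularQuad Q W ∧ H = Cfsg.Geo.subspaceStabilizer W ⊓ Cfsg.Geo.omegaGL Q) ∨
    (Odd (Fintype.card F) ∧ ∃ W : Submodule F (Fin 8 → F), W ≠ ⊥ ∧ W ≠ ⊤ ∧ Odd (Module.finrank F W) ∧ Cfsg.Geo.IsNondegenerateOn (QuadraticMap.polar Q) W ∧ H = Cfsg.Geo.subspaceStabilizer W ⊓ Cfsg.Geo.omegaGL Q) ∨
    (∃ W : Submodule F (Fin 8 → F), Module.finrank F W = 2 ∧ Cfsg.Geo.IsNondegenerateOn (QuadraticMap.polar Q) W ∧ ¬ Cfsg.Geo.IsPlusTypeOn Q W ∧ H = Cfsg.Geo.subspaceStabilizer W ⊓ Cfsg.Geo.omegaGL Q) ∨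
    (4 ≤ Fintype.card F ∧ ∃ W : Submodule F (Fin 8 → F), Module.finrank F W = 2 ∧ Cfsg.Geo.IsNondegenerateOn (QuadraticMap.polar Q) W ∧ Cfsg.Geo.IsPlusTypeOn Q W ∧ H = Cfsg.Geo.subspaceStabilizer W ⊓ Cfsg.Geo.omegaGL Q) ∨
    (∃ W : Submodule F (Fin 8 → F), Module.finrank F W = 4 ∧ Cfsg.Geo.IsNondegenerateOn (QuadraticMap.polar Q) W ∧ H = Cfsg.Geo.subspaceStabilizer W ⊓ Cfsg.Geo.omegaGL Q) ∨
    (¬ Odd (Fintype.card F) ∧ ∃ v : (Fin 8 → F), Q v ≠ 0 ∧ H = Cfsg.Geo.subspaceStabilizer (Submodule.span F {v}) ⊓ Cfsg.Geo.omegaGL Q) ∨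
    (∃ K : Subalgebra F (Matrix (Fin 8) (Fin 8) F), Cfsg.Geo.IsFieldSubalgebra 2 K ∧ H = Cfsg.Geo.subalgebraNormalizer K ⊓ Cfsg.Geo.omegaGL Q) ∨
    (∃ (F₀ : Subfield F) (r : ℕ) (P : Matrix.GeneralLinearGroup (Fin 8) F) (ζ : F), r.Prime ∧ Odd r ∧ Fintype.card F = Nat.card F₀ ^ r ∧ ζ ≠ 0 ∧ Cfsg.Geo.IsQuadFormRationalStructure (fun v : Fin 8 → F => ζ * Q v) F₀ P ∧ H = Cfsg.Geo.subfieldSubgroup F₀ P ⊓ Cfsg.Geo.omegaGL Q) ∨
    Cfsg.Geo.InOrthogonalResidualClass H := by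
  obtain ⟨φ, -, h⟩ := CF.MaxSub.exists_isQ_of_nd hQ
  have hc : Fintype.card (Fin 8) = 8 := by simp
  have hn : CF.MaxSub.DimO Q := ⟨by omega, .inr (.inl ⟨hc, hminus⟩)⟩
  simp only [h.polar]
  rcases CF.MaxSub.maximal_orth h hn (by omega) hH with ⟨M, hM, e⟩ | hr
  swap
  · exact .inr (.inr (.inr (.inr (.inr (.inr (.inr (.inr (hr))))))))
  cases hM with
  | c1t W h0 h1 => exact .inl ⟨W, h0, h1, e⟩
  | c1n W h0 h1 h2 ho he hh h3 hq =>
    have h4 := he (hc ▸ by decide)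
    have h5 := mt Submodule.finrank_eq_zero.1 h0
    by_cases h6 : Odd (Module.finrank F W)
    · exact .inr (.inl ⟨hq h6, W, h0, h1, h6, h2, e⟩)
    obtain ⟨j, hj⟩ := Nat.not_odd_iff_even.1 h6
    by_cases h7 : Module.finrank F W = 2
    · by_cases h8 : Cfsg.Geo.IsPlusTypeOn Q W
      · exact .inr (.inr (.inr (.inl ⟨h3 h7 h8, W, h7, h2, h8, e⟩)))
      · exact .inr (.inr (.inl ⟨W, h7, h2, h8, e⟩))
    exact .inr (.inr (.inr (.inr (.inl ⟨W, by omega, h2, e⟩))))
  | c1l v hq hv => exact .inr (.inr (.inr (.inr (.inr (.inl ⟨hq, v, hv, e⟩)))))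
  | c2n t k D hD h0 h1 ho h2 h3 h4 =>
    have := hD.decomp.decomp.two_le
    have := hD.decomp.decomp.pos
    rw [hc] at h0
    obtain ⟨rfl, rfl⟩ | ⟨rfl, rfl⟩ | ⟨rfl, rfl⟩ : (k = 1 ∧ t = 8) ∨ (k = 2 ∧ t = 4) ∨ (k = 4 ∧ t = 2) := by
      have : k ≤ 8 := by nlinarith
      interval_cases k <;> omega
    · exact absurd ((h.pl_odd hD (ho (by decide)) (by decide) (m := 4) hc).2 (.inl (by decide))) hminus
    · exact absurd ((h.pl_even hD (by decide)).2 (.inl (by decide))) hminus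
    · exact absurd ((h.pl_even hD (by decide)).2 (.inl (by decide))) hminus
  | c2p k D hD hi h0 hk hq =>
    obtain ⟨_, _⟩ := hk
    omega
  | c2t k D hD hts h0 hk hp =>
    exact absurd hp hminus
  | c3s r K hr hK hs hd h0 h2 hq =>
    rw [hc] at hd h0 h2 hq
    have := Nat.le_of_dvd (by norm_num) hd
    obtain rfl : r = 2 := by
      interval_cases r <;> first | omega | exact absurd rfl (h2 (by decide)) | exact absurd hr (by norm_num)
    · exact .inr (.inr (.inr (.inr (.inr (.inr (.inl ⟨K, hK, e⟩))))))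
  | c3u K hK ha hs hm h0 hp =>
    exact .inr (.inr (.inr (.inr (.inr (.inr (.inl ⟨K, hK, e⟩))))))
  | c4o a b ε P f₁ f₂ hq h3 hl hf₁ hf₂ hT h0 h1 hp =>
    rw [hc] at h0
    obtain rfl : a = 3 := by nlinarith
    omega
  | c4s b ε P f₁ f₂ hq hf₁ hf₂ hT h0 h1 he hp =>
    exact absurd hp hminus
  | c5 F₀ r P ζ hr h1 h0 hζ ho =>
    exact .inr (.inr (.inr (.inr (.inr (.inr (.inr (.inl ⟨F₀, r, P, ζ, hr, ho (hc ▸ by decide) hminus, h1, h0, hζ, e⟩)))))))
  | c7 k t ε P f₁ hk ht h1 hf₁ hT h0 ho hq =>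
    obtain ⟨rfl, rfl, h2⟩ := CF.MaxSub.pow_small hk ht h0 (by omega)
    omega

end Cfsg.Agent.S5826
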