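import Mathlib
import Cfsg.Statements.S5876
import Cfsg.Agent.Fgs1.PrimLin

set_option autoImplicit false
open Cfsg

namespace Cfsg.Agent.S5876


/-- Fixed-point spaces in primitive soluble linear groups. Let F be a finite field and G a soluble subgroup of GL_n(F) that acts irreducibly on F^n and primitively (G preserves no decomposition of F^n into two or more independent subspaces of equal dimension). Then every non-identity element g of G has fixed-point space {v : g v = v} of dimension at most 3n/4. -/
theorem result {F : Type*} [Field F] [Fintype F] {n : ℕ} (G : Subgroup (Matrix.GeneralLinearGroup (Fin n) F)) (hsol : IsSolvable G) (hirr : Cfsg.Geo.ActsIrreducibly (Cfsg.Geo.matrixSet G)) (hprim : ∀ (m t : ℕ) (D : Fin t → Submodule F (Fin n → F)), 2 ≤ t → Cfsg.Geo.IsMDecomposition m D → ¬ G ≤ Cfsg.Geo.decompositionStabilizer D) (g : Matrix.GeneralLinearGroup (Fin n) F) (hg : g ∈ G) (hg1 : g ≠ 1) :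
    4 * Module.finrank F (Module.End.eigenspace (Matrix.toLin' (g : Matrix (Fin n) (Fin n) F)) 1) ≤ 3 * n := by
  let ρ : Representation F G (Fin n → F) :=
    { toFun := fun x => Matrix.toLin' ((x : Matrix.GeneralLinearGroup (Fin n) F) : Matrix (Fin n) (Fin n) F)
      map_one' := by simp [Module.End.one_eq_id]
      map_mul' := fun x y => by simp [Matrix.toLin'_mul, Module.End.mul_eq_comp] }
  have hf : Function.Injective ρ := by
    intro x y h
    apply Subtype.ext
    apply Units.ext
    exact Matrix.toLin'.injective h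
  have hirr' : ∀ W : Submodule F (Fin n → F), (∀ x, W.map (ρ x) ≤ W) → W = ⊥ ∨ W = ⊤ := by
    intro W hW
    apply hirr W
    rintro _ ⟨x, hx, rfl⟩
    exact hW ⟨x, hx⟩
  rcases CF.Fgs1.PrimLin.qp_or_decomp ρ hf hirr' with hq | ⟨t, m, D, ht, hm, hD1, hD2, hD3, hD4⟩
  · haveI : Group.IsSolvable G := hsol
    have h := CF.Fgs1.PrimLin.three_quarters hq (g := ⟨g, hg⟩) (fun h => hg1 (congrArg Subtype.val h))
    have e : CF.Fgs1.PrimLin.fx ρ ⟨g, hg⟩ =
        Module.End.eigenspace (Matrix.toLin' (g : Matrix (Fin n) (Fin n) F)) 1 := by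
      ext v
      rw [CF.Fgs1.PrimLin.mem_fx, Module.End.mem_eigenspace_iff, one_smul]
      rfl
    rw [e] at h
    simpa using h
  · exact absurd (fun x hx => hD4 ⟨x, hx⟩) (hprim m t D ht ⟨ht, hm, hD1, hD2, hD3⟩)

end Cfsg.Agent.S5876
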