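import Cfsg.Statements.S5877
import Cfsg.Agent.XN.B

set_option autoImplicit false
open Cfsg

namespace Cfsg.Agent.S5877

/-- Eigenspaces of elements normalising an absolutely irreducible extraspecial group. Let F be a finite field, r a prime, and R ≤ GL_n(F) an absolutely irreducible extraspecial r-group (an r-group whose centre equals its derived subgroup and has order r) of exponent r or 4. Let g ∈ GL_n(F) normalise the product of R with the scalar matrices, have prime order ϖ and not be scalar, and let W be the eigenspace of g for any c ∈ F (W may be the zero subspace). Then dim W ≤ 3n/4 if ϖ = 2, dim W ≤ 2n/3 if ϖ = 3, and dim W ≤ n/2 if ϖ > 3; moreover if ϖ = 3 and 3 does not divide n then dim W ≤ n/2. -/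
theorem result {F : Type*} [Field F] [Fintype F] {n r ϖ : ℕ} (R : Subgroup (Matrix.GeneralLinearGroup (Fin n) F)) (hr : r.Prime) (hR : IsPGroup r R) (hZ : Nat.card (Subgroup.center R) = r) (hext : commutator R = Subgroup.center R) (hexp : Monoid.exponent R = r ∨ Monoid.exponent R = 4) (hirr : Cfsg.Geo.ActsAbsolutelyIrreducibly (Cfsg.Geo.matrixSet R)) (g : Matrix.GeneralLinearGroup (Fin n) F) (hg : g ∈ Cfsg.Geo.subgroupNormalizer (R ⊔ Cfsg.Geo.scalars (Fin n) F)) (hϖ : ϖ.Prime) (hord : orderOf g = ϖ) (hns : g ∉ Cfsg.Geo.scalars (Fin n) F) (c : F) :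
    (ϖ = 2 → 4 * Module.finrank F (Module.End.eigenspace (Matrix.toLin' (g : Matrix (Fin n) (Fin n) F)) c) ≤ 3 * n) ∧
    (ϖ = 3 → 3 * Module.finrank F (Module.End.eigenspace (Matrix.toLin' (g : Matrix (Fin n) (Fin n) F)) c) ≤ 2 * n) ∧
    (3 < ϖ → 2 * Module.finrank F (Module.End.eigenspace (Matrix.toLin' (g : Matrix (Fin n) (Fin n) F)) c) ≤ n) ∧
    (ϖ = 3 → ¬ 3 ∣ n → 2 * Module.finrank F (Module.End.eigenspace (Matrix.toLin' (g : Matrix (Fin n) (Fin n) F)) c) ≤ n) := by
  classical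
  rcases Nat.eq_zero_or_pos n with rfl | hn
  · exact absurd (by rw [Subsingleton.elim g 1]; exact Subgroup.one_mem _) hns
  let ρ : Matrix.GeneralLinearGroup (Fin n) F →* Module.End F (Fin n → F) :=
    (Matrix.toLinAlgEquiv' (R := F) (n := Fin n)).toMulEquiv.toMonoidHom.comp (Units.coeHom _)
  have hρ : ∀ x, ρ x = Matrix.toLin' (x : Matrix (Fin n) (Fin n) F) := fun _ => rfl
  have hsc : ∀ (x : Matrix.GeneralLinearGroup (Fin n) F) (c : F),
      ρ x = c • 1 ↔ (x : Matrix (Fin n) (Fin n) F) = c • 1 := by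
    intro x c
    rw [hρ]
    constructor
    · intro h
      apply Matrix.toLin'.injective
      rw [h, map_smul, Matrix.toLin'_one]; rfl
    · intro h
      rw [h, map_smul, Matrix.toLin'_one]; rfl
  have hinj : Function.Injective ρ := fun x y h => Units.ext (Matrix.toLin'.injective h)
  have hmem : ∀ x, (∃ c : F, ρ x = c • 1) → x ∈ Cfsg.Geo.scalars (Fin n) F := by
    rintro x ⟨c, hc⟩
    rw [hsc] at hc
    have h0 : c ≠ 0 := by
      rintro rfl
      have := x.mul_inv
      rw [hc, zero_smul, zero_mul] at this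
      haveI hne : Nonempty (Fin n) := ⟨⟨0, hn⟩⟩
      exact zero_ne_one this
    exact (Cfsg.Geo.mem_scalars_iff x).2 ⟨Units.mk0 c h0, hc⟩
  have hcen : ∀ z ∈ Cfsg.Geo.scalars (Fin n) F, ∃ c : F, ρ z = c • 1 := fun z hz => by
    obtain ⟨c, hc⟩ := (Cfsg.Geo.mem_scalars_iff z).1 hz
    exact ⟨c, (hsc _ _).2 hc⟩
  have hschur : ∀ x : Matrix.GeneralLinearGroup (Fin n) F, (∀ y ∈ R, x * y = y * x) → ∃ c : F, ρ x = c • 1 := by
    intro x hx
    obtain ⟨c, hc⟩ := hirr.2 x (by
      rintro _ ⟨y, hy, rfl⟩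
      exact congrArg Units.val (hx y hy))
    exact ⟨c, (hsc _ _).2 hc⟩
  have hcomm : ∀ x ∈ R, ∀ y ∈ R, ∃ c : F, c ^ r = 1 ∧ ρ x * ρ y = c • (ρ y * ρ x) := by
    intro x hx y hy
    have h1 : ((⟨x, hx⟩ : R) * ⟨y, hy⟩ * (⟨x, hx⟩ : R)⁻¹ * (⟨y, hy⟩ : R)⁻¹) ∈ Subgroup.center R := by
      rw [← hext]
      exact Subgroup.commutator_mem_commutator (Subgroup.mem_top _) (Subgroup.mem_top _)
    obtain ⟨c, hc⟩ := hschur (x * y * x⁻¹ * y⁻¹) (fun z hz =>
      (congrArg Subtype.val (Subgroup.mem_center_iff.1 h1 ⟨z, hz⟩)).symm)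
    refine ⟨c, ?_, CF.XN.tw_of_comm ρ hc⟩
    have h2 : (⟨_, h1⟩ : Subgroup.center R) ^ r = 1 := by rw [← hZ]; exact pow_card_eq_one'
    have h3 : (x * y * x⁻¹ * y⁻¹) ^ r = 1 := congrArg (fun z : Subgroup.center R => (z.1.1)) h2
    have h4 := congrArg ρ h3
    rw [map_pow, hc, smul_pow, one_pow, map_one] at h4
    have h5 := congrArg (fun f : Module.End F (Fin n → F) => f (fun _ => 1) ⟨0, hn⟩) h4
    simpa using h5
  haveI : (Cfsg.Geo.scalars (Fin n) F).Normal := ⟨fun z hz x => by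
    obtain ⟨c, hc⟩ := hcen z hz
    have : x * z * x⁻¹ = z := hinj (by
      rw [map_mul, map_mul, hc, mul_smul_comm, mul_one, smul_mul_assoc, ← map_mul, mul_inv_cancel, map_one])
    rwa [this]⟩
  have H : CF.XN.XS ρ (R ⊔ Cfsg.Geo.scalars (Fin n) F) r :=
    { inj := hinj
      prime := hr
      comm := by
        intro x hx y hy
        obtain ⟨x, hx', z, hz, rfl⟩ := Subgroup.mem_sup_of_normal_right.1 hx
        obtain ⟨y, hy', w, hw, rfl⟩ := Subgroup.mem_sup_of_normal_right.1 hy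
        obtain ⟨a, ha⟩ := hcen z hz
        obtain ⟨b, hb⟩ := hcen w hw
        obtain ⟨c, hc, h⟩ := hcomm x hx' y hy'
        refine ⟨c, hc, ?_⟩
        simp only [map_mul, ha, hb, mul_smul_comm, mul_one, smul_mul_assoc, h, smul_smul]
        congr 1; ring
      schur := fun x hx => hschur x fun y hy => hx y (Subgroup.mem_sup_left hy) }
  have hM : ∃ d ∈ R ⊔ Cfsg.Geo.scalars (Fin n) F, ¬ ∃ c : F, ρ d = c • 1 := by
    by_contra! h
    have h1 : commutator R = ⊥ := by
      rw [commutator_eq_bot_iff_center_eq_top, eq_top_iff]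
      intro x _
      obtain ⟨c, hc⟩ := h x (Subgroup.mem_sup_left x.2)
      exact Subgroup.mem_center_iff.2 fun y => Subtype.ext (Subgroup.mem_center_iff.1 (H.central hc) y)
    rw [← hext, h1, Subgroup.card_bot] at hZ
    exact hr.one_lt.ne hZ
  have := H.main hg (fun h => hns (hmem g h)) hϖ (hord ▸ pow_orderOf_eq_one g) hM c
  rw [hρ, Module.finrank_fin_fun] at this
  exact this

end Cfsg.Agent.S5877
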