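import Cfsg.Statements.S5938
import Cfsg.Agent.Classical.MaxL2c

set_option autoImplicit false
open Cfsg

namespace Cfsg.Agent.S5938

/-- Let p be a prime with p ≡ ±1 (mod 8) and F a field with p elements. Then PSL_2(F) has a maximal subgroup isomorphic to the symmetric group S_4. -/
theorem result {F : Type*} [Field F] [Fintype F] (p : ℕ) [Fact p.Prime] (hF : Fintype.card F = p) (hp : p % 8 = 1 ∨ p % 8 = 7) : ∃ H : Subgroup (Matrix.ProjectiveSpecialLinearGroup (Fin 2) F), IsCoatom H ∧ Nonempty (H ≃* Equiv.Perm (Fin 4)) := by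
  open CF.Classical in
  have L := isL2_PSL F (AlgebraicClosure F)
  rw [← Nat.card_eq_fintype_card] at hF
  subst hF
  have h2 := two_ne_zero_of_odd_card (F := F) (Nat.odd_iff.2 (by omega))
  have h1 := Finite.one_lt_card (α := F)
  obtain ⟨S, h3, hS⟩ := exists_S4 h2
  exact exists_isCoatom_of_covBy L.inj (range_pslToPGL (F := F) ▸ covBy_S4 h2 Fact.out (by omega) hS
    (h3.2 ((isSquare_two_iff_card h2).2 hp))) hS

end Cfsg.Agent.S5938
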