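import Cfsg.Statements.S5941
import Cfsg.Agent.Classical.MaxL2c

set_option autoImplicit false
open Cfsg

namespace Cfsg.Agent.S5941

/-- Let K and F be finite fields of odd characteristic with #F = (#K)². Then PSL_2(F) has a maximal subgroup isomorphic to PGL_2(K). -/
theorem result {F K : Type*} [Field F] [Fintype F] [Field K] [Fintype K] (q : ℕ) (hK : Fintype.card K = q) (hF : Fintype.card F = q ^ 2) (hq : Odd q) : ∃ H : Subgroup (Matrix.ProjectiveSpecialLinearGroup (Fin 2) F), IsCoatom H ∧ Nonempty (H ≃* Matrix.ProjGenLinGroup (Fin 2) K) := by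
  open CF.Classical in
  have L := isL2_PSL F (AlgebraicClosure F)
  rw [← Nat.card_eq_fintype_card] at hF hK
  subst hK
  have h2 := two_ne_zero_of_odd_card (F := F) (hF ▸ hq.pow)
  obtain ⟨K', ⟨e⟩⟩ := exists_subfield_equiv hF.symm
  exact exists_isCoatom_of_covBy L.inj (range_pslToPGL (F := F) ▸ covBy_range_subPGL h2
    (Nat.card_congr e.toEquiv ▸ hF.symm) 1) ((range_subPGL_equiv K' 1).map (·.trans (pglCongr _ e.symm)))

end Cfsg.Agent.S5941
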