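import Cfsg.Statements.S5943
import Cfsg.Agent.Classical.MaxL2c

set_option autoImplicit false
open Cfsg

namespace Cfsg.Agent.S5943

/-- Let K and F be finite fields of characteristic 2 with #K = q > 2 and #F = q^r for a prime r. Then PSL_2(F) has a maximal subgroup isomorphic to PSL_2(K) (which equals PGL_2(K) in characteristic 2). -/
theorem result {F K : Type*} [Field F] [Fintype F] [Field K] [Fintype K] (q r : ℕ) (hK : Fintype.card K = q) (hF : Fintype.card F = q ^ r) (hq : Even q) (hq2 : q ≠ 2) (hr : r.Prime) : ∃ H : Subgroup (Matrix.ProjectiveSpecialLinearGroup (Fin 2) F), IsCoatom H ∧ Nonempty (H ≃* Matrix.ProjectiveSpecialLinearGroup (Fin 2) K) := by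
  open CF.Classical in
  have L := isL2_PSL F (AlgebraicClosure F)
  rw [← Nat.card_eq_fintype_card] at hF hK
  subst hK
  have h2 := two_eq_zero_of_even_card (F := F) (hF ▸ hq.pow_of_ne_zero hr.ne_zero)
  obtain ⟨K', ⟨e⟩⟩ := exists_subfield_equiv hF.symm
  have h3 := Nat.card_congr e.toEquiv
  have h4 := Finite.one_lt_card (α := K)
  refine exists_isCoatom_of_covBy L.inj (S := (subPGL K' 1).range) ?_
    ((range_subPGL_equiv K' 1).map (·.trans ((pglCongr _ e.symm).trans
      (pslEquivPGL (two_eq_zero_of_even_card hq)).symm)))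
  rw [range_pslToPGL, psl_eq_top h2, covBy_top_iff]
  exact isCoatom_range_subPGL h2 hr (h3 ▸ hF.symm) (by rw [← h3]; grind) 1

end Cfsg.Agent.S5943
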