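import Cfsg.Statements.S5944
import Cfsg.Agent.Perm.SymAut

set_option autoImplicit false
open Cfsg

namespace Cfsg.Agent.S5944

/-- For n ≠ 4, every proper subgroup of the symmetric group S_n other than the alternating group A_n has index at least n. -/
theorem result (n : ℕ) (hn : n ≠ 4) (H : Subgroup (Equiv.Perm (Fin n))) (hH : H ≠ ⊤) (hA : H ≠ alternatingGroup (Fin n)) : n ≤ H.index := by
  have h0 := H.index_ne_zero_of_finite
  have h1 := mt Subgroup.index_eq_one.1 hH
  have h2 := mt Equiv.Perm.eq_alternatingGroup_of_index_eq_two hA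
  by_contra! h
  have : Nontrivial (Fin n) := Fin.nontrivial_iff_two_le.2 (by omega)
  have h3 : Function.Injective (MulAction.toPermHom (Equiv.Perm (Fin n)) (_ ⧸ H)) :=
    CF.Perm.injective_of_not_alt_le_ker (by simp; omega) fun h3 => by
      rw [← Subgroup.normalCore_eq_ker] at h3
      have := Nat.le_of_dvd two_pos (alternatingGroup.index_eq_two (α := Fin n) ▸
        Subgroup.index_dvd_of_le (h3.trans H.normalCore_le))
      omega
  have := Nat.card_le_card_of_injective _ h3
  rw [Nat.card_perm, Nat.card_perm, ← Subgroup.index_eq_card, Nat.card_fin] at this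
  exact this.not_gt ((Nat.factorial_lt (by omega)).2 h)

end Cfsg.Agent.S5944
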