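import Cfsg.Statements.S5950
import Cfsg.Agent.Classical.EluD

set_option autoImplicit false
open scoped MatrixGroups
open Cfsg

namespace Cfsg.Agent.S5950

/-- Elements of prime order of PSL_n(q) fixing no decomposition `F^n = U ⊕ W` with `dim U = m`. Here `T = PSL_n(F)` for a field `F` with `q = p^f` elements (`n ≥ 2`, `(n, q) ≠ (2, 2), (2, 3)`); an element of `T` of prime order `r` is represented by a matrix `x` of determinant 1 with `x^r` scalar and `x` not scalar; `i` denotes the multiplicative order of `q` modulo `r` (when `r ≠ p`), and `(a)_r` the `r`-part of `a`. Let `n ≥ 3`, `1 ≤ m < n/2`, and let `r` be a prime dividing the number of such decompositions (unordered pairs `{U, W}` of complementary subspaces with `dim U = m`; since `m ≠ n − m` these are the ordered pairs with `dim U = m`). Then every element of `T` of order `r` fixes such a pair (fixes both `U` and `W` for some complementary `U, W` with `dim U = m`) if and only if one of: (i) `r = p > 2` and every partition of `n` into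 parts of size at most `p` contains, as a sub-multiset, a partition of `m`; (ii) `r = p = 2` and `n` is odd or `m` is even; (iii) `r ≠ p`, `i = 1`, and `r ∣ m` or `(q−1)_r ≥ (n)_r` (with `q ≡ 1 (mod 4)` required when `r = 2` and `n` is even); (iv) `r ≠ p`, `2 ≤ i ≤ m` and `n mod i ≥ m mod i`. -/
theorem result {F : Type*} [Field F] [Fintype F] {p : ℕ} [Fact p.Prime] [CharP F p] {q : ℕ} (hq : Fintype.card F = q)
    (n m : ℕ) (hn : 3 ≤ n) (hm : 1 ≤ m) (hmn : 2 * m < n)
    (r : ℕ) [Fact r.Prime]
    (hrΩ : r ∣ Nat.card {P : Submodule F (Fin n → F) × Submodule F (Fin n → F) // IsCompl P.1 P.2 ∧ Module.finrank F ↥P.1 = m}) :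
    (∀ x : Matrix.SpecialLinearGroup (Fin n) F,
      (∃ c : F, ((x ^ r : Matrix.SpecialLinearGroup (Fin n) F) : Matrix (Fin n) (Fin n) F) = c • (1 : Matrix (Fin n) (Fin n) F)) →
      (∀ c : F, (x : Matrix (Fin n) (Fin n) F) ≠ c • (1 : Matrix (Fin n) (Fin n) F)) →
      ∃ U W : Submodule F (Fin n → F), IsCompl U W ∧ Module.finrank F ↥U = m ∧
        U.map (Matrix.toLin' (x : Matrix (Fin n) (Fin n) F)) ≤ U ∧ W.map (Matrix.toLin' (x : Matrix (Fin n) (Fin n) F)) ≤ W) ↔
    ((r = p ∧ 2 < p ∧ (∀ μ : Multiset ℕ, (∀ a ∈ μ, 0 < a ∧ a ≤ p) → μ.sum = n → ∃ ν : Multiset ℕ, ν ≤ μ ∧ ν.sum = m)) ∨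
     (r = p ∧ p = 2 ∧ (Odd n ∨ Even m)) ∨
     (r ≠ p ∧
      ((orderOf (q : ZMod r) = 1 ∧ (r ∣ m ∨ (padicValNat r n ≤ padicValNat r (q - 1) ∧ (r = 2 → Even n → q % 4 = 1)))) ∨
       (2 ≤ orderOf (q : ZMod r) ∧ orderOf (q : ZMod r) ≤ m ∧ m % orderOf (q : ZMod r) ≤ n % orderOf (q : ZMod r))))) := by
  open CF.Classical CF.Cls in
  subst hq
  have hn' : Module.finrank F (Fin n → F) = n := by simp
  rw [forall_SL_iff r fun f => ∃ U W : Submodule F (Fin n → F), IsCompl U W ∧
    Module.finrank F U = m ∧ U.map f ≤ U ∧ W.map f ≤ W]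
  rcases eq_or_ne r p with rfl | hrp
  · have h1 : (∀ f : Module.End F (Fin n → F), OrdP r f → ∃ U W : Submodule F (Fin n → F),
        IsCompl U W ∧ Module.finrank F U = m ∧ U.map f ≤ U ∧ W.map f ≤ W) ↔
        ∀ μ : Multiset ℕ, (∀ a ∈ μ, 0 < a ∧ a ≤ r) → μ.sum = n → ∃ ν ≤ μ, ν.sum = m := by
      refine ⟨fun h μ h1 h2 => ?_, fun h f hf => ?_⟩
      · by_cases h3 : ∃ a ∈ μ, a ≠ 1
        · obtain ⟨f, h4, -, -, rfl⟩ := exists_ordP_unip (F := F) r h1 h3 (h2.trans hn'.symm)
          exact (exists_compl_iff f m).1 (h f h4)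
        · rw [Multiset.eq_replicate_card.2 (by simpa using h3 : ∀ a ∈ μ, a = 1)] at h2 ⊢
          exact ⟨.replicate m 1, (Multiset.replicate_le_replicate _).2 (by simp at h2; omega),
            by simp⟩
      · obtain ⟨d, hd, -, h1⟩ := hf.exists_unip r
        simpa only [Submodule.map_smul _ _ _ hd] using (exists_compl_iff (d • f) m).2
          (h _ (fun a ha => ⟨jt_pos _ a ha, h1 a ha⟩) (by rw [jt_sum, hn']))
    rw [h1]
    rcases (Fact.out : r.Prime).two_le.eq_or_lt with rfl | h2
    · simp only [lt_irrefl, false_and, and_false, false_or, true_and, ne_eq, not_true, or_false]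
      refine ⟨fun h => or_iff_not_imp_left.2 fun h2 => ?_, fun h μ h2 h3 => ?_⟩
      · obtain ⟨k, rfl⟩ := Nat.not_odd_iff_even.1 h2
        obtain ⟨ν, h3, rfl⟩ := h (.replicate k 2)
          (fun a ha => by simp [Multiset.eq_of_mem_replicate ha]) (by simp; omega)
        exact even_iff_two_dvd.2 (dvd_sum_of_le h3)
      · have h4 : μ = .replicate (μ.count 1) 1 + .replicate (μ.count 2) 2 := by
          ext a
          by_cases ha : a ∈ μ
          · obtain rfl | rfl : a = 1 ∨ a = 2 := by have := h2 a ha; omega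
            all_goals simp [Multiset.count_replicate]
          · simp only [Multiset.count_add, Multiset.count_replicate]
            split_ifs <;> simp_all
        rw [h4] at h3 ⊢
        simp only [Multiset.sum_add, Multiset.sum_replicate, smul_eq_mul] at h3
        simp only [Nat.odd_iff, Nat.even_iff] at h
        exact exists_le_sum_of (by omega) (by omega)
    · simp [h2, h2.ne']
  rw [card_compl_pairs] at hrΩ
  obtain ⟨⟨j, h1, h2, h3⟩, -⟩ := exists_dvd_of_dvd_card_subspace Fact.out (by omega)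
    (((Fact.out : r.Prime).dvd_mul.1 hrΩ).resolve_right fun h => hrp (by
      obtain ⟨k, -, hk⟩ := FiniteField.card F p
      rw [hk, ← pow_mul] at h
      exact (Nat.prime_dvd_prime_iff_eq Fact.out Fact.out).1 ((Fact.out : r.Prime).dvd_of_dvd_pow h)))
  rw [forall_ordP_sub_iff p hrp (by omega) (by omega) h1 h2 h3 fun f g h hg => by
      simp only [h]; exact exists_compl_iff g m, hn']
  simp only [hrp, false_and, false_or, ne_eq, not_false_eq_true, true_and]
  rfl

end Cfsg.Agent.S5950
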