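import Cfsg.Statements.S5951
import Cfsg.Agent.Classical.EluD

set_option autoImplicit false
open scoped MatrixGroups
open Cfsg

namespace Cfsg.Agent.S5951

/-- Elements of prime order of PSL_n(q) fixing no pair of subspaces `U < W` with `dim U = m`, `dim W = n − m`. Here `T = PSL_n(F)` for a field `F` with `q = p^f` elements (`n ≥ 2`, `(n, q) ≠ (2, 2), (2, 3)`); an element of `T` of prime order `r` is represented by a matrix `x` of determinant 1 with `x^r` scalar and `x` not scalar; `i` denotes the multiplicative order of `q` modulo `r` (when `r ≠ p`), and `(a)_r` the `r`-part of `a`. Let `1 ≤ m < n/2` and let `r` be a prime dividing the number of such pairs. Then every element of `T` of order `r` fixes such a pair (both `U` and `W`) if and only if `r ≠ p` and either (i) `i = 1` and (`r ∣ m`, or `(q−1)_r ≥ (n)_r` with `q ≡ 1 (mod 4)` required when `r = 2` and `n` is even), or (ii) `2 ≤ i ≤ m` and `n mod i ≥ 2 (m mod i)`. -/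
theorem result {F : Type*} [Field F] [Fintype F] {p : ℕ} [Fact p.Prime] [CharP F p] {q : ℕ} (hq : Fintype.card F = q)
    (n m : ℕ) (hn : 2 ≤ n) (hT : (n, q) ≠ (2, 2) ∧ (n, q) ≠ (2, 3)) (hm : 1 ≤ m) (hmn : 2 * m < n)
    (r : ℕ) [Fact r.Prime]
    (hrΩ : r ∣ Nat.card {P : Submodule F (Fin n → F) × Submodule F (Fin n → F) //
        P.1 ≤ P.2 ∧ Module.finrank F ↥P.1 = m ∧ Module.finrank F ↥P.2 = n - m}) :
    (∀ x : Matrix.SpecialLinearGroup (Fin n) F,
      (∃ c : F, ((x ^ r : Matrix.SpecialLinearGroup (Fin n) F) : Matrix (Fin n) (Fin n) F) = c • (1 : Matrix (Fin n) (Fin n) F)) →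
      (∀ c : F, (x : Matrix (Fin n) (Fin n) F) ≠ c • (1 : Matrix (Fin n) (Fin n) F)) →
      ∃ U W : Submodule F (Fin n → F), U ≤ W ∧ Module.finrank F ↥U = m ∧ Module.finrank F ↥W = n - m ∧
        U.map (Matrix.toLin' (x : Matrix (Fin n) (Fin n) F)) ≤ U ∧ W.map (Matrix.toLin' (x : Matrix (Fin n) (Fin n) F)) ≤ W) ↔
    (r ≠ p ∧
      ((orderOf (q : ZMod r) = 1 ∧ (r ∣ m ∨ (padicValNat r n ≤ padicValNat r (q - 1) ∧ (r = 2 → Even n → q % 4 = 1)))) ∨
       (2 ≤ orderOf (q : ZMod r) ∧ orderOf (q : ZMod r) ≤ m ∧ 2 * (m % orderOf (q : ZMod r)) ≤ n % orderOf (q : ZMod r)))) := by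
  open CF.Classical CF.Cls Multiset in
  subst hq
  have hn' : Module.finrank F (Fin n → F) = n := by simp
  obtain ⟨j, h1, h2, h3⟩ : ∃ j, n - 2 * m < j ∧ j ≤ n ∧ r ∣ Fintype.card F ^ j - 1 := by
    rw [card_flags] at hrΩ
    rcases (Fact.out : r.Prime).dvd_mul.1 hrΩ with h | h
    · obtain ⟨-, j, h⟩ := exists_dvd_of_dvd_card_subspace Fact.out (by omega) h
      exact ⟨j, by omega, by omega, h.2.2⟩
    · obtain ⟨⟨j, h⟩, -⟩ := exists_dvd_of_dvd_card_subspace Fact.out (by simp; omega) h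
      rw [Module.finrank_fin_fun] at h
      exact ⟨j, by omega, by omega, h.2.2⟩
  have hrp := ne_char_of_dvd p (by omega) h3
  have : Nontrivial (Fin n → F) := Module.finrank_pos_iff.1 (by omega : 0 < Module.finrank F _)
  have h4 := orderOf_card_pos (F := F) p Fact.out hrp
  rw [forall_SL_iff r fun f => ∃ U W : Submodule F (Fin n → F), U ≤ W ∧ Module.finrank F U = m ∧
    Module.finrank F W = n - m ∧ U.map f ≤ U ∧ W.map f ≤ W, forall_ordP_iff p hrp
      (Q := fun μ => ∃ ν ν', ν + ν' ≤ μ ∧ ν.sum = m ∧ ν'.sum = m) (fun f g h hg => by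
        simpa only [h, hn'] using exists_flag_iff hg (m := m) (k := m) (by omega))
      ⟨replicate m 1, replicate m 1, by
        rw [← replicate_add, replicate_le_replicate]; omega, by simp, by simp⟩,
    and_iff_right hrp, hn']
  rw [CF.Fgs2.prime_dvd_pow_sub_one_iff _ _ Fintype.card_pos] at h3
  refine or_congr (and_congr_right fun hi => ⟨fun h => or_iff_not_imp_right.2 fun hc => ?_,
    fun h k hk hc => ?_⟩) ?_
  · obtain ⟨k, hk⟩ := dvd_of_not_lCond (ord_eq_one_iff.1 hi) Fintype.one_lt_card hc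
    obtain ⟨ν, ν', h5, rfl, -⟩ := h k (by rw [hk, mul_comm]) hc
    exact dvd_sum_of_le ((le_add_right _ _).trans h5)
  · obtain ⟨l, rfl⟩ := h.resolve_right hc
    exact ⟨replicate l r, replicate l r, by
      rw [← replicate_add, replicate_le_replicate]
      exact Nat.le_of_mul_le_mul_right (by nlinarith) (Fact.out : r.Prime).pos,
      by simp [mul_comm], by simp [mul_comm]⟩
  generalize orderOf (Fintype.card F : ZMod r) = i at *
  refine ⟨fun ⟨hi, h⟩ => ?_, fun ⟨hi, h5, h6⟩ => ⟨by omega, fun e s _ he => exists_le_two_of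
    (by omega) (by omega) (h6.trans (mod_eq_of_add_mul he ▸ Nat.mod_le _ _))⟩⟩
  have h5 := Nat.le_of_dvd (by omega) h3
  obtain ⟨e, e', s, s', h6, -, h7, h8⟩ := (exists_le_two_iff hi).1
    (h _ _ (Nat.div_pos (h5.trans h2) h4).ne' (Nat.mod_add_div' _ _))
  have h9 := mod_le_of_dvd h3 h2
  have := Nat.mod_lt n h4
  have h10 := (mod_eq_of_add_mul h7).trans (Nat.mod_eq_of_lt (by omega))
  have h11 := (mod_eq_of_add_mul h8).trans (Nat.mod_eq_of_lt (by omega))
  refine ⟨by omega, not_lt.1 fun h12 => ?_, by omega⟩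
  rw [Nat.mod_eq_of_lt h12] at h10 h11
  omega

end Cfsg.Agent.S5951
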