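import Cfsg.Statements.S5952
import Cfsg.Agent.Classical.EluD

set_option autoImplicit false
open Cfsg

namespace Cfsg.Agent.S5952

/-- Which dimensions of invariant subspaces a semisimple linear map has. Let `V` be a finite-dimensional vector space over a field `F` and `f` an invertible semisimple linear map of `V`. Suppose `V` is the internal direct sum of the fixed space `C_V(f)` (the eigenspace for 1) and subspaces `U_1, …, U_s`, each `f`-invariant of dimension `a ≥ 1` on which `f` acts irreducibly (no `f`-invariant subspaces other than 0 and `U_j`). Let `0 < m < dim V` and `ℓ = m mod a`. Then `f` leaves some `m`-dimensional subspace invariant if and only if `dim C_V(f) ≥ m`, or `a ≤ m` and `dim C_V(f) ≥ ℓ`. -/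
theorem result {F V : Type*} [Field F] [AddCommGroup V] [Module F V]
    [FiniteDimensional F V] (f : V →ₗ[F] V) (hf : Function.Bijective f) (hss : Module.End.IsSemisimple f)
    {s a : ℕ} (ha : 1 ≤ a) (U : Fin s → Submodule F V)
    (hUinv : ∀ j, (U j).map f ≤ U j) (hUdim : ∀ j, Module.finrank F ↥(U j) = a)
    (hUirr : ∀ j, ∀ W : Submodule F V, W ≤ U j → W.map f ≤ W → W = ⊥ ∨ W = U j)
    (hdec : DirectSum.IsInternal (fun o : Option (Fin s) => o.elim (Module.End.eigenspace f 1) U))
    (m : ℕ) (hm : 0 < m) (hmV : m < Module.finrank F V) :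
    (∃ W : Submodule F V, Module.finrank F ↥W = m ∧ W.map f ≤ W) ↔
    (m ≤ Module.finrank F ↥(Module.End.eigenspace f 1) ∨
      (a ≤ m ∧ m % a ≤ Module.finrank F ↥(Module.End.eigenspace f 1))) := by
  open CF.Classical CF.Cls Multiset in
  have hD : ∀ o : Option (Fin s), ∀ v ∈ o.elim (Module.End.eigenspace f 1) U,
      f v ∈ o.elim (Module.End.eigenspace f 1) U := by
    rintro (_ | j) v hv
    · exact (Module.End.mem_eigenspace_iff.1 hv).symm ▸ Submodule.smul_mem _ _ hv
    · exact hUinv j ⟨v, hv, rfl⟩
  have h1 : jt f = replicate (Module.finrank F (Module.End.eigenspace f 1)) 1 + replicate s a := by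
    have h2 : ∀ j, jt (f.restrict (hD (some j))) = {a} := fun j => by
      have : Nontrivial (U j) := Module.finrank_pos_iff.1 (by rw [hUdim]; omega)
      refine (jt_eq_singleton_of_irr (V := U j) (f := f.restrict (hD (some j))) fun W hW =>
        (hUirr j (W.map (U j).subtype) (Submodule.map_subtype_le _ _) ?_).imp (fun h =>
          Submodule.map_injective_of_injective (U j).injective_subtype
            (h.trans (Submodule.map_bot _).symm)) fun h => ?_).trans (by rw [hUdim])
      · rintro _ ⟨_, ⟨v, hv, rfl⟩, rfl⟩
        exact ⟨_, hW v hv, rfl⟩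
      · exact Submodule.map_injective_of_injective (U j).injective_subtype
          (h.trans (Submodule.map_subtype_top _).symm)
    have h3 : jt (f.restrict (hD none)) = _ := jt_eq_replicate_one (c := 1) (LinearMap.ext fun v =>
      Subtype.ext (Module.End.mem_eigenspace_iff.1 v.2))
    rw [jt, ed_eq_sum_restrict hdec hD, Fintype.sum_option, Multiset.map_add, ← jt, h3,
      ← Multiset.coe_mapAddMonoidHom, _root_.map_sum]
    exact congrArg₂ _ rfl ((Finset.sum_congr rfl fun j _ => h2 j).trans
      (by simp [Multiset.nsmul_singleton]))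
  have h2 := jt_sum f
  rw [exists_inv_iff hss, h1]
  rw [h1] at h2
  simp only [sum_add, sum_replicate, smul_eq_mul, mul_one] at h2
  refine ⟨fun h => ?_, fun h => h.elim (fun h => exists_le_sum_iff.2 ⟨m, h, 0, s.zero_le, by simp⟩)
    fun h => exists_le_sum_of (by omega) h.2⟩
  obtain ⟨e, h3, _ | t, -, rfl⟩ := exists_le_sum_iff.1 h
  · exact .inl (by simpa using h3)
  · exact .inr ⟨by rw [add_mul]; omega, by
      rw [mod_eq_of_add_mul rfl]; exact (Nat.mod_le _ _).trans h3⟩

end Cfsg.Agent.S5952
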