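import Cfsg.Statements.S5954
import Cfsg.Agent.Cls.El12

set_option autoImplicit false
open scoped MatrixGroups
open Cfsg

namespace Cfsg.Agent.S5954

/-- Elements of prime order of PSU_n(q) with no fixed nondegenerate `m`-space. Here `T = PSU_n(q)` (`n ≥ 3`, `(n, q) ≠ (3, 2)`), realised through the matrices of determinant 1 over the field `F` with `q²` elements preserving the Hermitian form `h(u, v) = Σ u_i v_i^q`; an element of `T` of prime order `r` is such a matrix `x` with `x^r` scalar and `x` not scalar. For `r ≠ p` let `i` be the multiplicative order of `q` modulo `r`, `b = i/2` for `i` even and `b = i` for `i` odd, `c = i, i/2, 2i` according as `i ≡ 0, 2 (mod 4)` or `i` odd, and write `k = n mod c`, `ℓ = m mod b`, `ℓ' = m mod c`, `n' = ⌊n/b⌋`, `m' = ⌊m/b⌋`, `s = (r−1)/b`; `(a)_r` is the `r`-part of `a`. Let `1 ≤ m < n/2` and let `r` be a prime dividing the number of nondegenerate `m`-spaces. Then every element of `T` of order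 `r` fixes a nondegenerate `m`-space if and only if one of: (i) `r = p > 2` and every partition of `n` into parts of size at most `p` contains (as a sub-multiset) a partition of `m`; (ii) `r = p = 2` and (`n` is odd or `m` is even); (iii) `r = 2 ≠ p` and (`n` is odd, or `m` is even, or `(q+1)_2 ≥ (n)_2` and `q ≡ 3 (mod 4)`); (iv) `r ≠ p`, `r > 2`, and either `i ≠ 2`, `c ≤ m` and `k ≥ ℓ'`, or `i = 2` and (`r ∣ m` or `(q+1)_r ≥ (n)_r`). -/
theorem result {F : Type*} [Field F] [Fintype F] {p : ℕ} [Fact p.Prime] [CharP F p] {q : ℕ} (hq : Fintype.card F = q ^ 2)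
    (n m : ℕ) (hn : 3 ≤ n) (hT : (n, q) ≠ (3, 2)) (hm : 1 ≤ m) (hmn : 2 * m < n)
    (r : ℕ) [Fact r.Prime]
    (hrΩ : r ∣ Nat.card {W : Submodule F (Fin n → F) // Module.finrank F ↥W = m ∧ (∀ u ∈ W, u ≠ 0 → ∃ v ∈ W, Cfsg.hermForm n F q u v ≠ 0)})
    (i b c : ℕ) (hi : i = orderOf (q : ZMod r)) (hb : b = if Even i then i / 2 else i)
    (hc : c = if i % 4 = 0 then i else if i % 4 = 2 then i / 2 else 2 * i) :
    (∀ x : Matrix.SpecialLinearGroup (Fin n) F, x ∈ Cfsg.SU n F q →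
      (∃ z : F, ((x ^ r : Matrix.SpecialLinearGroup (Fin n) F) : Matrix (Fin n) (Fin n) F) = z • (1 : Matrix (Fin n) (Fin n) F)) →
      (∀ z : F, (x : Matrix (Fin n) (Fin n) F) ≠ z • (1 : Matrix (Fin n) (Fin n) F)) →
      ∃ W : Submodule F (Fin n → F), Module.finrank F ↥W = m ∧ (∀ u ∈ W, u ≠ 0 → ∃ v ∈ W, Cfsg.hermForm n F q u v ≠ 0) ∧
        W.map (Matrix.toLin' (x : Matrix (Fin n) (Fin n) F)) ≤ W) ↔
    ((r = p ∧ 2 < p ∧ (∀ μ : Multiset ℕ, (∀ a ∈ μ, 0 < a ∧ a ≤ p) → μ.sum = n → ∃ ν : Multiset ℕ, ν ≤ μ ∧ ν.sum = m)) ∨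
     (r = p ∧ p = 2 ∧ (Odd n ∨ Even m)) ∨
     (r = 2 ∧ p ≠ 2 ∧ (Odd n ∨ Even m ∨ (padicValNat 2 n ≤ padicValNat 2 (q + 1) ∧ q % 4 = 3))) ∨
     (r ≠ p ∧ 2 < r ∧ ((i ≠ 2 ∧ c ≤ m ∧ m % c ≤ n % c) ∨ (i = 2 ∧ (r ∣ m ∨ padicValNat r n ≤ padicValNat r (q + 1)))))) := by
  open CF.Geom CF.Classical CF.Cls in
  subst hi
  obtain ⟨σ, hσ, h1, h2⟩ := exists_conj hq
  have hE := eh_hermSesq h2 (Fin n)
  have hn : Module.finrank F (Fin n → F) = n := by simp
  have h : ∀ W : Submodule F (Fin n → F), Module.finrank F ↥W = m ∧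
      (∀ u ∈ W, u ≠ 0 → ∃ v ∈ W, Cfsg.hermForm n F q u v ≠ 0) ↔ ND (hermSesq (Fin n) σ) m W :=
    fun W => by
      simp only [ND, disjoint_perp_iff (hE.wp h1), hermForm_eq hσ]
      exact and_congr_right' (forall₃_congr fun u _ _ => exists_congr fun v => and_congr_right'
        (not_congr ⟨hE.refl, hE.refl⟩))
  have hd := dvd_card_congr h hrΩ
  rw [elu_su hσ n fun f => ∃ W : Submodule F (Fin n → F), Module.finrank F ↥W = m ∧
    (∀ u ∈ W, u ≠ 0 → ∃ v ∈ W, Cfsg.hermForm n F q u v ≠ 0) ∧ W.map f ≤ W, elu_fx' h]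
  rcases eq_or_ne r p with rfl | hrp
  · have : Nontrivial (Fin n → F) := (Module.finrank_pos_iff (R := F)).1 (by omega)
    rw [hE.u_char hq r hσ h1 (by omega), hn]
    rcases eq_or_ne r 2 with rfl | h5
    · rw [pc_two hm (by omega)]
      simp
    · simp only [h5, two_lt_of_ne Fact.out h5, true_and, false_and, or_false, ne_eq, not_true]
  have h3 := dvd_succ_iff hq p hrp
  by_cases h4 : r ∣ q + 1
  · rw [hE.u_nd' hq p hσ h1 h4 hm (by omega), hn]
    rcases eq_or_ne r 2 with rfl | h5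
    · simp only [hrp, hrp.symm, UCond, false_and, false_or, true_and, ne_eq, not_false_eq_true,
        lt_irrefl, or_false, true_imp_iff, ← even_iff_two_dvd]
      rcases Nat.even_or_odd n with h6 | h6
      · simp [h6, Nat.not_odd_iff_even.2 h6]
      · simp [h6, Nat.not_even_iff_odd.2 h6, padicValNat.eq_zero_of_not_dvd h6.not_two_dvd_nat]
    · simp [h5, hrp, two_lt_of_ne Fact.out h5, UCond, (h3.1 h4).resolve_left h5]
  · rw [h3, not_or] at h4
    rw [hE.u_nd hq p hσ h1 hrp (by rwa [h3, not_or]) hn hm (by omega) hd, hc, cU]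
    simp only [h4.1, h4.2, false_and, false_or, hrp, two_lt_of_ne Fact.out h4.1, ne_eq,
      not_false_eq_true, true_and, or_false]

end Cfsg.Agent.S5954
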