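import Cfsg.Statements.S5955
import Cfsg.Agent.Cls.El8

set_option autoImplicit false
open scoped MatrixGroups
open Cfsg

namespace Cfsg.Agent.S5955

/-- Elements of prime order of PSp_n(q) with no fixed totally isotropic `m`-space. Here `T = PSp_n(q)` with `n = 2d ≥ 4`, `(n, q) ≠ (4, 2)`, realised through the symplectic matrices over the field `F` with `q` elements (preserving the standard alternating form); an element of `T` of prime order `r` is such a matrix `x` with `x^r` scalar and `x` not scalar. For `r ≠ p` let `i` be the multiplicative order of `q` modulo `r`, `c = i` for `i` even and `c = 2i` for `i` odd, and write `k = n mod c`, `ℓ = m mod i`, `ℓ' = m mod c`, `n' = ⌊n/i⌋`, `m' = ⌊m/i⌋`, `t = (r−1)/i`. Let `1 ≤ m ≤ n/2` and let `r` be a prime dividing the number of totally isotropic `m`-spaces. Then every element of `T` of order `r` fixes a totally isotropic `m`-space if and only if either (i) `r = 2 ≠ p` and (`m`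 is even or `q ≡ 1 (mod 4)`); or (ii) `r ≠ p`, `r > 2`, `i ≤ m`, `k ≥ 2ℓ`, and (`i` is odd or `n' − 2m' ≥ t`). -/
theorem result {F : Type*} [Field F] [Fintype F] {p : ℕ} [Fact p.Prime] [CharP F p] {q : ℕ} (hq : Fintype.card F = q)
    (d m : ℕ) (hd : 2 ≤ d) (hT : (d, q) ≠ (2, 2)) (hm : 1 ≤ m) (hmd : m ≤ d)
    (r : ℕ) [Fact r.Prime]
    (hrΩ : r ∣ Nat.card {W : Submodule F (Fin d ⊕ Fin d → F) // Module.finrank F ↥W = m ∧ (∀ u ∈ W, ∀ v ∈ W, Cfsg.sympForm d F u v = 0)})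
    (i c : ℕ) (hi : i = orderOf (q : ZMod r)) (hc : c = if Even i then i else 2 * i) :
    (∀ x : ↥(Matrix.symplecticGroup (Fin d) F),
      (∃ z : F, ((x ^ r : ↥(Matrix.symplecticGroup (Fin d) F)) : Matrix (Fin d ⊕ Fin d) (Fin d ⊕ Fin d) F) = z • (1 : Matrix (Fin d ⊕ Fin d) (Fin d ⊕ Fin d) F)) →
      (∀ z : F, (x : Matrix (Fin d ⊕ Fin d) (Fin d ⊕ Fin d) F) ≠ z • (1 : Matrix (Fin d ⊕ Fin d) (Fin d ⊕ Fin d) F)) →
      ∃ W : Submodule F (Fin d ⊕ Fin d → F), Module.finrank F ↥W = m ∧ (∀ u ∈ W, ∀ v ∈ W, Cfsg.sympForm d F u v = 0) ∧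
        W.map (Matrix.toLin' (x : Matrix (Fin d ⊕ Fin d) (Fin d ⊕ Fin d) F)) ≤ W) ↔
    ((r = 2 ∧ p ≠ 2 ∧ (Even m ∨ q % 4 = 1)) ∨
     (r ≠ p ∧ 2 < r ∧ i ≤ m ∧ 2 * (m % i) ≤ (2 * d) % c ∧ (Odd i ∨ (r - 1) / i + 2 * (m / i) ≤ (2 * d) / i))) := by
  open CF.Geom CF.Classical CF.Cls in
  subst hq hi
  have hB := sympBilin_nondegenerate (F := F) d
  have hA := sympBilin_isAlt (F := F) d
  have hn : Module.finrank F (Fin d ⊕ Fin d → F) = 2 * d := by simp [two_mul]
  have h : ∀ W : Submodule F (Fin d ⊕ Fin d → F), Module.finrank F ↥W = m ∧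
      (∀ u ∈ W, ∀ v ∈ W, Cfsg.sympForm d F u v = 0) ↔ TS (sympBilin d F) (fun _ => 0) m W :=
    fun W => by simp only [ts_alt_iff, sympBilin_apply]
  have hd := dvd_card_congr h hrΩ
  have hrp : r ≠ p := by
    rintro rfl
    obtain ⟨U, hU⟩ := exists_TS_alt hB hA (m := m) (by omega)
    exact not_dvd_card_TS r (isWittPair_symp d) (slideCard_alt _) hU (.inl (p_dvd_card r)) hd
  rw [elu_sp d fun f => ∃ W : Submodule F (Fin d ⊕ Fin d → F), Module.finrank F ↥W = m ∧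
    (∀ u ∈ W, ∀ v ∈ W, Cfsg.sympForm d F u v = 0) ∧ W.map f ≤ W, elu_fx' h]
  by_cases h2 : r = 2
  · subst h2
    have h3 := (two_ne_zero_iff (F := F) p).2 hrp.symm
    rw [elu_two_sp_ts h3 hB hA (exists_sp_J d) hm (by omega), (sq_facts h3).2.1]
    simp [hrp.symm]
  · rw [sp_ts p h2 hrp hB hA hn hm (by omega) hd, hc]
    simp only [h2, false_and, false_or, hrp, two_lt_of_ne Fact.out h2, ne_eq, not_false_eq_true,
      true_and]
    rfl

end Cfsg.Agent.S5955
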