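import Cfsg.Statements.S5956
import Cfsg.Agent.Cls.El10

set_option autoImplicit false
open scoped MatrixGroups
open Cfsg

namespace Cfsg.Agent.S5956

/-- Elements of prime order of PSp_n(q) with no fixed nondegenerate `m`-space. Here `T = PSp_n(q)` with `n = 2d ≥ 4`, `(n, q) ≠ (4, 2)`, realised through the symplectic matrices over the field `F` with `q` elements (preserving the standard alternating form); an element of `T` of prime order `r` is such a matrix `x` with `x^r` scalar and `x` not scalar. For `r ≠ p` let `i` be the multiplicative order of `q` modulo `r`, `c = i` for `i` even and `c = 2i` for `i` odd, and write `k = n mod c`, `ℓ = m mod i`, `ℓ' = m mod c`, `n' = ⌊n/i⌋`, `m' = ⌊m/i⌋`, `t = (r−1)/i`. Let `m` be even with `2 ≤ m < n/2` and let `r` be a prime dividing the number of nondegenerate `m`-spaces. Then every element of `T` of order `r` fixes a nondegenerate `m`-space if and only if one of: (i) `r = p > 2` and every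 partition of `n` into parts of size at most `p` in which every odd part has even multiplicity contains (as a sub-multiset) a partition of `m` in which every odd part has even multiplicity; (ii) `r = p = 2` and (`n ≡ 2 (mod 4)` or `m ≡ 0 (mod 4)`); (iii) `r = 2 ≠ p`; (iv) `r ≠ p`, `r > 2`, `c ≤ m` and `k ≥ ℓ'`. -/
theorem result {F : Type*} [Field F] [Fintype F] {p : ℕ} [Fact p.Prime] [CharP F p] {q : ℕ} (hq : Fintype.card F = q)
    (d m : ℕ) (hd : 2 ≤ d) (hT : (d, q) ≠ (2, 2)) (hm : 2 ≤ m) (hme : Even m) (hmd : m < d)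
    (r : ℕ) [Fact r.Prime]
    (hrΩ : r ∣ Nat.card {W : Submodule F (Fin d ⊕ Fin d → F) // Module.finrank F ↥W = m ∧ (∀ u ∈ W, u ≠ 0 → ∃ v ∈ W, Cfsg.sympForm d F u v ≠ 0)})
    (i c : ℕ) (hi : i = orderOf (q : ZMod r)) (hc : c = if Even i then i else 2 * i) :
    (∀ x : ↥(Matrix.symplecticGroup (Fin d) F),
      (∃ z : F, ((x ^ r : ↥(Matrix.symplecticGroup (Fin d) F)) : Matrix (Fin d ⊕ Fin d) (Fin d ⊕ Fin d) F) = z • (1 : Matrix (Fin d ⊕ Fin d) (Fin d ⊕ Fin d) F)) →
      (∀ z : F, (x : Matrix (Fin d ⊕ Fin d) (Fin d ⊕ Fin d) F) ≠ z • (1 : Matrix (Fin d ⊕ Fin d) (Fin d ⊕ Fin d) F)) →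
      ∃ W : Submodule F (Fin d ⊕ Fin d → F), Module.finrank F ↥W = m ∧ (∀ u ∈ W, u ≠ 0 → ∃ v ∈ W, Cfsg.sympForm d F u v ≠ 0) ∧
        W.map (Matrix.toLin' (x : Matrix (Fin d ⊕ Fin d) (Fin d ⊕ Fin d) F)) ≤ W) ↔
    ((r = p ∧ 2 < p ∧ (∀ μ : Multiset ℕ, (∀ a ∈ μ, 0 < a ∧ a ≤ p) → (∀ a : ℕ, Odd a → Even (μ.count a)) → μ.sum = 2 * d →
        ∃ ν : Multiset ℕ, ν ≤ μ ∧ ν.sum = m ∧ ∀ a : ℕ, Odd a → Even (ν.count a))) ∨
     (r = p ∧ p = 2 ∧ ((2 * d) % 4 = 2 ∨ m % 4 = 0)) ∨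
     (r = 2 ∧ p ≠ 2) ∨
     (r ≠ p ∧ 2 < r ∧ c ≤ m ∧ m % c ≤ (2 * d) % c)) := by
  open CF.Geom CF.Classical CF.Cls in
  subst hq hi
  obtain ⟨k, rfl⟩ := hme.two_dvd
  have hB := sympBilin_nondegenerate (F := F) d
  have hA := sympBilin_isAlt (F := F) d
  have hn : Module.finrank F (Fin d ⊕ Fin d → F) = 2 * d := by simp [two_mul]
  have h : ∀ W : Submodule F (Fin d ⊕ Fin d → F), Module.finrank F ↥W = 2 * k ∧
      (∀ u ∈ W, u ≠ 0 → ∃ v ∈ W, Cfsg.sympForm d F u v ≠ 0) ↔ ND (sympBilin d F) (2 * k) W :=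
    fun W => by simp only [ND, disjoint_perp_iff (isWittPair_symp d), sympBilin_apply]
  have hd := dvd_card_congr h hrΩ
  rw [elu_sp d fun f => ∃ W : Submodule F (Fin d ⊕ Fin d → F), Module.finrank F ↥W = 2 * k ∧
    (∀ u ∈ W, u ≠ 0 → ∃ v ∈ W, Cfsg.sympForm d F u v ≠ 0) ∧ W.map f ≤ W, elu_fx' h]
  by_cases hrp : r = p
  · subst hrp
    by_cases h2 : r = 2
    · subst h2
      rw [elu_sp_two CharTwo.two_eq_zero hB hA hn (by omega) (by omega), Nat.odd_iff, Nat.even_iff]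
      simp only [lt_irrefl, false_and, and_false, or_false, true_and, ne_eq, not_true, false_or]
      omega
    rw [elu_sp_char r ((two_ne_zero_iff r).2 h2) hB hA (by omega) (by omega) hme, hn]
    simp only [h2, two_lt_of_ne Fact.out h2, false_and, and_false, or_false, true_and, ne_eq,
      not_true]
    rfl
  by_cases h2 : r = 2
  · subst h2
    exact iff_of_true (elu_two_sp_nd ((two_ne_zero_iff p).2 (Ne.symm hrp)) hB hA (by omega)
      (by omega)) (.inr (.inr (.inl ⟨rfl, Ne.symm hrp⟩)))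
  rw [sp_nd p h2 hrp hB hA hn (by omega) hme (by omega) hd, hc]
  simp only [h2, false_and, false_or, hrp, two_lt_of_ne Fact.out h2, ne_eq, not_false_eq_true,
    true_and]
  rfl

end Cfsg.Agent.S5956
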