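import Cfsg.Statements.S5957
import Cfsg.Agent.Classical.EluD

set_option autoImplicit false
open scoped MatrixGroups
open Cfsg

namespace Cfsg.Agent.S5957

/-- Involutions of PSL_n(q) and imprimitive subgroups. Here `T = PSL_n(F)` for a field `F` with `q = p^f` elements (`n ≥ 2`, `(n, q) ≠ (2, 2), (2, 3)`), `n = a·t` with `t ≥ 2`, and Ω is the set of direct-sum decompositions of `F^n` into `t` subspaces of dimension `a` (unordered; their number is the number of ordered ones divided by `t!`), whose stabilizers are the imprimitive subgroups of type GL_a(q) ≀ S_t (maximal except in some small cases; maximality is not assumed); an element of `T` of prime order `r` (a matrix `x` of determinant 1 with `x^r` scalar, `x` not scalar) fixes a point of Ω when it permutes the summands of some such decomposition. If the number of such decompositions is even, then every involution of `T` stabilizes one of them (the action is 2-elusive). -/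
theorem result {F : Type*} [Field F] [Fintype F] {p : ℕ} [Fact p.Prime] [CharP F p] {q : ℕ} (hq : Fintype.card F = q)
    (n a t : ℕ) (hn : 2 ≤ n) (hT : (n, q) ≠ (2, 2) ∧ (n, q) ≠ (2, 3)) (hat : n = a * t) (ha : 1 ≤ a) (ht : 2 ≤ t)
    (hΩ : 2 ∣ Nat.card {D : Fin t → Submodule F (Fin n → F) // Cfsg.Geo.IsMDecomposition a D} / Nat.factorial t)
    (x : Matrix.SpecialLinearGroup (Fin n) F)
    (hx1 : ∃ z : F, ((x ^ 2 : Matrix.SpecialLinearGroup (Fin n) F) : Matrix (Fin n) (Fin n) F) = z • (1 : Matrix (Fin n) (Fin n) F))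
    (hx2 : ∀ z : F, (x : Matrix (Fin n) (Fin n) F) ≠ z • (1 : Matrix (Fin n) (Fin n) F)) :
    ∃ D : Fin t → Submodule F (Fin n → F), Cfsg.Geo.IsMDecomposition a D ∧
        ∃ σ : Equiv.Perm (Fin t), ∀ j, (D j).map (Matrix.toLin' (x : Matrix (Fin n) (Fin n) F)) = D (σ j) := by
  open CF.Classical CF.Cls Multiset Polynomial in
  classical
  have hf := (ordP_toLin' 2 x).2 ⟨hx1, hx2⟩
  generalize Matrix.toLin' (x : Matrix (Fin n) (Fin n) F) = f at hf
  suffices h : PS a t (ed f) by
    obtain ⟨D, h1, h2, h3⟩ := h.stab (hasED_ed f)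
    exact ⟨D, ⟨ht, ha, h1, (isInternal_of_finrank h2 (by
      simp [h1, hat, mul_comm])).submodule_iSupIndep, h2⟩, h3⟩
  obtain ⟨z, hz⟩ := hf.2.1
  have h1 : ∀ π ∈ ed f, π.Monic ∧ ¬ X ∣ π := fun π hπ =>
    ⟨(ed_isPP f π hπ).monic, (isUnit_iff_ed f).1 hf.isUnit π hπ⟩
  obtain ⟨S, k, h2, h3⟩ : ∃ S k, ed f = S + replicate k (X ^ 2 - C z) ∧
      S.map natDegree = replicate S.card 1 := by
    refine ⟨(ed f).filter (X ^ 2 - C z ≠ ·), _, by
      rw [← filter_eq, add_comm, filter_add_not], ?_⟩
    rw [eq_replicate]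
    refine ⟨card_map _ _, fun d hd => ?_⟩
    obtain ⟨π, hπ, rfl⟩ := Multiset.mem_map.1 hd
    rw [mem_filter] at hπ
    have h4 := (aeval_eq_zero_iff_ed f (X ^ 2 - C z)).1 (by simp [hz]) π hπ.1
    have h5 := natDegree_le_of_dvd h4 (X_pow_sub_C_ne_zero two_pos z)
    have h6 := (ed_isPP f π hπ.1).natDegree_pos
    have h7 := mt (eq_of_monic_of_dvd_of_natDegree_le (h1 π hπ.1).1
      (monic_X_pow_sub_C z two_ne_zero) h4) hπ.2
    rw [natDegree_X_pow_sub_C] at h5 h7
    omega
  have h4 := finrank_eq_ed f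
  simp only [h2, h3, Multiset.map_add, map_replicate, natDegree_X_pow_sub_C, Multiset.sum_add,
    sum_replicate,
    smul_eq_mul, mul_one, Module.finrank_fin_fun, hat] at h4
  have h5 : ∀ j l, j * a + l = k → l ≤ (t - j * 2) * (a / 2) → j * 2 ≤ t → PS a t (ed f) := by
    rintro j l rfl h5 h6
    rw [h2] at h1
    rw [h2, replicate_add, add_left_comm, ← Nat.add_sub_cancel' h6]
    refine (ps_cyc (hf.ne_zero hz) a two_pos j).add (ps_of_deg (c := 2) _ (fun π hπ => h1 π ?_)
      (by rw [Multiset.map_add, h3, map_replicate, natDegree_X_pow_sub_C]) ?_ h5)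
    · rw [replicate_add, add_left_comm]; exact mem_add.2 (.inr hπ)
    · zify [h6] at h4 ⊢; linarith
  obtain ⟨b, rfl | rfl⟩ := a.even_or_odd'
  · exact h5 0 k (by simp) (by simp; nlinarith) (by simp)
  rcases le_total t S.card with h6 | h6
  · exact h5 0 k (by simp) (by rw [show (2 * b + 1) / 2 = b by omega]; simp; nlinarith) (by simp)
  obtain ⟨u, rfl⟩ := Nat.exists_eq_add_of_le h6
  obtain ⟨j, rfl⟩ : ∃ j, u = j * 2 := ⟨k - b * (S.card + u), by
    rw [add_mul, one_mul, mul_assoc] at h4; omega⟩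
  exact h5 j (S.card * b) (by nlinarith) (by rw [show (2 * b + 1) / 2 = b by omega]; simp) (by simp)

end Cfsg.Agent.S5957
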