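import Cfsg.Statements.S5958
import Cfsg.Agent.Classical.EluD

set_option autoImplicit false
open scoped MatrixGroups
open Cfsg

namespace Cfsg.Agent.S5958

section
open CF.Classical CF.Cls Multiset Polynomial Module

theorem ms_aux {T : Multiset (Multiset ℕ)} {a c e s : ℕ} (hc : c ≠ 1) (hT : ∀ ν ∈ T, ν.sum = a)
    (h : T.sum = replicate e 1 + replicate s c) :
    (s ≠ 0 → c ≤ a) ∧ (e < c → e = T.card * (a % c)) := by
  refine ⟨fun hs => ?_, fun he => ?_⟩
  · obtain ⟨ν, h1, h2⟩ := mem_join.1 (show c ∈ T.sum by simp [h, hs, mem_replicate])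
    exact hT ν h1 ▸ single_le_sum (by simp) c h2
  induction T using Multiset.induction_on generalizing e s with
  | empty => simpa [count_replicate, hc] using congrArg (count 1) h.symm
  | cons ν T ih =>
    rw [sum_cons] at h
    obtain ⟨e', h1, s', h2, rfl⟩ := le_replicate_add.1 (h ▸ le_add_right ν T.sum)
    obtain ⟨e, rfl⟩ := Nat.exists_eq_add_of_le h1
    obtain ⟨s, rfl⟩ := Nat.exists_eq_add_of_le h2
    have h3 := ih (e := e) (s := s) (fun ν hν => hT ν (mem_cons_of_mem hν))
      (add_left_cancel (h.trans (by simp only [replicate_add]; abel))) (by omega)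
    have h4 := mod_eq_of_add_mul (e := e') (s := s') (i := c)
      (by simpa using hT _ (mem_cons_self _ _))
    rw [Nat.mod_eq_of_lt (by omega : e' < c)] at h4
    rw [card_cons, h3, h4]; ring

theorem hasED_cyc_one {F : Type*} [Field F] (p : ℕ) [hp : Fact p.Prime] [CharP F p] {r : ℕ}
    [hr : Fact r.Prime] (hrp : r ≠ p) :
    HasED (cyc (X ^ r - C 1 : F[X])) ((X - 1) ::ₘ (facs F r).val) := by
  have h1 := squarefree_X_pow_sub_one (natCast_ne_zero_of_coprime (F := F) p
    ((Nat.coprime_primes hr.out hp.out).2 hrp))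
  have h2 : ((X - 1) ::ₘ (facs F r).val).prod = X ^ r - C 1 := by
    classical
    rw [← cyclotomic_prime_mul_X_sub_one F r] at h1
    have h2 := (UniqueFactorizationMonoid.squarefree_iff_nodup_normalizedFactors
      (cyclotomic_ne_zero r F)).1 h1.of_mul_left
    rw [C_1, ← cyclotomic_prime_mul_X_sub_one F r, prod_cons, mul_comm,
      ← (cyclotomic.monic r F).normalize_eq_self,
      ← UniqueFactorizationMonoid.prod_normalizedFactors_eq (cyclotomic_ne_zero r F)]
    congr 2
    exact ((facs F r).nodup.ext h2).2 fun π => by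
      rw [Finset.mem_val, mem_facs, Polynomial.mem_normalizedFactors_iff (cyclotomic_ne_zero r F)]
      tauto
  exact h2 ▸ hasED_cyc_prod (fun π hπ => (mem_cons.1 hπ).elim
    (fun h => h ▸ ⟨monic_X_sub_one, irreducible_X_sub_one⟩)
    fun h => ⟨(mem_facs.1 h).1, (mem_facs.1 h).2.1⟩) (by rwa [h2, C_1])

theorem hasED_add_iff {F V : Type*} [Field F] [AddCommGroup V] [Module F V] {f : End F V}
    {P : F[X]} {L s : Multiset F[X]} (h : HasED (cyc P) L) (m : ℕ) :
    HasED f (s + replicate m P) ↔ HasED f (s + m • L) := by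
  obtain ⟨n, b, rfl⟩ := exists_fin_map_eq s
  have h1 : HasED (blk fun _ : Fin m => P) (replicate m P) := by
    simpa using hasED_blk fun _ : Fin m => P
  have h2 : HasED (blk fun _ : Fin m => P) (m • L) := by
    simpa [Multiset.bind, join, nsmul_singleton] using CF.Classical.HasED.bind h1
      (u := fun _ => L) fun a ha => eq_of_mem_replicate ha ▸ h
  exact ⟨fun h => ((hasED_blk b).prodMap h2).of_sim (h.sim ((hasED_blk b).prodMap h1)),
    fun h => ((hasED_blk b).prodMap h1).of_sim (h.sim ((hasED_blk b).prodMap h2))⟩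

theorem factorial_dvd {F : Type*} [Field F] {n a t : ℕ} : t.factorial ∣
    Nat.card {D : Fin t → Submodule F (Fin n → F) // Cfsg.Geo.IsMDecomposition a D} := by
  let _ : MulAction (Equiv.Perm (Fin t))
      {D : Fin t → Submodule F (Fin n → F) // Cfsg.Geo.IsMDecomposition a D} :=
    { smul := fun σ D => ⟨D.1 ∘ σ.symm, D.2.1, D.2.2, fun _ => D.2.3 _,
        D.2.4.comp σ.symm.injective, (σ.symm.iSup_comp).trans D.2.5⟩
      one_smul := fun _ => rfl
      mul_smul := fun _ _ _ => rfl }
  rw [Nat.card_congr (MulAction.selfEquivOrbitsQuotientProd (G := Equiv.Perm (Fin t)) fun D =>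
    (Subgroup.eq_bot_iff_forall _).2 fun σ hσ => ?_), Nat.card_prod, Nat.card_perm, Nat.card_fin]
  · exact dvd_mul_left _ _
  refine inv_eq_one.1 (Equiv.ext fun i => D.2.4.injective (fun i h => ?_)
    (congrFun (congrArg Subtype.val hσ) i))
  have := D.2.3 i
  rw [h, finrank_bot] at this
  exact D.2.2.ne this

variable {F V : Type*} [Field F] [Fintype F] [AddCommGroup V] [Module F V] [FiniteDimensional F V]
  (p : ℕ) [hp : Fact p.Prime] [CharP F p] {r : ℕ} [hr : Fact r.Prime] {a t : ℕ}
include p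

theorem key (hrp : r ≠ p) {c : ℕ} (hc : orderOf (Fintype.card F : ZMod r) = c) (h1 : c ≠ 1)
    (ha : 0 < a) (hd : t * a = finrank F V) (h : ∀ f : End F V, OrdP r f → Stab a (Fin t) f)
    {e s : ℕ} (hs : s ≠ 0) (he : e + s * c = finrank F V) :
    (c ≤ a ∧ (e < c → e = t * (a % c))) ∨
      ∃ k, k ≠ 0 ∧ c = r - 1 ∧ k * a ≤ e ∧ k * a ≤ s ∧ (a < c → s = k * a) := by
  classical
  subst hc
  obtain ⟨π, hπ⟩ := facs_nonempty (F := F) p hrp
  obtain ⟨f, h2, h3, h4, h5⟩ := exists_ordP_facs (V := V) p hrp h1 (S := replicate s π)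
    (by simpa [← card_eq_zero]) (fun _ h => eq_of_mem_replicate h ▸ hπ) (by simpa using he)
  obtain ⟨k, S, h6, h7, h8⟩ := exists_hasED_of_stab hr.out one_ne_zero
    (h3.trans (map_one _).symm) ha (by simpa) (h f h2)
  have h9 : ∀ π ∈ S.sum, IsPP π := fun π hπ => by
    obtain ⟨s, hs, h⟩ := mem_join.1 hπ; exact (h6 s hs).1 π h
  have h10 : ed f = S.sum + (k * a) • ((X - 1) ::ₘ (facs F r).val) :=
    ((hasED_add_iff (hasED_cyc_one p hrp) _).1 h8).ed_eq fun ρ hρ => (mem_add.1 hρ).elim (h9 ρ)
      fun h => (mem_cons.1 (mem_of_mem_nsmul h)).elim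
        (fun h => h ▸ isPP_of_irreducible monic_X_sub_one irreducible_X_sub_one)
        fun h => isPP_of_irreducible (mem_facs.1 h).1 (mem_facs.1 h).2.1
  have h11 : ∀ ν ∈ S.map (·.map natDegree), ν.sum = a := fun ν hν => by
    obtain ⟨s, hs, rfl⟩ := Multiset.mem_map.1 hν; exact (h6 s hs).2
  have h12 : (S.map (·.map natDegree)).sum = S.sum.map natDegree :=
    (map_multiset_sum (mapAddMonoidHom natDegree) S).symm
  rw [jt, h10, card_replicate, Multiset.map_add, ← h12] at h5
  rcases eq_or_ne k 0 with rfl | hk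
  · have := ms_aux h1 h11 (by simpa using h5)
    exact .inl ⟨this.1 hs, by simpa [← (by simpa using h7 : S.card = t)] using this.2⟩
  have h13 : (facs F r).val = {π} := by
    refine congrArg Finset.val (Finset.eq_singleton_iff_unique_mem.2 ⟨hπ, fun ρ hρ => ?_⟩)
    have : ρ ∈ ed f := by simp [h10, hk, ha.ne', hρ]
    rw [h4, mem_add] at this
    exact eq_of_mem_replicate (this.resolve_left fun h =>
      X_sub_one_notMem_facs p hr.out hrp (eq_of_mem_replicate h ▸ hρ))
  have h14 := facs_spec (F := F) p hr.out hrp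
  rw [h13, map_nsmul, map_cons, map_singleton, natDegree_X_sub_one, h14.1 π hπ, ← singleton_add,
    smul_add, nsmul_singleton, nsmul_singleton] at h5
  have h15 : k * a ≤ e := by
    simpa [count_replicate, h1] using count_le_of_le 1 ((le_add_left _ _).trans h5.le)
  have h16 : k * a ≤ s := by
    simpa [count_replicate, h1.symm] using
      count_le_of_le (orderOf (Fintype.card F : ZMod r)) ((le_add_left _ _).trans h5.le)
  refine .inr ⟨k, hk, by simpa [Finset.card, h13] using h14.2, h15, h16, fun h => ?_⟩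
  obtain ⟨e, rfl⟩ := Nat.exists_eq_add_of_le h15
  obtain ⟨s, rfl⟩ := Nat.exists_eq_add_of_le h16
  have := (ms_aux h1 h11 (e := e) (s := s)
    (add_right_cancel (h5.trans (by simp only [replicate_add]; abel)))).1
  omega

end


/-- Elements of odd prime order of PSL_n(q) and imprimitive subgroups. Here `T = PSL_n(F)` for a field `F` with `q = p^f` elements (`n ≥ 2`, `(n, q) ≠ (2, 2), (2, 3)`), `n = a·t` with `t ≥ 2`, and Ω is the set of direct-sum decompositions of `F^n` into `t` subspaces of dimension `a` (unordered; their number is the number of ordered ones divided by `t!`), whose stabilizers are the imprimitive subgroups of type GL_a(q) ≀ S_t (maximal except in some small cases; maximality is not assumed); an element of `T` of prime order `r` (a matrix `x` of determinant 1 with `x^r` scalar, `x` not scalar) fixes a point of Ω when it permutes the summands of some such decomposition. Let `r ≠ p` be an odd prime dividing the number of such decompositions, let `c` be the multiplicative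 order of `q` modulo `r`, and write `k = n mod c`, `ℓ = a mod c`. Then every element of `T` of order `r` stabilizes such a decomposition if and only if either `a = 1`, `c = r − 1 > 1` and `n ≤ k·r`, or `c ≤ a` and `k = t·ℓ`. -/
theorem result {F : Type*} [Field F] [Fintype F] {p : ℕ} [Fact p.Prime] [CharP F p] {q : ℕ} (hq : Fintype.card F = q)
    (n a t : ℕ) (hn : 2 ≤ n) (hT : (n, q) ≠ (2, 2) ∧ (n, q) ≠ (2, 3)) (hat : n = a * t) (ha : 1 ≤ a) (ht : 2 ≤ t)
    (r : ℕ) [Fact r.Prime] (hr2 : r ≠ 2) (hrp : r ≠ p) (hΩ : r ∣ Nat.card {D : Fin t → Submodule F (Fin n → F) // Cfsg.Geo.IsMDecomposition a D} / Nat.factorial t)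
    (c : ℕ) (hc : c = orderOf (q : ZMod r)) :
    (∀ x : Matrix.SpecialLinearGroup (Fin n) F,
      (∃ z : F, ((x ^ r : Matrix.SpecialLinearGroup (Fin n) F) : Matrix (Fin n) (Fin n) F) = z • (1 : Matrix (Fin n) (Fin n) F)) →
      (∀ z : F, (x : Matrix (Fin n) (Fin n) F) ≠ z • (1 : Matrix (Fin n) (Fin n) F)) →
      ∃ D : Fin t → Submodule F (Fin n → F), Cfsg.Geo.IsMDecomposition a D ∧
        ∃ σ : Equiv.Perm (Fin t), ∀ j, (D j).map (Matrix.toLin' (x : Matrix (Fin n) (Fin n) F)) = D (σ j)) ↔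
    ((a = 1 ∧ 1 < c ∧ c = r - 1 ∧ n ≤ (n % c) * r) ∨ (c ≤ a ∧ n % c = t * (a % c))) := by
  open CF.Classical CF.Cls Multiset Polynomial Module in
  classical
  subst hq
  have hn' : t * a = finrank F (Fin n → F) := by simp [hat, mul_comm]
  have h0 : ∀ D : Fin t → Submodule F (Fin n → F), Cfsg.Geo.IsMDecomposition a D ↔
      (∀ i, finrank F (D i) = a) ∧ iSup D = ⊤ := fun D => ⟨fun h => ⟨h.3, h.5⟩, fun h =>
    ⟨ht, ha, h.1, (isInternal_of_finrank h.2 (by simp [h.1, hn'])).submodule_iSupIndep, h.2⟩⟩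
  have hr : r.Prime := Fact.out
  have h1 : c ≤ n := by
    have h1 := (hΩ.trans (Nat.div_dvd_of_dvd factorial_dvd))
    simp only [h0] at h1
    obtain ⟨⟨i, hi⟩, -, h2⟩ := (hr.prime.dvd_finsetProd_iff _).1
      (h1.trans (card_decomp_dvd (by simpa using hn')))
    obtain ⟨k, hk⟩ := Nat.exists_eq_add_of_lt hi
    simp only at h2
    rw [hk, add_assoc, pow_add, ← Nat.mul_sub_one, hr.dvd_mul,
      CF.Fgs2.prime_dvd_pow_sub_one_iff _ _ Fintype.card_pos, ← hc] at h2
    refine (Nat.le_of_dvd k.succ_pos (h2.resolve_left fun h => hrp ?_)).trans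
      (by simp only [finrank_fin_fun] at hk; omega)
    obtain ⟨m, -, hm⟩ := FiniteField.card F p
    rw [hm, ← pow_mul] at h
    exact (Nat.prime_dvd_prime_iff_eq hr Fact.out).1 (hr.dvd_of_dvd_pow h)
  simp only [h0, and_assoc]
  refine (forall_SL_iff r fun f : End F (Fin n → F) => Stab a (Fin t) f).trans
     ⟨fun h => ?_, fun h f hf => ?_⟩
  · rcases eq_or_ne c 1 with rfl | h2
    · exact .inr ⟨ha, by simp [Nat.mod_one]⟩
    have h3 := hc ▸ orderOf_card_pos (F := F) p hr hrp
    have h4 := Nat.mod_lt n h3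
    rcases key p hrp hc.symm h2 ha hn' h (Nat.div_pos h1 h3).ne' ((Nat.mod_add_div' n c).trans
      (by simp)) with h5 | ⟨k, h5, h6, h7, -, h8⟩
    · exact .inr ⟨h5.1, h5.2 h4⟩
    have h9 := Nat.le_mul_of_pos_left a (Nat.pos_of_ne_zero h5)
    refine .inl ⟨?_, by omega, h6, ?_⟩
    · rcases key p hrp hc.symm h2 ha hn' h (e := n - c) one_ne_zero (by simp; omega) with
        h5 | ⟨k, h5, -, -, h7, -⟩
      · omega
      · have := Nat.le_mul_of_pos_left a (Nat.pos_of_ne_zero h5); omega
    · have := Nat.mod_add_div' n c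
      obtain rfl : r = c + 1 := by omega
      rw [h8 (by omega)] at this
      nlinarith
  rcases hf.cases with ⟨d, hd, h2⟩ | ⟨z, k, h2, -, -, h3, -, h4, h5⟩
  · suffices h : Stab a (Fin t) (d • f) by
      simpa [smul_smul, hd] using h.smul (inv_ne_zero hd)
    obtain ⟨e, S, h3, h4, h5, h6⟩ := ed_of_pow_eq_one p hrp h2
    have h7 : ∀ π ∈ replicate e (X - 1 : F[X]) + S, π.Monic ∧ ¬ X ∣ π := fun π hπ =>
      ⟨(ed_isPP _ π (h5 ▸ hπ)).monic, (isUnit_iff_ed _).1 (IsUnit.of_pow_eq_one h2 hr.ne_zero)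
        π (h5 ▸ hπ)⟩
    rw [← hc] at h4 h6
    rcases h with ⟨rfl, h8, h9, h10⟩ | ⟨h8, h9⟩
    · obtain ⟨π, hπ⟩ := Finset.card_eq_one.1 (Nat.eq_of_mul_eq_mul_right (by omega : 0 < c)
        (by rw [hc, (facs_spec (F := F) p hr hrp).2, ← h9, ← hc, one_mul]) : (facs F r).card = 1)
      rw [finrank_fin_fun] at h4
      have h11 := (mod_eq_of_add_mul h4).trans_le (Nat.mod_le _ _)
      obtain rfl : r = c + 1 := by omega
      obtain ⟨e, rfl⟩ := Nat.exists_eq_add_of_le' (show S.card ≤ e from
        Nat.le_of_mul_le_mul_right (by nlinarith) (by omega : 0 < c))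
      have h12 : HasED (d • f) (replicate e (X - 1) + replicate S.card (X ^ (c + 1) - C 1)) := by
        rw [hasED_add_iff (hasED_cyc_one p hrp), hπ, Finset.singleton_val, ← singleton_add,
          smul_add, nsmul_singleton, nsmul_singleton, ← add_assoc, ← replicate_add,
          ← eq_replicate_card.2 fun ρ hρ => by simpa [hπ] using h3 ρ hρ, ← h5]
        exact hasED_ed _
      have h13 := (ps_of_deg (a := 1) (c := 1) (e := e) (k := 0) e (s := replicate e (X - 1 : F[X]))
        (fun ρ hρ => h7 ρ (mem_add.2 (.inl (by rw [replicate_add]; exact mem_add.2 (.inl hρ)))))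
        (by simp [natDegree_X_sub_one]) (by simp) (by simp)).add
          (ps_cyc one_ne_zero 1 c.succ_pos S.card)
      rw [mul_one, show e + S.card * c.succ = t by rw [Nat.mul_succ]; omega] at h13
      exact h13.stab h12
    · refine (ps_of_deg t h7 (h5 ▸ h6) (h4.trans hn'.symm) ?_).stab (h5 ▸ hasED_ed _)
      have h10 := Nat.div_add_mod' a c
      have h11 := Nat.div_add_mod' n c
      have h12 := (mod_eq_of_add_mul h4).trans_le (Nat.mod_le _ _)
      have h13 := hc ▸ orderOf_card_pos (F := F) p hr hrp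
      rw [finrank_fin_fun] at h4 h12
      exact Nat.le_of_mul_le_mul_right (by nlinarith) h13
  · rcases hr.dvd_mul.1 (Dvd.intro_left _ (h4.trans hn'.symm)) with ⟨j, rfl⟩ | ⟨j, rfl⟩
    · obtain rfl : k = j * a := Nat.eq_of_mul_eq_mul_right hr.pos (by rw [h4, ← hn']; ring)
      exact mul_comm j r ▸ (ps_cyc h2 a hr.pos j).stab (h5 ▸ hasED_ed f)
    · refine (ps_of_deg (c := r) (e := 0) (k := k) t (fun π hπ => ⟨(ed_isPP f π hπ).monic,
        (isUnit_iff_ed _).1 hf.isUnit π hπ⟩) (by simp [h5]) (by omega) ?_).stab (hasED_ed f)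
      rw [Nat.mul_div_cancel_left _ hr.pos]
      exact Nat.le_of_mul_le_mul_right (by rw [h4, ← hn']; exact le_of_eq (by ring)) hr.pos

end Cfsg.Agent.S5958
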