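import Cfsg.Statements.S5959
import Cfsg.Agent.Classical.EluD

set_option autoImplicit false
open scoped MatrixGroups
open Cfsg

namespace Cfsg.Agent.S5959

/-- Elements of order `p` of PSL_n(q) and imprimitive subgroups: a necessary condition. Here `T = PSL_n(F)` for a field `F` with `q = p^f` elements (`n ≥ 2`, `(n, q) ≠ (2, 2), (2, 3)`), `n = a·t` with `t ≥ 2`, and Ω is the set of direct-sum decompositions of `F^n` into `t` subspaces of dimension `a` (unordered; their number is the number of ordered ones divided by `t!`), whose stabilizers are the imprimitive subgroups of type GL_a(q) ≀ S_t (maximal except in some small cases; maximality is not assumed); an element of `T` of prime order `r` (a matrix `x` of determinant 1 with `x^r` scalar, `x` not scalar) fixes a point of Ω when it permutes the summands of some such decomposition. Suppose `p > 2` divides the number of such decompositions. If every element of `T` of order `p` stabilizes such a decomposition, then every partition of `n` into parts of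 size at most `p` in which the part `p` occurs fewer than `a` times contains (as a sub-multiset) a partition of `a`. -/
theorem result {F : Type*} [Field F] [Fintype F] {p : ℕ} [Fact p.Prime] [CharP F p] {q : ℕ} (hq : Fintype.card F = q)
    (n a t : ℕ) (hn : 2 ≤ n) (hT : (n, q) ≠ (2, 2) ∧ (n, q) ≠ (2, 3)) (hat : n = a * t) (ha : 1 ≤ a) (ht : 2 ≤ t)
    (hp : 2 < p) (hΩ : p ∣ Nat.card {D : Fin t → Submodule F (Fin n → F) // Cfsg.Geo.IsMDecomposition a D} / Nat.factorial t)
    (h : ∀ x : Matrix.SpecialLinearGroup (Fin n) F,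
      (∃ z : F, ((x ^ p : Matrix.SpecialLinearGroup (Fin n) F) : Matrix (Fin n) (Fin n) F) = z • (1 : Matrix (Fin n) (Fin n) F)) →
      (∀ z : F, (x : Matrix (Fin n) (Fin n) F) ≠ z • (1 : Matrix (Fin n) (Fin n) F)) →
      ∃ D : Fin t → Submodule F (Fin n → F), Cfsg.Geo.IsMDecomposition a D ∧
        ∃ σ : Equiv.Perm (Fin t), ∀ j, (D j).map (Matrix.toLin' (x : Matrix (Fin n) (Fin n) F)) = D (σ j)) :
    (∀ μ : Multiset ℕ, (∀ b ∈ μ, 0 < b ∧ b ≤ p) → μ.sum = n → μ.count p < a → ∃ ν : Multiset ℕ, ν ≤ μ ∧ ν.sum = a) := by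
  open CF.Classical CF.Cls Multiset Polynomial in
  intro μ h1 h2 h3
  by_cases h4 : ∃ b ∈ μ, b ≠ 1
  swap
  · rw [eq_replicate_card.2 (by simpa using h4 : ∀ a ∈ μ, a = 1)] at h2 ⊢
    exact ⟨replicate a 1, (replicate_le_replicate _).2 (by simp at h2; nlinarith), by simp⟩
  obtain ⟨f, h5, h6, h7, rfl⟩ := exists_ordP_unip (F := F) (V := Fin n → F) p h1 h4 (by simpa)
  obtain ⟨D, hD, σ, hσ⟩ := (forall_SL_iff p fun f => ∃ D : Fin t → Submodule F (Fin n → F),
    Cfsg.Geo.IsMDecomposition a D ∧ ∃ σ : Equiv.Perm (Fin t), ∀ j, (D j).map f = D (σ j)).1 h f h5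
  obtain ⟨k, S, h8, h9, h10⟩ := exists_hasED_of_stab (Fact.out : p.Prime) one_ne_zero
    (h6.trans (map_one _).symm) ha (by simp [hat, mul_comm]) ⟨D, hD.3, hD.5, σ, hσ⟩
  have h11 : (X ^ p - C 1 : F[X]) = (X - 1) ^ p := by rw [sub_pow_char, one_pow, C_1]
  have h12 := congrArg (Multiset.map natDegree) (h10.ed_eq fun π hπ => (mem_add.1 hπ).elim
    (fun hπ => by obtain ⟨s, hs, h⟩ := mem_join.1 hπ; exact (h8 s hs).1 π h)
    fun hπ => eq_of_mem_replicate hπ ▸ h11 ▸ isPP_X_sub_one_pow (by omega))
  rw [← jt, Multiset.map_add, map_replicate, h11, natDegree_X_sub_one_pow] at h12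
  rw [h12, count_add, count_replicate_self] at h3
  obtain rfl : k = 0 := by_contra fun h => by have := Nat.le_mul_of_pos_left a (Nat.pos_of_ne_zero h); omega
  obtain ⟨s, hs⟩ := card_pos_iff_exists_mem.1 (by simp at h9; omega : 0 < card S)
  exact ⟨_, h12 ▸ (map_le_map (single_le_sum (by simp) s hs)).trans (le_add_right _ _), (h8 s hs).2⟩

end Cfsg.Agent.S5959
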