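import Cfsg.Statements.S5964
import Cfsg.Agent.Classical.EluG

set_option autoImplicit false
open scoped MatrixGroups
open Cfsg

namespace Cfsg.Agent.S5964

/-- Involutions of PSL_n(q) and subfield subgroups. Here `T = PSL_n(F)` for a field `F` with `q = p^f` elements (`n ≥ 2`, `(n, q) ≠ (2, 2), (2, 3)`), `F₀` is the subfield with `q₀` elements where `q = q₀^k` for a prime `k`, and `H` is the subgroup of matrices of determinant 1 lying in the subfield group of `F₀` (invertible matrices over `F₀` times scalars) — a maximal subgroup of type GL_n(q₀) (the case `n = 2`, `q₀ = 2` is excluded); Ω is the set of `T`-conjugates of `H` (cosets of `H`), so an element of `T` of prime order `r` (a matrix `x` of determinant 1 with `x^r` scalar, `x` not scalar) fixes a point of Ω when some conjugate of `x` by a matrix of determinant 1 lies in `H`. Suppose the index of `H` is even. Then every involution of `T` is conjugate in `T` into `H` if and only if either `q` is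 even, or `k = 2` and `(n)_2 ≤ (q − 1)_2`. (For `q` odd and `k` odd the index of `H` is odd, so that case does not arise.) -/
theorem result {F : Type*} [Field F] [Fintype F] {p : ℕ} [Fact p.Prime] [CharP F p] {q : ℕ} (hq : Fintype.card F = q)
    (n : ℕ) (hn : 2 ≤ n) (hT : (n, q) ≠ (2, 2) ∧ (n, q) ≠ (2, 3))
    (F₀ : Subfield F) (k q₀ : ℕ) (hk : k.Prime) (hF₀ : Nat.card ↥F₀ = q₀) (hqk : q = q₀ ^ k) (hC5 : ¬ (n = 2 ∧ q₀ = 2)) (hΩ : 2 ∣ ((Cfsg.Geo.subfieldSubgroup F₀ 1).comap (Matrix.SpecialLinearGroup.toGL : Matrix.SpecialLinearGroup (Fin n) F →* GL (Fin n) F)).index) :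
    (∀ x : Matrix.SpecialLinearGroup (Fin n) F,
      (∃ z : F, ((x ^ 2 : Matrix.SpecialLinearGroup (Fin n) F) : Matrix (Fin n) (Fin n) F) = z • (1 : Matrix (Fin n) (Fin n) F)) →
      (∀ z : F, (x : Matrix (Fin n) (Fin n) F) ≠ z • (1 : Matrix (Fin n) (Fin n) F)) →
      ∃ P : Matrix.SpecialLinearGroup (Fin n) F, P⁻¹ * x * P ∈ ((Cfsg.Geo.subfieldSubgroup F₀ 1).comap (Matrix.SpecialLinearGroup.toGL : Matrix.SpecialLinearGroup (Fin n) F →* GL (Fin n) F))) ↔
    (Odd q → (k = 2 ∧ padicValNat 2 n ≤ padicValNat 2 (q - 1))) := by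
  open CF.Classical CF.Cls in
  subst hq hF₀
  have hn' : Module.finrank F (Fin n → F) = n := by simp
  have h0 := Fintype.card_pos (α := F)
  have h1 : Odd (Fintype.card F) → 2 ≠ p ∧ Odd (Nat.card F₀) := fun h =>
    ⟨by rintro rfl; exact h.not_two_dvd_nat (char_dvd_card 2),
      ((Nat.odd_pow_iff hk.ne_zero).1 (hqk ▸ h))⟩
  rw [forall_conj_iff fun f hf => hf.detC_eq_top p (.inl rfl)]
  refine ⟨fun h hq => ?_, fun h f hf => ?_⟩
  · obtain ⟨j, -, -, -, h2⟩ := exists_dvd_of_dvd_index_sub p Nat.prime_two (h1 hq).1 (by omega) hqk hΩ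
    obtain rfl := (Nat.prime_dvd_prime_iff_eq Nat.prime_two hk).1
      (h2 (Nat.Odd.sub_odd (h1 hq).2.pow odd_one).two_dvd)
    refine ⟨rfl, by_contra fun h3 => ?_⟩
    have : Nontrivial (Fin n → F) := Module.finrank_pos_iff.1 (by omega : 0 < Module.finrank F _)
    obtain ⟨f, z, -, h4, h5, h6, -⟩ := exists_ordP_nonpow (V := Fin n → F) (r := 2)
      (Nat.Odd.sub_odd hq odd_one).two_dvd fun h => h3 (hn' ▸ h.1)
    obtain ⟨c, hc⟩ := (h f h4).sy_sub (K := AlgebraicClosure F) p h4.isUnit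
    have h7 := pow_eq_of_sy p h4 h6 hc
    rw [← zpow_natCast, ← zpow_mul, mul_comm _ ((2 : ℕ) : ℤ), zpow_mul, ← mul_zpow, zpow_sub_one,
      mul_inv_eq_one, zpow_natCast, zpow_natCast] at h7
    obtain ⟨b, hb⟩ := (isSquare_coe_iff (Ring.two_ne_zero (ringChar.eq F p ▸ (h1 hq).1.symm)) F₀
      (hqk.symm.trans Nat.card_eq_fintype_card.symm)
      ⟨_, (mem_subfield_iff_pow F₀).2 (congrArg Units.val h7)⟩).2 (.inl even_two)
    exact h5 (b / c) (by rw [div_pow, sq b, ← hb]; simp)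
  rcases eq_or_ne p 2 with rfl | h2
  · obtain ⟨d, hd, h2, -⟩ := hf.exists_unip 2
    exact (inC_sub_of_unip h2).of_smul scalars_le_subfieldSubgroup hd
  have h3 : Odd (Fintype.card F) := by
    obtain ⟨m, hp, hm⟩ := FiniteField.card F p
    exact hm ▸ (hp.odd_of_ne_two h2).pow
  rcases hf.cases with ⟨d, hd, h4⟩ | ⟨z, -, -, -, -, -, h4, -⟩
  · refine (inC_sub_of_stable (K := AlgebraicClosure F) p (fun h => h2
      ((Nat.prime_dvd_prime_iff_eq Fact.out Nat.prime_two).1 h)) h4 ((Multiset.map_congr rfl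
        fun x hx => ?_).trans (Multiset.map_id _))).of_smul scalars_le_subfieldSubgroup hd
    obtain ⟨m, hm⟩ := (h1 h3).2
    have h5 : x ^ 2 = 1 := Units.ext (by
      simpa using pow_of_mem_eig p (IsUnit.of_pow_eq_one h4 two_ne_zero) (c := 1)
        (h4.trans (map_one _).symm) hx)
    rw [hm, zpow_natCast, pow_succ, pow_mul, h5, one_pow, one_mul, id]
  · obtain ⟨rfl, h5⟩ := h h3
    obtain ⟨m, hm⟩ := (h1 h3).2
    exact (h4 ⟨hn'.symm ▸ h5, fun _ _ => by rw [hqk, hm]; ring_nf; omega⟩).elim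

end Cfsg.Agent.S5964
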