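import Cfsg.Statements.S5965
import Cfsg.Agent.Classical.EluG

set_option autoImplicit false
open scoped MatrixGroups
open Cfsg

namespace Cfsg.Agent.S5965

/-- Elements of odd prime order r ≠ p of PSL_n(q) and subfield subgroups. Here `T = PSL_n(F)` for a field `F` with `q = p^f` elements (`n ≥ 2`, `(n, q) ≠ (2, 2), (2, 3)`), `F₀` is the subfield with `q₀` elements where `q = q₀^k` for a prime `k`, and `H` is the subgroup of matrices of determinant 1 lying in the subfield group of `F₀` (invertible matrices over `F₀` times scalars) — a maximal subgroup of type GL_n(q₀) (the case `n = 2`, `q₀ = 2` is excluded); Ω is the set of `T`-conjugates of `H` (cosets of `H`), so an element of `T` of prime order `r` (a matrix `x` of determinant 1 with `x^r` scalar, `x` not scalar) fixes a point of Ω when some conjugate of `x` by a matrix of determinant 1 lies in `H`. Let `r ≠ p` be an odd prime dividing the index of `H`, with `(n, r) ≠ (6, 3)` and, when `r = k` divides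 `q₀ − 1`, with `(n)_r ≤ (q − 1)_r`. Then every element of `T` of order `r` is conjugate in `T` into `H` if and only if `r = k`, or `k = 2`, `r = n ∈ {3, 5}` and `(q₀ + 1)_r = r`. The two excluded cases, `(n, r) = (6, 3)` and `r = k ∣ q₀ − 1` with `(n)_r > (q − 1)_r`, are ones where this criterion can fail, so they are left out. -/
theorem result {F : Type*} [Field F] [Fintype F] {p : ℕ} [Fact p.Prime] [CharP F p] {q : ℕ} (hq : Fintype.card F = q)
    (n : ℕ) (hn : 2 ≤ n) (hT : (n, q) ≠ (2, 2) ∧ (n, q) ≠ (2, 3))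
    (F₀ : Subfield F) (k q₀ : ℕ) (hk : k.Prime) (hF₀ : Nat.card ↥F₀ = q₀) (hqk : q = q₀ ^ k) (hC5 : ¬ (n = 2 ∧ q₀ = 2)) (r : ℕ) [Fact r.Prime] (hr2 : r ≠ 2) (hrp : r ≠ p) (hgap : ¬ (n = 6 ∧ r = 3)) (hgapk : r = k → r ∣ q₀ - 1 → padicValNat r n ≤ padicValNat r (q - 1)) (hΩ : r ∣ ((Cfsg.Geo.subfieldSubgroup F₀ 1).comap (Matrix.SpecialLinearGroup.toGL : Matrix.SpecialLinearGroup (Fin n) F →* GL (Fin n) F)).index) :
    (∀ x : Matrix.SpecialLinearGroup (Fin n) F,
      (∃ z : F, ((x ^ r : Matrix.SpecialLinearGroup (Fin n) F) : Matrix (Fin n) (Fin n) F) = z • (1 : Matrix (Fin n) (Fin n) F)) →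
      (∀ z : F, (x : Matrix (Fin n) (Fin n) F) ≠ z • (1 : Matrix (Fin n) (Fin n) F)) →
      ∃ P : Matrix.SpecialLinearGroup (Fin n) F, P⁻¹ * x * P ∈ ((Cfsg.Geo.subfieldSubgroup F₀ 1).comap (Matrix.SpecialLinearGroup.toGL : Matrix.SpecialLinearGroup (Fin n) F →* GL (Fin n) F))) ↔
    (r = k ∨ (k = 2 ∧ r = n ∧ (n = 3 ∨ n = 5) ∧ padicValNat r (q₀ + 1) = 1)) := by
  open CF.Classical CF.Cls in
  subst hq hF₀
  have hn' : Module.finrank F (Fin n → F) = n := by simp
  have hr : r.Prime := Fact.out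
  have h0 : 2 ≤ Nat.card F₀ := Finite.one_lt_card
  have h1 : ∀ {b : ℕ}, 1 ≤ b → (r ∣ b - 1 ↔ (b : ZMod r) = 1) := fun h => by
    rw [← ZMod.natCast_eq_zero_iff, Nat.cast_sub h, sub_eq_zero, Nat.cast_one]
  have h2 : (Fintype.card F : ZMod r) = (Nat.card F₀ : ZMod r) ^ k := by rw [hqk, Nat.cast_pow]
  have h3 : k = 2 → padicValNat r (Fintype.card F - 1) =
      padicValNat r (Nat.card F₀ + 1) + padicValNat r (Nat.card F₀ - 1) := by
    rintro rfl
    rw [hqk, ← padicValNat.mul (by omega) (by omega), ← Nat.sq_sub_sq, one_pow]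
  have h4 : ¬ p ∣ r := fun h => hrp ((Nat.prime_dvd_prime_iff_eq Fact.out hr).1 h).symm
  have h5 : ∀ {f : Module.End F (Fin n → F)}, f ^ r = 1 → ∀ x ∈ eig (AlgebraicClosure F) f,
      ∀ a b : ℤ, (a : ZMod r) = b → x ^ a = x ^ b := fun h x hx a b hab =>
    zpow_eq_zpow_iff_modEq.2 (((ZMod.intCast_eq_intCast_iff _ _ _).1 hab).of_dvd
      (Int.natCast_dvd_natCast.2 (orderOf_dvd_of_pow_eq_one (Units.ext (by
        simpa using pow_of_mem_eig p (IsUnit.of_pow_eq_one h hr.ne_zero) (c := 1)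
          (h.trans (map_one _).symm) hx)))))
  rw [forall_conj_iff fun f hf => hf.detC_eq_top p (.inr hrp)]
  refine ⟨fun h => or_iff_not_imp_left.2 fun hrk => by_contra fun h6 => ?_, fun h f hf => ?_⟩
  · obtain ⟨j, h7, h8, h9, h10⟩ := exists_dvd_of_dvd_index_sub p hr hrp (by omega) hqk hΩ
    replace h10 := mt h10 (mt (Nat.prime_dvd_prime_iff_eq hr hk).1 hrk)
    rw [h1 (Nat.one_le_pow _ _ (by omega)), Nat.cast_pow] at h10
    rw [h1 (Nat.one_le_pow _ _ Fintype.card_pos), Nat.cast_pow] at h9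
    suffices ∃ f : Module.End F (Fin n → F), OrdP r f ∧ ∀ c : Fˣ,
        ¬ Sy (Nat.card F₀) (uK (AlgebraicClosure F) c) (eig (AlgebraicClosure F) f) by
      obtain ⟨f, h11, h12⟩ := this
      obtain ⟨c, hc⟩ := (h f h11).sy_sub (K := AlgebraicClosure F) p h11.isUnit
      exact h12 _ hc
    by_cases h11 : r ∣ Fintype.card F - 1
    · have h12 : (Nat.card F₀ : ZMod r) ≠ 1 := fun h => h10 (by rw [h, one_pow])
      refine exists_bad_one p hr2 h11 ?_ (by omega) (fun h13 => ?_) (hn'.symm ▸ hgap) ?_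
      · rw [← ZMod.intCast_zmod_eq_zero_iff_dvd]; simpa [sub_eq_zero] using h12
      · obtain rfl : j = 2 := by omega
        rw [← ZMod.intCast_zmod_eq_zero_iff_dvd]
        exact fun h => h10 (by
          rw [eq_neg_of_add_eq_zero_left (by simpa using h : (Nat.card F₀ : ZMod r) + 1 = 0)]; simp)
      rw [hn']
      rintro ⟨rfl, h13, h14⟩
      have h15 := (h1 Fintype.card_pos).1 h11
      have h16 : k ∣ r - 1 := orderOf_eq_prime (hp := ⟨hk⟩) (h2 ▸ h15) h12 ▸
        ZMod.orderOf_dvd_card_sub_one fun h => by simp [h2, h, hk.ne_zero] at h15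
      obtain rfl : k = 2 := (Nat.prime_dvd_prime_iff_eq hk Nat.prime_two).1
        (hk.dvd_of_dvd_pow (n := 2) (h16.trans (by rcases h13 with rfl | rfl <;> decide)))
      refine h6 ⟨rfl, rfl, h13, ?_⟩
      rwa [h3 rfl, padicValNat.eq_zero_of_not_dvd (mt (h1 (by omega)).1 h12)] at h14
    · refine exists_bad_two p hrp h11 ((Nat.le_of_dvd (by omega)
        (orderOf_dvd_of_pow_eq_one h9)).trans (hn'.symm ▸ h8)) ?_ fun l => ?_ <;>
        rw [← ZMod.intCast_zmod_eq_zero_iff_dvd]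
      · exact fun h => by
          simp [h2, (by simpa using h : (Nat.card F₀ : ZMod r) = 0), hk.ne_zero,
            show j ≠ 0 by omega] at h9
      · exact fun h => h10 (by
          rw [← (by simpa [sub_eq_zero] using h : (Fintype.card F : ZMod r) ^ l = Nat.card F₀),
            ← pow_mul, mul_comm, pow_mul, h9, one_pow])
  rcases h with rfl | ⟨rfl, rfl, h6, h7⟩
  · rw [ZMod.pow_card] at h2
    rcases hf.cases with ⟨d, hd, h6⟩ | ⟨z, -, -, -, -, h6, h7, -⟩
    · exact (inC_sub_of_stable (K := AlgebraicClosure F) p h4 h6 ((Multiset.map_congr rfl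
        fun x hx => h5 h6 x hx _ _ (by simp [h2])).trans (eig_stable p (IsUnit.of_pow_eq_one h6
          hr.ne_zero)))).of_smul scalars_le_subfieldSubgroup hd
    · exact (h7 ⟨hn'.symm ▸ hgapk rfl ((h1 (by omega)).2
        (h2 ▸ (h1 Fintype.card_pos).1 h6)), fun h => (hr2 h).elim⟩).elim
  have h8 : r ∣ Nat.card F₀ + 1 := dvd_of_one_le_padicValNat h7.ge
  obtain ⟨d, h9, h10⟩ := hf.exists_sym (K := AlgebraicClosure F) p h6 hn' (by
    rw [h3 rfl, h7, padicValNat.eq_zero_of_not_dvd fun h => by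
      rcases h6 with rfl | rfl <;> omega])
  refine (inC_sub_of_stable (K := AlgebraicClosure F) p h4 h9 ((Multiset.map_congr rfl
    fun x hx => (h5 h9 x hx _ (-1) ?_).trans (zpow_neg_one x)).trans h10)).of_smul
      scalars_le_subfieldSubgroup d.ne_zero
  simpa [eq_neg_iff_add_eq_zero] using (ZMod.natCast_eq_zero_iff _ _).2 h8

end Cfsg.Agent.S5965
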