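import Cfsg.Statements.S5966
import Cfsg.Agent.Classical.EluG

set_option autoImplicit false
open scoped MatrixGroups
open Cfsg

namespace Cfsg.Agent.S5966

/-- Elements of order 3 of PSL_n(q) in characteristic 3 and subfield subgroups. Here `T = PSL_n(F)` for a field `F` with `q` elements, `q` a power of 3 (`n ≥ 2`, `(n, q) ≠ (2, 2), (2, 3)`), `F₀` is the subfield with `q₀` elements where `q = q₀^k` for a prime `k`, and `H` is the subgroup of matrices of determinant 1 lying in the subfield group of `F₀` (invertible matrices over `F₀` times scalars) — a maximal subgroup of type GL_n(q₀) (the case `n = 2`, `q₀ = 2` is excluded); Ω is the set of `T`-conjugates of `H` (cosets of `H`), so an element of `T` of prime order `r` (a matrix `x` of determinant 1 with `x^r` scalar, `x` not scalar) fixes a point of Ω when some conjugate of `x` by a matrix of determinant 1 lies in `H`. Suppose 3 divides the index of `H`. Then every element of `T` of order 3 is conjugate in `T` into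 `H` if and only if `n` is odd, or `n` is even and `k > 2`. -/
theorem result {F : Type*} [Field F] [Fintype F] [CharP F 3] {q : ℕ} (hq : Fintype.card F = q)
    (n : ℕ) (hn : 2 ≤ n) (hT : (n, q) ≠ (2, 3))
    (F₀ : Subfield F) (k q₀ : ℕ) (hk : k.Prime) (hF₀ : Nat.card ↥F₀ = q₀) (hqk : q = q₀ ^ k) (hC5 : ¬ (n = 2 ∧ q₀ = 2)) (hΩ : 3 ∣ ((Cfsg.Geo.subfieldSubgroup F₀ 1).comap (Matrix.SpecialLinearGroup.toGL : Matrix.SpecialLinearGroup (Fin n) F →* GL (Fin n) F)).index) :
    (∀ x : Matrix.SpecialLinearGroup (Fin n) F,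
      (∃ z : F, ((x ^ 3 : Matrix.SpecialLinearGroup (Fin n) F) : Matrix (Fin n) (Fin n) F) = z • (1 : Matrix (Fin n) (Fin n) F)) →
      (∀ z : F, (x : Matrix (Fin n) (Fin n) F) ≠ z • (1 : Matrix (Fin n) (Fin n) F)) →
      ∃ P : Matrix.SpecialLinearGroup (Fin n) F, P⁻¹ * x * P ∈ ((Cfsg.Geo.subfieldSubgroup F₀ 1).comap (Matrix.SpecialLinearGroup.toGL : Matrix.SpecialLinearGroup (Fin n) F →* GL (Fin n) F))) ↔
    (Odd n ∨ (Even n ∧ 2 < k)) := by
  open CF.Classical CF.Cls Matrix in
  subst hq hF₀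
  have : Fact (Nat.Prime 3) := ⟨Nat.prime_three⟩
  have hn' : Module.finrank F (Fin n → F) = n := by simp
  have h2 : (2 : F) ≠ 0 := Ring.two_ne_zero (by rw [ringChar.eq F 3]; decide)
  have h0 := isSquare_coe_iff h2 F₀ (hqk.symm.trans Nat.card_eq_fintype_card.symm)
  have := Fintype.ofFinite F₀
  refine ⟨fun h => by_contra fun h1 => ?_, fun h x h3 h4 => ?_⟩
  · obtain ⟨⟨m, rfl⟩, rfl⟩ : Even n ∧ k = 2 := by
      have := hk.two_le
      rcases n.even_or_odd with h | h <;> simp_all; omega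
    obtain ⟨A, hA, h3⟩ := exists_GL_jtM (F := F₀) (ι := Fin (m + m)) (.replicate m 2)
      (fun _ h => by simp [Multiset.eq_of_mem_replicate h]) (by simp; omega)
    have h4 := (unip_map_iff F₀.subtype).2 hA
    have h5 := (jtM_map F₀.subtype hA).trans h3
    obtain ⟨t, ht⟩ := FiniteField.exists_nonsquare (F := F) (by rw [ringChar.eq F 3]; decide)
    have : Nonempty (Fin (m + m)) := ⟨⟨0, by omega⟩⟩
    obtain ⟨g, hg⟩ := GeneralLinearGroup.det_surjective (n := Fin (m + m))
      (Units.mk0 t (by rintro rfl; exact ht IsSquare.zero))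
    let u := GeneralLinearGroup.map F₀.subtype A
    have h6 : IsConj (A.1.map F₀.subtype) (g * u * g⁻¹).1 :=
      (isConj_units_iff u _).1 (isConj_iff.2 ⟨g, rfl⟩)
    have h7 : ∀ {B : Matrix _ _ F}, IsConj (A.1.map F₀.subtype) B → (B - 1) ^ 2 = 0 ∧
        B ^ 3 = 1 := fun hB => by
      have h7 := ((isConj_iff_sim _ _).1 hB).aeval_eq_zero_iff ((Polynomial.X - 1) ^ 2)
      simp only [aeval_X_sub_one_pow, toLin'_sub_one_pow, EmbeddingLike.map_eq_zero_iff] at h7
      have h8 := h7.1 ((unipM_pow_eq_zero_iff h4 2).2 fun d hd =>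
        (Multiset.eq_of_mem_replicate (h5 ▸ hd)).le)
      exact ⟨h8, by simpa using (pow_char_pow_eq_one_iff (F := F) 3 _ 1).2 (by
        rw [pow_one, pow_succ, h8, zero_mul])⟩
    obtain ⟨x, hx⟩ : ∃ x : Matrix.SpecialLinearGroup _ F,
        SpecialLinearGroup.toGL x = g * u * g⁻¹ :=
      ⟨⟨_, det_eq_one_of_unip ⟨2, (h7 h6).1⟩⟩, Units.ext rfl⟩
    have hx' : x.1 = (g * u * g⁻¹).1 := congrArg Units.val hx
    obtain ⟨P, hP⟩ := h x ⟨1, by rw [one_smul]; exact (hx' ▸ (h7 h6).2 : x.1 ^ 3 = 1)⟩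
      fun z hz => by
        have h8 := ((isConj_iff_sim _ _).1 (hx' ▸ h6)).jt_eq
        rw [jt_eq_replicate_one ((toLin'_eq_algebraMap _ z).2 hz), ← jtM, h5] at h8
        exact absurd (Multiset.eq_of_mem_replicate
          (h8 ▸ Multiset.mem_replicate.2 ⟨by omega, rfl⟩ : 2 ∈ _)) (by decide)
    obtain ⟨c, B, hB⟩ := mem_subfieldSubgroup_one.1 hP
    have h8 : IsConj (A.1.map F₀.subtype) (P⁻¹ * x * P).1 :=
      h6.trans (hx' ▸ isConj_matrix_of_SL (isConj_iff.2 ⟨P⁻¹, by group⟩))
    obtain ⟨b, hb⟩ : ∃ b : F₀, b = (c : F) := by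
      obtain ⟨i⟩ := this
      have h9 := congrArg (fun M => (M ^ 3) i i) hB
      simp only [SpecialLinearGroup.coe_GL_coe_matrix, smul_pow, (h7 h8).2,
        ← RingHom.mapMatrix_apply, ← map_pow] at h9
      obtain ⟨b, hb⟩ := (frobeniusEquiv F₀ 3).surjective ((B ^ 3) i i)
      exact ⟨b, frobenius_inj F 3 (by simpa [frobenius_def, ← hb] using h9.symm)⟩
    have h9 : (P⁻¹ * x * P).1 = (b⁻¹ • B).map F₀.subtype := by
      rw [← inv_smul_smul₀ c.ne_zero (P⁻¹ * x * P).1, show (c : F) • (P⁻¹ * x * P).1 = _ from hB,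
        ← hb]
      ext i j
      simp
    rw [h9] at h8
    have h10 := (unip_map_iff _).1 ⟨2, (h7 h8).1⟩
    obtain ⟨e, he⟩ := (isConj_iff_jtM hA h10).2 (by
      rw [← jtM_map F₀.subtype hA, ← jtM_map F₀.subtype h10]
      exact ((isConj_iff_sim _ _).1 h8).jt_eq)
    let w := (GeneralLinearGroup.map F₀.subtype e)⁻¹ * (SpecialLinearGroup.toGL P)⁻¹ * g
    have h11 : w * u = u * w := by
      have h11 : GeneralLinearGroup.map F₀.subtype e * u = SpecialLinearGroup.toGL (P⁻¹ * x * P) *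
          GeneralLinearGroup.map F₀.subtype e := Units.ext (by
        change _ * _ = (P⁻¹ * x * P).1 * _
        rw [h9]
        exact Matrix.map_mul.symm.trans ((congrArg (·.map F₀.subtype) he.eq).trans Matrix.map_mul))
      rw [map_mul, map_mul, map_inv, hx] at h11
      rw [show u * w = _ * (GeneralLinearGroup.map F₀.subtype e * u) * w by
        rw [inv_mul_cancel_left], h11]
      simp only [w]; group
    have h12 := isSquare_det_of_comm (N := toLin' (u.1 - 1)) (g := toLin' w.1)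
      (Submodule.eq_of_le_of_finrank_eq ?_ ?_).symm fun v => by
        simp only [toLin'_apply, mulVec_mulVec, mul_sub, sub_mul, ← Units.val_mul, h11, mul_one,
          one_mul]
    · obtain ⟨s, hs⟩ := (h0 e.1.det).2 (.inl even_two)
      have h13 : (e.1.det : F) * w.1.det = t := by
        have := congrArg Units.val hg
        simp only [w, Units.val_mul, det_mul, coe_units_inv, det_nonsing_inv, Ring.inverse_eq_inv']
        simp only [SpecialLinearGroup.coe_GL_coe_matrix, SpecialLinearGroup.det_coe]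
        rw [← (by simpa using this : g.1.det = t), show (GeneralLinearGroup.map F₀.subtype e).1.det =
          e.1.det from (F₀.subtype.map_det _).symm]
        have : (e.1.det : F) ≠ 0 := by simpa using (isUnits_det_units e).ne_zero
        field_simp
        rw [P.2, one_mul]
      rw [LinearMap.det_toLin'] at h12
      exact ht (h13 ▸ IsSquare.mul ⟨s, hs⟩ h12)
    · rw [LinearMap.range_le_ker_iff, ← toLin'_mul, ← sq]
      exact (congrArg _ (h7 (IsConj.refl _)).1).trans (map_zero _)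
    · have h13 := card_jtM h4
      have h14 := finrank_ker_add_rank (u.1 - 1)
      simp only [h5, Multiset.card_replicate, Fintype.card_fin] at h13 h14
      change (A.1.map F₀.subtype - 1).rank = _
      change _ + (A.1.map F₀.subtype - 1).rank = _ at h14
      omega
  have h5 := (ordP_toLin' 3 x).2 ⟨h3, h4⟩
  obtain ⟨d, hd, h6, h7⟩ := h5.exists_unip 3
  refine exists_conj_mem ((inC_sub_of_unip h6).of_smul scalars_le_subfieldSubgroup hd) fun c => ?_
  rw [← detC_smul hd]
  have h8 : ∀ b : F, b ≠ 0 → ∀ a ∈ jt (d • toLin' x.1), ∀ c : Fˣ, b ^ a = c →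
      c ∈ detC (d • toLin' x.1) := fun b hb a ha c hc =>
    (Units.ext hc : Units.mk0 b hb ^ a = c) ▸ pow_mem_detC ha _
  by_cases h9 : ∃ a ∈ jt (d • toLin' x.1), a ≠ 2
  · obtain ⟨a, ha, h9⟩ := h9
    obtain rfl | rfl : a = 1 ∨ a = 3 := by have := h7 a ha; have := jt_pos _ a ha; omega
    · exact ⟨1, one_mem _, by rw [detC_eq_top_of_one_mem ha]; trivial⟩
    · obtain ⟨b, hb⟩ := (frobeniusEquiv F 3).surjective c
      exact ⟨1, one_mem _, h8 b (by rintro rfl; exact c.ne_zero (by simp [← hb])) 3 ha _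
        (by simpa [frobenius_def] using hb)⟩
  have h10 := jt_sum (d • toLin' x.1)
  rw [Multiset.eq_replicate_card.2 (by simpa using h9 : ∀ a ∈ jt _, a = 2)] at h10 h8
  simp only [Multiset.sum_replicate, smul_eq_mul, hn'] at h10
  have h11 : ∀ c : Fˣ, IsSquare (c : F) → c ∈ detC (d • toLin' x.1) := fun c ⟨b, hb⟩ =>
    h8 b (by rintro rfl; simp at hb) 2 (Multiset.mem_replicate.2 ⟨by omega, rfl⟩) c (by rw [hb, sq])
  by_cases h12 : IsSquare (c : F)
  · exact ⟨1, one_mem _, by simpa using h11 c h12⟩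
  obtain ⟨t, ht⟩ := FiniteField.exists_nonsquare (F := F₀) (by rw [ringChar.eq F₀ 3]; decide)
  have : Nonempty (Fin n) := ⟨⟨0, by omega⟩⟩
  obtain ⟨g, hg⟩ := GeneralLinearGroup.det_surjective (n := Fin n)
    (Units.mk0 t (by rintro rfl; exact ht IsSquare.zero))
  refine ⟨GeneralLinearGroup.map F₀.subtype g, mem_subfieldSubgroup_one.2 ⟨1, g, by simp⟩,
    h11 _ (CF.Geom.isSquare_mul_of_not_isSquare h12 ?_)⟩
  rw [GeneralLinearGroup.map_det, hg]
  refine mt (h0 t).1 (not_or.2 ⟨Nat.not_even_iff_odd.2 (hk.odd_of_ne_two ?_), ht⟩)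
  rcases h with ⟨l, h⟩ | h <;> omega

end Cfsg.Agent.S5966
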