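import Cfsg.Statements.S5967
import Cfsg.Agent.Classical.EluH

set_option autoImplicit false
open scoped MatrixGroups
open Cfsg

namespace Cfsg.Agent.S5967

/-- Involutions of PSL_n(q) and the symplectic-type subgroups. Here `T = PSL_n(F)` for a field `F` with `q` elements, `n ≥ 4` even, `f` is a nondegenerate alternating form on `F^n`, and `H` is the subgroup of matrices of determinant 1 preserving `f` up to a scalar — a maximal subgroup of type Sp_n(q); Ω is the set of `T`-conjugates of `H` (cosets of `H`), so an element of `T` of prime order `r` (a matrix `x` of determinant 1 with `x^r` scalar, `x` not scalar) fixes a point of Ω when some conjugate of `x` by a matrix of determinant 1 preserves `f` up to a scalar. Suppose the index of `H` is even. Then every involution of `T` is conjugate in `T` into `H` if and only if `(q − 1)_2 ≤ (n)_2`. -/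
theorem result {F : Type*} [Field F] [Fintype F] {p : ℕ} [Fact p.Prime] [CharP F p] {q : ℕ} (hq : Fintype.card F = q)
    (n : ℕ) (hn : 4 ≤ n) (he : Even n) (f : (Fin n → F) → (Fin n → F) → F) (hf : Cfsg.Geo.IsSymplecticForm f)
    (hΩ : 2 ∣ ((Cfsg.Geo.similarityGroup f).comap (Matrix.SpecialLinearGroup.toGL : Matrix.SpecialLinearGroup (Fin n) F →* GL (Fin n) F)).index) :
    (∀ x : Matrix.SpecialLinearGroup (Fin n) F,
      (∃ z : F, ((x ^ 2 : Matrix.SpecialLinearGroup (Fin n) F) : Matrix (Fin n) (Fin n) F) = z • (1 : Matrix (Fin n) (Fin n) F)) →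
      (∀ z : F, (x : Matrix (Fin n) (Fin n) F) ≠ z • (1 : Matrix (Fin n) (Fin n) F)) →
      ∃ P : Matrix.SpecialLinearGroup (Fin n) F, P⁻¹ * x * P ∈ ((Cfsg.Geo.similarityGroup f).comap (Matrix.SpecialLinearGroup.toGL : Matrix.SpecialLinearGroup (Fin n) F →* GL (Fin n) F))) ↔
    padicValNat 2 (q - 1) ≤ padicValNat 2 n := by
  open CF.Classical CF.Cls CF.Geom in
  subst hq
  classical
  have hn' : Module.finrank F (Fin n → F) = n := by simp
  have : Nontrivial (Fin n → F) := Module.finrank_pos_iff.1 (by omega : 0 < Module.finrank F _)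
  obtain ⟨B, hB, h1⟩ := exists_bilin hf.bilinear hf.nondegenerate
  have hA : B.IsAlt := fun v => (hB v v).symm.trans (hf.alternating v)
  rw [forall_conj_iff fun f hf => hf.detC_eq_top p (.inl rfl),
    forall_ordP_inC_iff (mem_similarityGroup_iff (B := B) (.inl hB))]
  rcases eq_or_ne p 2 with rfl | h2
  · refine iff_of_true (fun g hg => ?_) (by
      rw [padicValNat.eq_zero_of_not_dvd fun h => by
        have := char_dvd_card (F := F) 2; have := Fintype.card_pos (α := F); omega]; omega)
    obtain ⟨d, hd, h3, h4⟩ := hg.exists_unip 2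
    refine (simE_alt (K := AlgebraicClosure F) (f := d • g) 2 h1 hA
      (hg.isUnit.smul (Units.mk0 d hd)) ?_ ?_).of_smul hd <;>
      rw [ev_of_unip h3]
    · simp [St]
    · intro x hx _ h5
      obtain ⟨a, ha, rfl⟩ := Multiset.mem_map.1 hx
      obtain rfl : a = 1 := by have := h4 a ha; obtain ⟨b, hb⟩ := h5; omega
      have h6 : ∀ μ : Multiset ℕ, (∀ a ∈ μ, 0 < a ∧ a ≤ 2) → μ.count 1 % 2 = μ.sum % 2 := by
        intro μ h
        induction μ using Multiset.induction_on with
        | empty => rfl
        | cons a μ ih =>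
          have := ih fun b hb => h b (Multiset.mem_cons_of_mem hb)
          have := h a (Multiset.mem_cons_self _ _)
          rw [Multiset.count_cons, Multiset.sum_cons]
          split_ifs <;> omega
      convert Nat.even_iff.2 ((h6 _ fun a ha => ⟨jt_pos _ a ha, h4 a ha⟩).trans (by
        rw [jt_sum, hn', Nat.even_iff.1 he])) using 1
      convert Multiset.count_map_eq_count' _ _ (Prod.mk_right_injective _) _
  have h3 : ¬ p ∣ 2 := fun h => h2 ((Nat.prime_dvd_prime_iff_eq Fact.out Nat.prime_two).1 h)
  refine ⟨fun h => not_lt.1 fun h4 => ?_, fun h g hg => ?_⟩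
  · obtain ⟨g, d, hd, h5, h6, h7⟩ := exists_ordP_refl (V := Fin n → F) (K := AlgebraicClosure F) p
      h2 (m := n - 1) (by omega) (by omega) (hn'.symm ▸ h4)
    obtain ⟨y, c, hy, h8⟩ := (h _ h5).of_smul hd
    have h9 := (h8.aeval_eq_zero_iff (Polynomial.X ^ 2 - 1)).2 (by simp [h6])
    rw [map_sub, map_pow, Polynomial.aeval_X, map_one, sub_eq_zero] at h9
    have h10 := IsUnit.of_pow_eq_one h9 two_ne_zero
    have := charP_of_injective_algebraMap (algebraMap F (AlgebraicClosure F)).injective p
    have h11 : (1 : (AlgebraicClosure F)ˣ) ≠ -1 := fun h => Ring.neg_one_ne_one_of_char_ne_two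
      (ringChar.eq (AlgebraicClosure F) p ▸ h2) (congrArg Units.val h).symm
    rw [← Sim.eig_eq h8] at h7
    rcases sq_eq_one_iff.1 (mult_pow_eq_one (eh_alt h1 hA) hy h9) with h | h
    · have h12 := par_ev_alt (K := AlgebraicClosure F) h1 hA (f := y) fun u v => by simp [hy, h]
      rw [ev_eq_of_pow p h10 h3 (h9.trans (map_one _).symm), h7] at h12
      simpa [Multiset.count_replicate, h11] using h12 (-1, 1) (by simp) (by simp) odd_one
    · have h12 := congrArg (Multiset.count 1) (sy_of_mult (K := AlgebraicClosure F) p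
        (eh_alt h1 hA) h10 hy)
      simp [h7, show c = -1 from Units.ext h, Multiset.count_replicate, h11, h11.symm] at h12
      omega
  rcases hg.sq_cases (K := AlgebraicClosure F) p h2 (hn'.symm ▸ h) (hn'.symm ▸ he) with
    ⟨d, hd, h4, a, b, -, h5⟩ | ⟨z, h4, h5⟩
  · have h6 := IsUnit.of_pow_eq_one h4 two_ne_zero
    refine (simE_alt (K := AlgebraicClosure F) p h1 hA h6 (st_ev_of_eig p h3 h4 (by simp [h5]))
      fun x _ _ _ => ?_).of_smul hd
    rw [ev_eq_of_pow p h6 h3 (h4.trans (map_one _).symm), h5]
    simp only [Multiset.map_add, Multiset.map_replicate, Multiset.count_add,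
      Multiset.count_replicate]
    split_ifs <;> simp [parity_simps]
  · exact simE_alt_of_sq h1 hA h4 h5

end Cfsg.Agent.S5967
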