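import Cfsg.Statements.S5968
import Cfsg.Agent.Classical.EluH

set_option autoImplicit false
open scoped MatrixGroups
open Cfsg

namespace Cfsg.Agent.S5968

/-- Derangements of odd prime order of PSL_n(q) on the cosets of a symplectic-type subgroup. Here `T = PSL_n(F)` for a field `F` with `q` elements, `n ≥ 4` even, `f` is a nondegenerate alternating form on `F^n`, and `H` is the subgroup of matrices of determinant 1 preserving `f` up to a scalar — a maximal subgroup of type Sp_n(q); Ω is the set of `T`-conjugates of `H` (cosets of `H`), so an element of `T` of prime order `r` (a matrix `x` of determinant 1 with `x^r` scalar, `x` not scalar) fixes a point of Ω when some conjugate of `x` by a matrix of determinant 1 preserves `f` up to a scalar. For every odd prime `r` dividing the index of `H`, with `(n, r) ≠ (6, 3)`, there is an element of `T` of order `r` with no conjugate in `H`. (For `n = 6`, `r = 3` this can fail: when `(q − 1)_3 = 3` every element of order 3 is conjugate into `H`.) -/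
theorem result {F : Type*} [Field F] [Fintype F] {p : ℕ} [Fact p.Prime] [CharP F p] {q : ℕ} (hq : Fintype.card F = q)
    (n : ℕ) (hn : 4 ≤ n) (he : Even n) (f : (Fin n → F) → (Fin n → F) → F) (hf : Cfsg.Geo.IsSymplecticForm f)
    (r : ℕ) [Fact r.Prime] (hr2 : r ≠ 2) (hgap : ¬ (n = 6 ∧ r = 3)) (hΩ : r ∣ ((Cfsg.Geo.similarityGroup f).comap (Matrix.SpecialLinearGroup.toGL : Matrix.SpecialLinearGroup (Fin n) F →* GL (Fin n) F)).index) :
    ∃ x : Matrix.SpecialLinearGroup (Fin n) F,
      (∃ z : F, ((x ^ r : Matrix.SpecialLinearGroup (Fin n) F) : Matrix (Fin n) (Fin n) F) = z • (1 : Matrix (Fin n) (Fin n) F)) ∧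
      (∀ z : F, (x : Matrix (Fin n) (Fin n) F) ≠ z • (1 : Matrix (Fin n) (Fin n) F)) ∧
      ∀ P : Matrix.SpecialLinearGroup (Fin n) F, P⁻¹ * x * P ∉ ((Cfsg.Geo.similarityGroup f).comap (Matrix.SpecialLinearGroup.toGL : Matrix.SpecialLinearGroup (Fin n) F →* GL (Fin n) F)) := by
  open CF.Classical CF.Cls CF.Geom in
  subst hq
  have hn' : Module.finrank F (Fin n → F) = n := by simp
  have : Nontrivial (Fin n → F) := Module.finrank_pos_iff.1 (by omega : 0 < Module.finrank F _)
  obtain ⟨B, hB, h1⟩ := exists_bilin hf.bilinear hf.nondegenerate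
  have hA : B.IsAlt := fun v => (hB v v).symm.trans (hf.alternating v)
  have hH := mem_similarityGroup_iff (B := B) (.inl hB)
  suffices ∃ g : Module.End F (Fin n → F), OrdP r g ∧ ¬ SimE B g by
    obtain ⟨g, h2, h3⟩ := this
    exact exists_not_conj h2 (mt (inC_iff_simE hH h2.isUnit).1 h3)
  rcases eq_or_ne r p with rfl | hrp
  · obtain ⟨g, h2, h3, h4⟩ := exists_ordP_not_par (F := F) (V := Fin n → F)
      (K := AlgebraicClosure F) r (a := 3) (m := n - 3) (by omega) (by have := (Fact.out : r.Prime).two_le; omega) (by omega)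
      (R := Odd) (by decide)
    refine ⟨g, h2, fun h => ?_⟩
    obtain ⟨y, h5, h6⟩ := h.exists_pres (eh_alt h1 hA) h3 fun c hc =>
      frobenius_inj F r (by simpa [frobenius_def] using hc)
    exact h4 ((sim_iff_ev (K := AlgebraicClosure F) (h6.isUnit_iff.2 h2.isUnit) h2.isUnit).1 h6 ▸
      par_ev_alt h1 hA h5)
  suffices ∃ g : Module.End F (Fin n → F), OrdP r g ∧ ∀ c : Fˣ,
      ¬ Sy (-1) (uK (AlgebraicClosure F) c) (eig (AlgebraicClosure F) g) by
    obtain ⟨g, h2, h3⟩ := this
    exact ⟨g, h2, fun h => (h.sy p (eh_alt h1 hA) h2.isUnit).elim h3⟩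
  obtain ⟨m, rfl⟩ := he
  by_cases h2 : r ∣ Fintype.card F - 1
  · exact exists_bad_one p hr2 h2 (fun h => hr2 ((Nat.prime_dvd_prime_iff_eq Fact.out
      Nat.prime_two).1 (Int.natCast_dvd_natCast.1 (dvd_neg.1 h)))) (by omega) (by omega)
      (hn'.symm ▸ hgap) (by omega)
  obtain ⟨j, h3, h4, h5⟩ := exists_odd_of_dvd Fact.out (dvd_of_dvd_relIndex p (G := SpG B)
    (fun g hg => (hH g).2 ⟨1, by simpa using hg.1⟩) Fact.out hrp (by rwa [← index_comap_toGL])
    (by rw [card_SpG h1 hA (m := m) (by omega), Nat.card_eq_fintype_card]; exact dvd_mul_left _ _)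
    ((congrArg _ (two_mul m).symm).trans (qq_two_mul _ m)))
  exact exists_bad_odd p hrp hr2 h2 h3 (by omega) h5

end Cfsg.Agent.S5968
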