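import Cfsg.Statements.S5969
import Cfsg.Agent.Classical.EluK

set_option autoImplicit false
open scoped MatrixGroups
open Cfsg

namespace Cfsg.Agent.S5969

/-- Involutions of PSL_n(q) and extension-field subgroups of degree 2. Here `T = PSL_n(F)` for a field `F` with `q = p^f` elements (`n ≥ 2`, `(n, q) ≠ (2, 2), (2, 3)`), `k` is a prime dividing `n`, `K` is a subalgebra of the `n × n` matrices that is a field of degree `k` over `F` (an extension-field structure F_{q^k} on `F^n`), and `H` is the subgroup of matrices of determinant 1 normalizing `K` — a subgroup of type GL_{n/k}(q^k) (maximal except in some small cases; maximality is not assumed); Ω is the set of cosets of `H` in `T`, so an element of `T` of prime order `r` (a matrix `x` of determinant 1 with `x^r` scalar, `x` not scalar) fixes a point of Ω when some conjugate of `x` by a matrix of determinant 1 normalizes `K`. Take `k = 2` and suppose the index of `H` is even. Then every involution of `T` is conjugate in `T` into `H`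 if and only if `n = 2`, or `q` is odd and `(q − 1)_2 ≤ (n)_2`. -/
theorem result {F : Type*} [Field F] [Fintype F] {p : ℕ} [Fact p.Prime] [CharP F p] {q : ℕ} (hq : Fintype.card F = q)
    (n : ℕ) (hn : 2 ≤ n) (hT : (n, q) ≠ (2, 2) ∧ (n, q) ≠ (2, 3))
    (k : ℕ) (hk : k.Prime) (hkn : k ∣ n) (K : Subalgebra F (Matrix (Fin n) (Fin n) F)) (hK : Cfsg.Geo.IsFieldSubalgebra k K) (hk2 : k = 2) (hΩ : 2 ∣ ((Cfsg.Geo.subalgebraNormalizer K).comap (Matrix.SpecialLinearGroup.toGL : Matrix.SpecialLinearGroup (Fin n) F →* GL (Fin n) F)).index) :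
    (∀ x : Matrix.SpecialLinearGroup (Fin n) F,
      (∃ z : F, ((x ^ 2 : Matrix.SpecialLinearGroup (Fin n) F) : Matrix (Fin n) (Fin n) F) = z • (1 : Matrix (Fin n) (Fin n) F)) →
      (∀ z : F, (x : Matrix (Fin n) (Fin n) F) ≠ z • (1 : Matrix (Fin n) (Fin n) F)) →
      ∃ P : Matrix.SpecialLinearGroup (Fin n) F, P⁻¹ * x * P ∈ ((Cfsg.Geo.subalgebraNormalizer K).comap (Matrix.SpecialLinearGroup.toGL : Matrix.SpecialLinearGroup (Fin n) F →* GL (Fin n) F))) ↔
    (n = 2 ∨ (Odd q ∧ padicValNat 2 (q - 1) ≤ padicValNat 2 n)) := by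
  open CF.Classical CF.Cls CF.Geom Polynomial in
  subst hq hk2
  classical
  have hn' : Module.finrank F (Fin n → F) = n := by simp
  have : Nonempty (Fin n) := ⟨⟨0, by omega⟩⟩
  have hF := CF.MaxSub.isField_of_fieldSubalgebra hK
  rw [forall_conj_iff fun f hf => hf.detC_eq_top p (.inl rfl)]
  simp only [inC_iff_semE hF]
  let := hF.toField
  have : IsScalarTower F K (Fin n → F) := ⟨fun c k v => Matrix.smul_mulVec c k.1 v⟩
  have h1 : Odd (Fintype.card F) ↔ p ≠ 2 := ⟨by
    rintro h rfl; exact h.not_two_dvd_nat (char_dvd_card 2), fun h => by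
      obtain ⟨m, hp, hm⟩ := FiniteField.card F p
      exact hm ▸ (hp.odd_of_ne_two h).pow⟩
  have h0 : Module.finrank F K = 2 := hK.finrank_eq
  refine ⟨fun h => or_iff_not_imp_left.2 fun h2 => ?_, fun h f hf => ?_⟩
  · have h3 : ∀ (f : Module.End F (Fin n → F)) c, OrdP 2 f → c ≠ 0 →
        kd f (X - C c) + 1 ≠ n := fun f c hf hc h3 => by
      have := (h f hf).finrank_eq_one hc (h3.trans hn'.symm) (by omega)
      omega
    rcases eq_or_ne p 2 with rfl | h4
    · obtain ⟨g, h4, -, h5, h7⟩ := exists_ordP_unip (F := F) (V := Fin n → F) 2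
        (μ := .replicate (n - 2) 1 + {2}) (fun a ha => by
          rcases Multiset.mem_add.1 ha with h | h
          · have := Multiset.eq_of_mem_replicate h; omega
          · have := Multiset.mem_singleton.1 h; omega) ⟨2, by simp, by simp⟩ (by simp; omega)
      refine (h3 g 1 h4 one_ne_zero ?_).elim
      rw [kd, map_sub, aeval_X, aeval_C, map_one, finrank_ker_unip_one h5, h7]
      simp; omega
    refine ⟨h1.2 h4, not_lt.1 fun h5 => ?_⟩
    obtain ⟨g, d, h7, h8, h9⟩ := exists_ordP_refl' (F := F) (V := Fin n → F) p h4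
      (m := n - 1) (by omega) (by omega) (hn'.symm ▸ h5)
    refine h3 g d h8 (by rintro rfl; simp at h7) ?_
    simp [kd_of_ed_dg h9, h7]; omega
  have := hf.nontrivial
  rcases h with rfl | ⟨h2, h3⟩
  · obtain ⟨z, hz⟩ := hf.2.1
    exact semE_of_cy (h0.trans hn'.symm) (cy_of_two hn' hf.2.2) (hf.ne_zero hz) (hn'.symm ▸ hz)
  rcases hf.sq_cases' p (h1.1 h2) (hn'.symm ▸ h3) (hn'.symm ▸ even_iff_two_dvd.2 hkn) with
    ⟨d, hd, s, -, h4⟩ | ⟨z, h4, h5⟩
  · exact (semE_of_ed_dg (f := d • f) (hf.isUnit.smul (Units.mk0 d hd)) (h0.symm ▸ h4)).of_smul hd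
  · exact semE_of_sq h0 h4 h5

end Cfsg.Agent.S5969
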