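import Cfsg.Statements.S5970
import Cfsg.Agent.Classical.EluK

set_option autoImplicit false
open scoped MatrixGroups
open Cfsg

namespace Cfsg.Agent.S5970

/-- Elements of order `n` of PSL_n(q), `n` prime, and the normalizer of a Singer cycle. Here `T = PSL_n(F)` for a field `F` with `q = p^f` elements (`n ≥ 2`, `(n, q) ≠ (2, 2), (2, 3)`), `k` is a prime dividing `n`, `K` is a subalgebra of the `n × n` matrices that is a field of degree `k` over `F` (an extension-field structure F_{q^k} on `F^n`), and `H` is the subgroup of matrices of determinant 1 normalizing `K` — a subgroup of type GL_{n/k}(q^k) (maximal except in some small cases; maximality is not assumed); Ω is the set of cosets of `H` in `T`, so an element of `T` of prime order `r` (a matrix `x` of determinant 1 with `x^r` scalar, `x` not scalar) fixes a point of Ω when some conjugate of `x` by a matrix of determinant 1 normalizes `K`. Take `k = n > 3` prime with `n ≠ p` (so `H` is the normalizer of a Singer cycle), and suppose `n` divides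 the index of `H`. Then every element of `T` of order `n` is conjugate in `T` into `H` if and only if the multiplicative order of `q` modulo `n` is `n − 1`. -/
theorem result {F : Type*} [Field F] [Fintype F] {p : ℕ} [Fact p.Prime] [CharP F p] {q : ℕ} (hq : Fintype.card F = q)
    (n : ℕ) (hn : 2 ≤ n) (hT : (n, q) ≠ (2, 2) ∧ (n, q) ≠ (2, 3))
    (k : ℕ) (hk : k.Prime) (hkn : k ∣ n) (K : Subalgebra F (Matrix (Fin n) (Fin n) F)) (hK : Cfsg.Geo.IsFieldSubalgebra k K) (hkn' : k = n) (hn3 : 3 < n) (hnp : n ≠ p) (hΩ : n ∣ ((Cfsg.Geo.subalgebraNormalizer K).comap (Matrix.SpecialLinearGroup.toGL : Matrix.SpecialLinearGroup (Fin n) F →* GL (Fin n) F)).index) :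
    (∀ x : Matrix.SpecialLinearGroup (Fin n) F,
      (∃ z : F, ((x ^ n : Matrix.SpecialLinearGroup (Fin n) F) : Matrix (Fin n) (Fin n) F) = z • (1 : Matrix (Fin n) (Fin n) F)) →
      (∀ z : F, (x : Matrix (Fin n) (Fin n) F) ≠ z • (1 : Matrix (Fin n) (Fin n) F)) →
      ∃ P : Matrix.SpecialLinearGroup (Fin n) F, P⁻¹ * x * P ∈ ((Cfsg.Geo.subalgebraNormalizer K).comap (Matrix.SpecialLinearGroup.toGL : Matrix.SpecialLinearGroup (Fin n) F →* GL (Fin n) F))) ↔
    orderOf (q : ZMod n) = n - 1 := by
  open CF.Classical CF.Cls CF.Geom Polynomial in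
  subst hq hkn'
  have := Fact.mk hk
  have hn' : Module.finrank F (Fin k → F) = k := by simp
  have : Nonempty (Fin k) := ⟨⟨0, by omega⟩⟩
  have hF := CF.MaxSub.isField_of_fieldSubalgebra hK
  rw [forall_conj_iff fun f hf => hf.detC_eq_top p (.inr hnp)]
  simp only [inC_iff_semE hF]
  let := hF.toField
  have : IsScalarTower F K (Fin k → F) := ⟨fun c k v => Matrix.smul_mulVec c k.1 v⟩
  refine ⟨fun h => by_contra fun h1 => ?_, fun h f hf =>
    hf.semE_of_ord p hnp hK.finrank_eq hn' hn3.le h⟩
  have h2 := fun f hf => (h f hf).cy (hK.finrank_eq.trans hn'.symm) (hn'.symm ▸ hk) hf.2.2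
  by_cases h3 : k ∣ Fintype.card F - 1
  · obtain ⟨w, hw⟩ := exists_orderOf_units h3
    have hw1 : (w : F) ≠ 1 := fun h => hk.one_lt.ne (by
      rw [← hw, Units.val_eq_one.1 h, orderOf_one])
    have hwr : (w : F) ^ k = 1 := by
      rw [← hw, ← Units.val_pow_eq_pow_val, pow_orderOf_eq_one, Units.val_one]
    have h4 : ∀ x ∈ Multiset.replicate (k - 2) (1 : F) + {(w : F), (w : F)⁻¹},
        x = 1 ∨ x = w ∨ x = (w : F)⁻¹ := fun x hx => by
      simp only [Multiset.mem_add, Multiset.mem_replicate, Multiset.insert_eq_cons,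
        Multiset.mem_cons, Multiset.mem_singleton] at hx
      tauto
    obtain ⟨g, h7, h8⟩ := exists_ordP_dg (F := F) (V := Fin k → F) (r := k)
      (s := .replicate (k - 2) 1 + {(w : F), (w : F)⁻¹}) (by simp; omega) (by simp) (z := 1)
      (fun x hx => by rcases h4 x hx with rfl | rfl | rfl <;> simp [hwr])
      (x := w) (y := 1) (by simp) (by simp [Multiset.mem_replicate]; omega) hw1
    have h5 := ((monic_X_sub_C 1).mul (monic_X_sub_C (w : F))).mul (monic_X_sub_C (w : F)⁻¹)
    have h6 := h2 g h7 _ h5.ne_zero ((aeval_eq_zero_iff_dg h8 _).2 fun x hx => by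
      rcases h4 x hx with rfl | rfl | rfl <;> simp)
    rw [((monic_X_sub_C _).mul (monic_X_sub_C _)).natDegree_mul (monic_X_sub_C _),
      (monic_X_sub_C _).natDegree_mul (monic_X_sub_C _)] at h6
    simp only [natDegree_X_sub_C] at h6
    omega
  have h4 := Nat.le_of_dvd (by omega) (ZMod.orderOf_dvd_card_sub_one (a := (Fintype.card F : ZMod k))
    fun h => hnp (by
      obtain ⟨m, hp, hm⟩ := FiniteField.card F p
      exact (Nat.prime_dvd_prime_iff_eq hk hp).1
        (hk.dvd_of_dvd_pow (hm ▸ (ZMod.natCast_eq_zero_iff _ _).1 h))))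
  obtain ⟨π, hπ⟩ := facs_nonempty (F := F) p hnp
  obtain ⟨g, h8, -, h10, -⟩ := exists_ordP_facs (V := Fin k → F) p hnp (mt ord_eq_one_iff.1 h3)
    (S := {π}) (by simp) (by simpa) (e := k - orderOf (Fintype.card F : ZMod k)) (by simp; omega)
  have h5 := h2 g h8 _ (monic_X_sub_one.mul (mem_facs.1 hπ).1).ne_zero
    ((aeval_eq_zero_iff_ed _ _).2 fun a ha => by
      rcases Multiset.mem_add.1 (h10 ▸ ha) with h | h
      · exact Multiset.eq_of_mem_replicate h ▸ dvd_mul_right _ _
      · exact Multiset.mem_singleton.1 h ▸ dvd_mul_left _ _)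
  rw [monic_X_sub_one.natDegree_mul (mem_facs.1 hπ).1, natDegree_X_sub_one,
    (facs_spec p hk hnp).1 π hπ] at h5
  omega

end Cfsg.Agent.S5970
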