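import Cfsg.Statements.S5971
import Cfsg.Agent.Classical.EluK

set_option autoImplicit false
open scoped MatrixGroups
open Cfsg

namespace Cfsg.Agent.S5971

/-- Elements of order 3 of PSL_3(q) and the normalizer of a Singer cycle. Here `T = PSL_n(F)` for a field `F` with `q = p^f` elements (`n ≥ 2`, `(n, q) ≠ (2, 2), (2, 3)`), `k` is a prime dividing `n`, `K` is a subalgebra of the `n × n` matrices that is a field of degree `k` over `F` (an extension-field structure F_{q^k} on `F^n`), and `H` is the subgroup of matrices of determinant 1 normalizing `K` — a subgroup of type GL_{n/k}(q^k) (maximal except in some small cases; maximality is not assumed); Ω is the set of cosets of `H` in `T`, so an element of `T` of prime order `r` (a matrix `x` of determinant 1 with `x^r` scalar, `x` not scalar) fixes a point of Ω when some conjugate of `x` by a matrix of determinant 1 normalizes `K`. Take `n = k = 3` and suppose 3 divides the index of `H`. Then every element of `T` of order 3 is conjugate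 in `T` into `H` if and only if `q ≡ 4, 7` or `8 (mod 9)`. -/
theorem result {F : Type*} [Field F] [Fintype F] {p : ℕ} [Fact p.Prime] [CharP F p] {q : ℕ} (hq : Fintype.card F = q)
    (n : ℕ) (hn : n = 3) (k : ℕ) (hk : k.Prime) (hkn : k ∣ n) (K : Subalgebra F (Matrix (Fin n) (Fin n) F)) (hK : Cfsg.Geo.IsFieldSubalgebra k K) (hk3 : k = 3) (hΩ : 3 ∣ ((Cfsg.Geo.subalgebraNormalizer K).comap (Matrix.SpecialLinearGroup.toGL : Matrix.SpecialLinearGroup (Fin n) F →* GL (Fin n) F)).index) :
    (∀ x : Matrix.SpecialLinearGroup (Fin n) F,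
      (∃ z : F, ((x ^ 3 : Matrix.SpecialLinearGroup (Fin n) F) : Matrix (Fin n) (Fin n) F) = z • (1 : Matrix (Fin n) (Fin n) F)) →
      (∀ z : F, (x : Matrix (Fin n) (Fin n) F) ≠ z • (1 : Matrix (Fin n) (Fin n) F)) →
      ∃ P : Matrix.SpecialLinearGroup (Fin n) F, P⁻¹ * x * P ∈ ((Cfsg.Geo.subalgebraNormalizer K).comap (Matrix.SpecialLinearGroup.toGL : Matrix.SpecialLinearGroup (Fin n) F →* GL (Fin n) F))) ↔
    (q % 9 = 4 ∨ q % 9 = 7 ∨ q % 9 = 8) := by
  open CF.Classical CF.Cls CF.Geom Polynomial in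
  subst hq hn hk3
  have := Fact.mk Nat.prime_three
  have hn' : Module.finrank F (Fin 3 → F) = 3 := by simp
  have hF := CF.MaxSub.isField_of_fieldSubalgebra hK
  let := hF.toField
  have : IsScalarTower F K (Fin 3 → F) := ⟨fun c k v => Matrix.smul_mulVec c k.1 v⟩
  have h0 : Module.finrank F K = Module.finrank F (Fin 3 → F) := hK.finrank_eq.trans hn'.symm
  have h1 : 3 ∣ Fintype.card F ↔ 3 = p := ⟨fun h => by
    obtain ⟨m, hp, hm⟩ := FiniteField.card F p
    exact (Nat.prime_dvd_prime_iff_eq hk hp).1 (hk.dvd_of_dvd_pow (hm ▸ h)),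
      fun h => h ▸ char_dvd_card p⟩
  have hq := Fintype.one_lt_card (α := F)
  have h2 : Fintype.card F % 3 = 2 → orderOf (Fintype.card F : ZMod 3) = 2 := fun h => by
    rw [← ZMod.natCast_mod, h]
    exact orderOf_eq_prime (by decide +revert) (by decide +revert)
  have h3 : ∀ w : Fˣ, orderOf w = 3 → ((∃ d, d ^ 3 = w) ↔ 9 ∣ Fintype.card F - 1) := fun w hw => by
    rw [exists_pow_eq_iff_of_prime hw three_ne_zero, padicValNat_self, Nat.card_units,
      Nat.card_eq_fintype_card]
    exact (padicValNat_dvd_iff_le (p := 3) (n := 2) (by omega)).symm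
  refine ⟨fun h => by_contra fun h4 => ?_, fun h => ?_⟩
  · have h5 : ∀ f, OrdP 3 f → ∀ a b : F, aeval f ((X - C a) * (X - C b)) ≠ 0 := fun f hf a b h5 => by
      obtain ⟨x, h6, h7, h8⟩ := exists_not_conj hf fun h => by
        have := ((inC_iff_semE hF).1 h).cy h0 (hn'.symm ▸ hk) hf.2.2 _
          ((monic_X_sub_C a).mul (monic_X_sub_C b)).ne_zero h5
        rw [(monic_X_sub_C _).natDegree_mul (monic_X_sub_C _)] at this
        simp at this
      exact (h x h6 h7).elim h8
    rcases eq_or_ne 3 p with rfl | hp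
    · obtain ⟨g, h6, -, h7, h8⟩ := exists_ordP_unip (F := F) (V := Fin 3 → F) 3
        (μ := {1, 2}) (by simp) ⟨2, by simp, by simp⟩ (by simp)
      exact h5 g h6 1 1 (by
        simpa [← sq] using (unip_pow_eq_zero_iff h7 2).2 (by simp [h8]))
    have h6 := mt h1.1 hp
    by_cases h7 : 3 ∣ Fintype.card F - 1
    · obtain ⟨w, hw⟩ := exists_orderOf_units h7
      obtain ⟨d, hd⟩ := (h3 _ ((orderOf_inv w).trans hw)).2 (by omega)
      have h8 : (w : F) ^ 3 = 1 := by
        rw [← hw, ← Units.val_pow_eq_pow_val, pow_orderOf_eq_one, Units.val_one]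
      obtain ⟨g, h9, h10⟩ := exists_ordP_dg (F := F) (V := Fin 3 → F) (r := 3)
        (s := {(d : F) * w, (d : F), (d : F)}) (by simp) (by
          have := congrArg (fun x : Fˣ => (x : F) * w) hd
          simp at this ⊢; linear_combination this) (z := d ^ 3) (by simp [mul_pow, h8])
        (x := d * w) (y := d) (by simp) (by simp) (by
          simpa using fun h => hk.one_lt.ne (by rw [← hw, h, orderOf_one]))
      exact h5 g h9 (d * w) d ((aeval_eq_zero_iff_dg h10 _).2 (by simp))
    have h8 := h2 (by omega)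
    obtain ⟨π, hπ⟩ := facs_nonempty (F := F) p hp
    obtain ⟨g, h9, h10, -⟩ := exists_ordP_facs (V := Fin 3 → F) p hp (by omega)
      (S := {π}) (by simp) (by simpa) (e := 1) (by simp [h8])
    obtain ⟨x, rfl⟩ := h9.exists_SL
    obtain ⟨h11, h12⟩ := (ordP_toLin' 3 x).1 h9
    obtain ⟨P, hP⟩ := h x h11 h12
    have h13 : orderOf (P⁻¹ * x * P) = 3 := by
      rw [← SemiconjBy.orderOf_eq (x := x) P⁻¹ (by simp [SemiconjBy])]
      exact orderOf_eq_prime (Subtype.ext (Matrix.toLin'.injective (by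
        simpa [Matrix.toLin'_pow] using! h10))) fun h => h12 1 (by simp [h])
    have h14 := (ZMod.natCast_eq_zero_iff _ 9).2 ((mul_dvd_mul
      (h13 ▸ Subgroup.orderOf_dvd_natCard _ hP) hΩ).trans (Subgroup.card_mul_index _).dvd)
    rw [card_SL_succ F 2] at h14
    simp only [Finset.prod_range_succ, Finset.sum_range_succ] at h14
    push_cast [Nat.one_le_pow _ _ hq.le] at h14
    rw [← ZMod.natCast_mod] at h14
    have h15 : Fintype.card F % 9 = 2 ∨ Fintype.card F % 9 = 5 := by omega
    rcases h15 with h15 | h15 <;> rw [h15] at h14 <;> exact absurd h14 (by decide)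
  have hp := mt h1.2 (by omega)
  refine (forall_conj_iff fun f hf => hf.detC_eq_top p (.inr hp)).2 fun f hf =>
    (inC_iff_semE hF).2 ?_
  rcases or_assoc.2 h with h | h
  swap; · exact hf.semE_of_ord p hp hK.finrank_eq hn' le_rfl (h2 (by omega))
  have h4 : 3 ∣ Fintype.card F - 1 := by omega
  rcases hf.cases with ⟨d, hd, h5⟩ | ⟨-, -, -, -, -, -, h5, -⟩
  swap
  · exact (h5 ⟨by simpa using one_le_padicValNat_of_dvd (by omega) h4, by omega⟩).elim
  obtain ⟨s, h6, h7⟩ := ed_dg_of_pow p h4 h5
  have h8 := det_of_ed_dg h6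
  obtain ⟨x, y, z, rfl⟩ := Multiset.card_eq_three.1 ((card_of_ed_dg h6).trans hn')
  simp only [Multiset.insert_eq_cons, Multiset.mem_cons, Multiset.mem_singleton, forall_eq_or_imp,
    forall_eq, LinearMap.det_smul, hf.1, hn', mul_one, Multiset.prod_cons,
    Multiset.prod_singleton] at h7 h8
  have h9 : x * (y * z) = 1 := by_contra fun h9 => by
    have := (h3 (Units.mk0 d hd ^ 3) (orderOf_eq_prime (Units.ext (by
      simp [h8, mul_pow, h7])) fun h => h9 (h8 ▸ congrArg Units.val h))).1 ⟨_, rfl⟩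
    omega
  have h10 : ¬ (x = y ∧ x = z) := fun ⟨h1, h2⟩ => hf.smul_ne hd x (eq_scalar_of_ed (by
    simp [h6, ← h1, ← h2]))
  have h11 : ∀ a b : F, a ^ 3 = 1 → a * (a * b) = 1 → a = b := fun a b h1 h2 => by
    linear_combination a * (-h2) + b * h1
  refine (semE_of_cy h0 (cy_of_nodup (ss_of_pow_eq_one (natCast_ne_zero_of_coprime p
    ((Nat.coprime_primes hk Fact.out).2 hp)) h5) ?_) one_ne_zero
      (by rw [hn', h5, map_one])).of_smul hd
  rw [h6]
  refine Multiset.Nodup.map (fun _ _ h => by simpa using h) ?_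
  simp only [Multiset.insert_eq_cons, Multiset.nodup_cons, Multiset.mem_cons,
    Multiset.mem_singleton, Multiset.nodup_singleton, not_or, and_true]
  refine ⟨⟨?_, ?_⟩, ?_⟩ <;> rintro rfl <;> refine h10 ?_
  · exact ⟨rfl, h11 _ _ h7.1 h9⟩
  · exact ⟨h11 _ _ h7.1 (by rwa [mul_comm y] at h9), rfl⟩
  · have := h11 y x h7.2.1 (by linear_combination h9)
    exact ⟨this.symm, this.symm⟩

end Cfsg.Agent.S5971
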