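import Cfsg.Statements.S5974
import Cfsg.Agent.Cls.El10

set_option autoImplicit false
open scoped MatrixGroups
open Cfsg

namespace Cfsg.Agent.S5974

/-- Elements of prime order of PΩ⁺_n(q), n = 2d ≥ 8, with no fixed nondegenerate hyperbolic `m`-space. Here `T = PΩ⁺_n(q)` is realised through `Ω⁺_n(q)`, the commutator subgroup of the isometry group of `Q = Σ xᵢyᵢ` over the field `F` with `q` elements; an element of `T` of prime order `r` is an element `x` of `Ω⁺_n(q)` with `x^r` scalar and `x` not scalar. A hyperbolic `m`-space is a subspace `W` of even dimension `m` on which the polar form of `Q` is nondegenerate and which contains a totally singular subspace of dimension `m/2`. Let `m` be even with `2 ≤ m < n/2`, and let `r` be a prime dividing the number of hyperbolic `m`-spaces, with `r = 2` or `r ≠ p`. For `r ≠ p` let `i` be the multiplicative order of `q` modulo `r`, `c = i` for `i` even and `c = 2i` for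 `i` odd, and write `k = n mod c`, `ℓ' = m mod c`. Then every element of `T` of order `r` fixes some hyperbolic `m`-space if and only if one of: (i) `r = 2` and (`n ≡ 2 (mod 4)`, or `m ≡ 0 (mod 4)`, or `q ≡ 1 (mod 4)`); (ii) `r ≠ p` odd, `i` odd, `c ≤ m` and `k ≥ ℓ'`; (iii) `r ≠ p` odd, `i` even, and either `k = 0` and (`n/i` odd, or `ℓ' = 0` and `m/i` even), or `i ≤ m` and (`k > ℓ' > 0`, or `k = ℓ' > 0` and `(n + m − 2k)/i` even, or `k > ℓ' = 0` and `m/i` even). -/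
theorem result {F : Type*} [Field F] [Fintype F] {p : ℕ} [Fact p.Prime] [CharP F p] {q : ℕ} (hq : Fintype.card F = q)
    (d m : ℕ) (hd : 4 ≤ d) (hm : 2 ≤ m) (hme : Even m) (hmd : m < d)
    (r : ℕ) [Fact r.Prime] (hr : r = 2 ∨ r ≠ p)
    (hrΩ : r ∣ Nat.card {W : Submodule F (Fin d ⊕ Fin d → F) // (Module.finrank F ↥W = m ∧ (∀ u ∈ W, u ≠ 0 → ∃ v ∈ W, QuadraticMap.polar (Cfsg.quadFormPlus d F) u v ≠ 0) ∧
          ∃ U : Submodule F (Fin d ⊕ Fin d → F), U ≤ W ∧ 2 * Module.finrank F ↥U = m ∧ ∀ u ∈ U, Cfsg.quadFormPlus d F u = 0)})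
    (i c : ℕ) (hi : i = orderOf (q : ZMod r)) (hc : c = if Even i then i else 2 * i) :
    (∀ x : GL (Fin d ⊕ Fin d) F, x ∈ Cfsg.Geo.omegaGL (Cfsg.quadFormPlus d F) →
      (∃ z : F, ((x ^ r : GL (Fin d ⊕ Fin d) F) : Matrix (Fin d ⊕ Fin d) (Fin d ⊕ Fin d) F) = z • (1 : Matrix (Fin d ⊕ Fin d) (Fin d ⊕ Fin d) F)) →
      (∀ z : F, (x : Matrix (Fin d ⊕ Fin d) (Fin d ⊕ Fin d) F) ≠ z • (1 : Matrix (Fin d ⊕ Fin d) (Fin d ⊕ Fin d) F)) →
      ∃ W : Submodule F (Fin d ⊕ Fin d → F), (Module.finrank F ↥W = m ∧ (∀ u ∈ W, u ≠ 0 → ∃ v ∈ W, QuadraticMap.polar (Cfsg.quadFormPlus d F) u v ≠ 0) ∧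
          ∃ U : Submodule F (Fin d ⊕ Fin d → F), U ≤ W ∧ 2 * Module.finrank F ↥U = m ∧ ∀ u ∈ U, Cfsg.quadFormPlus d F u = 0) ∧
        W.map (Matrix.toLin' (x : Matrix (Fin d ⊕ Fin d) (Fin d ⊕ Fin d) F)) ≤ W) ↔
    ((r = 2 ∧ ((2 * d) % 4 = 2 ∨ m % 4 = 0 ∨ q % 4 = 1)) ∨
     (r ≠ p ∧ 2 < r ∧ Odd i ∧ c ≤ m ∧ m % c ≤ (2 * d) % c) ∨
     (r ≠ p ∧ 2 < r ∧ Even i ∧
       (((2 * d) % c = 0 ∧ (Odd ((2 * d) / i) ∨ (m % c = 0 ∧ Even (m / i)))) ∨
        (i ≤ m ∧ ((m % c < (2 * d) % c ∧ 0 < m % c) ∨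
                  ((2 * d) % c = m % c ∧ 0 < m % c ∧ Even ((2 * d + m - 2 * ((2 * d) % c)) / i)) ∨
                  (0 < (2 * d) % c ∧ m % c = 0 ∧ Even (m / i))))))) := by
  open CF.Geom CF.Classical CF.Cls in
  subst hq hi
  obtain ⟨k, rfl⟩ := hme.two_dvd
  have hQ := qPlus_nondegenerate (F := F) d
  have hn : Module.finrank F (Fin d ⊕ Fin d → F) = 2 * d := by simp; omega
  have hP := isPlus_qPlus (F := F) d
  have h : ∀ W : Submodule F (Fin d ⊕ Fin d → F), (Module.finrank F ↥W = 2 * k ∧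
      (∀ u ∈ W, u ≠ 0 → ∃ v ∈ W, QuadraticMap.polar (qPlus d F) u v ≠ 0) ∧
      ∃ U : Submodule F (Fin d ⊕ Fin d → F), U ≤ W ∧ 2 * Module.finrank F ↥U = 2 * k ∧
        ∀ u ∈ U, qPlus d F u = 0) ↔ NT (qPlus d F) (2 * k) True W := fun W => by
    rw [NT, ND, disjoint_perp_iff (isWittPair_quad _ hQ), iff_true, isPlus_qr, and_assoc]
    exact and_congr_right fun h => and_congr_right' (exists_congr fun U => by rw [h, and_comm (b := _ = _)])
  have hd := dvd_card_congr h hrΩ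
  rw [← coe_qPlus, elu_GL (mem_omegaGL (qPlus d F)) fun f =>
    ∃ W : Submodule F (Fin d ⊕ Fin d → F), (Module.finrank F ↥W = 2 * k ∧
      (∀ u ∈ W, u ≠ 0 → ∃ v ∈ W, QuadraticMap.polar (qPlus d F) u v ≠ 0) ∧
      ∃ U : Submodule F (Fin d ⊕ Fin d → F), U ≤ W ∧ 2 * Module.finrank F ↥U = 2 * k ∧
        ∀ u ∈ U, qPlus d F u = 0) ∧ W.map f ≤ W, elu_fx h]
  by_cases h2 : r = 2
  · subst h2
    simp only [lt_irrefl, false_and, and_false, or_false, true_and]
    by_cases h3 : (2 : F) = 0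
    · rw [elu_o_two h3 hQ hn (by omega) (by omega) (by omega) (iff_true_intro hP) (b₂ := True)
        (by simp)]
      have h4 : ¬ Odd (Fintype.card F) := fun h => two_ne_zero_of_odd_card h h3
      simp only [if_true, Nat.odd_iff] at h4 ⊢
      omega
    obtain ⟨h4, h5, h6⟩ := sq_facts h3
    rw [nt_eq_ns h3, elu_two_ns h3 hQ (by omega) (by omega), ds_eq_one_iff hQ h3 hn, if_pos trivial,
      one_mul, sqSign_pow_eq_one, sqSign_pow_eq_one, h5, h6, hn]
    simp only [Nat.even_iff, hP, true_iff]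
    omega
  have hrp := hr.resolve_left h2
  obtain ⟨h3, h4, h5⟩ := o_nd p h2 hrp hQ hn (by omega) (iff_true_intro hP) inv_NT
    (exists_NT hQ (by omega) (by omega) True) (fun U hU => ⟨hU.1, hU.2, iff_true_intro
      (((isPlus_iff_perp hQ hU.1 hme (hn ▸ even_two_mul d)).1 hP).1 (hU.2.2 trivial))⟩)
    (fun U W => orbit_NT hQ hme) hd
  rw [h5, ar74 (ord_facts p hrp).1 hc (by omega) hmd h3 h4]
  simp only [h2, hrp, two_lt_of_ne Fact.out h2, false_and, false_or, ne_eq, not_false_eq_true,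
    true_and]

end Cfsg.Agent.S5974
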