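import Cfsg.Statements.S5976
import Cfsg.Agent.Cls.El15

set_option autoImplicit false
open scoped MatrixGroups
open Cfsg

namespace Cfsg.Agent.S5976

/-- Elements of prime order of PSp_n(q), q odd, and the subgroups of type GU_{n/2}(q). Here `T = PSp_{2d}(F)` for a field `F` with `q` elements, `q` odd, `d ≥ 2`, realised through the matrices preserving the standard alternating form `f`; `K` is a subalgebra of the `2d × 2d` matrices that is a field of degree 2 over `F`, closed under taking adjoints for `f` but not consisting of self-adjoint elements (so `F^{2d}` becomes a `d`-dimensional space over `K ≅ F_{q²}` on which `f` is the trace of a multiple of a non-degenerate hermitian form); `H` is the subgroup of `T` normalizing `K` — the symplectic maps that are `K`-linear or `K`-semilinear, a subgroup of type GU_d(q) (maximality is not assumed). Ω is the set of cosets of `H` in `T`, so an element of `T` of prime order `r` (`x ∈ T` with `x^r` scalar, `x` not scalar) fixes a point of Ω exactly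 when some `T`-conjugate of `x` normalizes `K`. Let `r` be a prime dividing the index of `H`. Then every element of `T` of order `r` fixes a point of Ω if and only if `r = 2`. -/
theorem result {F : Type*} [Field F] [Fintype F] {p : ℕ} [Fact p.Prime] [CharP F p] {q : ℕ} (hq : Fintype.card F = q)
    (hodd : Odd q) (d : ℕ) (hd : 2 ≤ d)
    (K : Subalgebra F (Matrix (Fin d ⊕ Fin d) (Fin d ⊕ Fin d) F)) (hK : Cfsg.Geo.IsFieldSubalgebra 2 K)
    (hKf : Cfsg.Geo.IsAdjointClosedFor (Cfsg.sympForm d F) K) (hKns : ¬ Cfsg.Geo.IsSelfAdjointFor (Cfsg.sympForm d F) K)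
    (r : ℕ) [Fact r.Prime]
    (hΩ : r ∣ (Cfsg.Geo.subalgebraNormalizer K).relIndex (Cfsg.spGL d F)) :
    (∀ x ∈ Cfsg.spGL d F, (∃ z : F, ((x ^ r : GL (Fin d ⊕ Fin d) F) : Matrix (Fin d ⊕ Fin d) (Fin d ⊕ Fin d) F) = z • (1 : Matrix (Fin d ⊕ Fin d) (Fin d ⊕ Fin d) F)) →
      (∀ z : F, (x : Matrix (Fin d ⊕ Fin d) (Fin d ⊕ Fin d) F) ≠ z • (1 : Matrix (Fin d ⊕ Fin d) (Fin d ⊕ Fin d) F)) →
      ∃ g ∈ Cfsg.spGL d F, g⁻¹ * x * g ∈ Cfsg.Geo.subalgebraNormalizer K) ↔ r = 2 := by
  open CF.Geom CF.Classical CF.Cls CF.MaxSub in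
  subst hq
  have : Nonempty (Fin d) := ⟨⟨0, by omega⟩⟩
  have hF := isField_of_fieldSubalgebra hK
  let := hF.toField
  have : IsScalarTower F K (Fin d ⊕ Fin d → F) := ⟨fun c k v => Matrix.smul_mulVec c k.1 v⟩
  obtain ⟨h3, h4⟩ := elu_cj (r := r) (H := Cfsg.Geo.subalgebraNormalizer K)
    (H' := SpG (sympBilin d F) ⊓ SemiG F K _) (mem_spGL_iff (F := F) d) (fun x hx =>
      (mem_subalgebraNormalizer_iff_semiG hF x).trans (and_iff_right ((mem_spGL_iff d x).1 hx)).symm)
    inf_le_left
  rw [h3, elu_sp_unit p (sympBilin_nondegenerate d) (sympBilin_isAlt d) (by simp [two_mul])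
    (by rintro rfl; exact hodd.not_two_dvd_nat (char_dvd_card 2)) hK.finrank_eq (fun k => ?_)
    (fun h => hKns fun k hk x y => by simp only [← sympBilin_apply]; exact h ⟨k, hk⟩ x y) hd hΩ h4]
  obtain ⟨k', h1, h2⟩ := hKf k.1 k.2
  exact ⟨⟨k', h1⟩, fun x y => by simp only [sympBilin_apply]; exact h2 x y⟩

end Cfsg.Agent.S5976
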