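import Cfsg.Statements.S5979
import Cfsg.Agent.Classical.EluJ

set_option autoImplicit false
open scoped MatrixGroups
open Cfsg

namespace Cfsg.Agent.S5979

/-- Elements of prime order of PSL_n(q) and the stabilizers of tensor decompositions with factors of different dimensions. Here `T = PSL_n(F)` for a field `F` with `q` elements and `n = a·b` with `2 ≤ a < b`; a tensor decomposition `F^n ≅ F^a ⊗ F^b` is given by a bijection `e` of index sets and a change of basis `P`, and `H` is the subgroup of matrices of determinant 1 in its stabilizer (the conjugate by `P` of the group of Kronecker products `g₁ ⊗ g₂`) — a subgroup of type GL_a(q) ⊗ GL_b(q) (maximality is not assumed); Ω is the set of cosets of `H` in `T`, so an element of `T` of prime order `r` (a matrix `x` of determinant 1 with `x^r` scalar, `x` not scalar) fixes a point of Ω exactly when some conjugate of `x` by a matrix of determinant 1 lies in `H`. Let `r` be a prime dividing the index of `H`. Then every element of `T`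 of order `r` fixes a point of Ω if and only if `r = 2`, `a = 2`, `q` is odd and `(q − 1)_2 ≤ (n)_2` (2-parts). -/
theorem result {F : Type*} [Field F] [Fintype F] {p : ℕ} [Fact p.Prime] [CharP F p] {q : ℕ} (hq : Fintype.card F = q)
    (n a b : ℕ) (hab : n = a * b) (ha : 2 ≤ a) (hlt : a < b) (e : Fin n ≃ Fin a × Fin b) (P : GL (Fin n) F)
    (r : ℕ) [Fact r.Prime]
    (hΩ : r ∣ (Cfsg.Geo.tensorProductSubgroup a b e P).relIndex (Cfsg.Geo.specialLinear (Fin n) F)) :
    (∀ x ∈ Cfsg.Geo.specialLinear (Fin n) F, (∃ z : F, ((x ^ r : GL (Fin n) F) : Matrix (Fin n) (Fin n) F) = z • (1 : Matrix (Fin n) (Fin n) F)) →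
      (∀ z : F, (x : Matrix (Fin n) (Fin n) F) ≠ z • (1 : Matrix (Fin n) (Fin n) F)) →
      ∃ g ∈ Cfsg.Geo.specialLinear (Fin n) F, g⁻¹ * x * g ∈ Cfsg.Geo.tensorProductSubgroup a b e P) ↔
    (r = 2 ∧ a = 2 ∧ Odd q ∧ padicValNat 2 (q - 1) ≤ padicValNat 2 n) := by
  open CF.Classical CF.Cls CF.Geom Polynomial in
  subst hq
  classical
  have hn' : Module.finrank F (Fin n → F) = n := by simp
  have hn : 2 * b ≤ n := hab ▸ Nat.mul_le_mul_right b ha
  have hr : r.Prime := Fact.out
  have h1 : Odd (Fintype.card F) ↔ p ≠ 2 := ⟨by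
    rintro h rfl; exact h.not_two_dvd_nat (char_dvd_card 2), fun h => by
      obtain ⟨m, hp, hm⟩ := FiniteField.card F p
      exact hm ▸ (hp.odd_of_ne_two h).pow⟩
  rw [forall_specialLinear_iff]
  refine ⟨fun h => by_contra fun h6 => ?_, ?_⟩
  swap
  · rintro ⟨rfl, rfl, h2, h3⟩
    refine (forall_conj_iff fun f hf => hf.detC_eq_top p (.inl rfl)).2 fun g hg =>
      (inC_iff_tenE e P).2 ?_
    rcases hg.sq_cases' p (h1.1 h2) (hn'.symm ▸ h3) (by simp [hab]) with
      ⟨d, hd, s, -, h4⟩ | ⟨z, h4, h5⟩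
    · exact (tenE_of_ed (f := d • g) (hg.isUnit.smul (Units.mk0 d hd)) two_ne_zero
        (hn'.trans hab) (h4.trans (Multiset.map_nsmul _ _ _))).of_smul hd
    · exact tenE_of_sq (hn'.trans hab) h4 h5
  suffices ∃ g, OrdP r g ∧ ¬ TenE a b g by
    obtain ⟨g, h3, h4⟩ := this
    obtain ⟨x, h5, h7, h8⟩ := exists_not_conj h3 (mt (inC_iff_tenE e P).1 h4)
    exact (h x h5 h7).elim h8
  have h2 : ∀ (g : Module.End F (Fin n → F)) c π t, ed g = .replicate (n - 2) (X - C c) + t →
      ¬ a ∣ (ed g).count π → ¬ TenE a b g := fun g c π t h3 h4 h5 => h5.cases.elim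
    (fun h => h4 (h π)) fun h => by have := h.1 c; have := le_kd_of_ed h3; omega
  have h3 : ∀ (g : Module.End F (Fin n → F)) c x y, ed g = dg (.replicate (n - 2) c + {x, y}) →
      x ≠ c → (x = y → a ≠ 2) → ¬ TenE a b g := fun g c x y h3 h4 h5 =>
    h2 g c (X - C x) _ (by rw [h3, dg, Multiset.map_add, Multiset.map_replicate]) (by
      rw [h3, Multiset.count_map_eq_count' (fun x : F => X - C x) _ fun _ _ h => by simpa using h]
      rcases eq_or_ne x y with rfl | h
      · simpa [Multiset.count_replicate, h4.symm] using fun h =>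
          h5 rfl ((Nat.le_of_dvd two_pos h).antisymm ha)
      · simp [Multiset.count_replicate, h4.symm, h]; omega)
  rcases eq_or_ne r p with rfl | hrp
  · obtain ⟨g, h4, -, h5, h7⟩ := exists_ordP_unip (F := F) (V := Fin n → F) r
      (μ := .replicate (n - 2) 1 + {2}) (fun a ha => by
        have := hr.two_le
        rcases Multiset.mem_add.1 ha with h | h
        · have := Multiset.eq_of_mem_replicate h; omega
        · have := Multiset.mem_singleton.1 h; omega) ⟨2, by simp, by simp⟩ (by simp; omega)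
    have h8 := ed_eq_of_unip h5
    rw [h7, Multiset.map_add, Multiset.map_replicate, pow_one] at h8
    refine ⟨g, h4, h2 g 1 ((X - 1) ^ 2) _ h8 ?_⟩
    have h9 : (X - 1 : F[X]) ≠ (X - 1) ^ 2 := fun h => by
      simpa [natDegree_X_sub_one, natDegree_X_sub_one_pow] using congrArg natDegree h
    simp [h8, Multiset.count_replicate, h9]
    omega
  by_cases h4 : r ∣ Fintype.card F - 1
  · obtain ⟨w, hw⟩ := exists_orderOf_units h4
    have hw1 : (w : F) ≠ 1 := fun h => hr.one_lt.ne (by
      rw [← hw, Units.val_eq_one.1 h, orderOf_one])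
    have hwr : (w : F) ^ r = 1 := by
      rw [← hw, ← Units.val_pow_eq_pow_val, pow_orderOf_eq_one, Units.val_one]
    by_cases h5 : r = 2 ∧ a = 2
    · obtain ⟨rfl, rfl⟩ := h5
      obtain ⟨g, d, h7, h8, h9⟩ := exists_ordP_refl' (F := F) (V := Fin n → F) p hrp.symm
        (m := n - 2 + 1) (by omega) (by omega)
        (hn'.symm ▸ not_le.1 fun h => h6 ⟨rfl, rfl, h1.2 hrp.symm, h⟩)
      exact ⟨g, h8, h3 g d (-d) d (by
        rw [h9, Multiset.replicate_succ, add_comm]; rfl) h7.symm fun h => (h7 h.symm).elim⟩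
    obtain ⟨g, h7, h8⟩ := exists_ordP_dg (F := F) (V := Fin n → F) (r := r)
      (s := .replicate (n - 2) 1 + {(w : F), (w : F)⁻¹}) (by simp; omega) (by simp) (z := 1)
      (fun x hx => by
        simp only [Multiset.mem_add, Multiset.mem_replicate, Multiset.insert_eq_cons,
          Multiset.mem_cons, Multiset.mem_singleton] at hx
        rcases hx with ⟨-, rfl⟩ | rfl | rfl <;> simp [hwr])
      (x := w) (y := 1) (by simp) (by simp [Multiset.mem_replicate]; omega) hw1
    refine ⟨g, h7, h3 g 1 _ _ h8 hw1 fun h h9 => h5 ⟨?_, h9⟩⟩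
    exact (Nat.prime_dvd_prime_iff_eq hr Nat.prime_two).1 (hw ▸ orderOf_dvd_of_pow_eq_one
      (Units.ext (by rw [Units.val_pow_eq_pow_val, sq]; nth_rw 2 [h]; simp)))
  obtain ⟨j, hj, h5⟩ := (hr.prime.dvd_finsetProd_iff _).1 (dvd_of_dvd_relIndex p (G := ⊥)
    (fun g hg => (EmbeddingLike.map_eq_one_iff.1 (Subgroup.mem_bot.1 hg)).symm ▸ one_mem _)
    hr hrp hΩ (one_dvd _) (mul_one _).symm)
  have h7 := Nat.le_of_dvd j.succ_pos 
    ((CF.Fgs2.prime_dvd_pow_sub_one_iff _ _ Fintype.card_pos).1 h5)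
  rw [Finset.mem_range] at hj
  obtain ⟨π, hπ⟩ := facs_nonempty (F := F) p hrp
  obtain ⟨g, h8, h9, h10, -⟩ := exists_ordP_facs (V := Fin n → F) p hrp (mt ord_eq_one_iff.1 h4)
    (S := {π}) (by simp) (by simpa) (e := n - orderOf (Fintype.card F : ZMod r)) (by simp; omega)
  refine ⟨g, h8, fun h => h.cases.elim (fun h => ?_) fun ⟨h11, y, h12, h13, h14⟩ => ?_⟩
  · have h11 := h π
    have h12 : X - 1 ≠ π := fun h => X_sub_one_notMem_facs p hr hrp (h ▸ hπ)
    simp [h10, Multiset.count_replicate, h12] at h11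
    omega
  obtain ⟨c, hc⟩ := h14 r 1 (h9.trans (map_one _).symm) (by omega)
  obtain ⟨d, rfl⟩ := exists_pow_eq_of_not_dvd h4 c
  have : Nontrivial (Fin a → F) := Module.finrank_pos_iff.1 (by simp; omega : 0 < Module.finrank F _)
  have hd : d ≠ 0 := by rintro rfl; exact (h12.pow r).ne_zero (by simp [hc, hr.ne_zero])
  obtain ⟨e, S, -, h15, h16, -⟩ := ed_of_pow_eq_one (f := d⁻¹ • y) p hrp (by
    rw [_root_.smul_pow, hc, Algebra.algebraMap_eq_smul_one, smul_smul, ← mul_pow,
      inv_mul_cancel₀ hd, one_pow, one_smul])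
  rcases eq_or_ne S 0 with rfl | hS
  · refine h13 d ?_
    rw [← smul_inv_smul₀ hd y, eq_scalar_of_ed (f := d⁻¹ • y) (c := 1) fun a ha =>
      Multiset.eq_of_mem_replicate (by rwa [h16, add_zero] at ha), map_one,
        Algebra.algebraMap_eq_smul_one]
  have := h11 1
  have := le_kd_of_ed (c := 1) h10
  have := Nat.mul_le_mul_right (orderOf (Fintype.card F : ZMod r)) (Multiset.card_pos.2 hS)
  simp only [Module.finrank_fin_fun] at h15
  omega

end Cfsg.Agent.S5979
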