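import Cfsg.Statements.S5980
import Cfsg.Agent.Cls.El17

set_option autoImplicit false
open scoped MatrixGroups
open Cfsg

namespace Cfsg.Agent.S5980

/-- Elements of prime order of PSp_n(q), q odd, and the stabilizers of tensor decompositions Sp_a(q) ⊗ O_b(q). Here `T = PSp_{2d}(F)` for a field `F` with `q` elements, `q` odd, `d ≥ 2`, realised through the matrices preserving the standard alternating form `f`; `2d = a·b` with `a` even, `b ≥ 3`, and the bijection `e` and change of basis `P` exhibit `f` as a non-zero scalar multiple of the tensor product of a non-degenerate alternating form `f₁` on `F^a` and a non-degenerate symmetric bilinear form `f₂` on `F^b`; `H` is the subgroup of `T` stabilizing this tensor decomposition (the elements of `T` in the conjugate by `P` of the group of Kronecker products) — a subgroup of type Sp_a(q) ⊗ O^ε_b(q) (maximality is not assumed). Ω is the set of cosets of `H` in `T`, so an element of `T` of prime order `r` (`x ∈ T` with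 `x^r` scalar, `x` not scalar) fixes a point of Ω exactly when some `T`-conjugate of `x` lies in `H`. Let `r` be a prime dividing the index of `H`. Then every element of `T` of order `r` fixes a point of Ω if and only if `r = 2` and `a = 2`. -/
theorem result {F : Type*} [Field F] [Fintype F] {p : ℕ} [Fact p.Prime] [CharP F p] {q : ℕ} (hq : Fintype.card F = q)
    (hodd : Odd q) (d : ℕ) (hd : 2 ≤ d) (a b : ℕ) (hab : 2 * d = a * b) (ha : Even a) (ha2 : 2 ≤ a) (hb : 3 ≤ b)
    (e : (Fin d ⊕ Fin d) ≃ Fin a × Fin b) (P : GL (Fin d ⊕ Fin d) F)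
    (f₁ : (Fin a → F) → (Fin a → F) → F) (f₂ : (Fin b → F) → (Fin b → F) → F)
    (hf₁ : Cfsg.Geo.IsSymplecticForm f₁) (hf₂ : Cfsg.Geo.IsSymmetricForm f₂)
    (hS : Cfsg.Geo.IsTensorFormStructure id (Cfsg.sympForm d F) f₁ f₂ e P)
    (r : ℕ) [Fact r.Prime]
    (hΩ : r ∣ (Cfsg.Geo.tensorProductSubgroup a b e P).relIndex (Cfsg.spGL d F)) :
    (∀ x ∈ Cfsg.spGL d F, (∃ z : F, ((x ^ r : GL (Fin d ⊕ Fin d) F) : Matrix (Fin d ⊕ Fin d) (Fin d ⊕ Fin d) F) = z • (1 : Matrix (Fin d ⊕ Fin d) (Fin d ⊕ Fin d) F)) →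
      (∀ z : F, (x : Matrix (Fin d ⊕ Fin d) (Fin d ⊕ Fin d) F) ≠ z • (1 : Matrix (Fin d ⊕ Fin d) (Fin d ⊕ Fin d) F)) →
      ∃ g ∈ Cfsg.spGL d F, g⁻¹ * x * g ∈ Cfsg.Geo.tensorProductSubgroup a b e P) ↔ (r = 2 ∧ a = 2) := by
  open CF.Geom CF.Classical CF.Cls CF.MaxSub in
  obtain ⟨B₁, a1, a2, a3⟩ := exists_alt hf₁
  obtain ⟨B₂, b1, b2, b3⟩ := exists_sym hf₂
  have hA := sympBilin_isAlt (F := F) d
  obtain ⟨κ, c, c0, h1, -, h3⟩ := exists_ten (σ := RingHom.id F) (B := -sympBilin d F)
    (fun u v => by simp [← sympBilin_apply, hA.neg_eq]) a1 b1 hS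
  obtain ⟨h4, h5⟩ := elu_cj (r := r) (H := Cfsg.Geo.tensorProductSubgroup a b e P)
    (H' := SpG (sympBilin d F) ⊓ (TenG F _ _).comap (autCongr κ.symm).toMonoidHom)
    (mem_spGL_iff (F := F) d) (fun x hx => (h3 x).trans (and_iff_right ((mem_spGL_iff d x).1 hx)).symm)
    inf_le_left
  rw [h4, elu_sp_ten p (sympBilin_nondegenerate d) hA
    (by rintro rfl; exact (hq ▸ hodd).not_two_dvd_nat (char_dvd_card 2)) κ a2 a3 b2 b3 (c := -c)
    (fun x y s t => by simpa [neg_eq_iff_eq_neg] using h1 x y s t) (by simpa) (by simpa)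
    (hΩ.trans (Dvd.intro _ h5)), Module.finrank_fin_fun]

end Cfsg.Agent.S5980
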