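import Cfsg.Statements.S5981
import Cfsg.Agent.Classical.EluI

set_option autoImplicit false
open scoped MatrixGroups
open Cfsg

namespace Cfsg.Agent.S5981

/-- Elements of prime order of PSL_n(q), q odd, and the subgroups of orthogonal type. Here `T = PSL_n(F)` for a field `F` with `q` elements, `q` odd, `n ≥ 3`; `Q` is a non-degenerate quadratic form on `F^n` (of either type when `n` is even) and `H` is the subgroup of matrices of determinant 1 that preserve `Q` up to a scalar — a subgroup of type O^ε_n(q) (maximality is not assumed); Ω is the set of cosets of `H` in `T`, so an element of `T` of prime order `r` (a matrix `x` of determinant 1 with `x^r` scalar, `x` not scalar) fixes a point of Ω exactly when some conjugate of `x` by a matrix of determinant 1 preserves `Q` up to a scalar. Let `r` be a prime dividing the index of `H`, with `(n, r) ≠ (6, 3)`. Then every element of `T` of order `r` fixes a point of Ω if and only if `r = 2`, or `r ∈ {3, 5}`, `n = r` and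 `(q − 1)_r = r` (the `r`-part of `q − 1` is exactly `r`). The case `(n, r) = (6, 3)` is not covered by this statement. -/
theorem result {F : Type*} [Field F] [Fintype F] {p : ℕ} [Fact p.Prime] [CharP F p] {q : ℕ} (hq : Fintype.card F = q)
    (hodd : Odd q) (n : ℕ) (hn : 3 ≤ n) (Q : (Fin n → F) → F) (hQ : Cfsg.Geo.IsNondegenerateQuadraticForm Q)
    (r : ℕ) [Fact r.Prime] (hgap : ¬ (n = 6 ∧ r = 3))
    (hΩ : r ∣ (Cfsg.Geo.quadSimilarityGroup Q).relIndex (Cfsg.Geo.specialLinear (Fin n) F)) :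
    (∀ x ∈ Cfsg.Geo.specialLinear (Fin n) F, (∃ z : F, ((x ^ r : GL (Fin n) F) : Matrix (Fin n) (Fin n) F) = z • (1 : Matrix (Fin n) (Fin n) F)) →
      (∀ z : F, (x : Matrix (Fin n) (Fin n) F) ≠ z • (1 : Matrix (Fin n) (Fin n) F)) →
      ∃ g ∈ Cfsg.Geo.specialLinear (Fin n) F, g⁻¹ * x * g ∈ Cfsg.Geo.quadSimilarityGroup Q) ↔
    (r = 2 ∨ ((r = 3 ∨ r = 5) ∧ n = r ∧ padicValNat r (q - 1) = 1)) := by
  open CF.Classical CF.Cls CF.Geom in
  subst hq
  have hn' : Module.finrank F (Fin n → F) = n := by simp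
  have : Nontrivial (Fin n → F) := Module.finrank_pos_iff.1 (by omega : 0 < Module.finrank F _)
  have hr : r.Prime := Fact.out
  obtain ⟨Q, rfl, hQ'⟩ := exists_quadraticForm hQ
  replace hQ := hQ'
  have hp2 : p ≠ 2 := by rintro rfl; exact hodd.not_two_dvd_nat (char_dvd_card 2)
  have h2 : (2 : F) ≠ 0 := Ring.two_ne_zero (ringChar.eq F p ▸ hp2)
  have hE := eh_polar hQ
  have hH := mem_quadSim_iff h2 Q
  rw [forall_specialLinear_iff]
  refine ⟨fun h => by_contra fun h6 => ?_, fun h => ?_⟩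
  · have hr2 : r ≠ 2 := fun h => h6 (.inl h)
    suffices ∃ g, OrdP r g ∧ ¬ SimE (QuadraticMap.polarBilin Q) g by
      obtain ⟨g, h3, h4⟩ := this
      obtain ⟨x, h5, h7, h8⟩ := exists_not_conj h3 (mt (inC_iff_simE hH h3.isUnit).1 h4)
      exact (h x h5 h7).elim h8
    rcases eq_or_ne r p with rfl | hrp
    · obtain ⟨g, h3, h4, h5⟩ := exists_ordP_not_par (F := F) (V := Fin n → F)
        (K := AlgebraicClosure F) r (a := 2) (m := n - 2) le_rfl hr.two_le (by omega)
        (R := Even) even_two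
      refine ⟨g, h3, fun h => ?_⟩
      obtain ⟨y, h7, h8⟩ := h.exists_pres hE h4 fun c hc =>
        frobenius_inj F r (by simpa [frobenius_def] using hc)
      exact h5 ((sim_iff_ev (K := AlgebraicClosure F) (h8.isUnit_iff.2 h3.isUnit) h3.isUnit).1 h8 ▸
        par_ev_symm r h2 hE h7)
    have h1 : (∃ g : Module.End F (Fin n → F), OrdP r g ∧ ∀ c : Fˣ,
        ¬ Sy (-1) (uK (AlgebraicClosure F) c) (eig (AlgebraicClosure F) g)) →
        ∃ g, OrdP r g ∧ ¬ SimE (QuadraticMap.polarBilin Q) g := fun ⟨g, h3, h4⟩ =>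
      ⟨g, h3, fun h => (h.sy p hE h3.isUnit).elim h4⟩
    by_cases h3 : r ∣ Fintype.card F - 1
    · refine h1 (exists_bad_one p hr2 h3 (fun h => hr2 ((Nat.prime_dvd_prime_iff_eq Fact.out
        Nat.prime_two).1 (Int.natCast_dvd_natCast.1 (dvd_neg.1 h)))) (by omega) (by omega)
        (hn'.symm ▸ hgap) fun h => h6 (.inr ⟨by omega, by omega, h.2.2⟩))
    have h4 := fun a b => dvd_of_dvd_relIndex p (G := OG Q) (a := a) (b := b)
      (fun g hg => (hH g).2 ⟨1, by simpa using hg.1⟩) hr hrp hΩ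
    have h5 : ∀ m, 2 * m ≤ n + 1 → r ∣ ∏ i ∈ Finset.range m, (Fintype.card F ^ (2 * i + 1) - 1) →
        ∃ g, OrdP r g ∧ ¬ SimE (QuadraticMap.polarBilin Q) g := fun m hm h => by
      obtain ⟨j, h3', h4, h5⟩ := exists_odd_of_dvd hr h
      exact h1 (exists_bad_odd p hrp hr2 h3 h3' (by omega) h5)
    obtain ⟨m, rfl | rfl⟩ := n.even_or_odd'
    swap
    · refine h5 (m + 1) (by omega) (h4 (∏ i ∈ Finset.range m,
        (Fintype.card F ^ (2 * (i + 1)) - 1)) _
        (by rw [card_OG_odd hQ hn', Nat.card_eq_fintype_card]; exact dvd_mul_left _ _) ?_)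
      rw [qq, Finset.prod_range_succ, Finset.prod_range_succ, mul_right_comm, ← qq_two_mul, qq]
    obtain ⟨m, rfl⟩ : ∃ k, m = k + 1 := ⟨m - 1, by omega⟩
    have h7 : ∀ k, ((Fintype.card F ^ k - 1 : ℕ) : ZMod r) = (Fintype.card F : ZMod r) ^ k - 1 :=
      fun k => by rw [Nat.cast_sub (Nat.one_le_pow _ _ Fintype.card_pos)]; simp
    have h8 : (Fintype.card F : ZMod r) ≠ 1 := fun h => h3 ((ZMod.natCast_eq_zero_iff _ _).1
      (by rw [← pow_one (Fintype.card F), h7, h]; simp))
    have h9 : (2 : ZMod r) ≠ 0 := fun h => hr2 ((Nat.prime_dvd_prime_iff_eq hr Nat.prime_two).1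
      ((ZMod.natCast_eq_zero_iff 2 r).1 h))
    have h10 : qq (Fintype.card F) (2 * (m + 1)) = (∏ i ∈ Finset.range (m + 1),
        (Fintype.card F ^ (2 * i + 1) - 1)) * (Fintype.card F ^ (m + 1) + 1) *
        ((Fintype.card F ^ (m + 1) - 1) *
          ∏ i ∈ Finset.range m, (Fintype.card F ^ (2 * (i + 1)) - 1)) := by
      rw [qq_two_mul, Finset.prod_range_succ (fun i => _ ^ (2 * (i + 1)) - 1), mul_comm 2 (m + 1),
        pow_mul, show ∀ a : ℕ, a ^ 2 - 1 = (a + 1) * (a - 1) from fun a => by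
          simpa using Nat.sq_sub_sq a 1]
      ring
    by_cases hP : IsPlus Q
    · refine (hr.dvd_mul.1 (h4 _ _ (by
        rw [card_OG_plus hQ hP hn', Nat.card_eq_fintype_card, mul_assoc]; exact dvd_mul_left _ _)
        h10)).elim (h5 _ (by omega)) fun h => ?_
      have h11 : (Fintype.card F : ZMod r) ^ (m + 1) = -1 := eq_neg_of_add_eq_zero_left (by
        simpa using (ZMod.natCast_eq_zero_iff _ _).2 h)
      refine exists_not_simE_quad p h2 hQ hrp h3 (by rw [hn', mul_comm, pow_mul, h11, neg_one_sq])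
        fun h => h8 ?_
      rw [card_singular_plus hQ hP hn', Nat.card_eq_fintype_card] at h
      push_cast [h7] at h
      refine mul_left_cancel₀ h9 ?_
      linear_combination (-Fintype.card F : ZMod r) * h +
        (-2 + Fintype.card F * ((Fintype.card F : ZMod r) ^ m + 1)) * h11
    · refine (hr.dvd_mul.1 (h4 _ _ (by
        rw [card_OG_minus hQ hP hn', Nat.card_eq_fintype_card, mul_assoc]; exact dvd_mul_left _ _)
        (h10.trans (mul_mul_mul_comm _ _ _ _)))).elim (h5 (m + 1) (by omega)) fun h => ?_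
      have h11 : (Fintype.card F : ZMod r) ^ (m + 1) = 1 :=
        sub_eq_zero.1 (h7 _ ▸ (ZMod.natCast_eq_zero_iff _ _).2 h)
      refine exists_not_simE_quad p h2 hQ hrp h3 (by rw [hn', mul_comm, pow_mul, h11, one_pow])
        fun h => h8 ?_
      rw [card_singular_minus hQ hP hn', Nat.card_eq_fintype_card] at h
      push_cast [h7] at h
      refine mul_left_cancel₀ h9 ?_
      linear_combination (-Fintype.card F : ZMod r) * h +
        (2 + Fintype.card F * ((Fintype.card F : ZMod r) ^ m - 1)) * h11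
  have hrp : r = 2 ∨ r ≠ p := h.imp_right fun h => ne_char_of_dvd p one_pos (by
    rw [pow_one]; exact dvd_of_one_le_padicValNat h.2.2.ge)
  refine (forall_conj_iff fun f hf => hf.detC_eq_top p hrp).2 ((forall_ordP_inC_iff hH).2
    fun g hg => ?_)
  rcases h with rfl | ⟨h3, rfl, h4⟩
  · rcases hg.cases with ⟨d, hd, h6⟩ | ⟨z, -, -, h6, h7, -⟩
    · exact (simE_symm_of_sq h2 hE (h6.trans (map_one _).symm) (.inl rfl)).of_smul hd
    · exact simE_symm_of_sq h2 hE h7 (.inr h6)
  obtain ⟨d, h5, h6⟩ := hg.exists_sym (K := AlgebraicClosure F) p h3 hn' h4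
  have h7 : ¬ p ∣ n := fun h => hrp.resolve_left (by omega)
    ((Nat.prime_dvd_prime_iff_eq Fact.out hr).1 h).symm
  have h8 := IsUnit.of_pow_eq_one h5 hr.ne_zero
  refine (simE_odd (K := AlgebraicClosure F) p h2 hQ (hn'.symm ▸ hr.odd_of_ne_two (by omega)) h8
    (st_ev_of_eig p h7 h5 (by simpa using h6)) fun x hx _ h => ?_).of_smul d.ne_zero
  rw [ev_eq_of_pow p h8 h7 (h5.trans (map_one _).symm)] at hx
  obtain ⟨y, -, rfl⟩ := Multiset.mem_map.1 hx
  exact absurd h Nat.not_even_one

end Cfsg.Agent.S5981
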