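import Cfsg.Statements.S5982
import Cfsg.Agent.Classical.EluI

set_option autoImplicit false
open scoped MatrixGroups
open Cfsg

namespace Cfsg.Agent.S5982

/-- Elements of prime order of PSL_n(q), q = q₀², and the subgroups of unitary type. Here `T = PSL_n(F)` for a field `F` with `q = q₀²` elements (`n ≥ 3`), `f` is a non-degenerate unitary form on `F^n` for the involutory automorphism `x ↦ x^{q₀}`, and `H` is the subgroup of matrices of determinant 1 that preserve `f` up to a scalar — a subgroup of type GU_n(q₀) (maximality is not assumed); Ω is the set of cosets of `H` in `T`, so an element of `T` of prime order `r` (a matrix `x` of determinant 1 with `x^r` scalar, `x` not scalar) fixes a point of Ω exactly when some conjugate of `x` by a matrix of determinant 1 preserves `f` up to a scalar. Let `r` be a prime dividing the index of `H`, with `r = 2` or `r` different from the characteristic `p`, and with `(n, r) ≠ (6, 3)`. Then every element of `T` of order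 `r` fixes a point of Ω if and only if either `r = 2` and (`p = 2` or `(n)_2 ≤ (q − 1)_2`), or `r ∈ {3, 5}`, `n = r` and `(q₀ − 1)_r = r`. (Odd `r = p` and the case `(n, r) = (6, 3)` are not covered by this statement.) -/
theorem result {F : Type*} [Field F] [Fintype F] {p : ℕ} [Fact p.Prime] [CharP F p] {q : ℕ} (hq : Fintype.card F = q)
    (q₀ : ℕ) (hq₀ : q = q₀ ^ 2) (n : ℕ) (hn : 3 ≤ n) (f : (Fin n → F) → (Fin n → F) → F) (hf : Cfsg.Geo.IsUnitaryFormPow q₀ f)
    (r : ℕ) [Fact r.Prime] (hr : r = 2 ∨ r ≠ p) (hgap : ¬ (n = 6 ∧ r = 3))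
    (hΩ : r ∣ (Cfsg.Geo.similarityGroup f).relIndex (Cfsg.Geo.specialLinear (Fin n) F)) :
    (∀ x ∈ Cfsg.Geo.specialLinear (Fin n) F, (∃ z : F, ((x ^ r : GL (Fin n) F) : Matrix (Fin n) (Fin n) F) = z • (1 : Matrix (Fin n) (Fin n) F)) →
      (∀ z : F, (x : Matrix (Fin n) (Fin n) F) ≠ z • (1 : Matrix (Fin n) (Fin n) F)) →
      ∃ g ∈ Cfsg.Geo.specialLinear (Fin n) F, g⁻¹ * x * g ∈ Cfsg.Geo.similarityGroup f) ↔
    ((r = 2 ∧ (p = 2 ∨ padicValNat 2 n ≤ padicValNat 2 (q - 1))) ∨ ((r = 3 ∨ r = 5) ∧ n = r ∧ padicValNat r (q₀ - 1) = 1)) := by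
  open CF.Classical CF.Cls CF.Geom in
  subst hq
  have hn' : Module.finrank F (Fin n → F) = n := by simp
  have : Nontrivial (Fin n → F) := Module.finrank_pos_iff.1 (by omega : 0 < Module.finrank F _)
  have hr' : r.Prime := Fact.out
  obtain ⟨σ, hσ, hσ1, hσ2⟩ := CF.Geom.exists_conj hq₀
  obtain ⟨B, hB, hH, h1⟩ := exists_sesq hσ1 hσ2 hf.add_left hf.smul_left
    (fun v w => by rw [hσ, ← hf.herm]) hf.nondegenerate
  have hE := eh_symm hσ2 h1 hH.symm
  have hF : Nat.card F = q₀ ^ 2 := Nat.card_eq_fintype_card.trans hq₀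
  have hH' := mem_similarityGroup_iff (B := B) (.inr hB)
  have h0 : 2 ≤ q₀ := by
    have := Fintype.one_lt_card (α := F)
    by_contra h
    interval_cases q₀ <;> omega
  have h3 : padicValNat r (Fintype.card F - 1) =
      padicValNat r (q₀ + 1) + padicValNat r (q₀ - 1) := by
    rw [hq₀, ← padicValNat.mul (by omega) (by omega), ← Nat.sq_sub_sq, one_pow]
  have h4 : p ≠ 2 → Odd q₀ := fun h => by
    obtain ⟨m, hp, hm⟩ := FiniteField.card F p
    exact (Nat.odd_pow_iff two_ne_zero).1 (hq₀ ▸ hm ▸ (hp.odd_of_ne_two h).pow)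
  have h5 : ∀ {g : Module.End F (Fin n → F)}, r ≠ p → g ^ r = 1 → ∀ b : ℤ,
      (-(q₀ : ZMod r)) = b → (eig (AlgebraicClosure F) g).map (· ^ b) = eig _ g → SimE B g :=
    fun hrp h b hb h' => simE_herm (K := AlgebraicClosure F) p hF hσ hσ1 hE
      (IsUnit.of_pow_eq_one h hr'.ne_zero) (st_ev_of_eig p (fun h => hrp
        ((Nat.prime_dvd_prime_iff_eq Fact.out hr').1 h).symm) h
          ((map_zpow_eig_congr p h (by simpa using hb)).trans h'))
  rw [forall_specialLinear_iff, forall_conj_iff fun f hf => hf.detC_eq_top p hr,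
    forall_ordP_inC_iff hH']
  refine ⟨fun h => by_contra fun h6 => ?_, fun h g hg => ?_⟩
  · rcases eq_or_ne r 2 with rfl | hr2
    · simp only [true_and, not_or, not_le] at h6
      obtain ⟨m, hm⟩ := h4 h6.1.1
      obtain ⟨g, z, -, h7, h8, h9, -⟩ := exists_ordP_nonpow (F := F) (V := Fin n → F) (r := 2)
        (by rw [hq₀, hm]; exact ⟨2 * m ^ 2 + 2 * m, by ring_nf; omega⟩)
        fun h => h6.1.2.not_ge (hn' ▸ h.1)
      obtain ⟨c, hc⟩ := (h g h7).sy_herm (K := AlgebraicClosure F) p hF hσ hσ1 hE h7.isUnit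
      have h10 := pow_eq_of_sy p h7 h9 hc
      rw [← zpow_natCast, ← zpow_mul, mul_comm _ ((2 : ℕ) : ℤ), zpow_mul, ← mul_zpow,
        ← neg_add', zpow_neg, inv_eq_one] at h10
      norm_cast at h10
      obtain ⟨b, hb⟩ := (FiniteField.isSquare_iff (ringChar.eq F p ▸ h6.1.1)
        (c ^ 2 * Units.mk0 z (h7.ne_zero h9)).ne_zero).2 (by
          rw [show Fintype.card F / 2 = (q₀ + 1) * m by rw [hq₀, hm]; ring_nf; omega, pow_mul,
            ← Units.val_pow_eq_pow_val, h10, Units.val_one, one_pow])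
      exact h8 (b / c) (by rw [div_pow, sq b, ← hb]; simp)
    replace hr := hr.resolve_left hr2
    suffices ∃ g : Module.End F (Fin n → F), OrdP r g ∧ ∀ c : Fˣ,
        ¬ Sy (-(q₀ : ℤ)) (uK (AlgebraicClosure F) c) (eig (AlgebraicClosure F) g) by
      obtain ⟨g, h7, h8⟩ := this
      exact ((h g h7).sy_herm p hF hσ hσ1 hE h7.isUnit).elim fun c => h8 _
    obtain ⟨j, hj, h7⟩ := (hr'.prime.dvd_finsetProd_iff _).1 (dvd_of_dvd_relIndex p (G := UG B)
      (fun g hg => (hH' g).2 ⟨1, by simpa using hg.1⟩) hr' hr hΩ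
      (card_UG hq₀ hσ n hH h1 hn' ▸ dvd_mul_left _ _)
      (a := ∏ i ∈ Finset.range n, if Even i then q₀ ^ (i + 1) + 1 else q₀ ^ (i + 1) - 1)
      (b := ∏ i ∈ Finset.range n, if Even i then q₀ ^ (i + 1) - 1 else q₀ ^ (i + 1) + 1) (by
        rw [qq, ← Finset.prod_mul_distrib]
        refine Finset.prod_congr rfl fun i _ => ?_
        rw [hq₀, ← pow_mul, mul_comm 2, pow_mul, ← one_pow 2, Nat.sq_sub_sq]
        split_ifs <;> simp [mul_comm]))
    rw [Finset.mem_range] at hj
    have h8 : (-(q₀ : ZMod r)) ^ (j + 1) = -1 := by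
      rw [← ZMod.natCast_eq_zero_iff] at h7
      split_ifs at h7 with h
      · rw [Nat.cast_sub (Nat.one_le_pow _ _ (by omega))] at h7
        rw [h.add_one.neg_pow]
        push_cast at h7
        linear_combination -h7
      · rw [(Nat.not_even_iff_odd.1 h).add_one.neg_pow]
        push_cast at h7
        linear_combination h7
    have h9 : (1 : ZMod r) ≠ -1 := fun h => hr2 ((Nat.prime_dvd_prime_iff_eq hr' Nat.prime_two).1
      ((ZMod.natCast_eq_zero_iff 2 r).1 (by push_cast; linear_combination h)))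
    have h10 : (Fintype.card F : ZMod r) ^ (j + 1) = 1 := by
      rw [hq₀, Nat.cast_pow, ← neg_sq, ← pow_mul, mul_comm, pow_mul, h8, neg_one_sq]
    by_cases h11 : r ∣ Fintype.card F - 1
    · have h12 : ¬ r ∣ q₀ + 1 := fun h => h9 (by
        rw [← h8, neg_eq_of_add_eq_zero_right (by simpa using (ZMod.natCast_eq_zero_iff _ _).2 h :
          (q₀ : ZMod r) + 1 = 0), one_pow])
      refine exists_bad_one p hr2 h11 (fun h => h12 ?_) (by omega) (by omega) (hn'.symm ▸ hgap) ?_
      · rwa [← neg_add', dvd_neg, ← Nat.cast_succ, Int.natCast_dvd_natCast] at h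
      rw [hn', h3, padicValNat.eq_zero_of_not_dvd h12, zero_add]
      exact fun h => h6 (.inr ⟨by omega, h.1.symm, h.2.2⟩)
    · refine exists_bad_two p hr h11 ((Nat.le_of_dvd (by omega)
        (orderOf_dvd_of_pow_eq_one h10)).trans (by omega)) ?_ fun l => ?_ <;>
        rw [← ZMod.intCast_zmod_eq_zero_iff_dvd] <;> push_cast <;> intro h
      · simp [h] at h8
      · rw [← sub_eq_zero.1 h, ← pow_mul, mul_comm, pow_mul, h10, one_pow] at h8
        exact h9 h8
  rcases h with ⟨rfl, h⟩ | ⟨h6, rfl, h7⟩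
  · rcases eq_or_ne p 2 with rfl | h2
    · obtain ⟨d, hd, h6, -⟩ := hg.exists_unip 2
      exact (simE_herm (K := AlgebraicClosure F) (f := d • g) 2 hF hσ hσ1 hE
        (hg.isUnit.smul (Units.mk0 d hd)) (by simp [ev_of_unip h6, St])).of_smul hd
    obtain ⟨m, hm⟩ := h4 h2
    rcases hg.cases with ⟨d, hd, h6⟩ | ⟨z, -, -, -, -, -, h6, -⟩
    · exact (h5 h2.symm h6 1 (by simp [hm, CharTwo.two_eq_zero]) (by simp)).of_smul hd
    · exact (h6 ⟨hn'.symm ▸ h.resolve_left h2, fun _ _ => by rw [hq₀, hm]; ring_nf; omega⟩).elim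
  have h8 : n ∣ q₀ - 1 := dvd_of_one_le_padicValNat h7.ge
  obtain ⟨d, h9, h10⟩ := hg.exists_sym (K := AlgebraicClosure F) p h6 hn' (by
    rw [h3, h7, padicValNat.eq_zero_of_not_dvd fun h => by rcases h6 with rfl | rfl <;> omega])
  refine (h5 (hr.resolve_left (by omega)) h9 (-1) ?_ (by simpa using h10)).of_smul d.ne_zero
  rw [← ZMod.natCast_eq_zero_iff, Nat.cast_sub (by omega), sub_eq_zero] at h8
  simp [h8]

end Cfsg.Agent.S5982
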