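import Cfsg.Statements.S5983
import Cfsg.Agent.Cls.El10
import Cfsg.Agent.Geom.Polar

set_option autoImplicit false
open scoped MatrixGroups
open Cfsg

namespace Cfsg.Agent.S5983

/-- Elements of prime order of PSp_n(q), q even, and the subgroups of orthogonal type. Here `T = Sp_{2d}(F)` for a field `F` of characteristic 2 with `q` elements (`d ≥ 2`, `(d, q) ≠ (2, 2)`), realised as the invertible matrices preserving the standard alternating form; `Q` is a non-degenerate quadratic form on `F^{2d}` whose polar form is that alternating form, and `H` is the subgroup of `T` preserving `Q` up to a scalar (equivalently preserving `Q`) — a subgroup of type O^±_{2d}(q) (maximality is not assumed); `Q` is of plus type when `F^{2d}` contains a `d`-dimensional subspace on which `Q` vanishes, of minus type otherwise. Ω is the set of cosets of `H` in `T`, so an element of `T` of prime order `r` (`x ∈ T` with `x^r` scalar, `x` not scalar) fixes a point of Ω exactly when some `T`-conjugate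 of `x` preserves `Q`. Let `r` be a prime dividing the index of `H`. Then every element of `T` of order `r` fixes a point of Ω if and only if `r = 2` and either `Q` is of plus type or `d` is odd. -/
theorem result {F : Type*} [Field F] [Fintype F] {p : ℕ} [Fact p.Prime] [CharP F p] {q : ℕ} (hq : Fintype.card F = q)
    (hp : p = 2) (d : ℕ) (hd : 2 ≤ d) (hT : (d, q) ≠ (2, 2)) (Q : (Fin d ⊕ Fin d → F) → F) (hQ : Cfsg.Geo.IsNondegenerateQuadraticForm Q)
    (hQf : ∀ u v, QuadraticMap.polar Q u v = Cfsg.sympForm d F u v)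
    (r : ℕ) [Fact r.Prime]
    (hΩ : r ∣ (Cfsg.Geo.quadSimilarityGroup Q).relIndex (Cfsg.spGL d F)) :
    (∀ x ∈ Cfsg.spGL d F, (∃ z : F, ((x ^ r : GL (Fin d ⊕ Fin d) F) : Matrix (Fin d ⊕ Fin d) (Fin d ⊕ Fin d) F) = z • (1 : Matrix (Fin d ⊕ Fin d) (Fin d ⊕ Fin d) F)) →
      (∀ z : F, (x : Matrix (Fin d ⊕ Fin d) (Fin d ⊕ Fin d) F) ≠ z • (1 : Matrix (Fin d ⊕ Fin d) (Fin d ⊕ Fin d) F)) →
      ∃ g ∈ Cfsg.spGL d F, g⁻¹ * x * g ∈ Cfsg.Geo.quadSimilarityGroup Q) ↔
    (r = 2 ∧ (Cfsg.Geo.IsPlusTypeOn Q ⊤ ∨ Odd d)) := by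
  open CF.Geom CF.Classical CF.Cls in
  subst hq hp
  have h2 : (2 : F) = 0 := CharTwo.two_eq_zero
  obtain ⟨Q, rfl, h1⟩ := exists_quadraticForm hQ
  have hn : Module.finrank F (Fin d ⊕ Fin d → F) = 2 * d := by simp; omega
  have hB : sympBilin d F = QuadraticMap.polarBilin Q :=
    LinearMap.ext₂ fun u v => (sympBilin_apply d u v).trans (hQf u v).symm
  obtain ⟨h3, h4⟩ := elu_cj (r := r) (H := Cfsg.Geo.quadSimilarityGroup Q) (H' := OG Q)
    (G' := SpG (QuadraticMap.polarBilin Q)) (hB ▸ mem_spGL_iff (F := F) d) (fun x hx => ⟨fun ⟨c, hc⟩ => mem_OG.2 fun v => by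
      have : Nontrivial (Fin d ⊕ Fin d → F) := (Module.finrank_pos_iff (R := F)).1 (by omega)
      obtain ⟨u, hu⟩ := exists_ne (0 : Fin d ⊕ Fin d → F)
      obtain ⟨w, hw⟩ := not_forall.1 (mt (h1.1 u) hu)
      have h5 := (hB ▸ (mem_spGL_iff d x).1 hx).1 u w
      simp only [QuadraticMap.polarBilin_apply_apply, QuadraticMap.polar, glEquiv_apply,
        ← Matrix.mulVec_add, hc, ← mul_sub] at h5 hw
      rw [glEquiv_apply, hc, show (c : F) = 1 from (mul_left_eq_self₀.1 h5).resolve_right hw, one_mul],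
      fun h => ⟨1, by simpa using mem_OG.1 h⟩⟩) fun g hg => ⟨hg.1, fun _ => rfl⟩
  rw [h3, elu_sp_o h2 h1 hn (by omega) hΩ h4]
  refine and_congr_right' (or_congr_left ⟨fun ⟨U, h5, h6⟩ => ⟨U, le_top, h6, by simpa using h5⟩,
    fun ⟨U, _, h6, h5⟩ => ⟨U, by simpa using h5, h6⟩⟩)

end Cfsg.Agent.S5983
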