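import Cfsg.Statements.S5984
import Cfsg.Agent.Cls.El13
import Cfsg.Agent.Geom.Polar

set_option autoImplicit false
open scoped MatrixGroups
open Cfsg

namespace Cfsg.Agent.S5984

/-- Elements of prime order of PSU_n(q) and the stabilizers of pairs of complementary totally singular subspaces. Here `T = PSU_n(q)` is realised through `SU_n(q)`, the matrices of determinant 1 over the field `F` with `q²` elements preserving the hermitian form `Σ uᵢ vᵢ^q`, with `n ≥ 4` even; `D` is a pair of complementary subspaces of dimension `n/2` on each of which the form vanishes identically, and `H` is the subgroup of `SU_n(q)` fixing or interchanging the two members — a subgroup of type GL_{n/2}(q²).2 (maximality is not assumed). Ω is the set of cosets of `H`, so an element of `T` of prime order `r` (`x ∈ SU_n(q)` with `x^r` scalar, `x` not scalar) fixes a point of Ω exactly when some `SU_n(q)`-conjugate of `x` lies in `H`. Let `r` be a prime dividing the index of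 `H`. Then every element of `T` of order `r` fixes a point of Ω if and only if `r = 2`, `q` is odd and `(q + 1)_2 ≤ (n)_2` (2-parts). -/
theorem result {F : Type*} [Field F] [Fintype F] {p : ℕ} [Fact p.Prime] [CharP F p] {q : ℕ} (hq : Fintype.card F = q ^ 2)
    (n : ℕ) (hn : 4 ≤ n) (he : Even n) (D : Fin 2 → Submodule F (Fin n → F)) (hD : Cfsg.Geo.IsMDecomposition (n / 2) D)
    (hDs : ∀ i, Cfsg.Geo.IsTotallySingularFor (Cfsg.hermForm n F q) (D i))
    (r : ℕ) [Fact r.Prime]
    (hΩ : r ∣ (Cfsg.Geo.decompositionStabilizer D).relIndex (Cfsg.GU n F q ⊓ Cfsg.Geo.specialLinear (Fin n) F)) :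
    (∀ x ∈ Cfsg.GU n F q ⊓ Cfsg.Geo.specialLinear (Fin n) F, (∃ z : F, ((x ^ r : GL (Fin n) F) : Matrix (Fin n) (Fin n) F) = z • (1 : Matrix (Fin n) (Fin n) F)) →
      (∀ z : F, (x : Matrix (Fin n) (Fin n) F) ≠ z • (1 : Matrix (Fin n) (Fin n) F)) →
      ∃ g ∈ Cfsg.GU n F q ⊓ Cfsg.Geo.specialLinear (Fin n) F, g⁻¹ * x * g ∈ Cfsg.Geo.decompositionStabilizer D) ↔
    (r = 2 ∧ Odd q ∧ padicValNat 2 (q + 1) ≤ padicValNat 2 n) := by
  open CF.Geom CF.Classical CF.Cls in
  obtain ⟨σ, hσ, h1, h2⟩ := exists_conj hq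
  have hE := eh_hermSesq h2 (Fin n)
  obtain ⟨m, rfl⟩ := he.two_dvd
  rw [Nat.mul_div_cancel_left _ two_pos] at hD
  have h3 : ∀ i, TU (hermSesq (Fin (2 * m)) σ) m (D i) := fun i => ts_herm_iff.2
    ⟨hD.finrank_eq i, fun u hu v hv => hermForm_eq hσ v u ▸ hDs i v hv u hu⟩
  have h4 : IsCompl (D 0) (D 1) := ⟨hD.indep.pairwiseDisjoint (by decide), by
    rw [codisjoint_iff, ← hD.iSup_eq_top, ← Finset.sup_univ_eq_iSup]; simp [Fin.univ_succ]⟩
  obtain ⟨h5, h6⟩ := elu_cj (r := r) (H := Cfsg.Geo.decompositionStabilizer D)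
    (H' := SUG (hermSesq (Fin (2 * m)) σ) ⊓ (Cfsg.Geo.decompositionStabilizer D).comap
      (glEquiv _ F).symm.toMonoidHom) (mem_SU_iff hσ)
    (fun x hx => by simp [(mem_SU_iff hσ x).1 hx]) inf_le_left
  rw [h5, hE.elu_cj_pair hq p hσ h1 (by simp) (by omega) ⟨h4, h3 0, h3 1⟩ (fun g => ?_) hΩ h6]
  obtain ⟨x, rfl⟩ := (glEquiv _ F).surjective g
  rw [Subgroup.mem_inf]
  refine and_congr_right' ⟨fun ⟨τ, hτ⟩ => ?_, fun h => ?_⟩
  · rw [MulEquiv.coe_toMonoidHom, MulEquiv.symm_apply_apply] at hτ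
    have h7 := τ.injective.ne (show (0 : Fin 2) ≠ 1 by decide)
    have h8 := hτ 0
    have h9 := hτ 1
    generalize τ 0 = a, τ 1 = b at *
    fin_cases a <;> fin_cases b
    exacts [(h7 rfl).elim, .inl ⟨h8, h9⟩, .inr ⟨h8, h9⟩, (h7 rfl).elim]
  · rw [Subgroup.mem_comap, MulEquiv.coe_toMonoidHom, MulEquiv.symm_apply_apply]
    rcases h with h | h
    · exact ⟨1, Fin.forall_fin_two.2 h⟩
    · exact ⟨Equiv.swap 0 1, Fin.forall_fin_two.2 h⟩

end Cfsg.Agent.S5984
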