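import Cfsg.Statements.S5988
import Cfsg.Agent.Cls.El10

set_option autoImplicit false
open scoped MatrixGroups
open Cfsg

namespace Cfsg.Agent.S5988

/-- Elements of prime order of PΩ⁺_n(q) with no fixed elliptic `m`-space. Here `T = PΩ⁺_n(F)`, `n = 2d ≥ 8`, realised through `Ω⁺_n(q)`, the commutator subgroup of the isometry group of `Q = Σ xᵢyᵢ` over the field `F` with `q` elements; an element of `T` of prime order `r` is an element `x` of `Ω⁺_n(q)` with `x^r` scalar and `x` not scalar; a nondegenerate `m`-space (even `m`) is a subspace on which the polar form of `Q` is nondegenerate; it is hyperbolic if it contains an `m/2`-dimensional subspace on which `Q` vanishes, elliptic otherwise. Let `m` be even with `2 ≤ m < n/2` and let `r` be a prime dividing the number of elliptic `m`-spaces; for `r ≠ p` let `i` be the multiplicative order of `q` modulo `r`, `c = i` for `i` even and `c = 2i` for `i` odd, and write `k =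 n mod c`, `ℓ = m mod i`, `ℓ' = m mod c`, `n' = ⌊n/i⌋`, `m' = ⌊m/i⌋`, `t = (r−1)/i`. Then every element of `T` of order `r` fixes some elliptic `m`-space if and only if one of: (i) `r = 2 ≠ p` and either `n ≡ 0 (mod 4)`, `q ≡ 3 (mod 4)` and `m ≡ 2 (mod 4)`, or `n ≡ 2 (mod 4)` and `q ≢ 1 (mod 8)`; (ii) `r ≠ p` odd, `i` odd, `c ≤ m` and `k > ℓ' > 0`; (iii) `r ≠ p` odd, `i` even, and either `k = 0` and (`n/i` odd, or `ℓ' = 0` and `m/i` odd), or `i ≤ m` and (`k > ℓ' > 0`, or `k = ℓ' > 0` and `(n + m − 2k)/i` odd, or `k > ℓ' = 0` and `m/i` odd). (For `r = p` there is always an element of order `p` fixing no elliptic `m`-space.) -/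
theorem result {F : Type*} [Field F] [Fintype F] {p : ℕ} [Fact p.Prime] [CharP F p] {q : ℕ} (hq : Fintype.card F = q)
    (d m : ℕ) (hd : 4 ≤ d) (hm : 2 ≤ m) (hme : Even m) (hmd : m < d)
    (r : ℕ) [Fact r.Prime]
    (hrΩ : r ∣ Nat.card {W : Submodule F (Fin d ⊕ Fin d → F) // Module.finrank F ↥W = m ∧ Cfsg.Geo.IsNondegenerateOn (QuadraticMap.polar (Cfsg.quadFormPlus d F)) W ∧ ¬ Cfsg.Geo.IsPlusTypeOn (Cfsg.quadFormPlus d F) W})
    (i c : ℕ) (hi : i = orderOf (q : ZMod r)) (hc : c = if Even i then i else 2 * i) :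
    (∀ x : GL (Fin d ⊕ Fin d) F, x ∈ Cfsg.Geo.omegaGL (Cfsg.quadFormPlus d F) →
      (∃ z : F, ((x ^ r : GL (Fin d ⊕ Fin d) F) : Matrix (Fin d ⊕ Fin d) (Fin d ⊕ Fin d) F) = z • (1 : Matrix (Fin d ⊕ Fin d) (Fin d ⊕ Fin d) F)) →
      (∀ z : F, (x : Matrix (Fin d ⊕ Fin d) (Fin d ⊕ Fin d) F) ≠ z • (1 : Matrix (Fin d ⊕ Fin d) (Fin d ⊕ Fin d) F)) →
      ∃ W : Submodule F (Fin d ⊕ Fin d → F), (Module.finrank F ↥W = m ∧ Cfsg.Geo.IsNondegenerateOn (QuadraticMap.polar (Cfsg.quadFormPlus d F)) W ∧ ¬ Cfsg.Geo.IsPlusTypeOn (Cfsg.quadFormPlus d F) W) ∧ W.map (Matrix.toLin' (x : Matrix (Fin d ⊕ Fin d) (Fin d ⊕ Fin d) F)) ≤ W) ↔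
    ((r = 2 ∧ p ≠ 2 ∧ ((Even d ∧ q % 4 = 3 ∧ m % 4 = 2) ∨ (Odd d ∧ q % 8 ≠ 1))) ∨
     (r ≠ p ∧ 2 < r ∧ Odd i ∧ c ≤ m ∧ 0 < m % c ∧ m % c < (2 * d) % c) ∨
     (r ≠ p ∧ 2 < r ∧ Even i ∧
       (((2 * d) % c = 0 ∧ (Odd ((2 * d) / i) ∨ (m % c = 0 ∧ Odd (m / i)))) ∨
        (i ≤ m ∧ ((0 < m % c ∧ m % c < (2 * d) % c) ∨
                  (0 < m % c ∧ m % c = (2 * d) % c ∧ Odd ((2 * d + m - 2 * ((2 * d) % c)) / i)) ∨
                  (m % c = 0 ∧ 0 < (2 * d) % c ∧ Odd (m / i))))))) := by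
  open CF.Geom CF.Classical CF.Cls in
  subst hq hi
  obtain ⟨k, rfl⟩ := hme.two_dvd
  have hQ := qPlus_nondegenerate (F := F) d
  have hn : Module.finrank F (Fin d ⊕ Fin d → F) = 2 * d := by simp; omega
  have hP := isPlus_qPlus (F := F) d
  have h := nt_false_iff (m := 2 * k) hQ
  have hd := dvd_card_congr h hrΩ
  have hU : ∀ U, NT (qPlus d F) (2 * k) False U →
      ¬ IsPlus (qr (qPlus d F) (perp (QuadraticMap.polarBilin (qPlus d F)) U)) := fun U hU h =>
    hU.2.1 (((isPlus_iff_perp hQ hU.1 hme (hn ▸ even_two_mul d)).1 hP).2 h)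
  rw [← coe_qPlus, elu_GL (mem_omegaGL (qPlus d F)) fun f =>
    ∃ W : Submodule F (Fin d ⊕ Fin d → F), (Module.finrank F ↥W = 2 * k ∧
      Cfsg.Geo.IsNondegenerateOn (QuadraticMap.polar (qPlus d F)) W ∧
      ¬ Cfsg.Geo.IsPlusTypeOn (qPlus d F) W) ∧ W.map f ≤ W, elu_fx h]
  by_cases h2 : r = 2
  · subst h2
    simp only [lt_irrefl, false_and, and_false, or_false, true_and, ← two_ne_zero_iff (F := F) p]
    by_cases h3 : (2 : F) = 0
    · rw [elu_o_two h3 hQ hn (by omega) (by omega) (by omega) (iff_true_intro hP) (b₂ := False)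
        (by simp)]
      simp only [if_true, if_false, h3, ne_eq, not_true, false_and, iff_false]
      omega
    obtain ⟨h4, h5, h6⟩ := sq_facts h3
    rw [nt_eq_ns h3, elu_two_ns h3 hQ (by omega) (by omega), ds_eq_one_iff hQ h3 hn, if_neg id,
      neg_one_mul, neg_eq_iff_eq_neg, ← Int.units_ne_iff_eq_neg, Ne, sqSign_pow_eq_one,
      sqSign_pow_eq_one, h5, h6, hn]
    simp only [Nat.even_iff, Nat.odd_iff, hP, true_iff, h3, ne_eq, not_false_eq_true, true_and]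
    omega
  by_cases hrp : r = p
  · subst hrp
    refine iff_of_false (fun H => ?_) (by simp [h2])
    obtain ⟨U, h4, h5 | h5⟩ := H.exists_plus r ((two_ne_zero_iff r).2 h2) hQ (by omega)
      (fun U hU => hU.1) hme
    · exact h4.2.1 h5.1
    · exact hU U h4 h5.2.1
  obtain ⟨h3, h4, h5⟩ := o_nd p h2 hrp hQ hn (by omega) (iff_true_intro hP) inv_NT
    (exists_NT hQ (by omega) (by omega) False)
    (fun U h => ⟨h.1, h.2, iff_false_intro (hU U h)⟩) (fun U W => orbit_NT hQ hme) hd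
  rw [h5, ar88 (ord_facts p hrp).1 hc (by omega) hmd h3 h4]
  simp only [h2, hrp, two_lt_of_ne Fact.out h2, false_and, false_or, ne_eq, not_false_eq_true,
    true_and]

end Cfsg.Agent.S5988
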