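import Cfsg.Statements.S5993
import Cfsg.Agent.Cls.El9

set_option autoImplicit false
open scoped MatrixGroups
open Cfsg

namespace Cfsg.Agent.S5993

/-- Elements of prime order of Ω_n(q), nq odd, with no fixed elliptic `m`-space. Here `T = Ω_n(F)`, `n = 2d+1 ≥ 7`, `q` odd, realised as the commutator subgroup of the isometry group of `Q = x₀² + Σ xᵢyᵢ` over the field `F` with `q` elements (trivial centre, so its elements of prime order `r` are used directly); a nondegenerate `m`-space (even `m`) is a subspace on which the polar form of `Q` is nondegenerate; it is hyperbolic if it contains an `m/2`-dimensional subspace on which `Q` vanishes, elliptic otherwise. Let `m` be even with `2 ≤ m ≤ n − 1` (no restriction `m < n/2`) and let `r` be a prime dividing the number of elliptic `m`-spaces; for `r ≠ p` let `i` be the multiplicative order of `q` modulo `r`, `c = i` for `i` even and `c = 2i` for `i` odd, and write `k = n mod c`, `ℓ' = m mod c`. Then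 every element of `T` of order `r` fixes some elliptic `m`-space if and only if `r = 2`, or `r ≠ p` is odd and one of: (i) `i` odd, `c ≤ m` and `k > ℓ' > 0`; (ii) `i` even, `i ≤ m`, `k > ℓ'`, and `m/i` odd whenever `ℓ' = 0`. (For `r = p` there is always an element of order `p` fixing no elliptic `m`-space.) -/
theorem result {F : Type*} [Field F] [Fintype F] {p : ℕ} [Fact p.Prime] [CharP F p] {q : ℕ} (hq : Fintype.card F = q) (hqodd : Odd q)
    (d m : ℕ) (hd : 3 ≤ d) (hm : 2 ≤ m) (hme : Even m) (hmn : m ≤ 2 * d)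
    (r : ℕ) [Fact r.Prime]
    (hrΩ : r ∣ Nat.card {W : Submodule F (Unit ⊕ (Fin d ⊕ Fin d) → F) // Module.finrank F ↥W = m ∧ Cfsg.Geo.IsNondegenerateOn (QuadraticMap.polar (Cfsg.quadFormOdd d F)) W ∧ ¬ Cfsg.Geo.IsPlusTypeOn (Cfsg.quadFormOdd d F) W})
    (i c : ℕ) (hi : i = orderOf (q : ZMod r)) (hc : c = if Even i then i else 2 * i) :
    (∀ x : GL (Unit ⊕ (Fin d ⊕ Fin d)) F, x ∈ Cfsg.Geo.omegaGL (Cfsg.quadFormOdd d F) → orderOf x = r →
      ∃ W : Submodule F (Unit ⊕ (Fin d ⊕ Fin d) → F), (Module.finrank F ↥W = m ∧ Cfsg.Geo.IsNondegenerateOn (QuadraticMap.polar (Cfsg.quadFormOdd d F)) W ∧ ¬ Cfsg.Geo.IsPlusTypeOn (Cfsg.quadFormOdd d F) W) ∧ W.map (Matrix.toLin' (x : Matrix (Unit ⊕ (Fin d ⊕ Fin d)) (Unit ⊕ (Fin d ⊕ Fin d)) F)) ≤ W) ↔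
    (r = 2 ∨
     (r ≠ p ∧ 2 < r ∧ Odd i ∧ c ≤ m ∧ 0 < m % c ∧ m % c < (2 * d + 1) % c) ∨
     (r ≠ p ∧ 2 < r ∧ Even i ∧ i ≤ m ∧ m % c < (2 * d + 1) % c ∧ (0 < m % c ∨ Odd (m / i)))) := by
  open CF.Geom CF.Classical CF.Cls in
  subst hq hi
  obtain ⟨k, rfl⟩ := hme.two_dvd
  have h3 := two_ne_zero_of_odd_card hqodd
  have hQ := qOdd_nondegenerate h3 d
  have hn : Module.finrank F (Unit ⊕ (Fin d ⊕ Fin d) → F) = 2 * d + 1 := by simp; omega
  have h := nt_false_iff (m := 2 * k) hQ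
  have hd := dvd_card_congr h hrΩ
  rw [← coe_qOdd, elu_om_odd hQ ⟨d, by simp; omega⟩ Fact.out fun f =>
    ∃ W : Submodule F (Unit ⊕ (Fin d ⊕ Fin d) → F), (Module.finrank F ↥W = 2 * k ∧
      Cfsg.Geo.IsNondegenerateOn (QuadraticMap.polar (qOdd d F)) W ∧
      ¬ Cfsg.Geo.IsPlusTypeOn (qOdd d F) W) ∧ W.map f ≤ W, elu_fx h]
  by_cases h2 : r = 2
  · subst h2
    rw [nt_eq_ns h3, elu_two_ns h3 hQ (by omega) (by omega), hn]
    simp
  by_cases hrp : r = p
  · subst hrp
    refine iff_of_false (fun H => ?_) (by simp [h2])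
    obtain ⟨U, h4, h5 | h5⟩ := H.exists_plus r h3 hQ (by omega) (fun U hU => hU.1) hme
    · exact h4.2.1 h5.1
    · exact Nat.not_even_two_mul_add_one d (hn ▸ h5.1)
  obtain ⟨-, h4, h5⟩ := o_nd p h2 hrp hQ hn (by omega) (iff_false_intro fun h =>
    Nat.not_even_two_mul_add_one d (hn ▸ isPlus_even h)) inv_NT
    (exists_NT hQ (by omega) (by omega) False) (fun U hU => ⟨hU.1, hU.2, iff_false_intro fun h =>
      absurd (isPlus_even h) (by
        rw [hU.1.finrank_perp (isWittPair_quad _ hQ), hn, Nat.even_iff]; omega)⟩)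
    (fun U W => orbit_NT hQ hme) hd
  rw [h5, ar93 (ord_facts p hrp).1 hc (by omega) hme hmn h4]
  simp only [h2, hrp, two_lt_of_ne Fact.out h2, false_or, true_and, ne_eq, not_false_eq_true]

end Cfsg.Agent.S5993
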