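import Cfsg.Statements.S5997
import Cfsg.Agent.Classical.MaxL2c

set_option autoImplicit false
open scoped MatrixGroups
open Cfsg

namespace Cfsg.Agent.S5997

open CF.Classical Matrix Subgroup MatrixGroups

section
variable {F : Type*} [Field F]

theorem mk_eq_one_iff {x : GL (Fin 2) F} :
    ProjGenLinGroup.mk x = 1 ↔ ∃ z : F, (x : Matrix (Fin 2) (Fin 2) F) = z • 1 := by
  rw [mk_eq_pgl, pgl_eq_one_iff]
  refine ⟨fun ⟨h1, h2, h3⟩ => ⟨x 0 0, ?_⟩, fun ⟨z, h⟩ => by simp [h]⟩
  ext i j; fin_cases i <;> fin_cases j <;> simp [h1, h2, h3]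

theorem det_eq_one {i j : GL (Fin 2) F} (h : j * i * j⁻¹ = i⁻¹) (h2 : i * i ≠ 1) :
    GeneralLinearGroup.det i = 1 := by
  have h3 : GeneralLinearGroup.det i * GeneralLinearGroup.det i = 1 := by
    have := congrArg GeneralLinearGroup.det h
    rw [map_mul, map_mul, map_inv, map_inv, mul_inv_cancel_comm] at this
    exact mul_eq_one_iff_eq_inv.2 this
  have h4 : (i : Matrix (Fin 2) (Fin 2) F).trace = ((i⁻¹ : GL (Fin 2) F) : Matrix (Fin 2) (Fin 2) F).trace := by
    rw [← h, Units.val_mul, Units.val_mul, trace_mul_cycle, Units.inv_mul, one_mul]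
  have h5 := congrArg Units.val h3
  rw [Units.val_mul, GeneralLinearGroup.val_det_apply, Units.val_one] at h5
  rw [Matrix.coe_units_inv, inv_def, Ring.inverse_eq_inv', inv_eq_of_mul_eq_one_left h5,
    adjugate_fin_two, trace_smul, trace_fin_two, trace_fin_two] at h4
  refine Units.ext (by_contra fun h6 => h2 (Units.ext ?_))
  rw [GeneralLinearGroup.val_det_apply, Units.val_one] at h6
  have h7 := (mul_self_eq_one_iff.1 h5).resolve_left h6
  have h8 : (i : Matrix (Fin 2) (Fin 2) F) 0 0 + (i : Matrix (Fin 2) (Fin 2) F) 1 1 = 0 :=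
    mul_left_cancel₀ (sub_ne_zero.2 h6) (by simp at h4; linear_combination -h4)
  rw [det_fin_two] at h7
  ext a b; fin_cases a <;> fin_cases b <;> simp [Matrix.mul_apply, Fin.sum_univ_two]
  · linear_combination (i : Matrix (Fin 2) (Fin 2) F) 0 0 * h8 - h7
  · linear_combination (i : Matrix (Fin 2) (Fin 2) F) 0 1 * h8
  · linear_combination (i : Matrix (Fin 2) (Fin 2) F) 1 0 * h8
  · linear_combination (i : Matrix (Fin 2) (Fin 2) F) 1 1 * h8 - h7

theorem eq_or_eq_neg {x y : GL (Fin 2) F} (hx : GeneralLinearGroup.det x = 1)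
    (hy : GeneralLinearGroup.det y = 1) (h : ProjGenLinGroup.mk x = ProjGenLinGroup.mk y) :
    x = y ∨ x = -y := by
  obtain ⟨x, rfl⟩ := (toGL_range_eq_ker_det F).ge hx
  obtain ⟨y, rfl⟩ := (toGL_range_eq_ker_det F).ge hy
  rcases slToPSL_eq_iff.1 (ProjectiveSpecialLinearGroup.toPGL_injective
    (show ProjectiveSpecialLinearGroup.toPGL (slToPSL F x) =
      ProjectiveSpecialLinearGroup.toPGL (slToPSL F y) from h)) with rfl | rfl
  · exact Or.inl rfl
  · exact Or.inr (Units.ext (by simp))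

theorem exists_four (h2 : (2 : F) ≠ 0) {R : Subgroup (GL (Fin 2) F)}
    (hR : Nonempty (R ≃* QuaternionGroup 2)) : ∃ V : Subgroup PGL(2, F), IsKleinFour V ∧ V ≤ psl F ∧
      ∀ g, g ∈ normalizer (R : Set (GL (Fin 2) F)) ↔
        ProjGenLinGroup.mk g ∈ normalizer (V : Set PGL(2, F)) := by
  obtain ⟨e⟩ := hR
  let f : QuaternionGroup 2 →* GL (Fin 2) F := R.subtype.comp e.symm.toMonoidHom
  have hf : Function.Injective f := R.subtype_injective.comp e.symm.injective
  have hf' : f.range = R := by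
    rw [MonoidHom.range_comp, MonoidHom.range_eq_top.2 e.symm.surjective,
      ← MonoidHom.range_eq_map, Subgroup.range_subtype]
  have key : ∀ a : QuaternionGroup 2, a * a ≠ 1 → GeneralLinearGroup.det (f a) = 1 := fun a ha => by
    obtain ⟨b, hb⟩ : ∃ b, b * a * b⁻¹ = a⁻¹ := by revert a; decide
    exact det_eq_one (j := f b) (by rw [← map_inv, ← map_mul, ← map_mul, hb, map_inv])
      (by rwa [← map_mul, map_ne_one_iff f hf])
  have h3 : ∀ a, GeneralLinearGroup.det (f a) = 1 := fun a => by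
    obtain ⟨b, c, hb, hc, rfl⟩ : ∃ b c : QuaternionGroup 2, b * b ≠ 1 ∧ c * c ≠ 1 ∧ a = b * c := by
      revert a; decide
    rw [map_mul, map_mul, key b hb, key c hc, mul_one]
  have h4 : f (QuaternionGroup.a 2) = -1 := by
    obtain ⟨x, hx⟩ := (toGL_range_eq_ker_det F).ge (h3 (QuaternionGroup.a 2))
    have h5 : x * x = 1 := SpecialLinearGroup.toGL_injective (by
      rw [map_mul, hx, ← map_mul, map_one, ← map_one f]; rfl)
    rcases (SL2_mul_self_eq_one_iff h2).1 h5 with rfl | rfl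
    · exact absurd ((map_eq_one_iff f hf).1 (hx.symm.trans (map_one _))) (by decide)
    · exact hx ▸ Units.ext (by simp)
  have h5 : ∀ a b, ProjGenLinGroup.mk (f a) = ProjGenLinGroup.mk (f b) ↔
      a = b ∨ a = QuaternionGroup.a 2 * b := fun a b => by
    refine ⟨fun h => (eq_or_eq_neg (h3 a) (h3 b) h).imp (fun e => hf e) fun e => hf ?_, ?_⟩
    · rw [e, map_mul, h4, neg_one_mul]
    · rintro (rfl | rfl)
      · rfl
      · rw [map_mul, map_mul, mk_eq_one_iff.2 ⟨-1, by simp [h4]⟩, one_mul]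
  have h6 : ∀ a, ProjGenLinGroup.mk (f a) = 1 ↔ a = 1 ∨ a = QuaternionGroup.a 2 := fun a => by
    simpa using h5 a 1
  have h7 : IsFourPair (ProjGenLinGroup.mk (f (QuaternionGroup.a 1)))
      (ProjGenLinGroup.mk (f (QuaternionGroup.xa 0))) :=
    ⟨by rw [← map_mul, ← map_mul, h6]; decide, by rw [← map_mul, ← map_mul, h6]; decide,
      by rw [Ne, h6]; decide, by rw [Ne, h6]; decide, by rw [Ne, h5]; decide,
      by rw [← map_mul, ← map_mul, ← map_mul, ← map_mul, h5]; decide⟩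
  have h8 : closure {ProjGenLinGroup.mk (f (QuaternionGroup.a 1)),
      ProjGenLinGroup.mk (f (QuaternionGroup.xa 0))} = R.map ProjGenLinGroup.mk := by
    ext g
    rw [h7.mem_closure, ← hf', ← map_mul, ← map_mul]
    constructor
    · rintro (rfl | rfl | rfl | rfl)
      exacts [one_mem _, ⟨_, ⟨_, rfl⟩, rfl⟩, ⟨_, ⟨_, rfl⟩, rfl⟩, ⟨_, ⟨_, rfl⟩, rfl⟩]
    · rintro ⟨_, ⟨a, rfl⟩, rfl⟩
      rw [h6, h5, h5, h5]
      revert a; decide
  refine ⟨_, h8 ▸ h7.isKleinFour, ?_, fun g => ⟨fun hg => le_normalizer_map _ ⟨g, hg, rfl⟩,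
    fun hg => ?_⟩⟩
  · rintro _ ⟨_, hr, rfl⟩
    obtain ⟨a, rfl⟩ := hf'.ge hr
    obtain ⟨x, hx⟩ := (toGL_range_eq_ker_det F).ge (h3 a)
    exact ⟨x, congrArg _ hx⟩
  · have h9 : R = (R.map ProjGenLinGroup.mk).comap ProjGenLinGroup.mk ⊓
        (GeneralLinearGroup.det : GL (Fin 2) F →* Fˣ).ker := by
      refine le_antisymm (le_inf (le_comap_map _ _) (by rw [← hf']; rintro _ ⟨a, rfl⟩; exact h3 a)) ?_
      rintro x ⟨⟨_, hr, e⟩, hx⟩
      obtain ⟨a, rfl⟩ := hf'.ge hr
      rcases eq_or_eq_neg hx (h3 a) e.symm with rfl | rfl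
      · exact hr
      · rw [← neg_one_mul, ← h4, ← map_mul]; exact hf'.le ⟨_, rfl⟩
    rw [h9]
    exact inf_normalizer_le_normalizer_inf ⟨le_normalizer_comap _ hg,
      (normalizer_eq_top _).ge (mem_top g)⟩

theorem exists_conj_three [Finite F] (h2 : (2 : F) ≠ 0) (h3 : (3 : F) ≠ 0) {x y : PGL(2, F)}
    (hx : orderOf x = 3) (hy : orderOf y = 3) : ∃ c ∈ psl F, c * x * c⁻¹ = y := by
  have h1 : ∀ {x : PGL(2, F)}, orderOf x = 3 → x ≠ 1 := fun h e => by simp [e] at h
  obtain ⟨c, hc⟩ := isConj_iff.1 (isConj_of_tau_eq (h1 hx) (h1 hy)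
    (by rw [tau_of_orderOf_eq_three hx]; exact one_ne_zero)
    ((tau_of_orderOf_eq_three hx).trans (tau_of_orderOf_eq_three hy).symm))
  by_cases h4 : c ∈ psl F
  · exact ⟨c, h4, hc⟩
  obtain ⟨p, hp⟩ := CharP.exists F
  obtain ⟨a, b, hab, h5⟩ := (isL2_PGL F (AlgebraicClosure F)).exists_mem_torus p (g := y) (by
    rw [hy, Nat.coprime_primes Nat.prime_three (CharP.char_is_prime F p)]
    rintro rfl; exact h3 (CharP.cast_eq_zero F 3))
  obtain ⟨d, h6, h7⟩ := SetLike.not_le_iff_exists.1 (torus_not_le_psl h2 hab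
    fun e => h1 hy ((eq_bot_iff_forall _).1 e y h5))
  refine ⟨d * c, (mul_mem_iff_of_index_two (index_psl_of_odd h2)).2 (iff_of_false h7 h4), ?_⟩
  rw [show d * c * x * (d * c)⁻¹ = d * (c * x * c⁻¹) * d⁻¹ by group, hc, torus_mul_comm hab h6 h5,
    mul_inv_cancel_right]

end


/-- Elements of prime order of PSL_2(p) and the normalizer of a quaternion subgroup. Here `T = PSL_2(F)` for the field `F` with `p` elements, `p ≥ 5` prime; `R` is a subgroup of GL_2(F) isomorphic to the quaternion group of order 8 (an absolutely irreducible 2-group of symplectic type), and `H` is the subgroup of matrices of determinant 1 normalizing `R` — a subgroup of type 2^{1+2}.O₂⁻(2), isomorphic modulo scalars to A₄ or S₄ (maximality is not assumed). Ω is the set of cosets of `H` in `T`, so an element of `T` of prime order `r` (a matrix `x` of determinant 1 with `x^r` scalar, `x` not scalar) fixes a point of Ω exactly when some conjugate of `x` by a matrix of determinant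 1 normalizes `R`. Let `r` be a prime dividing the index of `H`. Then every element of `T` of order `r` fixes a point of Ω if and only if `r = 2` or `r = 3`. -/
theorem result {F : Type*} [Field F] [Fintype F] {p : ℕ} [Fact p.Prime] [CharP F p] (hF : Fintype.card F = p) (hp : 5 ≤ p)
    (R : Subgroup (GL (Fin 2) F)) (hR : Nonempty (↥R ≃* QuaternionGroup 2))
    (r : ℕ) [Fact r.Prime]
    (hΩ : r ∣ (Cfsg.Geo.subgroupNormalizer R).relIndex (Cfsg.Geo.specialLinear (Fin 2) F)) :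
    (∀ x ∈ Cfsg.Geo.specialLinear (Fin 2) F, (∃ z : F, ((x ^ r : GL (Fin 2) F) : Matrix (Fin 2) (Fin 2) F) = z • (1 : Matrix (Fin 2) (Fin 2) F)) →
      (∀ z : F, (x : Matrix (Fin 2) (Fin 2) F) ≠ z • (1 : Matrix (Fin 2) (Fin 2) F)) →
      ∃ g ∈ Cfsg.Geo.specialLinear (Fin 2) F, g⁻¹ * x * g ∈ Cfsg.Geo.subgroupNormalizer R) ↔ (r = 2 ∨ r = 3) := by
  have h2 := two_ne_zero_of_char_ne_two F p (by omega)
  have h3 : (3 : F) ≠ 0 := fun e => by
    have := Nat.le_of_dvd three_pos ((CharP.cast_eq_zero_iff F p 3).1 e); omega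
  obtain ⟨V, hV, hV', hN⟩ := exists_four h2 hR
  obtain ⟨e⟩ := normalizer_four_equiv h2 hV hV'
  have hr : r.Prime := Fact.out
  constructor
  · intro h
    obtain ⟨x, hx⟩ := exists_prime_orderOf_dvd_card' r (hΩ.trans (index_dvd_card _))
    rw [← Subgroup.orderOf_coe] at hx
    by_contra h4
    have h5 : ProjGenLinGroup.mk (x : GL (Fin 2) F) ≠ 1 := fun e => by
      have h6 : (x : GL (Fin 2) F) ^ 2 = 1 := by
        rcases eq_or_eq_neg x.2 (map_one _) e with e | e <;> simp [e]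
      exact h4 (Or.inl ((Nat.prime_dvd_prime_iff_eq hr Nat.prime_two).1
        (hx ▸ orderOf_dvd_of_pow_eq_one h6)))
    obtain ⟨g, -, hg⟩ := h x x.2 ⟨1, by rw [← hx, pow_orderOf_eq_one]; simp⟩
      fun z hz => h5 (mk_eq_one_iff.2 ⟨z, hz⟩)
    have h6 := orderOf_dvd_natCard _ ((hN _).1 hg)
    rw [Nat.card_congr e.toEquiv, card_S4, map_mul, map_mul, map_inv, ← inv_inv (ProjGenLinGroup.mk g),
      inv_inv (ProjGenLinGroup.mk g)⁻¹, ← MulAut.conj_apply, MulEquiv.orderOf_eq, orderOf_eq_prime (p := r)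
        (by rw [← map_pow, ← hx, pow_orderOf_eq_one, map_one]) h5] at h6
    have h7 := Nat.le_of_dvd (by norm_num) h6
    interval_cases r <;> simp_all (config := {decide := true})
  · intro h x hx h4 h5
    have h6 : orderOf (ProjGenLinGroup.mk x) = r := orderOf_eq_prime
      (by rw [← map_pow]; exact mk_eq_one_iff.2 h4) fun e => (mk_eq_one_iff.1 e).elim h5
    obtain ⟨x, rfl⟩ := (toGL_range_eq_ker_det F).ge hx
    obtain ⟨c, hc, h7⟩ : ∃ c ∈ psl F, c * ProjGenLinGroup.mk (SpecialLinearGroup.toGL x) * c⁻¹ ∈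
        normalizer (V : Set PGL(2, F)) := by
      rcases h with rfl | rfl
      · obtain ⟨t, s, h7, rfl⟩ := exists_isFourPair hV
        have h8 : t ∈ closure {t, s} := subset_closure (Or.inl rfl)
        obtain ⟨c, hc, h9⟩ := exists_conj_invol_psl h2 ⟨x, rfl⟩
          (fun e => (mk_eq_one_iff.1 e).elim h5)
          (by rw [← pow_two]; exact orderOf_dvd_iff_pow_eq_one.1 h6.dvd) (hV' h8) h7.t1 h7.t2
        exact ⟨c, hc, h9.symm ▸ le_normalizer h8⟩
      · obtain ⟨g, hg, -, -, h7, -⟩ := exists_inverted_S4_three ⟨e⟩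
        obtain ⟨c, hc, h9⟩ := exists_conj_three h2 h3 h6 h7
        exact ⟨c, hc, h9.symm ▸ hg⟩
    obtain ⟨c, rfl⟩ := hc
    refine ⟨SpecialLinearGroup.toGL c⁻¹, (toGL_range_eq_ker_det F).le ⟨_, rfl⟩, (hN _).2 ?_⟩
    simpa using h7

end Cfsg.Agent.S5997
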