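import Cfsg.Statements.S6000
import Cfsg.Agent.XN.F

set_option autoImplicit false
open scoped MatrixGroups
open Cfsg

namespace Cfsg.Agent.S6000

/-- Elements of prime order of PSL_4(p), p ≡ 1 (mod 4), and the normalizer of a 2-group of symplectic type of order 2⁶. Here `T = PSL_4(F)` for the field `F` with `p` elements, `p` a prime with `p ≡ 1 (mod 4)`; `R` is an absolutely irreducible subgroup of GL_4(F) of order 2⁶ that is a 2-group of symplectic type of exponent 4 with centre of order 4 (the central product of the scalars of order 4 with an extraspecial group 2^{1+4}), and `H` is the subgroup of matrices of determinant 1 normalizing `R` — a subgroup of type 2⁴.Sp₄(2) (maximality is not assumed). Ω is the set of cosets of `H` in `T`, so an element of `T` of prime order `r` (a matrix `x` of determinant 1 with `x^r` scalar, `x` not scalar) fixes a point of Ω exactly when some conjugate of `x` by a matrix of determinant 1 normalizes `R`. Let `r` be a prime dividing the index of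 `H`. Then every element of `T` of order `r` fixes a point of Ω if and only if `r = 2`, or `r = 3` and `p ≡ 2 (mod 3)`, or `r = 5` and `p ≡ ±2 (mod 5)` (`p` has multiplicative order 4 modulo 5). -/
theorem result {F : Type*} [Field F] [Fintype F] {p : ℕ} [Fact p.Prime] [CharP F p] (hF : Fintype.card F = p) (hp4 : p % 4 = 1)
    (R : Subgroup (GL (Fin 4) F)) (hR : Cfsg.Geo.IsLinearSymplecticTypeData 2 R) (hR6 : Nat.card R = 2 ^ 6)
    (r : ℕ) [Fact r.Prime]
    (hΩ : r ∣ (Cfsg.Geo.subgroupNormalizer R).relIndex (Cfsg.Geo.specialLinear (Fin 4) F)) :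
    (∀ x ∈ Cfsg.Geo.specialLinear (Fin 4) F, (∃ z : F, ((x ^ r : GL (Fin 4) F) : Matrix (Fin 4) (Fin 4) F) = z • (1 : Matrix (Fin 4) (Fin 4) F)) →
      (∀ z : F, (x : Matrix (Fin 4) (Fin 4) F) ≠ z • (1 : Matrix (Fin 4) (Fin 4) F)) →
      ∃ g ∈ Cfsg.Geo.specialLinear (Fin 4) F, g⁻¹ * x * g ∈ Cfsg.Geo.subgroupNormalizer R) ↔ (r = 2 ∨ (r = 3 ∧ p % 3 = 2) ∨ (r = 5 ∧ orderOf (p : ZMod 5) = 4)) := by
  open CF.XN CF.MaxSub CF.Geom CF.Cls in
  obtain ⟨_, _, -, -, hc⟩ := hR.field
  have hc : Nat.card (Subgroup.center R) = 4 := by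
    rcases hc with ⟨h, -⟩ | ⟨-, -, h, -⟩ | ⟨-, -, h, -⟩
    · exact absurd h (by decide)
    · exact h
    · simp at h
  have h := cp_of (two_ne_zero_of_odd_card (by rw [hF, Nat.odd_iff]; omega)) hR.symplecticType hR.absIrred
  obtain ⟨i, hi, hj⟩ := h.exists_i
    ((Nat.card_congr (Subgroup.centerCongr ((CF.Geom.glEquiv _ F).subgroupMap R)).toEquiv).symm.trans hc)
  have hF' : Nat.card F = p := by rw [Nat.card_eq_fintype_card, hF]
  have hV : Module.finrank F (Fin 4 → F) = 4 := by simp
  have L : LC (σ := RingHom.id F) (V := Fin 4 → F) 0 i :=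
    ⟨hi, fun a _ => exists_natCast (by rw [hF']; exact Fact.out) a, .inl ⟨rfl, fun _ => rfl⟩⟩
  obtain ⟨e1, e2⟩ := el_GL (G' := SUG (σ := RingHom.id F) 0)
    (fun g => by rw [SUG_zero, mem_specialLinear_iff]) hΩ
  rw [e1, main_lu (K := AlgebraicClosure F) p (SUG_zero (σ := RingHom.id F) (V := Fin 4 → F) ▸ amb_SL p hV) h
    (h.finrank_glP (a := 2) hR6 hc) (pq_card p) L (hj _) (fun _ _ => mem_UG.2 fun _ _ => rfl)
    (SUG_zero (σ := RingHom.id F) (V := Fin 4 → F) ▸ ex_SL p hV) (fun c hc => ?_) Fact.out e2, hF', ord5, Int.cast_natCast,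
    Int.cast_natCast, show (2 : ZMod 3) = (2 : ℕ) from rfl, ZMod.natCast_eq_natCast_iff']
  obtain ⟨a, ha⟩ := exists_algebraMap_eq (F := F) (c := (c : AlgebraicClosure F))
    (by simpa using congrArg Units.val hc)
  exact ⟨Units.mk0 a (by rintro rfl; exact c.ne_zero (by simpa using ha.symm)), Units.ext ha,
    mem_UG.2 fun _ _ => rfl⟩

end Cfsg.Agent.S6000
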