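import Cfsg.Statements.S6001
import Cfsg.Agent.XN.F

set_option autoImplicit false
open scoped MatrixGroups
open Cfsg

namespace Cfsg.Agent.S6001

/-- Elements of prime order of PSU_4(p), p ≡ 3 (mod 4), and the normalizer of a 2-group of symplectic type of order 2⁶. Here `T = PSU_4(p)` for a prime `p ≡ 3 (mod 4)`, realised through `SU_4(p)`, the matrices of determinant 1 over the field `F` with `p²` elements preserving the hermitian form `f = Σ uᵢvᵢ^p`; `R` is an absolutely irreducible subgroup of the full unitary group of `f` of order 2⁶ that is a 2-group of symplectic type of exponent 4 with centre of order 4, and `H` is the subgroup of `SU_4(p)` normalizing `R` — a subgroup of type 2⁴.Sp₄(2) (maximality is not assumed). Ω is the set of cosets of `H`, so an element of `T` of prime order `r` (`x ∈ SU_4(p)` with `x^r` scalar, `x` not scalar) fixes a point of Ω exactly when some `SU_4(p)`-conjugate of `x` normalizes `R`. Let `r` be a prime dividing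 the index of `H`. Then every element of `T` of order `r` fixes a point of Ω if and only if `r = 2`, or `r = 3` and `p ≡ 1 (mod 3)`, or `r = 5` and `p ≡ ±2 (mod 5)` (`p` has multiplicative order 4 modulo 5). -/
theorem result {F : Type*} [Field F] [Fintype F] {p : ℕ} [Fact p.Prime] [CharP F p] (hF : Fintype.card F = p ^ 2) (hp4 : p % 4 = 3)
    (R : Subgroup (GL (Fin 4) F)) (hRs : Cfsg.Geo.IsSymplecticTypeGroup 2 R) (hRi : Cfsg.Geo.ActsAbsolutelyIrreducibly (Cfsg.Geo.matrixSet R))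
    (hRU : R ≤ Cfsg.GU 4 F p) (hR6 : Nat.card R = 2 ^ 6) (hRZ : Nat.card (Subgroup.center R) = 4)
    (r : ℕ) [Fact r.Prime]
    (hΩ : r ∣ (Cfsg.Geo.subgroupNormalizer R).relIndex (Cfsg.GU 4 F p ⊓ Cfsg.Geo.specialLinear (Fin 4) F)) :
    (∀ x ∈ Cfsg.GU 4 F p ⊓ Cfsg.Geo.specialLinear (Fin 4) F, (∃ z : F, ((x ^ r : GL (Fin 4) F) : Matrix (Fin 4) (Fin 4) F) = z • (1 : Matrix (Fin 4) (Fin 4) F)) →
      (∀ z : F, (x : Matrix (Fin 4) (Fin 4) F) ≠ z • (1 : Matrix (Fin 4) (Fin 4) F)) →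
      ∃ g ∈ Cfsg.GU 4 F p ⊓ Cfsg.Geo.specialLinear (Fin 4) F, g⁻¹ * x * g ∈ Cfsg.Geo.subgroupNormalizer R) ↔ (r = 2 ∨ (r = 3 ∧ p % 3 = 1) ∨ (r = 5 ∧ orderOf (p : ZMod 5) = 4)) := by
  open CF.XN CF.MaxSub CF.Geom CF.Cls in
  obtain ⟨σ, hσ, h1, h2⟩ := CF.Geom.exists_conj hF
  have h := cp_of (two_ne_zero_of_odd_card (by rw [hF]; exact (Nat.odd_iff.2 (by omega)).pow)) hRs hRi
  obtain ⟨i, hi, hj⟩ := h.exists_i
    ((Nat.card_congr (Subgroup.centerCongr ((CF.Geom.glEquiv _ F).subgroupMap R)).toEquiv).symm.trans hRZ)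
  have hF' : Nat.card F = p ^ 2 := by rw [Nat.card_eq_fintype_card, hF]
  have hV : Module.finrank F (Fin 4 → F) = 4 := by simp
  have hH := isHerm_hermSesq (ι := Fin 4) h1 h2
  have hB := hermSesq_nondegenerate (ι := Fin 4) σ
  have L : LC (hermSesq (Fin 4) σ) i := by
    refine ⟨hi, fun a ha => ?_, .inr ⟨hH, hB, ?_⟩⟩
    · obtain ⟨m, rfl⟩ := (mem_bot_iff_intCast p F).1
        ((Subfield.mem_bot_iff_pow_eq_self F p).2 (hσ a ▸ ha))
      exact ⟨(m : ZMod p).val, by rw [← map_natCast (ZMod.castHom dvd_rfl F), ZMod.natCast_zmod_val,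
        map_intCast]⟩
    · rw [hσ, ← Nat.div_add_mod p 4, hp4, pow_add, pow_mul,
        show i ^ 4 = 1 by linear_combination (i * i - 1) * hi, one_pow]
      linear_combination i * hi
  obtain ⟨e1, e2⟩ := el_GL (mem_SU_iff hσ) hΩ
  rw [e1, main_lu (K := AlgebraicClosure F) p (amb_SU p hV hF' hσ hH hB) h
    (h.finrank_glP (a := 2) hR6 hRZ) (pq_neg p hF') L (hj _) ?_
    (ex_SU p hV hF' hσ hH hB) (fun c hc => ?_) Fact.out e2, ord5, Int.cast_neg, Int.cast_neg, Int.cast_natCast,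
    Int.cast_natCast, (by decide : ∀ x : ZMod 5, (-x = 2 ∨ -x = 3) ↔ (x = 2 ∨ x = 3)),
    (by decide : ∀ x : ZMod 3, -x = 2 ↔ x = (1 : ℕ)), ZMod.natCast_eq_natCast_iff']
  · rintro _ ⟨g, hg, rfl⟩
    exact mem_UG.2 fun u v => by simpa [hermForm_eq hσ] using mem_GU.1 (hRU hg) v u
  · have c1 : c ^ p = c⁻¹ := by rw [← zpow_natCast, ← inv_inj, ← zpow_neg, hc, inv_inv]
    obtain ⟨a, ha⟩ := exists_algebraMap_eq (F := F) (c := (c : AlgebraicClosure F))
      (by rw [hF', pow_two, pow_mul, ← Units.val_pow_eq_pow_val, ← Units.val_pow_eq_pow_val, c1, inv_pow, c1,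
        inv_inv])
    have c2 : σ a * a = 1 := (algebraMap F (AlgebraicClosure F)).injective (by
      rw [map_mul, hσ, map_pow, ha, ← Units.val_pow_eq_pow_val, c1, map_one]; simp)
    exact ⟨Units.mk0 a (by rintro rfl; exact c.ne_zero (by simpa using ha.symm)), Units.ext ha,
      mem_UG.2 fun u v => by
        simp only [sc_apply, Units.val_mk0, map_smul, LinearMap.map_smulₛₗ₂, smul_eq_mul]
        linear_combination hermSesq (Fin 4) σ u v * c2⟩

end Cfsg.Agent.S6001
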